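import Cfsg.Agent.H9.Frobenius
import Cfsg.Agent.H5.Nat1
/-! Sylow subgroups of prime order in simple groups. -/
set_option autoImplicit false
open Subgroup CfH9 Cfsg CfH7
namespace CfH8.MG
variable {G : Type*} [Group G] [Finite G] {p : ℕ} {x : G}

theorem syl_zp (hp : p.Prime) (h2 : ¬ p ^ 2 ∣ Nat.card G) (hx : orderOf x = p) :
    ∃ P : Sylow p G, (P : Subgroup G) = zpowers x := by
  have := Fact.mk hp
  have c : Nat.card (zpowers x) = p := (Nat.card_zpowers x).trans hx
  exact ⟨(IsPGroup.of_card (c.trans (pow_one p).symm)).toSylow fun h => h2 (by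
    rw [← (zpowers x).card_mul_index, c, pow_two]; exact Nat.mul_dvd_mul_left p h), rfl⟩

theorem card_Nm_zp (hp : p.Prime) (hx : orderOf x = p) : Nat.card Nm(zpowers x) =
    Nat.card {t : ZMod p // IsConj x (x ^ t.val)} * Nat.card Cx(x) := by
  classical
  have := Fact.mk hp
  have le : Cx(x) ≤ Nm(zpowers x) := Cz_zpowers x ▸ centralizer_le_normalizer _
  rw [CfH5.Nat.orb _ x, inf_eq_right.2 le]
  congr 1
  have inj : Function.Injective fun t : ZMod p => x ^ t.val := fun a b e => ZMod.val_injective p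
    (pow_injOn_Iio_orderOf (by rw [hx]; exact ZMod.val_lt a) (by rw [hx]; exact ZMod.val_lt b) e)
  rw [show Nat.card {t : ZMod p // IsConj x (x ^ t.val)} = {t : ZMod p | IsConj x (x ^ t.val)}.ncard from rfl,
    ← Set.ncard_image_of_injective _ inj]
  congr 1
  ext y
  constructor
  · rintro ⟨g, hg, rfl⟩
    obtain ⟨n, hn, a⟩ := Finset.mem_image.1 (mem_zpowers_iff_mem_range_orderOf.1
      ((mem_normalizer_iff.1 hg x).1 (mem_zpowers x)))
    rw [hx, Finset.mem_range] at hn
    have e : x ^ (n : ZMod p).val = g * x * g⁻¹ := by rw [ZMod.val_natCast_of_lt hn, a]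
    exact ⟨n, isConj_iff.2 ⟨g, e.symm⟩, e⟩
  · rintro ⟨t, ht, rfl⟩
    obtain ⟨g, e⟩ := isConj_iff.1 ht
    refine ⟨g, mem_normalizer_of_cj_le ?_, e⟩
    rintro _ ⟨_, ⟨n, rfl⟩, rfl⟩
    change g * x ^ n * g⁻¹ ∈ _
    rw [← conj_zpow, e]
    exact zpow_mem (pow_mem (mem_zpowers x) _) n

theorem dvd_pred (hp : p.Prime) (hx : orderOf x = p) : Nat.card Nm(zpowers x) ∣ (p - 1) * Nat.card Cx(x) := by
  have le : Cx(x) ≤ Nm(zpowers x) := Cz_zpowers x ▸ centralizer_le_normalizer _
  have a := card_subgroup_dvd_card (zpowers x).normalizerMonoidHom.range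
  rw [← index_ker, normalizerMonoidHom_ker, IsCyclic.card_mulAut, Nat.card_zpowers, hx, Nat.totient_prime hp] at a
  rw [← card_mul_relIndex le, mul_comm]
  exact Nat.mul_dvd_mul_right (Cz_zpowers x ▸ a) _

theorem g5 [IsSimpleGroup G] (hp : p.Prime) (h2 : ¬ p ^ 2 ∣ Nat.card G) (hG : Nat.card G ≠ p) (hx : orderOf x = p) :
    ∃ K, Nat.card (centralizer ({x} : Set G)) = p * K ∧ ¬ p ∣ K ∧
      Nat.card {t : ZMod p // IsConj x (x ^ t.val)} ∣ p - 1 ∧ 1 < Nat.card {t : ZMod p // IsConj x (x ^ t.val)} ∧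
      p * Nat.card {t : ZMod p // IsConj x (x ^ t.val)} * K ∣ Nat.card G ∧
      Nat.card G / (p * Nat.card {t : ZMod p // IsConj x (x ^ t.val)} * K) % p = 1 ∧
      1 < Nat.card G / (p * Nat.card {t : ZMod p // IsConj x (x ^ t.val)} * K) ∧
      PNil p (centralizer ({x} : Set G)) ∧ SylIn p (zpowers x) ⊤ := by
  have := Fact.mk hp
  have n := card_Nm_zp hp hx
  have d := dvd_pred hp hx
  generalize Nat.card {t : ZMod p // IsConj x (x ^ t.val)} = e at *
  obtain ⟨P, hP⟩ := syl_zp hp h2 hx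
  have S : SylIn p (zpowers x) ⊤ := hP ▸ sylIn_top P
  have c : Nat.card (zpowers x) = p := (Nat.card_zpowers x).trans hx
  have l : zpowers x ≤ Cx(x) := zpowers_le_of_mem (mem_Cx.2 rfl)
  have le : Cx(x) ≤ Nm(zpowers x) := Cz_zpowers x ▸ centralizer_le_normalizer _
  have nt : zpowers x ≠ ⊤ := fun h => hG (by rw [← c, h, card_top])
  obtain ⟨K, hK⟩ := c ▸ card_dvd_of_le l
  have n' : Nat.card Nm(zpowers x) = p * e * K := by rw [n, hK]; ring
  have i : Nat.card G / (p * e * K) = (Nm(zpowers x)).index := by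
    rw [← n', ← (Nm(zpowers x)).card_mul_index, Nat.mul_div_cancel_left _ Nat.card_pos]
  refine ⟨K, hK, fun h => h2 ((pow_two p ▸ hK ▸ Nat.mul_dvd_mul_left p h).trans (card_subgroup_dvd_card _)),
    Nat.dvd_of_mul_dvd_mul_right Nat.card_pos (n ▸ d), ?_, n' ▸ card_subgroup_dvd_card _, ?_, ?_,
    burnside_pNil (S.mono l le_top) (inf_le_left.trans (Cz_zpowers x).ge), S⟩
  · by_contra h
    have e1 : Nat.card Nm(zpowers x) ≤ Nat.card Cx(x) := by rw [n]; nlinarith
    have b := burnside_pNil S (inf_le_right.trans ((eq_of_le_of_card_ge le e1).ge.trans (Cz_zpowers x).ge))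
    have s := S.sup_pResidualOf
    rw [PNil, pResidualOf_top] at b
    rw [pResidualOf_top] at s
    rcases (inferInstance : (pResidual p G).Normal).eq_bot_or_eq_top with h | h
    · rw [h, bot_sup_eq] at s; exact nt s
    · rw [h, card_top, coprime_iff_not_dvd] at b
      exact b (c ▸ card_subgroup_dvd_card _)
  · have a := card_sylow_modEq_one p G
    rw [P.card_eq_index_normalizer, show normalizer (P : Set G) = Nm(zpowers x) from by rw [← hP]; rfl] at a
    rw [i, a, Nat.mod_eq_of_lt hp.one_lt]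
  · rw [i]
    refine one_lt_index_of_ne_top fun h => ?_
    rcases (normalizer_eq_top_iff.1 h).eq_bot_or_eq_top with h | h
    · rw [h, card_bot] at c; exact hp.one_lt.ne c
    · exact nt h
end CfH8.MG
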