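import Cfsg.Agent.OD.Pre
import Cfsg.Agent.H8.FF2a

/-!
# Failure of factorization modules for solvable groups, `p = 2` (faithful form)
-/

set_option autoImplicit false
set_option linter.unusedSectionVars false

namespace CfH8

open Subgroup MulAction CfH9 Cfsg
open scoped commutatorElement

section

variable {G : Type*} [Group G] [Finite G]

theorem dd_zpowers_of_inverted {V : Subgroup G} (hV : IsElementaryAbelian 2 V) {a d : G}
    (ha : a ^ 2 = 1) (haV : a ∈ Nm(V)) (hdV : d ∈ Nm(V)) (hd : Odd (orderOf d))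
    (hf : zpowers d ⊓ Cz(V) = ⊥) (hd1 : d ≠ 1) (hinv : a * d * a⁻¹ = d⁻¹)
    (hc : Nat.card V ≤ 2 * Nat.card (V ⊓ Cx(a) : Subgroup G)) : DD V (zpowers d) := by
  have : Fact (Nat.Prime 2) := ⟨Nat.prime_two⟩
  have hVp := CfH7.elemAb_isPGroup hV
  have ho : Odd (Nat.card (zpowers d)) := by rwa [Nat.card_zpowers]
  have hDV : zpowers d ≤ Nm(V) := zpowers_le.2 hdV
  have h1 : (V ⊓ Cx(a)) ⊓ cj d (V ⊓ Cx(a)) ≤ V ⊓ Cz(zpowers d) := by
    refine le_inf (le_trans inf_le_left inf_le_left) ?_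
    rw [le_centralizer_iff, zpowers_le]
    refine zpowers_le.2 ?_ (mem_zpowers_pow_of_coprime (U := zpowers d)
      (Nat.coprime_two_left.2 ho) (mem_zpowers d))
    have e : d ^ 2 = (d * a * d⁻¹) * a⁻¹ := by
      have : a * d⁻¹ * a⁻¹ = d := by rw [← conj_inv, hinv, inv_inv]
      rw [pow_two]; nth_rewrite 2 [← this]; group
    rw [e]
    refine mul_mem (Cz_anti inf_le_right ?_) (inv_mem (Cz_anti inf_le_left ?_))
    · rw [← cj_centralizer]; exact conj_mem_cj d (le_Cx_iff.1 inf_le_right)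
    · exact le_Cx_iff.1 inf_le_right
  have h2 := card_mul_card_le (A := V ⊓ Cx(a)) (B := cj d (V ⊓ Cx(a))) (H := V) inf_le_left
    (le_trans (cj_mono d inf_le_left) (cj_eq_of_mem_normalizer hdV).le)
  rw [card_cj] at h2
  have h3 := card_le_of_le h1
  have h4 := card_eq_mul_of_coprime hV.1 hDV (coprime_of_odd_of_elem hVp ho)
  have hpos : 0 < Nat.card V := Nat.card_pos
  have hpos' : 0 < Nat.card (V ⊓ Cz(zpowers d) : Subgroup G) := Nat.card_pos
  have h5 : Nat.card (⁅V, zpowers d⁆ : Subgroup G) ≤ 4 := by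
    have h6 : Nat.card V * Nat.card V ≤ Nat.card V * (4 * Nat.card (V ⊓ Cz(zpowers d) : Subgroup G)) := by
      have := Nat.mul_le_mul hc hc
      have := Nat.mul_le_mul_left (Nat.card V) h3
      nlinarith
    have h7 := Nat.le_of_mul_le_mul_left h6 hpos
    rw [h4] at h7
    exact Nat.le_of_mul_le_mul_right h7 hpos'
  have hW : zpowers d ⊓ Cz(⁅V, zpowers d⁆) = ⊥ := by
    rw [eq_bot_iff, ← hf]
    exact le_inf inf_le_left (le_Cz_of_le_Cz_commutator hVp (odd_card_of_le inf_le_left ho)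
      (le_trans inf_le_left hDV) (Subgroup.commutator_mono le_rfl inf_le_left) inf_le_right)
  have hn : zpowers d ≤ Nm(⁅V, zpowers d⁆) := normalizer_commutator_ge_right _ _
  have h8 : ¬ Nat.card (⁅V, zpowers d⁆ : Subgroup G) ≤ 2 := by
    intro h
    rw [inf_eq_left.2 (le_Cz_of_card_le_two hn h)] at hW
    exact zpowers_ne_bot' hd1 hW
  obtain ⟨k, hk⟩ := IsPGroup.iff_card.1 (hVp.to_le (commutator_le_left_of_le_normalizer hDV))
  have h9 : Nat.card (⁅V, zpowers d⁆ : Subgroup G) = 4 := by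
    have : Nat.card (⁅V, zpowers d⁆ : Subgroup G) ≠ 3 := by
      rw [hk]
      rcases k with _ | k
      · norm_num
      · omega
    omega
  refine ⟨?_, h9⟩
  have h10 := relIndex_Cz_dvd hn
  rw [h9, ← inf_relIndex_left, hW, relIndex_bot_left] at h10
  have h11 : Nat.card (zpowers d) ≠ 1 := fun e => zpowers_ne_bot' hd1 (card_eq_one.1 e)
  have h12 : Nat.card (zpowers d) ≤ 6 := Nat.le_of_dvd (by norm_num) h10
  obtain ⟨j, hj⟩ := ho
  have : Nat.card (zpowers d) = 3 ∨ Nat.card (zpowers d) = 5 := by omega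
  rcases this with e | e
  · exact e
  · rw [e] at h10; exact absurd h10 (by decide)

variable {V R : Subgroup G} (hV : IsElementaryAbelian 2 V) (hR : Group.IsNilpotent R)
  (hRo : Odd (Nat.card R)) (hRV : R ≤ Nm(V)) (hf : R ⊓ Cz(V) = ⊥)
include hV hR hRo hRV hf

/-- transvections -/
theorem dd_of_transvection {a : G} (ha : a ^ 2 = 1) (haV : a ∈ Nm(V)) (haR : a ∈ Nm(R))
    (hRa : ⁅R, zpowers a⁆ = R) (hR1 : R ≠ ⊥)
    (hc : Nat.card V ≤ 2 * Nat.card (V ⊓ Cx(a) : Subgroup G)) : DD V R := by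
  have hVp := CfH7.elemAb_isPGroup hV
  have hdd : ∀ d ∈ R, d ≠ 1 → a * d * a⁻¹ = d⁻¹ → DD V (zpowers d) := fun d hd hd1 hinv =>
    dd_zpowers_of_inverted hV ha haV (hRV hd) (Odd.of_dvd_nat hRo (R.orderOf_dvd_natCard hd))
      (eq_bot_iff.2 (hf ▸ inf_le_inf_right _ (zpowers_le.2 hd))) hd1 hinv hc
  have hnc : ∀ d ∈ R, d ≠ 1 → a * d * a⁻¹ = d⁻¹ → ∃ w ∈ ⁅V, zpowers d⁆, w ∉ Cx(a) := by
    intro d hd hd1 hinv
    by_contra h
    push Not at h
    apply (hdd d hd hd1 hinv).not_le_Cz_W hV hRV (zpowers_le.2 hd)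
    rw [zpowers_le]
    refine zpowers_le.2 ?_ (mem_zpowers_pow_of_coprime (U := R) (Nat.coprime_two_left.2 hRo) hd)
    have e : d ^ 2 = (d * a * d⁻¹) * a⁻¹ := by
      have : a * d⁻¹ * a⁻¹ = d := by rw [← conj_inv, hinv, inv_inv]
      rw [pow_two]; nth_rewrite 2 [← this]; group
    rw [e]
    have h1 : a ∈ Cz(⁅V, zpowers d⁆) := le_Cx_iff.1 h
    exact mul_mem (conj_mem_of_mem_normalizer
      (mem_Nm_Cz (normalizer_commutator_ge_right _ _ (mem_zpowers d))) h1) (inv_mem h1)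
  have haW : ∀ d, a * d * a⁻¹ = d⁻¹ → a ∈ Nm(⁅V, zpowers d⁆) := by
    intro d hinv
    refine mem_Nm_commutator haV ?_
    rw [mem_normalizer_iff_cj, cj_zpowers, hinv, zpowers_inv]
  have huniq : ∀ d ∈ R, d ≠ 1 → a * d * a⁻¹ = d⁻¹ → ∀ e ∈ R, e ≠ 1 → a * e * a⁻¹ = e⁻¹ →
      zpowers d = zpowers e := by
    intro d hd hd1 hinv e he he1 hinve
    by_contra hne
    have h1 := (hdd d hd hd1 hinv).W_inf_eq_bot' hV hR hRV hf (hdd e he he1 hinve)
      (zpowers_le.2 hd) (zpowers_le.2 he) hne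
    obtain ⟨w, hw, hwa⟩ := hnc d hd hd1 hinv
    obtain ⟨u, hu, hua⟩ := hnc e he he1 hinve
    have hwV : w ∈ V := commutator_le_left_of_le_normalizer (zpowers_le.2 (hRV hd)) hw
    have huV : u ∈ V := commutator_le_left_of_le_normalizer (zpowers_le.2 (hRV he)) hu
    have h2 : ((V ⊓ Cx(a)).subgroupOf V).index = 2 := by
      have h3 := card_mul_relIndex (inf_le_left : V ⊓ Cx(a) ≤ V)
      have h4 : (V ⊓ Cx(a)).relIndex V ≠ 1 := fun e => hwa (relIndex_eq_one.1 e hwV).2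
      have h5 : 0 < (V ⊓ Cx(a)).relIndex V := CfH1.relIndex_pos _ _
      have h6 : (V ⊓ Cx(a)).relIndex V ≤ 2 := by
        rw [← h3, mul_comm 2] at hc
        exact Nat.le_of_mul_le_mul_left hc Nat.card_pos
      show (V ⊓ Cx(a)).relIndex V = 2
      omega
    have h7 : (⟨w, hwV⟩ * ⟨u, huV⟩ : V) ∈ (V ⊓ Cx(a)).subgroupOf V := by
      rw [mul_mem_iff_of_index_two h2]
      exact iff_of_false (fun h => hwa h.2) (fun h => hua h.2)
    have h8 : (w * u) * a = a * (w * u) := mem_Cx.1 h7.2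
    have h9 : w⁻¹ * (a * w * a⁻¹) = u * (a * u * a⁻¹)⁻¹ := by
      have : a * w * a⁻¹ = w * u * (a * u * a⁻¹)⁻¹ := by
        calc a * w * a⁻¹ = (a * (w * u)) * a⁻¹ * (a * u * a⁻¹)⁻¹ := by group
          _ = _ := by rw [← h8]; group
      rw [this]; group
    have h10 : w⁻¹ * (a * w * a⁻¹) ∈ ⁅V, zpowers d⁆ ⊓ ⁅V, zpowers e⁆ :=
      mi (mul_mem (inv_mem hw) (conj_mem_of_mem_normalizer (haW d hinv) hw))
        (h9 ▸ mul_mem hu (inv_mem (conj_mem_of_mem_normalizer (haW e hinve) hu)))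
    rw [h1, mem_bot, inv_mul_eq_one] at h10
    apply hwa
    rw [mem_Cx]
    exact eq_mul_inv_iff_mul_eq.1 h10
  have hcomm : ∀ x ∈ R, ⁅x, a⁆ ∈ R ∧ a * ⁅x, a⁆ * a⁻¹ = ⁅x, a⁆⁻¹ := by
    intro x hx
    refine ⟨commutator_mem_left hx haR, ?_⟩
    have : a⁻¹ = a := by rw [inv_eq_iff_mul_eq_one, ← pow_two, ha]
    have h2 : a * a = 1 := by rw [← pow_two, ha]
    simp only [commutatorElement_def, mul_inv_rev, inv_inv, this, mul_assoc, h2, mul_one]
  have hle : ∀ X : Subgroup G, (∀ d ∈ R, d ≠ 1 → a * d * a⁻¹ = d⁻¹ → d ∈ X) → R ≤ X := by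
    intro X hX
    rw [← hRa, commutator_le]
    intro x hx y hy
    rcases eq_one_or_eq_of_mem_zpowers ha hy with rfl | rfl
    · simp
    · by_cases h : ⁅x, y⁆ = 1
      · rw [h]; exact X.one_mem
      · exact hX _ (hcomm x hx).1 h (hcomm x hx).2
  have hex : ∃ d ∈ R, d ≠ 1 ∧ a * d * a⁻¹ = d⁻¹ := by
    by_contra h
    push Not at h
    exact hR1 (eq_bot_iff.2 (hle ⊥ fun d h1 h2 h3 => absurd h3 (h d h1 h2)))
  obtain ⟨d, hd, hd1, hinv⟩ := hex
  have : zpowers d = R := le_antisymm (zpowers_le.2 hd)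
    (hle _ fun e h1 h2 h3 => huniq d hd hd1 hinv e h1 h2 h3 ▸ mem_zpowers e)
  exact this ▸ hdd d hd hd1 hinv

variable {A : Subgroup G} (hA : IsElementaryAbelian 2 A) (hAV : A ≤ Nm(V)) (hbest : Best V A)
include hA hAV hbest

/-- a best offender acting through a group of order 2 -/
theorem dd_of_best {B : Subgroup G} {a : G} (hAR : A ≤ Nm(R)) (hRA : ⁅R, A⁆ = R) (hR1 : R ≠ ⊥)
    (hBA : B ≤ A) (hB : B ≤ Cz(R)) (ha : a ∈ A) (hAB : A ≤ B ⊔ zpowers a) : DD V R := by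
  have : Fact (Nat.Prime 2) := ⟨Nat.prime_two⟩
  have hVp := CfH7.elemAb_isPGroup hV
  set W := ⁅V, R⁆ with hW
  have hWV : W ≤ V := commutator_le_left_of_le_normalizer hRV
  have hWR : ⁅W, R⁆ = W := commutator_commutator_eq_of_odd hVp hRo hRV
  have hRW : R ≤ Nm(W) := normalizer_commutator_ge_right _ _
  have hAW : A ≤ Nm(W) := le_normalizer_commutator hAV hAR
  have hWe : IsElementaryAbelian 2 W := CfH7.elemAb_of_le hWV hV
  have hfW : R ⊓ Cz(W) = ⊥ := by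
    rw [eq_bot_iff, ← hf]
    exact le_inf inf_le_left (le_Cz_of_le_Cz_commutator hVp (odd_card_of_le inf_le_left hRo)
      (le_trans inf_le_left hRV) (Subgroup.commutator_mono le_rfl inf_le_left) inf_le_right)
  have hAA : ⁅A, A⁆ ≤ Cz(W) := by
    rw [CfH7.comm_eq_bot_left.2 (CfH7.elemAb_le_Cz hA)]; exact bot_le
  have hbW : Best W A := hbest.restrict hWV
  set As := A ⊓ Cz(⁅W, A⁆) with hAs
  have hbs : Best W As := hbW.timmesfeld_best hWe.1 hAW hAA le_rfl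
  have hne : ¬ As ≤ Cz(W) := by
    refine hbW.timmesfeld_ne (p := 2) hWe.1 (CfH7.elemAb_isPGroup hWe) hAW hAA
      (by rw [CfH7.pResidualOf_eq_bot_of_isPGroup (CfH7.elemAb_isPGroup hA)]; exact bot_le) ?_
    intro h
    apply hR1
    rw [← hfW, left_eq_inf, ← hRA]
    exact le_trans (Subgroup.commutator_mono le_rfl h)
      (commutator_le_right_of_le_normalizer (le_normalizer_centralizer hRW))
  have hBs : As ⊓ B ≤ Cz(W) := by
    set Y := W ⊓ Cz(As ⊓ B) with hY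
    have h1 : R ≤ Nm(Y) := le_normalizer_inf hRW (le_normalizer_centralizer
      (le_trans (le_centralizer_iff.1 (le_trans inf_le_right hB)) (Cz_le_Nm _)))
    have h2 : A ≤ Nm(Y) := le_normalizer_inf hAW (le_normalizer_centralizer
      (le_Nm_of_le_of_comm hA.1 le_rfl (le_trans inf_le_right hBA)))
    have h3 : W ≤ Nm(Y) := le_Nm_of_le_of_comm hWe.1 le_rfl inf_le_left
    have h4 : ⁅W, A⁆ ≤ Y := le_inf (commutator_le_left_of_le_normalizer hAW)
      (le_centralizer_iff.1 (le_trans inf_le_left inf_le_right))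
    have h5 := three_subgroups h1 h2 h3
      (le_trans (Subgroup.commutator_mono (by rw [commutator_comm]; exact h4) le_rfl)
        (commutator_le_left_of_le_normalizer h1)) (by rw [hWR]; exact h4)
    rw [hRA, commutator_comm, hWR] at h5
    exact le_centralizer_iff.1 (le_trans h5 inf_le_right)
  obtain ⟨b, hb, hbW'⟩ := SetLike.not_le_iff_exists.1 hne
  have hbB : b ∉ B := fun h => hbW' (hBs ⟨hb, h⟩)
  have hb2 : b ^ 2 = 1 := hA.2 b hb.1
  have hidx : B.relIndex A ∣ 2 := by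
    have h1 := CfH7.card_sup_dvd_of_le_normalizer (H := zpowers a) (K := B)
      (le_Nm_of_le_of_comm hA.1 (zpowers_le.2 ha) hBA)
    rw [sup_comm, le_antisymm (sup_le hBA (zpowers_le.2 ha)) hAB, ← card_mul_relIndex hBA,
      mul_comm (Nat.card (zpowers a))] at h1
    have h2 := Nat.dvd_of_mul_dvd_mul_left Nat.card_pos h1
    rw [Nat.card_zpowers] at h2
    exact dvd_trans h2 (orderOf_dvd_of_pow_eq_one (hA.2 a ha))
  have hAB' : A ≤ B ⊔ zpowers b := le_sup_zpowers_of_relIndex_two hBA hidx hb.1 hbB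
  have hc1 : Nat.card As ≤ 2 * Nat.card (As ⊓ B : Subgroup G) := by
    have h1 := card_mul_relIndex (inf_le_left : As ⊓ B ≤ As)
    have h2 : (As ⊓ B).relIndex As ≤ 2 := by
      rw [inf_relIndex_left]
      exact le_trans (relIndex_le_of_le_right inf_le_left (CfH1.relIndex_pos _ _).ne')
        (Nat.le_of_dvd two_pos hidx)
    rw [← h1, mul_comm 2]
    exact Nat.mul_le_mul_left _ h2
  have hc2 : Nat.card W ≤ 2 * Nat.card (W ⊓ Cx(b) : Subgroup G) := by
    have h1 := hbs (As ⊓ B) inf_le_left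
    rw [ms_of_le_Cz hBs, ms] at h1
    have h2 : Nat.card (W ⊓ Cz(As) : Subgroup G) ≤ Nat.card (W ⊓ Cx(b) : Subgroup G) :=
      card_le_of_le (inf_le_inf_left _ (Cz_le_Cx hb))
    have h3 := le_trans h1 (Nat.mul_le_mul hc1 h2)
    refine Nat.le_of_mul_le_mul_left (c := Nat.card (As ⊓ B : Subgroup G)) ?_ Nat.card_pos
    linarith
  have hRb : ⁅R, zpowers b⁆ = R :=
    le_antisymm (commutator_le_left_of_le_normalizer (zpowers_le.2 (hAR hb.1)))
      (le_trans hRA.ge (CfH7.commutator_le_of_le_sup_Cz hB (zpowers_le.2 (hAR hb.1)) hAB'))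
  have := dd_of_transvection hWe hR hRo hRW hfW hb2 (hAW hb.1) (hAR hb.1) hRb hR1 hc2
  exact ⟨this.card, by rw [← this.cardW, hWR]⟩

theorem commutator_le_of_best {N M : Subgroup G} (hNR : N ≤ R) (hAN : A ≤ Nm(N))
    (hNM : N ≤ Nm(M)) (hM : ∀ D, D ≤ N → DD V D → ⁅D, A⁆ = D → D ≤ M) : ⁅N, A⁆ ≤ M := by
  have : Fact (Nat.Prime 2) := ⟨Nat.prime_two⟩
  have hAp := CfH7.elemAb_isPGroup hA
  have hNo : Odd (Nat.card N) := odd_card_of_le hNR hRo
  rw [commutator_comm]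
  apply CfH7.commutator_le_of_le_secCz
  refine le_of_cocyclic hA.1 hAN (coprime_of_odd_of_elem hAp hNo).symm ?_
  rintro B hBA ⟨a, ha, hAB⟩
  refine CfH7.le_secCz (le_trans inf_le_left hNM) ?_
  rw [commutator_comm]
  have hAC : A ≤ Nm(N ⊓ Cz(B)) :=
    le_normalizer_inf hAN (le_normalizer_centralizer (le_Nm_of_le_of_comm hA.1 le_rfl hBA))
  have hle : ⁅N ⊓ Cz(B), A⁆ ≤ N ⊓ Cz(B) := commutator_le_left_of_le_normalizer hAC
  have hDR : ⁅N ⊓ Cz(B), A⁆ ≤ R := le_trans hle (le_trans inf_le_left hNR)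
  by_cases h : ⁅N ⊓ Cz(B), A⁆ = ⊥
  · rw [h]; exact bot_le
  have hDA : ⁅⁅N ⊓ Cz(B), A⁆, A⁆ = ⁅N ⊓ Cz(B), A⁆ := commutator_commutator_eq hAC
    (coprime_of_odd_of_elem hAp (odd_card_of_le inf_le_left hNo)).symm
    (Or.inl (isSolvable_of_comm hA.1))
  refine hM _ (le_trans hle inf_le_left) ?_ hDA
  exact dd_of_best hV (CfH7.isNilpotent_of_le hDR hR) (odd_card_of_le hDR hRo) (le_trans hDR hRV)
    (eq_bot_iff.2 (hf ▸ inf_le_inf_right _ hDR)) hA hAV hbest
    (normalizer_commutator_ge_right _ _) hDA h hBA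
    (le_centralizer_iff.1 (le_trans hle inf_le_right)) ha hAB

end

/-- the join of all `D ≤ R` of order 3 with `|[V,D]| = 4` -/
def ddJoin {G : Type*} [Group G] (V R : Subgroup G) : Subgroup G := sSup {D | D ≤ R ∧ DD V D}

/-- the join of all `D ≤ R` of order 3 with `|[V,D]| = 4` and `[D, A] = D` -/
def ddJoinA {G : Type*} [Group G] (V R A : Subgroup G) : Subgroup G :=
  sSup {D | D ≤ R ∧ DD V D ∧ ⁅D, A⁆ = D}

section

variable {G : Type*} [Group G] [Finite G]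

theorem ddJoin_le (V R : Subgroup G) : ddJoin V R ≤ R := sSup_le fun _ h => h.1

theorem ddJoinA_le (V R A : Subgroup G) : ddJoinA V R A ≤ ddJoin V R :=
  sSup_le fun _ h => le_sSup ⟨h.1, h.2.1⟩

theorem le_Nm_ddJoin {V R X : Subgroup G} (h1 : X ≤ Nm(V)) (h2 : X ≤ Nm(R)) :
    X ≤ Nm(ddJoin V R) := by
  intro g hg
  apply mem_normalizer_of_cj_le
  rw [cj_le_iff]
  refine sSup_le fun D hD => ?_
  rw [← cj_le_iff]
  exact le_sSup ⟨le_trans (cj_mono g hD.1) (cj_eq_of_mem_normalizer (h2 hg)).le, hD.2.cj (h1 hg)⟩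

theorem le_Nm_sSup {S : Set (Subgroup G)} {X : Subgroup G} (h : ∀ D ∈ S, X ≤ Nm(D)) :
    X ≤ Nm((sSup S : Subgroup G)) := by
  intro g hg
  apply mem_normalizer_of_cj_le
  rw [cj_le_iff]
  refine sSup_le fun D hD => ?_
  rw [← cj_le_iff, cj_eq_of_mem_normalizer (h D hD hg)]
  exact le_sSup hD

variable {V R : Subgroup G} (hV : IsElementaryAbelian 2 V) (hR : Group.IsNilpotent R)
  (hRo : Odd (Nat.card R)) (hRV : R ≤ Nm(V)) (hf : R ⊓ Cz(V) = ⊥)
include hV hR hRo hRV hf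

theorem ddJoin_le_Cz {D : Subgroup G} (hDR : D ≤ R) (hD : DD V D) : ddJoin V R ≤ Cz(D) :=
  sSup_le fun _ hE => hD.le_Cz hV hR hRV hf hE.2 hDR hE.1

theorem comm_ddJoin : IsMulCommutative (ddJoin V R) := by
  have : ddJoin V R ≤ Cz(ddJoin V R) :=
    sSup_le fun D hD => le_centralizer_iff.1 (ddJoin_le_Cz hV hR hRo hRV hf hD.1 hD.2)
  exact comm_iff.2 fun a ha b hb => (this ha b hb).symm

variable {A : Subgroup G} (hA : IsElementaryAbelian 2 A) (hAV : A ≤ Nm(V)) (hbest : Best V A)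
  (hAR : A ≤ Nm(R))
include hA hAV hbest hAR

theorem commutator_le_ddJoinA : ⁅R, A⁆ ≤ ddJoinA V R A := by
  have h1 : ⁅R, A⁆ ≤ ddJoin V R :=
    commutator_le_of_best hV hR hRo hRV hf hA hAV hbest le_rfl hAR (le_Nm_ddJoin hRV le_normalizer)
      fun D h1 h2 _ => le_sSup ⟨h1, h2⟩
  have h2 : ⁅ddJoin V R, A⁆ ≤ ddJoinA V R A :=
    commutator_le_of_best hV hR hRo hRV hf hA hAV hbest (ddJoin_le V R) (le_Nm_ddJoin hAV hAR)
      (le_Nm_of_le_of_comm (comm_ddJoin hV hR hRo hRV hf) le_rfl (ddJoinA_le V R A))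
      fun D h1 h2 h3 => le_sSup ⟨le_trans h1 (ddJoin_le V R), h2, h3⟩
  rw [← commutator_commutator_eq hAR
    (coprime_of_odd_of_elem (CfH7.elemAb_isPGroup hA) hRo).symm (Or.inl (isSolvable_of_comm hA.1))]
  exact le_trans (Subgroup.commutator_mono h1 le_rfl) h2

theorem best_le_Nm_dd {D : Subgroup G} (hDR : D ≤ R) (hD : DD V D) : A ≤ Nm(D) := by
  by_cases h : ⁅D, A⁆ = D
  · exact h ▸ normalizer_commutator_ge_right _ _
  have h1 : ddJoinA V R A ≤ Cz(⁅V, D⁆) := sSup_le fun E hE =>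
    hD.le_Cz_W hV hR hRV hf hE.2.1 hDR hE.1 fun e => h (e ▸ hE.2.2)
  intro a ha
  rw [mem_normalizer_iff_cj]
  by_contra hne
  have h2 := hD.le_Cz_W hV hR hRV hf (hD.cj (hAV ha)) hDR
    (le_trans (cj_mono a hDR) (cj_eq_of_mem_normalizer (hAR ha)).le) (Ne.symm hne)
  apply hD.not_le_Cz_W hV hRV hDR
  intro d hd
  have e : d = ⁅d, a⁆ * (a * d * a⁻¹) := by rw [commutatorElement_def]; group
  rw [e]
  exact mul_mem (h1 (commutator_le_ddJoinA hV hR hRo hRV hf hA hAV hbest hAR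
    (commutator_mem_commutator (hDR hd) ha))) (h2 (conj_mem_cj a hd))

theorem exists_separating {D E : Subgroup G} (hDR : D ≤ R) (hD : DD V D) (hER : E ≤ R)
    (hE : DD V E) (hne : D ≠ E) (h : ¬ A ≤ Cz(D)) :
    ∃ a ∈ A, (a ∈ Cz(D) ∧ a ∉ Cz(E)) ∨ (a ∉ Cz(D) ∧ a ∈ Cz(E)) := by
  have : Fact (Nat.Prime 3) := ⟨Nat.prime_three⟩
  by_contra hc
  push Not at hc
  obtain ⟨a, ha, haD⟩ := SetLike.not_le_iff_exists.1 h
  have haE : a ∉ Cz(E) := (hc a ha).2 haD
  have hAD := best_le_Nm_dd hV hR hRo hRV hf hA hAV hbest hAR hDR hD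
  have hAE := best_le_Nm_dd hV hR hRo hRV hf hA hAV hbest hAR hER hE
  have key : ∀ X : Subgroup G, DD V X → A ≤ Nm(X) → a ∉ Cz(X) → ⁅X, A⁆ = X := by
    intro X hX hAX haX
    rcases eq_bot_or_eq_of_card_prime hX.card (commutator_le_left_of_le_normalizer hAX) with e | e
    · exact absurd (CfH7.comm_eq_bot_right.1 e ha) haX
    · exact e
  have hNR : D ⊔ E ≤ R := sup_le hDR hER
  have hAN : A ≤ Nm(D ⊔ E) := le_normalizer_sup hAD hAE
  have hN : ⁅D ⊔ E, A⁆ = D ⊔ E := le_antisymm (commutator_le_left_of_le_normalizer hAN)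
    (sup_le (le_trans (key D hD hAD haD).ge (Subgroup.commutator_mono le_sup_left le_rfl))
      (le_trans (key E hE hAE haE).ge (Subgroup.commutator_mono le_sup_right le_rfl)))
  have hidx : (A ⊓ Cz(D)).relIndex A ∣ 2 := by
    have := relIndex_Cz_dvd hAD
    rwa [hD.card, ← inf_relIndex_left] at this
  have hD1 : D ≠ ⊥ := fun e => by
    have := hD.card
    rw [e, Subgroup.card_bot] at this
    omega
  have h3 := dd_of_best hV (CfH7.isNilpotent_of_le hNR hR) (odd_card_of_le hNR hRo)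
    (le_trans hNR hRV) (eq_bot_iff.2 (hf ▸ inf_le_inf_right _ hNR)) hA hAV hbest hAN hN
    (ne_bot_of_le le_sup_left hD1) (B := A ⊓ Cz(D)) inf_le_left
    (by rw [Cz_sup]; exact le_inf inf_le_right fun x hx => (hc x hx.1).1 hx.2) ha
    (le_sup_zpowers_of_relIndex_two inf_le_left hidx ha fun h => haD h.2)
  apply hne
  rw [eq_of_le_of_card_ge (le_sup_left : D ≤ D ⊔ E) (by rw [h3.card, hD.card])]
  exact (eq_of_le_of_card_ge (le_sup_right : E ≤ D ⊔ E) (by rw [h3.card, hE.card])).symm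

end

section main

variable {G : Type*} [Group G] [Finite G] {V L : Subgroup G}

theorem odd_card_fittingOf (hO : pCoreOf 2 L = ⊥) : Odd (Nat.card (fittingOf L)) := by
  have : Fact (Nat.Prime 2) := ⟨Nat.prime_two⟩
  rw [CfH7.fittingOf_def, CfH9.card_map_subtype]
  exact Nat.coprime_two_right.1
    (CfH7.coprime_card_fitting_of_pCore_eq_bot (CfH7.pCoreOf_eq_bot_iff.1 hO))

/-- the elements of `L` normalizing every `D` and acting trivially on `F(L)/⟨D⟩` -/
def ffY (V L : Subgroup G) : Subgroup G :=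
  L ⊓ CfH7.secCz (fittingOf L) (ddJoin V (fittingOf L)) ⊓
    ⨅ D : {D : Subgroup G // D ≤ fittingOf L ∧ DD V D}, Nm((D : Subgroup G))

theorem le_Nm_ffY (hLV : L ≤ Nm(V)) : L ≤ Nm(ffY V L) := by
  refine le_normalizer_inf (le_normalizer_inf le_normalizer (CfH7.le_Nm_secCz
    (CfH7.le_normalizer_fittingOf L) (le_Nm_ddJoin hLV (CfH7.le_normalizer_fittingOf L)))) ?_
  intro g hg
  apply mem_normalizer_of_cj_le
  refine le_iInf fun D => ?_
  rw [cj_le_iff, cj_normalizer]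
  exact iInf_le_of_le ⟨cj g⁻¹ D, le_trans (cj_mono _ D.2.1) (cj_eq_of_mem_normalizer
    (CfH7.le_normalizer_fittingOf L (inv_mem hg))).le, D.2.2.cj (hLV (inv_mem hg))⟩ le_rfl

theorem pResidualOf_ffY_le (hLV : L ≤ Nm(V)) (hs : Group.IsSolvable L) :
    pResidualOf 2 (ffY V L) ≤ fittingOf L := by
  set R := fittingOf L
  set R₀ := ddJoin V R
  set C := ffY V L ⊓ Cz(R₀) with hC
  have hCL : C ≤ L := le_trans inf_le_left (le_trans inf_le_left inf_le_left)
  have h1 : ⁅R, C⁆ ≤ R₀ := CfH7.commutator_le_of_le_secCz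
    (le_trans inf_le_left (le_trans inf_le_left inf_le_right))
  have h2 : ⁅R₀, C⁆ = ⊥ := CfH7.comm_eq_bot_right.2 inf_le_right
  have h3 : ⁅⁅R, C⁆, C⁆ = ⊥ := eq_bot_iff.2 (h2 ▸ Subgroup.commutator_mono h1 le_rfl)
  have h4 : ⁅C, C⁆ ≤ R := by
    refine le_trans (le_inf (commutator_le_self' hCL hCL) ?_) (CfH1.inf_centralizer_fittingOf_le hs)
    rw [← CfH7.comm_eq_bot_left]
    exact commutator_commutator_eq_bot_of_rotate (by rwa [commutator_comm C R]) h3
  have h5 : Group.IsNilpotent C := by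
    rw [isNilpotent_iff_lowerCentralSeries]
    refine ⟨3, eq_bot_iff.2 ?_⟩
    rw [← h3]
    exact Subgroup.commutator_mono (Subgroup.commutator_mono h4 le_rfl) le_rfl
  have h6 : C ≤ R := CfH7.le_fittingOf hCL (le_normalizer_inf (le_Nm_ffY hLV)
    (le_normalizer_centralizer (le_Nm_ddJoin hLV (CfH7.le_normalizer_fittingOf L)))) h5
  refine le_trans (CfH7.pResidualOf_le_iff.2 fun g hg ho => mi hg ?_) h6
  rw [← zpowers_le, le_centralizer_iff]
  refine sSup_le fun D hD => ?_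
  rw [le_centralizer_iff]
  apply le_Cz_of_coprime_factorial
  · exact zpowers_le.2 (iInf_le (fun D : {D : Subgroup G // D ≤ fittingOf L ∧ DD V D} =>
      Nm((D : Subgroup G))) ⟨D, hD⟩ hg.2)
  · rw [hD.2.card, Nat.card_zpowers]; exact ho

variable (hV : IsElementaryAbelian 2 V) (hLV : L ≤ Nm(V)) (hf : L ⊓ Cz(V) = ⊥)
  (hO : pCoreOf 2 L = ⊥)
include hV hLV hf hO

theorem best_le_ffY {A : Subgroup G} (hAL : A ≤ L) (hA : IsElementaryAbelian 2 A)
    (hbest : Best V A) : A ≤ ffY V L := by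
  have hR := CfH7.isNilpotent_fittingOf L
  have hRo := odd_card_fittingOf hO
  have hRV := le_trans (CfH7.fittingOf_le L) hLV
  have hRf : fittingOf L ⊓ Cz(V) = ⊥ := eq_bot_iff.2 (hf ▸ inf_le_inf_right _ (CfH7.fittingOf_le L))
  have hAV := le_trans hAL hLV
  have hAR := le_trans hAL (CfH7.le_normalizer_fittingOf L)
  refine le_inf (le_inf hAL (CfH7.le_secCz (le_Nm_ddJoin hAV hAR) ?_)) (le_iInf fun D => ?_)
  · exact le_trans (commutator_le_ddJoinA hV hR hRo hRV hRf hA hAV hbest hAR) (ddJoinA_le _ _ _)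
  · exact best_le_Nm_dd hV hR hRo hRV hRf hA hAV hbest hAR D.2.1 D.2.2

/-- structure of solvable groups with a faithful FF-module, `p = 2` -/
theorem ff2_main (hs : Group.IsSolvable L) {J : Subgroup G} (hJL : J ≤ L)
    (hJ : ∀ W : Subgroup G, (∀ A, A ≤ J → IsElementaryAbelian 2 A → Best V A → A ≤ W) → J ≤ W) :
    pResidualOf 2 (CfH7.nclo J L) ≤ fittingOf L ∧
      ⁅fittingOf L, J⁆ ≤ ddJoinA V (fittingOf L) J ∧
      ∀ D, D ≤ fittingOf L → DD V D → J ≤ Nm(D) := by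
  have hR := CfH7.isNilpotent_fittingOf L
  have hRo := odd_card_fittingOf hO
  have hRV := le_trans (CfH7.fittingOf_le L) hLV
  have hRf : fittingOf L ⊓ Cz(V) = ⊥ := eq_bot_iff.2 (hf ▸ inf_le_inf_right _ (CfH7.fittingOf_le L))
  have h1 : J ≤ ffY V L := hJ _ fun A h1 h2 h3 => best_le_ffY hV hLV hf hO (le_trans h1 hJL) h2 h3
  have h3 : ∀ D, D ≤ fittingOf L → DD V D → J ≤ Nm(D) := fun D h2 h3 =>
    le_trans h1 (le_trans inf_le_right (iInf_le
      (fun D : {D : Subgroup G // D ≤ fittingOf L ∧ DD V D} => Nm((D : Subgroup G))) ⟨D, h2, h3⟩))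
  refine ⟨le_trans (CfH7.pResidualOf_mono (CfH7.nclo_le (le_Nm_ffY hLV) h1))
    (pResidualOf_ffY_le hLV hs), ?_, h3⟩
  apply CfH7.commutator_le_of_le_secCz
  refine hJ _ fun A hAJ hA hb => CfH7.le_secCz
    (le_Nm_sSup fun D hD => le_trans hAJ (h3 D hD.1 hD.2.1)) ?_
  have hAL := le_trans hAJ hJL
  refine le_trans (commutator_le_ddJoinA hV hR hRo hRV hRf hA (le_trans hAL hLV) hb
    (le_trans hAL (CfH7.le_normalizer_fittingOf L))) (sSup_le fun D hD => le_sSup ⟨hD.1, hD.2.1, ?_⟩)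
  exact le_antisymm (commutator_le_left_of_le_normalizer (h3 D hD.1 hD.2.1))
    (le_trans hD.2.2.ge (Subgroup.commutator_mono le_rfl hAJ))

end main

end CfH8
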