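import Cfsg.Agent.OD.Pre
import Cfsg.Agent.H8.FF2b
import Cfsg.Agent.H8.Hol
import Cfsg.Agent.H8.Quot
import Cfsg.Agent.H8.Thompson

/-!
# J(T)-components (local structure of ZN-groups of characteristic 2 type)
-/

set_option autoImplicit false
set_option linter.unusedSectionVars false

namespace CfH8

open Subgroup MulAction CfH9 Cfsg
open scoped commutatorElement
open CfH7 (OZ ChP SubnIn nclo RedOn)

variable {G : Type*} [Group G]

instance factTwo : Fact (Nat.Prime 2) := ⟨Nat.prime_two⟩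

/-- the global hypothesis of the chapter -/
structure ZN (G : Type*) [Group G] : Prop where
  chr : ∀ T : Subgroup G, IsPGroup 2 T → T ≠ ⊥ → ChP 2 Nm(T)
  solv : ∀ T : Subgroup G, IsPGroup 2 T → T ≠ ⊥ → Group.IsSolvable Nm(T)
  zc : ∀ S : Subgroup G, SylIn 2 S ⊤ → Cz(OZ 2 S) ≤ Nm(S)

theorem zn_of (hL : IsCharacteristicTwoType G)
    (hN : ∀ N : Subgroup G, IsTwoLocal N → Group.IsSolvable N)
    (hZ : ∀ S : Sylow 2 G, Cz(omegaCenterOf (S : Subgroup G)) ≤ Nm((S : Subgroup G))) : ZN G :=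
  ⟨fun T hT h1 => hL.2 T hT h1, fun T hT h1 => hN _ ⟨T, hT, h1, rfl⟩, fun S hS => by
    obtain ⟨P, rfl⟩ := hS.exists_sylow
    exact hZ P⟩

/-- `K` is a `J`-component -/
structure JC (J K : Subgroup G) : Prop where
  res : pResidualOf 2 K = K
  comm : ⁅K, J⁆ = K
  idx : (pCoreOf 2 K).relIndex K = 3
  syl : ∀ S, SylIn 2 S (K ⊔ J) → J ≤ S → JJ 2 S = J
  cardW : Nat.card (wOf K) = 4

/-- `L ∈ 𝓛(T)` -/
structure LL (T L : Subgroup G) : Prop where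
  syl : SylIn 2 T L
  nle : ¬ JJ 2 T ≤ pCoreOf 2 L
  cz : Cz(pCoreOf 2 L) ≤ pCoreOf 2 L

theorem wOf_def (K : Subgroup G) : wOf K = ⁅OZ 2 (pCoreOf 2 K), K⁆ := rfl

variable [Finite G]

theorem wOf_le_OZ (K : Subgroup G) : wOf K ≤ OZ 2 (pCoreOf 2 K) :=
  CfH7.comm_le_left (CfH7.le_Nm_OZ_pCoreOf K)

theorem wOf_le_pCoreOf (K : Subgroup G) : wOf K ≤ pCoreOf 2 K :=
  (wOf_le_OZ K).trans (CfH7.OZ_le _)

theorem wOf_le (K : Subgroup G) : wOf K ≤ K := (wOf_le_pCoreOf K).trans (CfH7.pCoreOf_le _)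

theorem elemAb_wOf (K : Subgroup G) : IsElementaryAbelian 2 (wOf K) :=
  CfH7.elemAb_of_le (wOf_le_OZ K) (CfH7.elemAb_OZ _)

theorem isPGroup_wOf (K : Subgroup G) : IsPGroup 2 (wOf K) := CfH7.elemAb_isPGroup (elemAb_wOf K)

theorem pCoreOf_le_Cz_wOf (K : Subgroup G) : pCoreOf 2 K ≤ Cz(wOf K) :=
  (CfH7.le_Cz_OZ _).trans (Cz_anti (wOf_le_OZ K))

theorem cj_wOf (g : G) (K : Subgroup G) : cj g (wOf K) = wOf (cj g K) := by
  rw [wOf_def, wOf_def, cj_commutator, CfH7.cj_OZ, CfH7.cj_pCoreOf]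

theorem Nm_le_Nm_wOf (K : Subgroup G) : Nm(K) ≤ Nm(wOf K) := fun g hg => by
  rw [mem_normalizer_iff_cj] at hg ⊢
  rw [cj_wOf, hg]

theorem le_Nm_wOf (K : Subgroup G) : K ≤ Nm(wOf K) := le_normalizer.trans (Nm_le_Nm_wOf K)

theorem cj_pResidualOf {p : ℕ} (g : G) (K : Subgroup G) :
    cj g (pResidualOf p K) = pResidualOf p (cj g K) :=
  CfH7.map_pResidualOf_of_injective K (MulAut.conj g).injective

theorem isSylowTwoIn_iff {T L : Subgroup G} : IsSylowTwoIn T L ↔ SylIn 2 T L := by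
  rw [sylIn_iff_relIndex, IsSylowTwoIn, ← Nat.not_even_iff_odd, even_iff_two_dvd]

theorem isJComponent_iff {T K : Subgroup G} : IsJComponent T K ↔ JC (JJ 2 T) K := by
  have e : closure {g : G | g ∈ K ∧ Odd (orderOf g)} = pResidualOf 2 K := by
    rw [CfH7.pResidualOf_eq_closure]
    simp only [Nat.coprime_two_right]
  rw [IsJComponent, e]
  simp only [isSylowTwoIn_iff]
  constructor
  · rintro ⟨h1, h2, h3, h4, h5, -⟩
    exact ⟨h1, h2, h3, h4, h5⟩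
  · rintro ⟨h1, h2, h3, h4, h5⟩
    exact ⟨h1, h2, h3, h4, h5, fun w hw => by rw [← sq]; exact (elemAb_wOf K).2 w hw⟩

theorem mem_jOvergroups_iff {T L : Subgroup G} : L ∈ jOvergroups T ↔ LL T L := by
  rw [jOvergroups, Set.mem_ofPred_eq, isSylowTwoIn_iff]
  exact ⟨fun ⟨a, b, c⟩ => ⟨a, b, c⟩, fun ⟨a, b, c⟩ => ⟨a, b, c⟩⟩

namespace JC

variable {J K : Subgroup G} (h : JC J K)
include h

theorem le_Nm : J ≤ Nm(K) := h.comm ▸ normalizer_commutator_ge_right K J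

theorem le_Nm_wOf : J ≤ Nm(wOf K) := h.le_Nm.trans (Nm_le_Nm_wOf K)

theorem not_isPGroup : ¬ IsPGroup 2 K := fun hK => by
  have := h.idx
  rw [CfH7.pCoreOf_eq_self_iff.2 hK, relIndex_self] at this
  omega

theorem ne_bot : K ≠ ⊥ := fun e => h.not_isPGroup (e ▸ IsPGroup.of_bot)

theorem not_le {Q : Subgroup G} (hQ : IsPGroup 2 Q) : ¬ K ≤ Q := fun e =>
  h.not_isPGroup (hQ.to_le e)

theorem eq_or_eq {X : Subgroup G} (h1 : pCoreOf 2 K ≤ X) (h2 : X ≤ K) :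
    X = pCoreOf 2 K ∨ X = K :=
  haveI : Fact (Nat.Prime 3) := ⟨Nat.prime_three⟩
  eq_or_eq_of_relIndex_prime h.idx h1 h2

theorem inf_eq {X : Subgroup G} (h1 : pCoreOf 2 K ≤ X) (h2 : ¬ K ≤ X) :
    K ⊓ X = pCoreOf 2 K :=
  (h.eq_or_eq (le_inf (CfH7.pCoreOf_le _) h1) inf_le_left).resolve_right
    fun e => h2 (e ▸ inf_le_right)

theorem sylIn_pCoreOf : SylIn 2 (pCoreOf 2 K) K :=
  sylIn_of_not_dvd (CfH7.pCoreOf_le _) (CfH7.isPGroup_pCoreOf _) (by rw [h.idx]; decide)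

theorem le_pCoreOf {X : Subgroup G} (hX : IsPGroup 2 X) (hXK : X ≤ K) : X ≤ pCoreOf 2 K :=
  h.sylIn_pCoreOf.le_of_le_Nm' hX hXK (hXK.trans (CfH7.le_normalizer_pCoreOf K))

/-- a subgroup `N` of `K` normalized by `O₂(K)` and not inside `O₂(K)` is `K` -/
theorem eq_of_not_le {N : Subgroup G} (hN : N ≤ K) (hn : pCoreOf 2 K ≤ Nm(N))
    (hne : ¬ N ≤ pCoreOf 2 K) : N = K := by
  refine le_antisymm hN ?_
  have h1 : N ⊔ pCoreOf 2 K = K :=
    (h.eq_or_eq le_sup_right (sup_le hN (CfH7.pCoreOf_le _))).resolve_left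
      fun e => hne (e ▸ le_sup_left)
  have := CfH7.pResidualOf_le_of_le_sup (CfH7.isPGroup_pCoreOf (p := 2) K) hn h1.ge
  rwa [h.res] at this

theorem wOf_ne_bot : wOf K ≠ ⊥ := fun e => by
  have := h.cardW
  rw [e, card_bot] at this
  omega

theorem commutator_idem {P : Subgroup G} (hP : IsPGroup 2 P) (hK : K ≤ Nm(P)) :
    ⁅⁅P, K⁆, K⁆ = ⁅P, K⁆ :=
  commutator_commutator_eq_of_pResidual hP hK h.res

theorem commutator_wOf : ⁅wOf K, K⁆ = wOf K :=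
  h.commutator_idem (CfH7.elemAb_isPGroup (CfH7.elemAb_OZ _)) (CfH7.le_Nm_OZ_pCoreOf K)

theorem not_le_Cz_wOf : ¬ K ≤ Cz(wOf K) := fun e =>
  h.wOf_ne_bot (h.commutator_wOf ▸ CfH7.comm_eq_bot_right.2 e)

theorem inf_Cz_wOf : K ⊓ Cz(wOf K) = pCoreOf 2 K :=
  h.inf_eq (pCoreOf_le_Cz_wOf K) h.not_le_Cz_wOf

/-- `K` acts irreducibly on `W_K` -/
theorem irred {U : Subgroup G} (hU : U ≤ wOf K) (hK : K ≤ Nm(U)) : U = ⊥ ∨ U = wOf K := by
  by_contra hc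
  push Not at hc
  obtain ⟨h1, h2⟩ := hc
  have hlt : U < wOf K := lt_of_le_of_ne hU h2
  have hd : Nat.card U ∣ 4 := h.cardW ▸ card_dvd_of_le hU
  have hl : Nat.card U < 4 := h.cardW ▸ card_lt_of_lt hlt
  have hU2 : Nat.card U ≤ 2 := by
    have : Nat.card U ≠ 3 := fun e => by rw [e] at hd; omega
    omega
  have hKU : K ≤ Cz(U) := le_Cz_of_card_le_two hK hU2
  -- the fixed points of `K` on `W`
  have hW := isPGroup_wOf K
  apply h.wOf_ne_bot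
  rw [← h.commutator_wOf]
  refine commutator_eq_bot_of_pResidual hW (CfH8.le_Nm_wOf K) h.res (M := U) ?_
    (CfH7.comm_eq_bot_right.2 hKU)
  -- `W / U` has order 2
  have hidx : U.relIndex (wOf K) ∣ 2 := by
    have e := card_mul_relIndex hU
    rw [h.cardW] at e
    have : Nat.card U ≠ 1 := fun e => h1 (card_eq_one.1 e)
    have hp : 0 < Nat.card U := Nat.card_pos
    have : Nat.card U = 2 := by omega
    rw [this] at e
    have : U.relIndex (wOf K) = 2 := by omega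
    rw [this]
  rw [commutator_le]
  intro w hw k hk
  by_cases hwU : w ∈ U
  · exact commutator_mem_left hwU (hK hk)
  · have hw' : k * w⁻¹ * k⁻¹ ∈ wOf K :=
      conj_mem_of_mem_normalizer (CfH8.le_Nm_wOf K hk) (inv_mem hw)
    have hwU' : k * w⁻¹ * k⁻¹ ∉ U := fun e => hwU (by
      have := conj_mem_of_mem_normalizer' (hK hk) e
      simpa [mul_assoc] using this)
    have hle := le_sup_zpowers_of_relIndex_two hU hidx hw hwU
    have hWn : zpowers w ≤ Nm(U) :=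
      le_Nm_of_le_of_comm (elemAb_wOf K).1 (zpowers_le.2 hw) hU
    obtain ⟨u, hu, y, hy, e⟩ := (mem_sup_iff_of_le_normalizer_left hWn).1 (hle hw')
    have hw2 : w ^ 2 = 1 := (elemAb_wOf K).2 w hw
    rcases eq_one_or_eq_of_mem_zpowers hw2 hy with rfl | rfl
    · exact absurd (e ▸ by simpa using hu) hwU'
    · have e2 : ⁅y, k⁆ = y * u * y := by
        rw [commutatorElement_def, mul_assoc y u y, ← e]; group
      have e3 : y * u * y = y * u * y⁻¹ := by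
        rw [show y⁻¹ = y from inv_eq_of_mul_eq_one_right (by rw [← sq]; exact hw2)]
      rw [e2, e3]
      exact conj_mem_of_mem_normalizer (hWn (mem_zpowers y)) hu

theorem cj (g : G) : JC (cj g J) (cj g K) := by
  refine ⟨by rw [← cj_pResidualOf, h.res], by rw [← cj_commutator, h.comm],
    by rw [← CfH7.cj_pCoreOf, relIndex_cj, h.idx], fun S hS hJ => ?_,
    by rw [← cj_wOf, card_cj, h.cardW]⟩
  have h1 := hS.cj g⁻¹
  rw [← cj_sup, cj_inv_cj] at h1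
  have := h.syl _ h1 (cj_le_iff.1 hJ)
  rw [← cj_J] at this
  rw [← this, cj_cj_inv]

theorem cj_of_mem {g : G} (hg : g ∈ Nm(J)) : JC J (CfH9.cj g K) := by
  have := h.cj g
  rwa [cj_eq_of_mem_normalizer hg] at this

theorem pResidualOf_sup {Q : Subgroup G} (hQ : IsPGroup 2 Q) (hn : Q ≤ Nm(K)) :
    pResidualOf 2 (K ⊔ Q) = K := by
  rw [CfH7.pResidualOf_sup_of_isPGroup hQ hn, h.res]

theorem le_Nm_of_le_Nm_sup {Q X : Subgroup G} (hQ : IsPGroup 2 Q) (hn : Q ≤ Nm(K))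
    (hX : X ≤ Nm(K ⊔ Q)) : X ≤ Nm(K) := by
  have := hX.trans (CfH7.normalizer_le_normalizer_pResidualOf (p := 2) _)
  rwa [h.pResidualOf_sup hQ hn] at this

/-- 12.2.1 -/
theorem le_Nm_of_le_Nm (hJ : IsPGroup 2 J) {Q : Subgroup G} (h1 : K ≤ Nm(Q)) (h2 : Q ≤ Nm(J)) :
    Q ≤ Nm(K) := by
  have e1 : nclo J K = J ⊔ K := by rw [CfH7.nclo_eq_sup, commutator_comm, h.comm]
  have e2 : nclo J (Q ⊔ K) = nclo J K := by
    rw [sup_comm]
    apply le_antisymm _ (CfH7.nclo_mono le_rfl le_sup_left)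
    rw [CfH7.nclo_le_iff']
    intro g hg
    obtain ⟨k, hk, q, hq, rfl⟩ := (mem_sup_iff_of_le_normalizer_right h1).1 hg
    rw [cj_mul, cj_eq_of_mem_normalizer (h2 hq)]
    exact CfH7.cj_le_nclo hk
  apply h.le_Nm_of_le_Nm_sup hJ h.le_Nm
  rw [sup_comm, ← e1, ← e2]
  exact le_trans le_sup_left (CfH7.right_le_Nm_nclo _ _)

theorem le_nclo {L : Subgroup G} (hK : K ≤ L) : K ≤ nclo J L := by
  rw [← h.comm, commutator_comm]
  exact (Subgroup.commutator_mono le_rfl hK).trans (CfH7.commutator_le_nclo _ _)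

theorem not_le_Cz_J : ¬ J ≤ Cz(wOf K) := fun e => by
  apply h.not_le_Cz_wOf
  conv_lhs => rw [← h.comm]
  exact (Subgroup.commutator_mono le_rfl e).trans
    (CfH7.comm_le_right ((CfH8.le_Nm_wOf K).trans (Nm_le_Nm_Cz _)))

/-- an elementary abelian section centralized by `O₂(K)` on which `K` acts nontrivially -/
theorem card_hb {V : Subgroup G} (hK : K ≤ Nm(V)) (h1 : pCoreOf 2 K ≤ Cz(V))
    (h2 : ¬ K ≤ Cz(V)) : Nat.card (hb V K) = 3 := by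
  rw [CfH8.card_hb hK, ← h.idx, ← h.inf_eq h1 h2, inf_relIndex_left]

end JC

/-- `Z = Ω₁ Z(O₂(L))` -/
abbrev ZL (L : Subgroup G) : Subgroup G := OZ 2 (pCoreOf 2 L)

/-- `F(L / C_L(Z))` in the faithful model -/
abbrev RL (L : Subgroup G) : Subgroup (Hol (ZL L)) := fittingOf (hb (ZL L) L)

namespace LL

variable {T L : Subgroup G} (h : LL T L)
include h

theorem pgrp : IsPGroup 2 T := h.syl.pgrp

theorem J_le : JJ 2 T ≤ L := (CfH8.J_le T).trans h.syl.le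

theorem Q_le : pCoreOf 2 L ≤ T := CfH7.sylIn_pCoreOf_le h.syl

theorem Q_ne_bot : pCoreOf 2 L ≠ ⊥ := fun e => by
  have h1 := h.cz
  rw [e] at h1
  apply h.nle
  rw [e]
  exact le_trans (by rw [le_centralizer_iff]; exact bot_le) h1

theorem chP : ChP 2 L := CfH7.chP_iff.2 (inf_le_right.trans h.cz)

theorem Z_le : ZL L ≤ T := (CfH7.OZ_le _).trans h.Q_le

theorem Q_le_Nm_J : pCoreOf 2 L ≤ Nm(JJ 2 T) := h.Q_le.trans (le_Nm_J T)

theorem OZ_le : OZ 2 T ≤ ZL L :=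
  CfH7.OZ_le_OZ h.Q_le ((CfH7.OZ_le_Cz T).trans ((Cz_anti h.Q_le).trans h.cz))

theorem cj (g : G) : LL (cj g T) (cj g L) :=
  ⟨h.syl.cj g, by rw [← cj_J, ← CfH7.cj_pCoreOf, cj_le_cj_iff]; exact h.nle,
    by rw [← CfH7.cj_pCoreOf, ← cj_centralizer, cj_le_cj_iff]; exact h.cz⟩

theorem of_syl {T' : Subgroup G} (h' : SylIn 2 T' L) : LL T' L := by
  obtain ⟨x, hx, rfl⟩ := h.syl.conj h'
  have := h.cj x
  rwa [cj_eq_of_mem hx] at this

theorem J_eq {S : Subgroup G} (hS : IsPGroup 2 S) (hSL : S ≤ L) (hJ : JJ 2 T ≤ S) :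
    JJ 2 S = JJ 2 T := by
  obtain ⟨x, -, hx⟩ := h.syl.exists_le_cj hS hSL
  have e := J_eq_of_le_cj (hJ.trans hx)
  rw [← e]
  exact J_eq_of_J_le (e ▸ hJ) hx

variable (hG : ZN G)
include hG

theorem solv : Group.IsSolvable L :=
  haveI := hG.solv _ (CfH7.isPGroup_pCoreOf L) h.Q_ne_bot
  Group.isSolvable_of_isSolvable_injective (f := inclusion (CfH7.le_normalizer_pCoreOf (p := 2) L))
    (inclusion_injective _)

theorem C_le_Nm : L ⊓ Cz(ZL L) ≤ Nm(T) := by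
  obtain ⟨S, hS, hTS⟩ := exists_sylIn_ge h.pgrp le_top
  have h1 : OZ 2 S ≤ ZL L :=
    CfH7.OZ_le_OZ (h.Q_le.trans hTS)
      ((CfH7.OZ_le_Cz S).trans ((Cz_anti (h.Q_le.trans hTS)).trans h.cz))
  have e : S ⊓ L = T := h.syl.eq_of_le (hS.pgrp.to_le inf_le_left) inf_le_right
    (le_inf hTS h.syl.le)
  rw [← e]
  exact CfH7.le_normalizer_inf (inf_le_right.trans ((Cz_anti h1).trans (hG.zc S hS)))
    (inf_le_left.trans le_normalizer)

theorem inf_C_le : T ⊓ (L ⊓ Cz(ZL L)) ≤ pCoreOf 2 L := by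
  have hn : L ≤ Nm(L ⊓ Cz(ZL L)) := CfH7.le_normalizer_inf le_normalizer
    ((CfH7.le_Nm_OZ_pCoreOf L).trans (Nm_le_Nm_Cz _))
  refine le_trans (CfH7.le_pCoreOf inf_le_right
    (CfH7.le_normalizer_inf (h.C_le_Nm hG) le_normalizer) (h.pgrp.to_le inf_le_left)) ?_
  exact CfH7.pCoreOf_le_pCoreOf_of_normal inf_le_left hn

theorem le_of_le_sup_C {X : Subgroup G} (hX : IsPGroup 2 X) (hle : X ≤ T ⊔ (L ⊓ Cz(ZL L))) :
    X ≤ T :=
  (h.syl.mono le_sup_left (sup_le h.syl.le inf_le_left)).le_of_le_Nm' hX hle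
    (hle.trans (sup_le le_normalizer (h.C_le_Nm hG)))

theorem le_Q_of_le_C {X : Subgroup G} (hX : IsPGroup 2 X) (hXL : X ≤ L) (hle : X ≤ Cz(ZL L)) :
    X ≤ pCoreOf 2 L :=
  le_trans (le_inf (h.le_of_le_sup_C hG hX (le_trans (le_inf hXL hle) le_sup_right))
    (le_inf hXL hle)) (h.inf_C_le hG)

theorem comm_C_T : ⁅L ⊓ Cz(ZL L), T⁆ ≤ pCoreOf 2 L :=
  le_trans (le_inf (CfH7.comm_le_right (h.C_le_Nm hG)) (CfH7.comm_le_left (h.syl.le.trans
    (CfH7.le_normalizer_inf le_normalizer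
      ((CfH7.le_Nm_OZ_pCoreOf L).trans (Nm_le_Nm_Cz _)))))) (h.inf_C_le hG)

theorem comm_C_nclo : ⁅L ⊓ Cz(ZL L), nclo (JJ 2 T) L⁆ ≤ pCoreOf 2 L :=
  CfH7.commutator_nclo_le (CfH7.le_normalizer_inf le_normalizer
      ((CfH7.le_Nm_OZ_pCoreOf L).trans (Nm_le_Nm_Cz _))) (CfH7.le_normalizer_pCoreOf L)
    (h.J_le.trans (CfH7.le_normalizer_pCoreOf L))
    ((Subgroup.commutator_mono le_rfl (CfH8.J_le T)).trans (h.comm_C_T hG))

theorem redOn : RedOn 2 L (ZL L) := by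
  intro N hNL hn hres
  have hS : SylIn 2 (T ⊓ N) N := h.syl.inf_normal' hn hNL
  have h1 : N ≤ Nm(T ⊓ N) := by
    conv_lhs => rw [← CfH7.sylIn_pResidualOf_sup hS]
    refine sup_le (CfH7.le_normalizer_inf ?_ ((CfH7.pResidualOf_le _).trans le_normalizer))
      le_normalizer
    exact le_trans (le_inf ((CfH7.pResidualOf_le _).trans hNL) hres) (h.C_le_Nm hG)
  conv_lhs => rw [← CfH7.sylIn_pResidualOf_sup hS]
  refine sup_le hres ?_
  exact ((CfH7.le_pCoreOf inf_le_right h1 hS.pgrp).trans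
    (CfH7.pCoreOf_le_pCoreOf_of_normal hNL hn)).trans (CfH7.le_Cz_OZ _)

theorem J_not_le_C : ¬ JJ 2 T ≤ Cz(ZL L) := fun e =>
  h.nle (h.le_Q_of_le_C hG (isPGroup_J h.pgrp) h.J_le e)

theorem best {A : Subgroup G} (hA : MaxEl 2 A T) : Best (hv (ZL L) (ZL L)) (hb (ZL L) A) :=
  (hA.best h.Z_le (CfH7.elemAb_OZ _)).hb
    ((hA.le.trans h.syl.le).trans (CfH7.le_Nm_OZ_pCoreOf L)) le_rfl

theorem pCoreOf_hb : pCoreOf 2 (hb (ZL L) L) = ⊥ :=
  pCoreOf_hb_eq_bot (CfH7.le_Nm_OZ_pCoreOf L) (h.redOn hG)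

theorem odd_RL : Odd (Nat.card (RL L)) := odd_card_fittingOf (h.pCoreOf_hb hG)

theorem ff : pResidualOf 2 (nclo (hb (ZL L) (JJ 2 T)) (hb (ZL L) L)) ≤ RL L ∧
    ⁅RL L, hb (ZL L) (JJ 2 T)⁆ ≤ ddJoinA (hv (ZL L) (ZL L)) (RL L) (hb (ZL L) (JJ 2 T)) ∧
    ∀ D, D ≤ RL L → DD (hv (ZL L) (ZL L)) D → hb (ZL L) (JJ 2 T) ≤ Nm(D) := by
  have hLZ := CfH7.le_Nm_OZ_pCoreOf (p := 2) L
  refine ff2_main (elemAb_hv (CfH7.elemAb_OZ _)) (hb_le_Nm_hv_self _) (hb_faithful _)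
    (h.pCoreOf_hb hG) (isSolvable_hb hLZ (h.solv hG)) (hb_mono h.J_le) fun W hW => ?_
  rw [hb_le_iff (h.J_le.trans hLZ), J_le_iff]
  intro A hA
  rw [← hb_le_iff ((hA.le.trans h.syl.le).trans hLZ)]
  exact hW _ (hb_mono hA.le_J) (elemAb_hb hA.el) (h.best hG hA)

end LL

theorem RL_le (L : Subgroup G) : RL L ≤ hb (ZL L) L := CfH7.fittingOf_le _

theorem RL_nil (L : Subgroup G) : Group.IsNilpotent (RL L) := CfH7.isNilpotent_fittingOf _

theorem RL_le_Nm (L : Subgroup G) : RL L ≤ Nm(hv (ZL L) (ZL L)) :=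
  (RL_le L).trans (hb_le_Nm_hv_self _)

theorem RL_faithful (L : Subgroup G) : RL L ⊓ Cz(hv (ZL L) (ZL L)) = ⊥ :=
  le_bot_iff.1 ((inf_le_inf_right _ (RL_le L)).trans (hb_faithful _).le)

theorem elemAb_VL (L : Subgroup G) : IsElementaryAbelian 2 (hv (ZL L) (ZL L)) :=
  elemAb_hv (CfH7.elemAb_OZ _)

theorem hb_le_Nm_RL {L X : Subgroup G} (h : X ≤ L) : hb (ZL L) X ≤ Nm(RL L) :=
  (hb_mono h).trans (CfH7.le_normalizer_fittingOf _)

theorem le_Nm_CL (L : Subgroup G) : L ≤ Nm(L ⊓ Cz(ZL L)) :=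
  CfH7.le_normalizer_inf le_normalizer ((CfH7.le_Nm_OZ_pCoreOf L).trans (Nm_le_Nm_Cz _))

theorem hb_le_hb_iff' {L X Y : Subgroup G} (hX : X ≤ L) (hY : Y ≤ L) :
    hb (ZL L) X ≤ hb (ZL L) Y ↔ X ≤ Y ⊔ (L ⊓ Cz(ZL L)) := by
  have hLZ := CfH7.le_Nm_OZ_pCoreOf (p := 2) L
  rw [hb_le_hb_iff (hX.trans hLZ) (hY.trans hLZ)]
  constructor
  · intro h
    have := le_inf h hX
    rwa [CfH9.inf_sup_dedekind (Or.inl ((hY.trans hLZ).trans (Nm_le_Nm_Cz _))) hY,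
      inf_comm] at this
  · exact fun h => h.trans (sup_le_sup_left inf_le_right _)

section comp

variable {T L K : Subgroup G} (hG : ZN G) (h : LL T L) (hK : JC (JJ 2 T) K) (hKL : K ≤ L)
include hG h hK hKL

theorem comp_le_RL : hb (ZL L) K ≤ RL L := by
  have hLZ := CfH7.le_Nm_OZ_pCoreOf (p := 2) L
  refine le_trans ?_ (h.ff hG).1
  rw [← hb_nclo (h.J_le.trans hLZ) hLZ,
    ← hb_pResidualOf ((CfH7.nclo_le_of_le h.J_le).trans hLZ)]
  apply hb_mono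
  conv_lhs => rw [← hK.res]
  exact CfH7.pResidualOf_mono (hK.le_nclo hKL)

theorem comp_pCoreOf_le : pCoreOf 2 K ≤ pCoreOf 2 L := by
  have hLZ := CfH7.le_Nm_OZ_pCoreOf (p := 2) L
  have h1 := (CfH7.pCoreOf_le (p := 2) K).trans hKL
  refine h.le_Q_of_le_C hG (CfH7.isPGroup_pCoreOf K) h1 ?_
  rw [← hb_eq_bot_iff (h1.trans hLZ)]
  refine eq_bot_of_not_dvd (isPGroup_hb (CfH7.isPGroup_pCoreOf (p := 2) K))
    ((hb_mono (CfH7.pCoreOf_le K)).trans (comp_le_RL hG h hK hKL)) ?_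
  rw [← even_iff_two_dvd, Nat.not_even_iff_odd]
  exact h.odd_RL hG

theorem comp_not_le_C : ¬ K ≤ Cz(ZL L) := fun e => by
  apply hK.not_le (CfH7.isPGroup_pCoreOf (p := 2) L)
  rw [← hK.comm]
  exact (Subgroup.commutator_mono (le_inf hKL e) (J_le T)).trans (h.comm_C_T hG)

theorem comp_inf_C : K ⊓ Cz(ZL L) = pCoreOf 2 K :=
  hK.inf_eq ((comp_pCoreOf_le hG h hK hKL).trans (CfH7.le_Cz_OZ _)) (comp_not_le_C hG h hK hKL)

theorem comp_inf_Q : K ⊓ pCoreOf 2 L = pCoreOf 2 K :=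
  hK.inf_eq (comp_pCoreOf_le hG h hK hKL) (hK.not_le (CfH7.isPGroup_pCoreOf L))

theorem comp_Q_le_Nm : pCoreOf 2 L ≤ Nm(K) :=
  hK.le_Nm_of_le_Nm (isPGroup_J h.pgrp) (hKL.trans (CfH7.le_normalizer_pCoreOf L)) h.Q_le_Nm_J

theorem comp_commutator_eq : ⁅ZL L, K⁆ = wOf K := by
  have hKZ := hKL.trans (CfH7.le_Nm_OZ_pCoreOf (p := 2) L)
  have hZ := CfH7.elemAb_OZ (p := 2) (pCoreOf 2 L)
  have h1 : ⁅ZL L, K⁆ ≤ ZL L := CfH7.comm_le_left hKZ
  have h2 : ⁅ZL L, K⁆ ≤ OZ 2 (pCoreOf 2 K) := by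
    refine CfH7.le_OZ (CfH7.elemAb_of_le h1 hZ) ?_
      (h1.trans ((CfH7.OZ_le_Cz _).trans (Cz_anti (comp_pCoreOf_le hG h hK hKL))))
    rw [← comp_inf_Q hG h hK hKL]
    exact le_inf (CfH7.comm_le_right ((CfH7.OZ_le _).trans (comp_Q_le_Nm hG h hK hKL)))
      (h1.trans (CfH7.OZ_le _))
  have h3 : ⁅ZL L, K⁆ ≤ wOf K := by
    rw [← hK.commutator_idem (CfH7.elemAb_isPGroup hZ) hKZ]
    exact Subgroup.commutator_mono h2 le_rfl
  refine (hK.irred h3 (CfH7.right_le_Nm_comm _ _)).resolve_left fun e => ?_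
  exact comp_not_le_C hG h hK hKL (CfH7.comm_eq_bot_right.1 e)

theorem comp_wOf_le : wOf K ≤ ZL L := by
  rw [← comp_commutator_eq hG h hK hKL]
  exact CfH7.comm_le_left (hKL.trans (CfH7.le_Nm_OZ_pCoreOf L))

theorem comp_hv : ⁅hv (ZL L) (ZL L), hb (ZL L) K⁆ = hv (ZL L) (wOf K) := by
  rw [← hv_commutator le_rfl (hKL.trans (CfH7.le_Nm_OZ_pCoreOf L)),
    comp_commutator_eq hG h hK hKL]

theorem comp_dd : DD (hv (ZL L) (ZL L)) (hb (ZL L) K) :=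
  ⟨hK.card_hb (hKL.trans (CfH7.le_Nm_OZ_pCoreOf L))
    ((comp_pCoreOf_le hG h hK hKL).trans (CfH7.le_Cz_OZ _)) (comp_not_le_C hG h hK hKL), by
    rw [comp_hv hG h hK hKL, card_hv (comp_wOf_le hG h hK hKL), hK.cardW]⟩

theorem comp_C_le_Nm : L ⊓ Cz(ZL L) ≤ Nm(K) := by
  refine hK.le_Nm_of_le_Nm_sup (CfH7.isPGroup_pCoreOf L) (comp_Q_le_Nm hG h hK hKL) ?_
  refine CfH7.le_Nm_sup_of_comm_le (inf_le_left.trans (CfH7.le_normalizer_pCoreOf L)) ?_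
  rw [commutator_comm]
  exact ((Subgroup.commutator_mono le_rfl (hK.le_nclo hKL)).trans (h.comm_C_nclo hG)).trans
    le_sup_right

/-- 12.2.2 (subnormality) -/
theorem comp_subnIn : SubnIn K L := by
  have hLZ := CfH7.le_Nm_OZ_pCoreOf (p := 2) L
  have h1 : SubnIn (hb (ZL L) K) (hb (ZL L) L) :=
    (CfH7.subnIn_of_isNilpotent (RL_nil L) (comp_le_RL hG h hK hKL)).trans
      (CfH7.subnIn_of_normal (RL_le L) (CfH7.le_normalizer_fittingOf _))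
  have h2 : SubnIn (hp (ZL L) (hb (ZL L) K)) (hp (ZL L) (hb (ZL L) L)) :=
    (h1.comap _).map _
  rw [hp_hb (hKL.trans hLZ), hp_hb hLZ] at h2
  have h3 := h2.inf_right (le_sup_left : L ≤ _)
  rw [CfH9.inf_sup_dedekind (Or.inl ((hKL.trans hLZ).trans (Nm_le_Nm_Cz _))) hKL,
    inf_comm] at h3
  exact CfH7.SubnIn.step le_sup_left (sup_le le_normalizer (comp_C_le_Nm hG h hK hKL)) h3

variable {K' : Subgroup G} (hK' : JC (JJ 2 T) K') (hKL' : K' ≤ L)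
include hK' hKL'

theorem comp_le_of_hb_le (e : hb (ZL L) K' ≤ hb (ZL L) K) : K' ≤ K := by
  rw [hb_le_hb_iff' hKL' hKL] at e
  have hQ := comp_Q_le_Nm hG h hK hKL
  have h1 : K' ≤ K ⊔ pCoreOf 2 L := by
    rw [← hK'.comm]
    refine (Subgroup.commutator_mono e le_rfl).trans (CfH7.commutator_sup_left_le
      (le_sup_left.trans le_normalizer) ?_ (hK.comm.le.trans le_sup_left) ?_)
    · exact CfH7.le_normalizer_sup (comp_C_le_Nm hG h hK hKL)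
        (inf_le_left.trans (CfH7.le_normalizer_pCoreOf L))
    · exact ((Subgroup.commutator_mono le_rfl (J_le T)).trans (h.comm_C_T hG)).trans le_sup_right
  have := CfH7.pResidualOf_mono (p := 2) h1
  rwa [hK'.res, hK.pResidualOf_sup (CfH7.isPGroup_pCoreOf L) hQ] at this

theorem comp_eq_of_hb_eq (e : hb (ZL L) K = hb (ZL L) K') : K = K' :=
  le_antisymm (comp_le_of_hb_le hG h hK' hKL' hK hKL e.le)
    (comp_le_of_hb_le hG h hK hKL hK' hKL' e.ge)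

theorem comp_wOf_inf (hne : K ≠ K') : wOf K ⊓ wOf K' = ⊥ := by
  have := DD.W_inf_eq_bot' (elemAb_VL L) (RL_nil L) (RL_le_Nm L) (RL_faithful L)
    (comp_dd hG h hK hKL) (comp_dd hG h hK' hKL') (comp_le_RL hG h hK hKL)
    (comp_le_RL hG h hK' hKL') fun e => hne (comp_eq_of_hb_eq hG h hK hKL hK' hKL' e)
  rwa [comp_hv hG h hK hKL, comp_hv hG h hK' hKL', ← hv_inf,
    hv_eq_bot_iff (inf_le_left.trans (comp_wOf_le hG h hK hKL))] at this

theorem comp_eq_of_wOf_inf (hne : wOf K ⊓ wOf K' ≠ ⊥) : K = K' := by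
  by_contra hc
  exact hne (comp_wOf_inf hG h hK hKL hK' hKL' hc)

theorem comp_le_Cz_wOf (hne : K ≠ K') : K' ≤ Cz(wOf K) := by
  have := DD.le_Cz_W (elemAb_VL L) (RL_nil L) (RL_le_Nm L) (RL_faithful L)
    (comp_dd hG h hK hKL) (comp_dd hG h hK' hKL') (comp_le_RL hG h hK hKL)
    (comp_le_RL hG h hK' hKL') fun e => hne (comp_eq_of_hb_eq hG h hK hKL hK' hKL' e)
  rwa [comp_hv hG h hK hKL, hb_le_Cz_hv_iff (hKL'.trans (CfH7.le_Nm_OZ_pCoreOf L))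
    (comp_wOf_le hG h hK hKL)] at this

theorem comp_commutator_le_C : ⁅K, K'⁆ ≤ L ⊓ Cz(ZL L) := by
  have hLZ := CfH7.le_Nm_OZ_pCoreOf (p := 2) L
  have := DD.le_Cz (elemAb_VL L) (RL_nil L) (RL_le_Nm L) (RL_faithful L)
    (comp_dd hG h hK hKL) (comp_dd hG h hK' hKL') (comp_le_RL hG h hK hKL)
    (comp_le_RL hG h hK' hKL')
  rw [← CfH7.comm_eq_bot_right, ← hb_commutator (hKL.trans hLZ) (hKL'.trans hLZ),
    hb_eq_bot_iff ((commutator_le_self' hKL hKL').trans hLZ)] at this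
  exact le_inf (commutator_le_self' hKL hKL') this

theorem comp_commutator_le_aux {a : G} (ha : a ∈ JJ 2 T) (h1 : ⁅K, zpowers a⁆ ≤ Cz(ZL L))
    (h2 : ¬ ⁅K', zpowers a⁆ ≤ Cz(ZL L)) : ⁅K, K'⁆ ≤ pCoreOf 2 L := by
  have hQ := CfH7.le_normalizer_pCoreOf (p := 2) L
  have haJ : zpowers a ≤ JJ 2 T := zpowers_le.2 ha
  have e : ⁅K', zpowers a⁆ = K' := by
    refine hK'.eq_of_not_le (CfH7.comm_le_left (haJ.trans hK'.le_Nm))
      ((CfH7.pCoreOf_le _).trans (CfH7.left_le_Nm_comm _ _)) fun e => h2 ?_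
    exact e.trans ((comp_pCoreOf_le hG h hK' hKL').trans (CfH7.le_Cz_OZ _))
  have h3 : ⁅zpowers a, K⁆ ≤ pCoreOf 2 L := by
    rw [commutator_comm]
    refine le_trans ?_ (comp_pCoreOf_le hG h hK hKL)
    rw [← comp_inf_C hG h hK hKL]
    exact le_inf (CfH7.comm_le_left (haJ.trans hK.le_Nm)) h1
  rw [commutator_comm, ← e]
  refine three_subgroups (hKL'.trans hQ) ((haJ.trans h.J_le).trans hQ) (hKL.trans hQ) ?_ ?_
  · exact (Subgroup.commutator_mono h3 le_rfl).trans (CfH7.comm_le_left (hKL'.trans hQ))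
  · exact (Subgroup.commutator_mono (comp_commutator_le_C hG h hK hKL hK' hKL')
      (haJ.trans (J_le T))).trans (h.comm_C_T hG)

theorem comp_commutator_le (hne : K ≠ K') : ⁅K, K'⁆ ≤ pCoreOf 2 L := by
  have hLZ := CfH7.le_Nm_OZ_pCoreOf (p := 2) L
  have hne' : hb (ZL L) K ≠ hb (ZL L) K' := fun e => hne (comp_eq_of_hb_eq hG h hK hKL hK' hKL' e)
  obtain ⟨A, hA, hAK⟩ : ∃ A, MaxEl 2 A T ∧ ¬ hb (ZL L) A ≤ Cz(hb (ZL L) K) := by
    by_contra hc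
    push Not at hc
    have h1 : hb (ZL L) (JJ 2 T) ≤ Cz(hb (ZL L) K) := by
      rw [hb_le_iff (h.J_le.trans hLZ), J_le_iff]
      intro A hA
      rw [← hb_le_iff ((hA.le.trans h.syl.le).trans hLZ)]
      exact hc A hA
    rw [← CfH7.comm_eq_bot_right, ← hb_commutator (hKL.trans hLZ) (h.J_le.trans hLZ), hK.comm,
      hb_eq_bot_iff (hKL.trans hLZ)] at h1
    exact comp_not_le_C hG h hK hKL h1
  have hAL := hA.le.trans h.syl.le
  obtain ⟨x, hx, hsep⟩ := exists_separating (elemAb_VL L) (RL_nil L) (h.odd_RL hG) (RL_le_Nm L)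
    (RL_faithful L) (elemAb_hb hA.el) (hb_le_Nm_hv_self _) (h.best hG hA) (hb_le_Nm_RL hAL)
    (comp_le_RL hG h hK hKL) (comp_dd hG h hK hKL) (comp_le_RL hG h hK' hKL')
    (comp_dd hG h hK' hKL') hne' hAK
  obtain ⟨a, ha, rfl⟩ := mem_hb.1 hx
  have key : ∀ X : Subgroup G, X ≤ L →
      (holA (ZL L) a ∈ Cz(hb (ZL L) X) ↔ ⁅X, zpowers (a : G)⁆ ≤ Cz(ZL L)) := fun X hX => by
    have haL : zpowers (a : G) ≤ L := zpowers_le.2 (hAL ha)
    rw [← zpowers_le, ← hb_zpowers, ← CfH7.comm_eq_bot_right,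
      ← hb_commutator (hX.trans hLZ) (haL.trans hLZ),
      hb_eq_bot_iff ((commutator_le_self' hX haL).trans hLZ)]
  rw [key K hKL, key K' hKL'] at hsep
  rcases hsep with ⟨h1, h2⟩ | ⟨h1, h2⟩
  · exact comp_commutator_le_aux hG h hK hKL hK' hKL' (hA.le_J ha) h1 h2
  · rw [commutator_comm]
    exact comp_commutator_le_aux hG h hK' hKL' hK hKL (hA.le_J ha) h2 h1

theorem comp_le_Nm : K' ≤ Nm(K) := by
  by_cases hne : K = K'
  · exact hne ▸ le_normalizer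
  refine hK.le_Nm_of_le_Nm_sup (CfH7.isPGroup_pCoreOf L) (comp_Q_le_Nm hG h hK hKL) ?_
  exact CfH7.le_Nm_sup_of_comm_le (hKL'.trans (CfH7.le_normalizer_pCoreOf L))
    ((comp_commutator_le hG h hK hKL hK' hKL' hne).trans le_sup_right)

end comp

end CfH8
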