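import Cfsg.Agent.OD.Pre
import Cfsg.Agent.H8.JComp

/-!
# J(T)-components: existence and generation
-/

set_option autoImplicit false
set_option linter.unusedSectionVars false

namespace CfH8

open Subgroup MulAction CfH9 Cfsg
open scoped commutatorElement
open CfH7 (OZ ChP SubnIn nclo RedOn)

variable {G : Type*} [Group G] [Finite G]

/-- criterion for `|W_K| = 4` -/
theorem card_commutator_eq_four {T K Y : Subgroup G} (hY : IsElementaryAbelian 2 Y) (hYT : Y ≤ T)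
    (hKY : K ≤ Nm(Y)) (hJY : JJ 2 T ≤ Nm(Y)) (hJK : JJ 2 T ≤ Nm(K)) (hc : ⁅K, JJ 2 T⁆ = K)
    (h3 : Nat.card (hb Y K) = 3) : Nat.card (⁅Y, K⁆ : Subgroup G) = 4 := by
  haveI : Fact (Nat.Prime 3) := ⟨Nat.prime_three⟩
  have hK1 : hb Y K ≠ ⊥ := fun e => by rw [e, card_bot] at h3; omega
  obtain ⟨A, hA, hAK⟩ : ∃ A, MaxEl 2 A T ∧ ¬ hb Y A ≤ Cz(hb Y K) := by
    by_contra hc'
    push Not at hc'
    have h1 : hb Y (JJ 2 T) ≤ Cz(hb Y K) := by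
      rw [hb_le_iff hJY, J_le_iff]
      intro A hA
      rw [← hb_le_iff (hA.le_J.trans hJY)]
      exact hc' A hA
    rw [← CfH7.comm_eq_bot_right, ← hb_commutator hKY hJY, hc] at h1
    exact hK1 h1
  have hP : IsPGroup 3 (hb Y K) := IsPGroup.of_card (n := 1) (by simpa using h3)
  have := commutator_le_ddJoinA (elemAb_hv hY) hP.isNilpotent (by rw [h3]; decide)
    (hb_le_Nm_hv_self _) (hb_faithful _) (elemAb_hb hA.el) (hb_le_Nm_hv_self _)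
    ((hA.best hYT hY).hb (hA.le_J.trans hJY) le_rfl) (hb_le_Nm (hA.le_J.trans hJK))
  obtain ⟨D, hD, hDD, -⟩ : ∃ D, D ≤ hb Y K ∧ DD (hv Y Y) D ∧ ⁅D, hb Y A⁆ = D := by
    by_contra hc'
    apply hAK
    rw [← CfH7.comm_eq_bot_right, ← le_bot_iff]
    exact this.trans (sSup_le fun D hD => absurd ⟨D, hD⟩ hc')
  have e : D = hb Y K := eq_of_le_of_card_ge hD (by rw [h3, hDD.card])
  have h4 := hDD.cardW
  rwa [e, ← hv_commutator le_rfl hKY, card_hv (CfH7.comm_le_left hKY)] at h4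

section

variable {T L : Subgroup G} (hG : ZN G) (h : LL T L)
include hG h

theorem odd_relIndex_C : ¬ 2 ∣ (pCoreOf 2 L).relIndex (L ⊓ Cz(ZL L)) := by
  have hS : SylIn 2 (T ⊓ (L ⊓ Cz(ZL L))) (L ⊓ Cz(ZL L)) :=
    h.syl.inf_normal' (le_Nm_CL L) inf_le_left
  have e : T ⊓ (L ⊓ Cz(ZL L)) = pCoreOf 2 L := le_antisymm (h.inf_C_le hG)
    (le_inf h.Q_le (le_inf (CfH7.pCoreOf_le _) (CfH7.le_Cz_OZ _)))
  rw [e] at hS
  exact hS.not_dvd_relIndex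

theorem exists_comp {D : Subgroup (Hol (ZL L))} (hDL : D ≤ hb (ZL L) L) (hD3 : Nat.card D = 3)
    (hDJ : ⁅D, hb (ZL L) (JJ 2 T)⁆ = D) :
    ∃ K, JC (JJ 2 T) K ∧ K ≤ L ∧ hb (ZL L) K = D := by
  haveI : Fact (Nat.Prime 3) := ⟨Nat.prime_three⟩
  set J := JJ 2 T with hJdef
  set Q := pCoreOf 2 L with hQdef
  set C := L ⊓ Cz(ZL L) with hCdef
  have hLZ := CfH7.le_Nm_OZ_pCoreOf (p := 2) L
  have hLQ : L ≤ Nm(Q) := CfH7.le_normalizer_pCoreOf L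
  have hQp : IsPGroup 2 Q := CfH7.isPGroup_pCoreOf L
  have hQL : Q ≤ L := CfH7.pCoreOf_le L
  have hQC : Q ≤ C := le_inf hQL (CfH7.le_Cz_OZ _)
  have hJL : J ≤ L := h.J_le
  have hJp : IsPGroup 2 J := isPGroup_J h.pgrp
  set X := L ⊓ hp (ZL L) D with hXdef
  have hXL : X ≤ L := inf_le_left
  have hXD : hb (ZL L) X = D := hb_inf_hp_of_le hDL
  have hCX : C ≤ X := inf_le_inf_left _ (Cz_le_hp _)
  have hJX : J ≤ Nm(X) := CfH7.le_normalizer_inf (hJL.trans le_normalizer)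
    (le_Nm_hp (hJL.trans hLZ) (hDJ ▸ CfH7.right_le_Nm_comm _ _))
  have hCidx : C.relIndex X = 3 := by
    have := card_hb (hXL.trans hLZ)
    rw [hXD, hD3] at this
    rw [this, ← inf_relIndex_right (Cz(ZL L)), ← inf_relIndex_right C, hCdef, inf_assoc,
      inf_eq_right.2 (inf_le_right.trans hXL)]
  -- work modulo `Q`
  have hXodd : Odd (Nat.card (qb Q X)) := by
    rw [card_qb (hXL.trans hLQ), ← relIndex_mul_relIndex Q C X hQC hCX, hCidx,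
      ← Nat.not_even_iff_odd, even_iff_two_dvd]
    intro hd
    rcases (Nat.prime_two.dvd_mul).1 hd with h1 | h1
    · exact odd_relIndex_C hG h h1
    · omega
  set N := ⁅X, J⁆ with hNdef
  have hNX : N ≤ X := CfH7.comm_le_left hJX
  have hNL : N ≤ L := hNX.trans hXL
  have hJN : J ≤ Nm(N) := CfH7.right_le_Nm_comm _ _
  have hND : hb (ZL L) N = D := by
    rw [hNdef, hb_commutator (hXL.trans hLZ) (hJL.trans hLZ), hXD, hDJ]
  have hNE : N ≤ nclo J L := by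
    rw [hNdef, commutator_comm]
    exact (Subgroup.commutator_mono le_rfl hXL).trans (CfH7.commutator_le_nclo _ _)
  have hJq := isPGroup_qb (Q := Q) hJp
  have hcopX : (Nat.card (qb Q J)).Coprime (Nat.card (qb Q X)) :=
    (coprime_of_odd_of_elem hJq hXodd).symm
  have hNN : ⁅qb Q N, qb Q J⁆ = qb Q N := by
    rw [hNdef, qb_commutator (hXL.trans hLQ) (hJL.trans hLQ)]
    exact commutator_commutator_eq (qb_le_Nm hJX) hcopX (Or.inl (isSolvable_of_isPGroup hJq))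
  have hNodd : Odd (Nat.card (qb Q N)) := odd_card_of_le (qb_mono hNX) hXodd
  have hNC : qb Q N ≤ Cz(qb Q C) := by
    rw [qb_le_Cz_iff (hNL.trans hLQ) (inf_le_left.trans hLQ), commutator_comm]
    exact (Subgroup.commutator_mono le_rfl hNE).trans (h.comm_C_nclo hG)
  have hNnC : ¬ N ≤ C := fun e => by
    have : hb (ZL L) N = ⊥ := (hb_eq_bot_iff (hNL.trans hLZ)).2 (e.trans inf_le_right)
    rw [hND] at this
    rw [this, card_bot] at hD3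
    omega
  obtain ⟨x, hxN, hxC⟩ := SetLike.not_le_iff_exists.1 hNnC
  have hXx : X = C ⊔ zpowers x :=
    ((eq_or_eq_of_relIndex_prime hCidx le_sup_left (sup_le hCX (zpowers_le.2 (hNX hxN)))).resolve_left
      fun e => hxC (e ▸ (le_sup_right : zpowers x ≤ C ⊔ zpowers x) (mem_zpowers x))).symm
  have hxN' : zpowers x ≤ N := zpowers_le.2 hxN
  have hNx : N = (C ⊓ N) ⊔ zpowers x := by
    rw [← inf_sup_dedekind' ((hxN'.trans hNL).trans (le_Nm_CL L)) hxN', ← hXx,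
      inf_eq_right.2 hNX]
  have hNab : IsMulCommutative (qb Q N) := by
    rw [hNx, qb_sup ((inf_le_right.trans hNL).trans hLQ) ((hxN'.trans hNL).trans hLQ)]
    have h1 : qb Q (C ⊓ N) ≤ Cz(qb Q N) :=
      CfH7.le_Cz_comm (hNC.trans (Cz_anti (qb_mono inf_le_left)))
    refine comm_sup ?_ ?_ (h1.trans (Cz_anti (qb_mono hxN')))
    · exact CfH9.comm_of_le (le_inf le_rfl (h1.trans (Cz_anti (qb_mono inf_le_right))))
        (comm_inf_Cz _)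
    · have := qb_zpowers (Q := Q) ⟨x, hLQ (hNL hxN)⟩
      rw [this]
      exact comm_zpowers _
  have hNJ : qb Q N ⊓ Cz(qb Q J) = ⊥ := by
    have := card_eq_mul_of_coprime hNab (qb_le_Nm hJN) (coprime_of_odd_of_elem hJq hNodd).symm
    rw [hNN] at this
    have hp : 0 < Nat.card (qb Q N) := Nat.card_pos
    rw [← card_eq_one]
    exact (Nat.mul_eq_left hp.ne').1 this.symm
  have hNCQ : N ⊓ C ≤ Q := by
    rw [← qb_eq_bot_iff ((inf_le_left.trans hNL).trans hLQ), qb_inf (inf_le_left.trans hLQ) hQC,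
      ← le_bot_iff, ← hNJ]
    refine inf_le_inf_left _ ?_
    rw [qb_le_Cz_iff (inf_le_left.trans hLQ) (hJL.trans hLQ)]
    exact (Subgroup.commutator_mono le_rfl (J_le T)).trans (h.comm_C_T hG)
  have hN3 : Nat.card (qb Q N) = 3 := by
    rw [card_qb (hNL.trans hLQ), ← hD3, ← hND, card_hb (hNL.trans hLZ),
      ← inf_relIndex_right (Cz(ZL L)), ← inf_relIndex_right Q]
    congr 1
    exact le_antisymm (inf_le_inf_right _ (CfH7.le_Cz_OZ _))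
      (le_inf (le_trans (le_inf inf_le_right (le_inf (inf_le_right.trans hNL) inf_le_left)) hNCQ)
        inf_le_right)
  -- the component
  set K := pResidualOf 2 (N ⊔ Q) with hKdef
  have hNQ : N ⊔ Q ≤ L := sup_le hNL hQL
  have hKNQ : K ≤ N ⊔ Q := CfH7.pResidualOf_le _
  have hKL : K ≤ L := hKNQ.trans hNQ
  have hKq : qb Q K = qb Q N := by
    rw [hKdef, qb_pResidualOf (hNQ.trans hLQ), qb_sup_self (hNL.trans hLQ)]
    exact CfH7.pResidualOf_eq_self_of_coprime (by rw [hN3]; decide)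
  have hKD : hb (ZL L) K = D := by
    rw [hKdef, hb_pResidualOf (hNQ.trans hLZ), hb_sup (hNL.trans hLZ) (hQL.trans hLZ), hND,
      (hb_eq_bot_iff (hQL.trans hLZ)).2 (CfH7.le_Cz_OZ _), sup_bot_eq]
    exact CfH7.pResidualOf_eq_self_of_coprime (by rw [hD3]; decide)
  have hres : pResidualOf 2 K = K := CfH7.pResidualOf_pResidualOf _
  have hQK : Q ≤ Nm(K) := le_sup_right.trans (CfH7.le_normalizer_pResidualOf _)
  have hJK : J ≤ Nm(K) := (CfH7.le_normalizer_sup hJN (hJL.trans hLQ)).trans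
    (CfH7.normalizer_le_normalizer_pResidualOf _)
  have hQidx : Q.relIndex K = 3 := by rw [← card_qb (hKL.trans hLQ), hKq, hN3]
  have hKnp : ¬ IsPGroup 2 K := fun e => by
    have h1 := isPGroup_qb (Q := Q) e
    have := eq_bot_of_not_dvd h1 le_rfl (by rw [hKq, hN3]; decide)
    rw [hKq] at this
    rw [this, card_bot] at hN3
    omega
  have hO : pCoreOf 2 K = K ⊓ Q := by
    refine (eq_or_eq_of_relIndex_prime (p := 3) (C := K) (by rw [inf_relIndex_left, hQidx])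
      (CfH7.le_pCoreOf inf_le_left (CfH7.le_normalizer_inf le_normalizer (hKL.trans hLQ))
        (hQp.to_le inf_le_right)) (CfH7.pCoreOf_le _)).resolve_right fun e => ?_
    exact hKnp (CfH7.pCoreOf_eq_self_iff.1 e)
  have hidx : (pCoreOf 2 K).relIndex K = 3 := by rw [hO, inf_relIndex_left, hQidx]
  have hcomm : ⁅K, J⁆ = K := by
    refine le_antisymm (CfH7.comm_le_left hJK) ?_
    have h1 : K ≤ ⁅K, J⁆ ⊔ Q := by
      rw [← qb_le_qb_iff (hKL.trans hLQ) ((commutator_le_self' hKL hJL).trans hLQ),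
        qb_commutator (hKL.trans hLQ) (hJL.trans hLQ), hKq, hNN]
    have := CfH7.pResidualOf_le_of_le_sup hQp
      (CfH7.le_normalizer_commutator hQK h.Q_le_Nm_J) h1
    rwa [hres] at this
  have hKnC : ¬ K ≤ Cz(ZL L) := fun e => by
    rw [← hb_eq_bot_iff (hKL.trans hLZ), hKD] at e
    rw [e, card_bot] at hD3
    omega
  refine ⟨K, ⟨hres, hcomm, hidx, fun S hS hJS => ?_, ?_⟩, hKL, hKD⟩
  · exact h.J_eq hS.pgrp (hS.le.trans (sup_le hKL hJL)) hJS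
  · have hKY := CfH7.le_Nm_OZ_pCoreOf (p := 2) K
    have hOQ : pCoreOf 2 K ≤ Q := hO ▸ inf_le_right
    rw [wOf_def]
    refine card_commutator_eq_four (CfH7.elemAb_OZ _) ((CfH7.OZ_le _).trans (hOQ.trans h.Q_le))
      hKY (hJK.trans ((CfH7.normalizer_le_normalizer_pCoreOf _).trans (CfH7.Nm_le_Nm_OZ _)))
      hJK hcomm ?_
    rw [card_hb hKY, ← hidx, ← inf_relIndex_left K]
    congr 1
    refine (eq_or_eq_of_relIndex_prime hidx (le_inf (CfH7.pCoreOf_le _) (CfH7.le_Cz_OZ _))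
      inf_le_left).resolve_right fun e => hKnC ?_
    have hKZ := hKL.trans hLZ
    have hZ := CfH7.elemAb_OZ (p := 2) Q
    have h1 : ⁅ZL L, K⁆ ≤ ZL L := CfH7.comm_le_left hKZ
    have h2 : ⁅ZL L, K⁆ ≤ OZ 2 (pCoreOf 2 K) := by
      refine CfH7.le_OZ (CfH7.elemAb_of_le h1 hZ) ?_
        (h1.trans ((CfH7.OZ_le_Cz _).trans (Cz_anti hOQ)))
      rw [hO]
      exact le_inf (CfH7.comm_le_right ((CfH7.OZ_le _).trans hQK)) (h1.trans (CfH7.OZ_le _))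
    rw [← CfH7.comm_eq_bot_right]
    exact commutator_eq_bot_of_pResidual (CfH7.elemAb_isPGroup hZ) hKZ hres h2
      (CfH7.comm_eq_bot_right.2 (e.ge.trans inf_le_right))

/-- `L` is generated by the `J(T)`-components in `L` and `N_L(J(T))` -/
theorem le_of_comps {H : Subgroup G} (h1 : ∀ K, JC (JJ 2 T) K → K ≤ L → K ≤ H)
    (h2 : L ⊓ Nm(JJ 2 T) ≤ H) : L ≤ H := by
  set J := JJ 2 T with hJdef
  have hLZ := CfH7.le_Nm_OZ_pCoreOf (p := 2) L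
  have hJL : J ≤ L := h.J_le
  have hJp : IsPGroup 2 J := isPGroup_J h.pgrp
  have hEL : nclo J L ≤ L := CfH7.nclo_le_of_le hJL
  have hLE := CfH7.right_le_Nm_nclo J L
  have hS : SylIn 2 (T ⊓ nclo J L) (nclo J L) := h.syl.inf_normal' hLE hEL
  have hJS : JJ 2 (T ⊓ nclo J L) = J :=
    J_eq_of_J_le (le_inf (J_le T) (CfH7.le_nclo _ _)) inf_le_left
  have hCH : L ⊓ Cz(ZL L) ≤ H :=
    le_trans (le_inf inf_le_left ((h.C_le_Nm hG).trans (Nm_le_Nm_J T))) h2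
  have hR : RL L ≤ hb (ZL L) (L ⊓ H) := by
    have hJb := isPGroup_hb (V := ZL L) hJp
    rw [← commutator_sup_centralizer_eq (hb_le_Nm_RL hJL)
      (coprime_of_odd_of_elem hJb (h.odd_RL hG)).symm (Or.inl (isSolvable_of_isPGroup hJb))]
    refine sup_le ((h.ff hG).2.1.trans (sSup_le ?_)) ?_
    · rintro D ⟨hD, hDD, hDJ⟩
      obtain ⟨K, hK, hKL, rfl⟩ := exists_comp hG h (hD.trans (RL_le L)) hDD.card hDJ
      exact hb_mono (le_inf hKL (h1 K hK hKL))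
    · rw [← hb_inf_hp_of_le (inf_le_left.trans (RL_le L))]
      refine hb_mono (le_inf inf_le_left (le_trans (le_inf inf_le_left ?_) h2))
      set Y := L ⊓ hp (ZL L) (RL L ⊓ Cz(hb (ZL L) J)) with hY
      have hYL : Y ≤ L := inf_le_left
      have h3 : ⁅J, Y⁆ ≤ L ⊓ Cz(ZL L) := by
        refine le_inf (commutator_le_self' hJL hYL) ?_
        rw [← hb_eq_bot_iff ((commutator_le_self' hJL hYL).trans hLZ),
          hb_commutator (hJL.trans hLZ) (hYL.trans hLZ), CfH7.comm_eq_bot_right,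
          hb_inf_hp_of_le (inf_le_left.trans (RL_le L))]
        exact inf_le_right
      have h4 : Y ≤ Nm(J ⊔ (L ⊓ Cz(ZL L))) :=
        CfH7.le_Nm_sup_of_comm_le (hYL.trans (le_Nm_CL L)) (h3.trans le_sup_right)
      intro y hy
      rw [mem_normalizer_iff_cj]
      refine cj_J_eq_of_le (h.le_of_le_sup_C hG (isPGroup_cj hJp y) ?_)
      refine le_trans (cj_mono y le_sup_left) ((cj_eq_of_mem_normalizer (h4 hy)).le.trans ?_)
      exact sup_le_sup_right (J_le T) _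
  have hres : pResidualOf 2 (nclo J L) ≤ H := by
    have h3 : hb (ZL L) (pResidualOf 2 (nclo J L)) ≤ hb (ZL L) (L ⊓ H) := by
      rw [hb_pResidualOf (hEL.trans hLZ), hb_nclo (hJL.trans hLZ) hLZ]
      exact (h.ff hG).1.trans hR
    rw [hb_le_hb_iff' ((CfH7.pResidualOf_le _).trans hEL) inf_le_left] at h3
    exact h3.trans (sup_le inf_le_right hCH)
  have hN : L ⊓ Nm(T ⊓ nclo J L) ≤ H :=
    le_trans (inf_le_inf_left _ ((Nm_le_Nm_J _).trans (by rw [hJS]))) h2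
  rw [← hS.frattini_sup hLE hEL]
  refine sup_le ?_ hN
  rw [← CfH7.sylIn_pResidualOf_sup hS]
  exact sup_le hres (le_trans (le_inf (inf_le_right.trans hEL) le_normalizer) hN)

theorem exists_comp_not_le {M : Subgroup G} (hM : ¬ L ≤ M) (h2 : L ⊓ Nm(JJ 2 T) ≤ M) :
    ∃ K, JC (JJ 2 T) K ∧ K ≤ L ∧ ¬ K ≤ M := by
  by_contra hc
  push Not at hc
  exact hM (le_of_comps hG h hc h2)

theorem exists_comp_le : ∃ K, JC (JJ 2 T) K ∧ K ≤ L := by
  obtain ⟨K, h1, h2, -⟩ := exists_comp_not_le hG h (M := Nm(JJ 2 T)) (fun e =>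
    h.nle (CfH7.le_pCoreOf h.J_le e (isPGroup_J h.pgrp))) inf_le_right
  exact ⟨K, h1, h2⟩

/-- the set of components of `L` is invariant under conjugation in `L` -/
theorem comp_cj {K : Subgroup G} (hK : JC (JJ 2 T) K) (hKL : K ≤ L) {g : G} (hg : g ∈ L) :
    JC (JJ 2 T) (cj g K) := by
  let H : Subgroup G :=
    { carrier := {g | g ∈ L ∧ ∀ X, X ≤ L → (JC (JJ 2 T) (cj g X) ↔ JC (JJ 2 T) X)}
      one_mem' := ⟨one_mem _, fun X _ => by rw [cj_one]⟩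
      mul_mem' := by
        rintro a b ⟨ha, ha'⟩ ⟨hb, hb'⟩
        refine ⟨mul_mem ha hb, fun X hX => ?_⟩
        rw [cj_mul, ha' _ ((cj_mono b hX).trans (cj_eq_of_mem hb).le), hb' X hX]
      inv_mem' := by
        rintro a ⟨ha, ha'⟩
        refine ⟨inv_mem ha, fun X hX => ?_⟩
        rw [← ha' _ ((cj_mono a⁻¹ hX).trans (cj_eq_of_mem (inv_mem ha)).le), cj_cj_inv] }
  have : L ≤ H := by
    refine le_of_comps hG h (fun K' hK' hKL' x hx => ⟨hKL' hx, fun X hX => ⟨fun hc => ?_,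
      fun hc => ?_⟩⟩) fun x hx => ⟨hx.1, fun X hX => ⟨fun hc => ?_, fun hc => ?_⟩⟩
    · have := comp_le_Nm hG h hc ((cj_mono x hX).trans (cj_eq_of_mem (hKL' hx)).le) hK' hKL'
        (inv_mem hx)
      rw [mem_normalizer_iff_cj, cj_inv_cj] at this
      rwa [this]
    · rwa [cj_eq_of_mem_normalizer (comp_le_Nm hG h hc hX hK' hKL' hx)]
    · have := hc.cj_of_mem (inv_mem hx.2)
      rwa [cj_inv_cj] at this
    · exact hc.cj_of_mem hx.2
  exact ((this hg).2 K hKL).2 hK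

theorem comp_mem_Nm {K : Subgroup G} (hK : JC (JJ 2 T) K) (hKL : K ≤ L) {g : G} (hg : g ∈ L)
    (hW : cj g (wOf K) ⊓ wOf K ≠ ⊥) : g ∈ Nm(K) := by
  rw [mem_normalizer_iff_cj]
  refine comp_eq_of_wOf_inf hG h (comp_cj hG h hK hKL hg)
    ((cj_mono g hKL).trans (cj_eq_of_mem hg).le) hK hKL ?_
  rwa [← cj_wOf]

/-- an element of `L` fixing a nontrivial element of `W_K` normalizes `K` -/
theorem comp_le_Nm_of_Cz {K X : Subgroup G} (hK : JC (JJ 2 T) K) (hKL : K ≤ L) (hX : X ≤ L)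
    (hW : wOf K ⊓ Cz(X) ≠ ⊥) : X ≤ Nm(K) := fun g hg => by
  refine comp_mem_Nm hG h hK hKL (hX hg) (ne_bot_of_le (le_inf ?_ inf_le_left) hW)
  rw [← cj_eq_of_mem_centralizer (g := g) (X := wOf K ⊓ Cz(X))
    (CfH7.le_Cz_comm inf_le_right hg)]
  exact cj_mono g inf_le_left

theorem comp_le_Nm_of_Nm {K X : Subgroup G} (hK : JC (JJ 2 T) K) (hKL : K ≤ L) (hX : X ≤ L)
    (hW : X ≤ Nm(wOf K)) : X ≤ Nm(K) := fun g hg => by
  refine comp_mem_Nm hG h hK hKL (hX hg) ?_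
  rw [cj_eq_of_mem_normalizer (hW hg), inf_idem]
  exact hK.wOf_ne_bot

theorem comp_of_syl {K T' : Subgroup G} (hK : JC (JJ 2 T) K) (hKL : K ≤ L) (h' : SylIn 2 T' L) :
    JC (JJ 2 T') K := by
  obtain ⟨x, hx, rfl⟩ := h.syl.conj h'
  have := (comp_cj hG h hK hKL (inv_mem hx)).cj x
  rwa [cj_cj_inv, cj_J] at this

end

/-- `K ∈ 𝒦₀` -/
def JZ (J K : Subgroup G) : Prop :=
  JC J K ∧ ∀ S, J ≤ S → SylIn 2 S Nm(wOf K) → JJ 2 S = J

theorem mem_jComponentsZero_iff {T K : Subgroup G} :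
    K ∈ jComponentsZero T ↔ JZ (JJ 2 T) K := by
  rw [jComponentsZero, Set.mem_ofPred_eq, isJComponent_iff]
  simp only [isSylowTwoIn_iff]
  rfl

theorem JZ.cj {J K : Subgroup G} (h : JZ J K) (g : G) : JZ (cj g J) (cj g K) := by
  refine ⟨h.1.cj g, fun S hJ hS => ?_⟩
  have h1 := hS.cj g⁻¹
  rw [← cj_wOf, ← cj_normalizer, cj_inv_cj] at h1
  have := h.2 _ (cj_le_iff.1 hJ) h1
  rw [← cj_J] at this
  rw [← this, cj_cj_inv]

theorem ZN.cz_le {P : Subgroup G} (hG : ZN G) (hP : IsPGroup 2 P) (h1 : P ≠ ⊥) :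
    Cz(pCoreOf 2 Nm(P)) ≤ pCoreOf 2 Nm(P) :=
  le_trans (le_inf ((Cz_anti (CfH7.le_pCoreOf le_normalizer le_rfl hP)).trans (Cz_le_Nm P))
    le_rfl) (CfH7.chP_iff.1 (hG.chr P hP h1))

theorem JZ.exists_LL (hG : ZN G) {T K : Subgroup G} (hT : IsPGroup 2 T) (h : JZ (JJ 2 T) K) :
    ∃ T₀, LL T₀ Nm(wOf K) ∧ JJ 2 T₀ = JJ 2 T := by
  obtain ⟨T₀, hT₀, hJ⟩ := exists_sylIn_ge (isPGroup_J hT) h.1.le_Nm_wOf
  have e := h.2 T₀ hJ hT₀
  refine ⟨T₀, ⟨hT₀, fun hc => ?_, hG.cz_le (isPGroup_wOf K) h.1.wOf_ne_bot⟩, e⟩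
  apply h.1.not_le (CfH7.isPGroup_pCoreOf (p := 2) Nm(wOf K))
  conv_lhs => rw [← h.1.comm]
  exact (Subgroup.commutator_mono le_rfl (e ▸ hc)).trans
    (CfH7.comm_le_right ((le_Nm_wOf K).trans (CfH7.le_normalizer_pCoreOf _)))

/-- 12.2.4, first part -/
theorem JZ.Nm_eq (hG : ZN G) {T K : Subgroup G} (hT : IsPGroup 2 T) (h : JZ (JJ 2 T) K) :
    Nm(K) = Nm(wOf K) := by
  obtain ⟨T₀, hL, e⟩ := h.exists_LL hG hT
  exact le_antisymm (Nm_le_Nm_wOf K)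
    (comp_le_Nm_of_Nm hG hL (e ▸ h.1) (le_Nm_wOf K) le_rfl le_rfl)

theorem J_cj_eq_of_le {T U : Subgroup G} {g : G} (e : JJ 2 U = JJ 2 T) {x : G}
    (h : JJ 2 (cj g T) ≤ cj x U) : JJ 2 (cj g T) = JJ 2 (cj x U) := by
  have h1 : JJ 2 (cj g T) ≤ JJ 2 (cj x U) := by
    rw [J_le_iff]
    intro A hA
    obtain ⟨B, hB⟩ := exists_maxEl 2 U
    refine ((hB.cj x).of_card_le (hA.le_J.trans h) hA.el ?_).le_J
    rw [card_cj, ← card_cj g B]
    exact (((maxEl_iff_of_J_eq e).1 hB).cj g).card_eq hA |>.le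
  exact eq_of_le_of_card_ge h1 (by rw [← cj_J, ← cj_J, card_cj, card_cj, e])

/-- 12.2.4, second part -/
theorem JZ.jc_of_le (hG : ZN G) {T K : Subgroup G} (hT : IsPGroup 2 T) (h : JZ (JJ 2 T) K)
    {g : G} (hg : JJ 2 (CfH9.cj g T) ≤ Nm(wOf K)) : JC (JJ 2 (CfH9.cj g T)) K := by
  obtain ⟨T₀, hL, e⟩ := h.exists_LL hG hT
  obtain ⟨x, hx, hle⟩ := hL.syl.exists_le_cj (isPGroup_J (isPGroup_cj hT g)) hg
  rw [J_cj_eq_of_le e hle]
  exact comp_of_syl hG hL (e ▸ h.1) (le_Nm_wOf K) (hL.syl.cj_of_mem hx)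

/-- `J(T)` normalizes `W_K` when `K` is subnormal in `⟨K, J(T)⟩` -/
theorem J_le_Nm_wOf {T K J₀ : Subgroup G} (hK : JC J₀ K) (hsn : SubnIn K (K ⊔ JJ 2 T))
    (hsyl : ∀ S : Subgroup G, IsPGroup 2 S → S ≤ K ⊔ JJ 2 T → JJ 2 T ≤ S → JJ 2 S = JJ 2 T)
    (hT : IsPGroup 2 T) : JJ 2 T ≤ Nm(wOf K) := by
  haveI : Fact (Nat.Prime 3) := ⟨Nat.prime_three⟩
  set H := K ⊔ JJ 2 T with hH
  have hKH : K ≤ H := le_sup_left
  have hJH : JJ 2 T ≤ H := le_sup_right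
  have hHV := CfH7.le_Nm_OZ_pCoreOf (p := 2) H
  have hHQ := CfH7.le_normalizer_pCoreOf (p := 2) H
  have hQp := CfH7.isPGroup_pCoreOf (p := 2) H
  have hQK : pCoreOf 2 H ≤ Nm(K) := hK.res ▸ hsn.pCoreOf_le_Nm_pResidualOf
  have hOQ : pCoreOf 2 K ≤ pCoreOf 2 H := hsn.pCoreOf_le
  have hWV : wOf K ≤ ZL H := by
    refine CfH7.le_OZ (elemAb_wOf K) ((wOf_le_pCoreOf K).trans hOQ) ?_
    have := hK.irred (U := wOf K ⊓ Cz(pCoreOf 2 H)) inf_le_left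
      (CfH7.le_normalizer_inf (le_Nm_wOf K) ((hKH.trans hHQ).trans (Nm_le_Nm_Cz _)))
    rw [← this.resolve_left (inf_Cz_ne_bot hQp (isPGroup_wOf K) (hQK.trans (Nm_le_Nm_wOf K))
      hK.wOf_ne_bot)]
    exact inf_le_right
  have hKC : ¬ K ≤ Cz(ZL H) := fun e => hK.not_le_Cz_wOf (e.trans (Cz_anti hWV))
  have hZ := CfH7.elemAb_OZ (p := 2) (pCoreOf 2 H)
  have h1 : ⁅ZL H, K⁆ ≤ ZL H := CfH7.comm_le_left (hKH.trans hHV)
  have hVK : ⁅ZL H, K⁆ = wOf K := by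
    refine le_antisymm ?_ (hK.commutator_wOf ▸ Subgroup.commutator_mono hWV le_rfl)
    rw [← hK.commutator_idem (CfH7.elemAb_isPGroup hZ) (hKH.trans hHV)]
    refine Subgroup.commutator_mono (CfH7.le_OZ (CfH7.elemAb_of_le h1 hZ) ?_
      (h1.trans ((CfH7.OZ_le_Cz _).trans (Cz_anti hOQ)))) le_rfl
    exact hK.le_pCoreOf (hQp.to_le (h1.trans (CfH7.OZ_le _)))
      (CfH7.comm_le_right ((CfH7.OZ_le _).trans hQK))
  have h3 := hK.card_hb (hKH.trans hHV) (hOQ.trans (CfH7.le_Cz_OZ _)) hKC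
  have hDD : DD (hv (ZL H) (ZL H)) (hb (ZL H) K) :=
    ⟨h3, by rw [← hv_commutator le_rfl (hKH.trans hHV), hVK, card_hv hWV, hK.cardW]⟩
  have hR : hb (ZL H) K ≤ pCoreOf 3 (hb (ZL H) H) :=
    CfH7.SubnIn.le_pCoreOf ((hsn.subgroupOf _).map _) hDD.isPGroup
  have hRp := CfH7.isPGroup_pCoreOf (p := 3) (hb (ZL H) H)
  have hSp : IsPGroup 2 (JJ 2 T ⊔ pCoreOf 2 H : Subgroup G) :=
    isPGroup_sup (isPGroup_J hT) hQp (hJH.trans hHQ)
  have hSJ := hsyl _ hSp (sup_le hJH (CfH7.pCoreOf_le _)) le_sup_left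
  rw [J_le_iff]
  intro A hA
  have hAH := hA.le_J.trans hJH
  have hA' := (maxEl_iff_of_J_eq hSJ).2 hA
  have := best_le_Nm_dd (elemAb_hv hZ) hRp.isNilpotent (odd_card_of_isPGroup_three hRp)
    ((CfH7.pCoreOf_le _).trans (hb_le_Nm_hv_self _)) (pCoreOf_faithful (hb_faithful _) 3)
    (elemAb_hb hA.el) (hb_le_Nm_hv_self _)
    ((hA'.best ((CfH7.OZ_le _).trans le_sup_right) hZ).hb (hAH.trans hHV) le_rfl)
    ((hb_mono hAH).trans (CfH7.le_normalizer_pCoreOf _)) hR hDD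
  rw [← hb_le_Nm_hv_iff (hAH.trans hHV) hWV, ← hVK, hv_commutator le_rfl (hKH.trans hHV)]
  exact CfH7.le_normalizer_commutator (hb_le_Nm_hv_self _) this

/-- 12.2.5 -/
theorem JZ.jc_of_subnIn (hG : ZN G) {T L K : Subgroup G} (h : LL T L) (hKL : K ≤ L)
    (hsn : SubnIn K (K ⊔ JJ 2 T)) {g : G} (hK : JZ (JJ 2 (CfH9.cj g T)) K) : JC (JJ 2 T) K := by
  have h1 := J_le_Nm_wOf hK.1 hsn
    (fun S hS hSL hJ => h.J_eq hS (hSL.trans (sup_le hKL h.J_le)) hJ) h.pgrp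
  have := hK.jc_of_le hG (isPGroup_cj h.pgrp g) (g := g⁻¹) (by rwa [cj_inv_cj])
  rwa [cj_inv_cj] at this

namespace JC

variable {T K : Subgroup G} (hT : IsPGroup 2 T) (h : JC (JJ 2 T) K)
include hT h

theorem isPGroup_inf_Cz : IsPGroup 2 ((K ⊔ JJ 2 T) ⊓ Cz(wOf K) : Subgroup G) := by
  refine CfH7.isPGroup_of_forall_coprime fun x hx ho => ?_
  have h1 := CfH7.mem_pResidualOf hx.1 ho
  rw [h.pResidualOf_sup (isPGroup_J hT) h.le_Nm] at h1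
  refine CfH7.eq_one_of_mem_of_coprime (CfH7.isPGroup_pCoreOf K) ?_ ho
  rw [← h.inf_Cz_wOf]
  exact ⟨h1, hx.2⟩

theorem exists_syl :
    ∃ S : Subgroup G, IsPGroup 2 S ∧ (K ⊔ JJ 2 T) ⊓ Cz(wOf K) ≤ S ∧ JJ 2 S = JJ 2 T := by
  obtain ⟨S, hS, hJS⟩ := exists_sylIn_ge (isPGroup_J hT) (le_sup_right : _ ≤ K ⊔ JJ 2 T)
  refine ⟨S, hS.pgrp, hS.le_of_le_Nm (h.isPGroup_inf_Cz hT) inf_le_left (hS.le.trans ?_),
    h.syl S hS hJS⟩
  exact CfH7.le_normalizer_inf le_normalizer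
    ((sup_le (CfH8.le_Nm_wOf K) h.le_Nm_wOf).trans (Nm_le_Nm_Cz _))

theorem wOf_le_inf : wOf K ≤ (K ⊔ JJ 2 T) ⊓ Cz(wOf K) :=
  le_inf ((wOf_le K).trans le_sup_left) (CfH7.elemAb_le_Cz (elemAb_wOf K))

theorem OZ_inf_wOf : OZ 2 (JJ 2 T) ⊓ wOf K = wOf K ⊓ Cz(JJ 2 T) := by
  obtain ⟨S, -, h1, h2⟩ := h.exists_syl hT
  refine le_antisymm (le_inf inf_le_right (inf_le_left.trans (CfH7.OZ_le_Cz _)))
    (le_inf ?_ inf_le_left)
  rw [← h2]
  exact le_OZ_J (inf_le_left.trans ((h.wOf_le_inf hT).trans h1))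
    (CfH7.elemAb_of_le inf_le_left (elemAb_wOf K)) (h2 ▸ inf_le_right)

omit hT in
theorem card_eq_two {U : Subgroup G} (hU : U ≤ wOf K) (h1 : U ≠ ⊥) (h2 : U ≠ wOf K) :
    Nat.card U = 2 := by
  have hd : Nat.card U ∣ 4 := h.cardW ▸ card_dvd_of_le hU
  have hl : Nat.card U < 4 := h.cardW ▸ card_lt_of_lt (lt_of_le_of_ne hU h2)
  have h3 : Nat.card U ≠ 3 := fun e => by rw [e] at hd; omega
  have h4 : Nat.card U ≠ 1 := fun e => h1 (card_eq_one.1 e)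
  have hp : 0 < Nat.card U := Nat.card_pos
  omega

theorem card_OZ_inf_wOf : Nat.card (OZ 2 (JJ 2 T) ⊓ wOf K : Subgroup G) = 2 := by
  rw [h.OZ_inf_wOf hT]
  exact h.card_eq_two inf_le_left
    (inf_Cz_ne_bot (isPGroup_J hT) (isPGroup_wOf K) h.le_Nm_wOf h.wOf_ne_bot)
    fun e => h.not_le_Cz_J (CfH7.le_Cz_comm (e.ge.trans inf_le_right))

theorem OZ_inf_wOf_ne_bot : OZ 2 (JJ 2 T) ⊓ wOf K ≠ ⊥ := fun e => by
  have := h.card_OZ_inf_wOf hT
  rw [e, card_bot] at this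
  omega

/-- an offender not centralizing `W_K` can be replaced by one containing `W_K` -/
theorem maxEl_sup {A : Subgroup G} (hA : MaxEl 2 A T) (hAW : ¬ A ≤ Cz(wOf K)) :
    MaxEl 2 ((A ⊓ Cz(wOf K)) ⊔ wOf K) (JJ 2 T) := by
  obtain ⟨S, hS, h1, h2⟩ := h.exists_syl hT
  have hA' := (maxEl_iff_of_J_eq h2).2 hA
  have hAN := hA.le_J.trans h.le_Nm_wOf
  rw [← h2, maxEl_J_iff]
  refine hA'.of_card_le (sup_le (inf_le_left.trans hA'.le) ((h.wOf_le_inf hT).trans h1))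
    (CfH7.elemAb_sup (CfH7.elemAb_of_le inf_le_left hA.el) (elemAb_wOf K) inf_le_right) ?_
  have e1 := card_sup_mul_card_inf (A := A ⊓ Cz(wOf K)) (B := wOf K) (inf_le_left.trans hAN)
  have e2 : Nat.card (A ⊓ Cz(wOf K) ⊓ wOf K : Subgroup G) ≤ 2 := by
    by_cases e : A ⊓ Cz(wOf K) ⊓ wOf K = ⊥
    · rw [e, card_bot]; omega
    refine (h.card_eq_two inf_le_right e fun e' => hAW ?_).le
    exact (CfH7.elemAb_le_Cz hA.el).trans (Cz_anti (e'.ge.trans (inf_le_left.trans inf_le_left)))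
  have e3 : (Cz(wOf K)).relIndex A ≤ 2 := by
    have hd := relIndex_Cz_dvd hAN
    rw [h.cardW] at hd
    obtain ⟨n, hn⟩ := (IsPGroup.iff_card (p := 2)).1 (CfH7.elemAb_isPGroup hA.el)
    have hd2 : (Cz(wOf K)).relIndex A ∣ 2 ^ n := hn ▸ relIndex_dvd_card _ _
    obtain ⟨k, -, hk⟩ := (Nat.dvd_prime_pow Nat.prime_two).1 hd2
    rw [hk] at hd ⊢
    have : k ≤ 1 := by
      by_contra hc
      have : 2 ^ 2 ∣ (4 - 1).factorial := (pow_dvd_pow 2 (by omega)).trans hd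
      revert this; decide
    calc 2 ^ k ≤ 2 ^ 1 := Nat.pow_le_pow_right (by omega) this
      _ = 2 := rfl
  have e4 := card_mul_relIndex (inf_le_left : A ⊓ Cz(wOf K) ≤ A)
  rw [inf_relIndex_left] at e4
  rw [h.cardW] at e1
  nlinarith

theorem exists_maxEl : ∃ A, MaxEl 2 A T ∧ ∃ a ∈ A, ⁅K, zpowers a⁆ = K := by
  by_contra hc
  push Not at hc
  apply h.not_le (CfH7.isPGroup_pCoreOf (p := 2) K)
  have hn := h.le_Nm.trans (CfH7.normalizer_le_normalizer_pCoreOf (p := 2) K)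
  have : JJ 2 T ≤ CfH7.secCz K (pCoreOf 2 K) := by
    rw [J_le_iff]
    intro A hA a ha
    rw [← zpowers_le]
    have haJ := zpowers_le.2 (hA.le_J ha)
    refine CfH7.le_secCz (haJ.trans hn) ?_
    by_contra hc'
    exact hc A hA a ha (h.eq_of_not_le (CfH7.comm_le_left (haJ.trans h.le_Nm))
      ((CfH7.pCoreOf_le _).trans (CfH7.left_le_Nm_comm _ _)) hc')
  conv_lhs => rw [← h.comm]
  exact CfH7.commutator_le_of_le_secCz this

theorem commutator_OZ_le : ⁅OZ 2 (JJ 2 T), K⁆ ≤ wOf K := by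
  obtain ⟨A, hA, a, ha, hKa⟩ := h.exists_maxEl hT
  obtain ⟨S, hS, h1, h2⟩ := h.exists_syl hT
  set H := K ⊔ JJ 2 T with hH
  set Q := H ⊓ Cz(wOf K) with hQ
  have hHW : H ≤ Nm(wOf K) := sup_le (CfH8.le_Nm_wOf K) h.le_Nm_wOf
  have hHQ : H ≤ Nm(Q) := CfH7.le_normalizer_inf le_normalizer (hHW.trans (Nm_le_Nm_Cz _))
  have haH : zpowers a ≤ H := (zpowers_le.2 (hA.le_J ha)).trans le_sup_right
  have haW : ¬ A ≤ Cz(wOf K) := fun e => by
    apply h.not_le_Cz_wOf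
    conv_lhs => rw [← hKa]
    exact (Subgroup.commutator_mono le_rfl (zpowers_le.2 (e ha))).trans
      (CfH7.comm_le_right ((CfH8.le_Nm_wOf K).trans (Nm_le_Nm_Cz _)))
  have hB := h.maxEl_sup hT hA haW
  have hBQ : (A ⊓ Cz(wOf K)) ⊔ wOf K ≤ Q :=
    sup_le (inf_le_inf_right _ (hA.le_J.trans le_sup_right)) (h.wOf_le_inf hT)
  rw [← h2, maxEl_J_iff] at hB
  have hBQ' := hB.mono hBQ h1
  have hJQ : JJ 2 Q ≤ JJ 2 T := h2 ▸ J_le_J_of_maxEl_le hB hBQ h1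
  set Y := OZ 2 (JJ 2 Q) with hY
  have hHY : H ≤ Nm(Y) := hHQ.trans ((Nm_le_Nm_J _).trans (CfH7.Nm_le_Nm_OZ _))
  have hZY : OZ 2 (JJ 2 T) ≤ Y :=
    le_OZ_J ((h2 ▸ hB.OZ_J_le).trans hBQ) (CfH7.elemAb_OZ _)
      ((CfH7.OZ_le_Cz _).trans (Cz_anti hJQ))
  have hWY : wOf K ≤ Y :=
    (CfH7.le_OZ (elemAb_wOf K) (h.wOf_le_inf hT) (CfH7.le_Cz_comm inf_le_right)).trans
      (OZ_le_OZ_J Q)
  have hYe : Y = (A ⊓ Cz(wOf K) ⊓ Y) ⊔ wOf K := by
    rw [← CfH7.sup_inf_of_le_normalizer' (inf_le_right.trans (Cz_le_Nm _)) hWY,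
      inf_eq_right.2 hBQ'.OZ_J_le]
  have hYa : ⁅Y, zpowers a⁆ ≤ wOf K := by
    rw [hYe]
    refine CfH7.commutator_sup_left_le ((inf_le_left.trans inf_le_right).trans (Cz_le_Nm _))
      le_normalizer ?_ (CfH7.comm_le_left (haH.trans hHW))
    refine le_trans (le_of_eq (CfH7.comm_eq_bot_left.2 ?_)) bot_le
    exact (inf_le_left.trans inf_le_left).trans
      ((CfH7.elemAb_le_Cz hA.el).trans (Cz_anti (zpowers_le.2 ha)))
  have hKY : K ≤ CfH7.secCz Y (wOf K) := by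
    conv_lhs => rw [← hKa]
    exact (Subgroup.commutator_mono le_rfl (CfH7.le_secCz (haH.trans hHW) hYa)).trans
      (CfH7.comm_le_right (le_sup_left.trans (CfH7.le_Nm_secCz hHY hHW)))
  exact (Subgroup.commutator_mono hZY le_rfl).trans (CfH7.commutator_le_of_le_secCz hKY)

theorem OZ_le_Cz_pCoreOf : OZ 2 (JJ 2 T) ≤ Cz(pCoreOf 2 K) := by
  set Z₀ := OZ 2 (JJ 2 T) with hZ
  have hZJ : Z₀ ≤ JJ 2 T := CfH7.OZ_le _
  have hJO : JJ 2 T ≤ Nm(pCoreOf 2 K) := h.le_Nm.trans (CfH7.normalizer_le_normalizer_pCoreOf K)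
  have hOJ : pCoreOf 2 K ≤ Nm(JJ 2 T) := by
    obtain ⟨S, hS, h1, h2⟩ := h.exists_syl hT
    rw [← h2]
    exact (le_inf ((CfH7.pCoreOf_le K).trans le_sup_left) (pCoreOf_le_Cz_wOf K)).trans
      (h1.trans (le_Nm_J S))
  have h1 : ⁅Z₀, pCoreOf 2 K⁆ ≤ wOf K :=
    (Subgroup.commutator_mono le_rfl (CfH7.pCoreOf_le K)).trans (h.commutator_OZ_le hT)
  have h2 : ⁅Z₀, pCoreOf 2 K⁆ ≤ Cz(JJ 2 T) :=
    (CfH7.comm_le_left (hOJ.trans (CfH7.Nm_le_Nm_OZ _))).trans (CfH7.OZ_le_Cz _)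
  have hKU : K ≤ Nm(Z₀ ⊔ wOf K) :=
    CfH7.le_Nm_sup_of_comm_le (CfH8.le_Nm_wOf K) ((h.commutator_OZ_le hT).trans le_sup_right)
  have e : ⁅Z₀ ⊔ wOf K, pCoreOf 2 K⁆ = ⁅Z₀, pCoreOf 2 K⁆ := by
    refine le_antisymm (CfH7.commutator_sup_left_le (CfH7.left_le_Nm_comm _ _)
      ((wOf_le_pCoreOf K).trans (CfH7.right_le_Nm_comm _ _)) le_rfl ?_)
      (Subgroup.commutator_mono le_sup_left le_rfl)
    exact le_trans (le_of_eq (CfH7.comm_eq_bot_right.2 (pCoreOf_le_Cz_wOf K))) bot_le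
  rw [← CfH7.comm_eq_bot_left]
  refine (h.irred h1 ?_).resolve_right fun e' => h.not_le_Cz_J (CfH7.le_Cz_comm (e' ▸ h2))
  rw [← e]
  exact CfH7.le_normalizer_commutator hKU (CfH7.le_normalizer_pCoreOf K)

/-- 12.2.6 -/
theorem OZ_le_sup : OZ 2 (JJ 2 T) ≤
    (OZ 2 (JJ 2 T) ⊓ Cz(K)) ⊔ (OZ 2 (JJ 2 T) ⊓ wOf K) := by
  haveI : Fact (Nat.Prime 3) := ⟨Nat.prime_three⟩
  set Z₀ := OZ 2 (JJ 2 T) with hZ
  have hZJ : Z₀ ≤ JJ 2 T := CfH7.OZ_le _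
  have hKU : K ≤ Nm(Z₀ ⊔ wOf K) :=
    CfH7.le_Nm_sup_of_comm_le (CfH8.le_Nm_wOf K) ((h.commutator_OZ_le hT).trans le_sup_right)
  have hZW : Z₀ ≤ Cz(wOf K) := (h.OZ_le_Cz_pCoreOf hT).trans (Cz_anti (wOf_le_pCoreOf K))
  have hU : IsElementaryAbelian 2 (Z₀ ⊔ wOf K : Subgroup G) :=
    CfH7.elemAb_sup (CfH7.elemAb_OZ _) (elemAb_wOf K) hZW
  have hOU : pCoreOf 2 K ≤ Cz(Z₀ ⊔ wOf K) := by
    rw [Cz_sup]
    exact le_inf (CfH7.le_Cz_comm (h.OZ_le_Cz_pCoreOf hT)) (pCoreOf_le_Cz_wOf K)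
  have hUK : ⁅Z₀ ⊔ wOf K, K⁆ ≤ wOf K :=
    CfH7.commutator_sup_left_le (hZW.trans (Cz_le_Nm _)) le_normalizer (h.commutator_OZ_le hT)
      h.commutator_wOf.le
  obtain ⟨D, hD⟩ := exists_sylIn 3 K
  have hKD : pCoreOf 2 K ⊔ D = K := by
    refine (h.eq_or_eq le_sup_left (sup_le (CfH7.pCoreOf_le _) hD.le)).resolve_left fun e => ?_
    have := hD.not_dvd_relIndex_of_le (le_sup_right.trans e.le)
    rw [h.idx] at this
    exact this dvd_rfl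
  have hsplit := commutator_sup_centralizer_eq (hD.le.trans hKU)
    (coprime_of_odd_of_elem (CfH7.elemAb_isPGroup hU) (odd_card_of_isPGroup_three hD.pgrp))
    (Or.inl (isSolvable_of_isPGroup hD.pgrp))
  have h1 : Z₀ ≤ wOf K ⊔ ((Z₀ ⊔ wOf K) ⊓ Cz(K)) := by
    refine le_sup_left.trans (hsplit.ge.trans (sup_le_sup
      ((Subgroup.commutator_mono le_rfl hD.le).trans hUK) (le_inf inf_le_left ?_)))
    conv_rhs => rw [← hKD, Cz_sup]
    exact le_inf (inf_le_left.trans (CfH7.le_Cz_comm hOU)) inf_le_right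
  have hWC : wOf K ⊓ Cz(K) = ⊥ :=
    (h.irred inf_le_left (CfH7.le_normalizer_inf (CfH8.le_Nm_wOf K)
      (le_normalizer.trans (Nm_le_Nm_Cz _)))).resolve_right
      fun e => h.not_le_Cz_wOf (CfH7.le_Cz_comm (e.ge.trans inf_le_right))
  intro z hz
  obtain ⟨w, hw, c, hc, rfl⟩ := (mem_sup_iff_of_le_normalizer_left
    ((inf_le_right.trans (Cz_anti (wOf_le K))).trans (Cz_le_Nm _))).1 (h1 hz)
  have hwJ : w ∈ Cz(JJ 2 T) := by
    rw [mem_centralizer_iff]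
    intro j hj
    have e1 : j * (w * c) * j⁻¹ = w * c :=
      conj_eq_of_mem_centralizer (CfH7.le_Cz_OZ _ hj) hz
    have m1 : w⁻¹ * (j * w * j⁻¹) ∈ wOf K :=
      mul_mem (inv_mem hw) (conj_mem_of_mem_normalizer (h.le_Nm_wOf hj) hw)
    have m2 : c * (j * c * j⁻¹)⁻¹ ∈ Cz(K) :=
      mul_mem hc.2 (inv_mem (conj_mem_of_mem_normalizer (mem_Nm_Cz (h.le_Nm hj)) hc.2))
    have e2 : w⁻¹ * (j * w * j⁻¹) = c * (j * c * j⁻¹)⁻¹ := by
      have : c = w⁻¹ * (j * (w * c) * j⁻¹) := by rw [e1]; group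
      conv_rhs => enter [1]; rw [this]
      group
    have e3 : w⁻¹ * (j * w * j⁻¹) = 1 := by
      rw [← mem_bot, ← hWC]
      exact ⟨m1, e2 ▸ m2⟩
    calc j * w = w * (w⁻¹ * (j * w * j⁻¹)) * j := by group
      _ = w * j := by rw [e3, mul_one]
  have hw' : w ∈ Z₀ ⊓ wOf K := by
    rw [hZ, h.OZ_inf_wOf hT]
    exact ⟨hw, hwJ⟩
  have hc' : c ∈ Z₀ := by
    have := mul_mem (inv_mem (mi1 hw')) hz
    rwa [inv_mul_cancel_left] at this
  rw [sup_comm]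
  exact mul_mem_sup hw' ⟨hc', hc.2⟩

end JC

end CfH8
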