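import Cfsg.Agent.OD.Pre
import Cfsg.Agent.H8.JComp2

/-!
# J(T)-components under local hypotheses
-/

set_option autoImplicit false
set_option linter.unusedSectionVars false

namespace CfH8.W

open Subgroup MulAction CfH9 Cfsg
open scoped commutatorElement
open CfH7 (OZ ChP SubnIn nclo RedOn)

variable {G : Type*} [Group G] [Finite G]

/-- `L ∈ 𝓛(T)`, solvable, `C(Ω₁ Z(T)) ≤ T` -/
structure LL (T L : Subgroup G) : Prop extends CfH8.LL T L where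
  solv : Group.IsSolvable L
  zc : Cz(OZ 2 T) ≤ T

namespace LL

variable {T L : Subgroup G} (h : LL T L)
include h

theorem C_le_Nm : L ⊓ Cz(ZL L) ≤ Nm(T) :=
  inf_le_right.trans ((Cz_anti h.OZ_le).trans (h.zc.trans le_normalizer))

theorem inf_C_le : T ⊓ (L ⊓ Cz(ZL L)) ≤ pCoreOf 2 L := by
  have hn : L ≤ Nm(L ⊓ Cz(ZL L)) := CfH7.le_normalizer_inf le_normalizer
    ((CfH7.le_Nm_OZ_pCoreOf L).trans (Nm_le_Nm_Cz _))
  refine le_trans (CfH7.le_pCoreOf inf_le_right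
    (CfH7.le_normalizer_inf (h.C_le_Nm) le_normalizer) (h.pgrp.to_le inf_le_left)) ?_
  exact CfH7.pCoreOf_le_pCoreOf_of_normal inf_le_left hn

theorem le_of_le_sup_C {X : Subgroup G} (hX : IsPGroup 2 X) (hle : X ≤ T ⊔ (L ⊓ Cz(ZL L))) :
    X ≤ T :=
  (h.syl.mono le_sup_left (sup_le h.syl.le inf_le_left)).le_of_le_Nm' hX hle
    (hle.trans (sup_le le_normalizer (h.C_le_Nm)))

theorem le_Q_of_le_C {X : Subgroup G} (hX : IsPGroup 2 X) (hXL : X ≤ L) (hle : X ≤ Cz(ZL L)) :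
    X ≤ pCoreOf 2 L :=
  le_trans (le_inf (h.le_of_le_sup_C hX (le_trans (le_inf hXL hle) le_sup_right))
    (le_inf hXL hle)) (h.inf_C_le)

theorem comm_C_T : ⁅L ⊓ Cz(ZL L), T⁆ ≤ pCoreOf 2 L :=
  le_trans (le_inf (CfH7.comm_le_right (h.C_le_Nm)) (CfH7.comm_le_left (h.syl.le.trans
    (CfH7.le_normalizer_inf le_normalizer
      ((CfH7.le_Nm_OZ_pCoreOf L).trans (Nm_le_Nm_Cz _)))))) (h.inf_C_le)

theorem comm_C_nclo : ⁅L ⊓ Cz(ZL L), nclo (JJ 2 T) L⁆ ≤ pCoreOf 2 L :=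
  CfH7.commutator_nclo_le (CfH7.le_normalizer_inf le_normalizer
      ((CfH7.le_Nm_OZ_pCoreOf L).trans (Nm_le_Nm_Cz _))) (CfH7.le_normalizer_pCoreOf L)
    (h.J_le.trans (CfH7.le_normalizer_pCoreOf L))
    ((Subgroup.commutator_mono le_rfl (CfH8.J_le T)).trans (h.comm_C_T))

theorem redOn : RedOn 2 L (ZL L) := by
  intro N hNL hn hres
  have hS : SylIn 2 (T ⊓ N) N := h.syl.inf_normal' hn hNL
  have h1 : N ≤ Nm(T ⊓ N) := by
    conv_lhs => rw [← CfH7.sylIn_pResidualOf_sup hS]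
    refine sup_le (CfH7.le_normalizer_inf ?_ ((CfH7.pResidualOf_le _).trans le_normalizer))
      le_normalizer
    exact le_trans (le_inf ((CfH7.pResidualOf_le _).trans hNL) hres) (h.C_le_Nm)
  conv_lhs => rw [← CfH7.sylIn_pResidualOf_sup hS]
  refine sup_le hres ?_
  exact ((CfH7.le_pCoreOf inf_le_right h1 hS.pgrp).trans
    (CfH7.pCoreOf_le_pCoreOf_of_normal hNL hn)).trans (CfH7.le_Cz_OZ _)

theorem J_not_le_C : ¬ JJ 2 T ≤ Cz(ZL L) := fun e =>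
  h.nle (h.le_Q_of_le_C (isPGroup_J h.pgrp) h.J_le e)

theorem best {A : Subgroup G} (hA : MaxEl 2 A T) : Best (hv (ZL L) (ZL L)) (hb (ZL L) A) :=
  (hA.best h.Z_le (CfH7.elemAb_OZ _)).hb
    ((hA.le.trans h.syl.le).trans (CfH7.le_Nm_OZ_pCoreOf L)) le_rfl

theorem pCoreOf_hb : pCoreOf 2 (hb (ZL L) L) = ⊥ :=
  pCoreOf_hb_eq_bot (CfH7.le_Nm_OZ_pCoreOf L) (h.redOn)

theorem odd_RL : Odd (Nat.card (RL L)) := odd_card_fittingOf (h.pCoreOf_hb)

theorem ff : pResidualOf 2 (nclo (hb (ZL L) (JJ 2 T)) (hb (ZL L) L)) ≤ RL L ∧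
    ⁅RL L, hb (ZL L) (JJ 2 T)⁆ ≤ ddJoinA (hv (ZL L) (ZL L)) (RL L) (hb (ZL L) (JJ 2 T)) ∧
    ∀ D, D ≤ RL L → DD (hv (ZL L) (ZL L)) D → hb (ZL L) (JJ 2 T) ≤ Nm(D) := by
  have hLZ := CfH7.le_Nm_OZ_pCoreOf (p := 2) L
  refine ff2_main (elemAb_hv (CfH7.elemAb_OZ _)) (hb_le_Nm_hv_self _) (hb_faithful _)
    (h.pCoreOf_hb) (isSolvable_hb hLZ (h.solv)) (hb_mono h.J_le) fun W hW => ?_
  rw [hb_le_iff (h.J_le.trans hLZ), J_le_iff]
  intro A hA
  rw [← hb_le_iff ((hA.le.trans h.syl.le).trans hLZ)]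
  exact hW _ (hb_mono hA.le_J) (elemAb_hb hA.el) (h.best hA)

end LL

theorem RL_le (L : Subgroup G) : RL L ≤ hb (ZL L) L := CfH7.fittingOf_le _

theorem RL_nil (L : Subgroup G) : Group.IsNilpotent (RL L) := CfH7.isNilpotent_fittingOf _

theorem RL_le_Nm (L : Subgroup G) : RL L ≤ Nm(hv (ZL L) (ZL L)) :=
  (RL_le L).trans (hb_le_Nm_hv_self _)

theorem RL_faithful (L : Subgroup G) : RL L ⊓ Cz(hv (ZL L) (ZL L)) = ⊥ :=
  le_bot_iff.1 ((inf_le_inf_right _ (RL_le L)).trans (hb_faithful _).le)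

theorem elemAb_VL (L : Subgroup G) : IsElementaryAbelian 2 (hv (ZL L) (ZL L)) :=
  elemAb_hv (CfH7.elemAb_OZ _)

theorem hb_le_Nm_RL {L X : Subgroup G} (h : X ≤ L) : hb (ZL L) X ≤ Nm(RL L) :=
  (hb_mono h).trans (CfH7.le_normalizer_fittingOf _)

theorem le_Nm_CL (L : Subgroup G) : L ≤ Nm(L ⊓ Cz(ZL L)) :=
  CfH7.le_normalizer_inf le_normalizer ((CfH7.le_Nm_OZ_pCoreOf L).trans (Nm_le_Nm_Cz _))

theorem hb_le_hb_iff' {L X Y : Subgroup G} (hX : X ≤ L) (hY : Y ≤ L) :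
    hb (ZL L) X ≤ hb (ZL L) Y ↔ X ≤ Y ⊔ (L ⊓ Cz(ZL L)) := by
  have hLZ := CfH7.le_Nm_OZ_pCoreOf (p := 2) L
  rw [hb_le_hb_iff (hX.trans hLZ) (hY.trans hLZ)]
  constructor
  · intro h
    have := le_inf h hX
    rwa [CfH9.inf_sup_dedekind (Or.inl ((hY.trans hLZ).trans (Nm_le_Nm_Cz _))) hY,
      inf_comm] at this
  · exact fun h => h.trans (sup_le_sup_left inf_le_right _)

section comp

variable {T L K : Subgroup G} (h : LL T L) (hK : JC (JJ 2 T) K) (hKL : K ≤ L)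
include h hK hKL

theorem comp_le_RL : hb (ZL L) K ≤ RL L := by
  have hLZ := CfH7.le_Nm_OZ_pCoreOf (p := 2) L
  refine le_trans ?_ (h.ff).1
  rw [← hb_nclo (h.J_le.trans hLZ) hLZ,
    ← hb_pResidualOf ((CfH7.nclo_le_of_le h.J_le).trans hLZ)]
  apply hb_mono
  conv_lhs => rw [← hK.res]
  exact CfH7.pResidualOf_mono (hK.le_nclo hKL)

theorem comp_pCoreOf_le : pCoreOf 2 K ≤ pCoreOf 2 L := by
  have hLZ := CfH7.le_Nm_OZ_pCoreOf (p := 2) L
  have h1 := (CfH7.pCoreOf_le (p := 2) K).trans hKL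
  refine h.le_Q_of_le_C (CfH7.isPGroup_pCoreOf K) h1 ?_
  rw [← hb_eq_bot_iff (h1.trans hLZ)]
  refine eq_bot_of_not_dvd (isPGroup_hb (CfH7.isPGroup_pCoreOf (p := 2) K))
    ((hb_mono (CfH7.pCoreOf_le K)).trans (comp_le_RL h hK hKL)) ?_
  rw [← even_iff_two_dvd, Nat.not_even_iff_odd]
  exact h.odd_RL

theorem comp_not_le_C : ¬ K ≤ Cz(ZL L) := fun e => by
  apply hK.not_le (CfH7.isPGroup_pCoreOf (p := 2) L)
  rw [← hK.comm]
  exact (Subgroup.commutator_mono (le_inf hKL e) (J_le T)).trans (h.comm_C_T)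

theorem comp_inf_C : K ⊓ Cz(ZL L) = pCoreOf 2 K :=
  hK.inf_eq ((comp_pCoreOf_le h hK hKL).trans (CfH7.le_Cz_OZ _)) (comp_not_le_C h hK hKL)

theorem comp_inf_Q : K ⊓ pCoreOf 2 L = pCoreOf 2 K :=
  hK.inf_eq (comp_pCoreOf_le h hK hKL) (hK.not_le (CfH7.isPGroup_pCoreOf L))

theorem comp_Q_le_Nm : pCoreOf 2 L ≤ Nm(K) :=
  hK.le_Nm_of_le_Nm (isPGroup_J h.pgrp) (hKL.trans (CfH7.le_normalizer_pCoreOf L)) h.Q_le_Nm_J

theorem comp_commutator_eq : ⁅ZL L, K⁆ = wOf K := by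
  have hKZ := hKL.trans (CfH7.le_Nm_OZ_pCoreOf (p := 2) L)
  have hZ := CfH7.elemAb_OZ (p := 2) (pCoreOf 2 L)
  have h1 : ⁅ZL L, K⁆ ≤ ZL L := CfH7.comm_le_left hKZ
  have h2 : ⁅ZL L, K⁆ ≤ OZ 2 (pCoreOf 2 K) := by
    refine CfH7.le_OZ (CfH7.elemAb_of_le h1 hZ) ?_
      (h1.trans ((CfH7.OZ_le_Cz _).trans (Cz_anti (comp_pCoreOf_le h hK hKL))))
    rw [← comp_inf_Q h hK hKL]
    exact le_inf (CfH7.comm_le_right ((CfH7.OZ_le _).trans (comp_Q_le_Nm h hK hKL)))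
      (h1.trans (CfH7.OZ_le _))
  have h3 : ⁅ZL L, K⁆ ≤ wOf K := by
    rw [← hK.commutator_idem (CfH7.elemAb_isPGroup hZ) hKZ]
    exact Subgroup.commutator_mono h2 le_rfl
  refine (hK.irred h3 (CfH7.right_le_Nm_comm _ _)).resolve_left fun e => ?_
  exact comp_not_le_C h hK hKL (CfH7.comm_eq_bot_right.1 e)

theorem comp_wOf_le : wOf K ≤ ZL L := by
  rw [← comp_commutator_eq h hK hKL]
  exact CfH7.comm_le_left (hKL.trans (CfH7.le_Nm_OZ_pCoreOf L))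

theorem comp_hv : ⁅hv (ZL L) (ZL L), hb (ZL L) K⁆ = hv (ZL L) (wOf K) := by
  rw [← hv_commutator le_rfl (hKL.trans (CfH7.le_Nm_OZ_pCoreOf L)),
    comp_commutator_eq h hK hKL]

theorem comp_dd : DD (hv (ZL L) (ZL L)) (hb (ZL L) K) :=
  ⟨hK.card_hb (hKL.trans (CfH7.le_Nm_OZ_pCoreOf L))
    ((comp_pCoreOf_le h hK hKL).trans (CfH7.le_Cz_OZ _)) (comp_not_le_C h hK hKL), by
    rw [comp_hv h hK hKL, card_hv (comp_wOf_le h hK hKL), hK.cardW]⟩

theorem comp_C_le_Nm : L ⊓ Cz(ZL L) ≤ Nm(K) := by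
  refine hK.le_Nm_of_le_Nm_sup (CfH7.isPGroup_pCoreOf L) (comp_Q_le_Nm h hK hKL) ?_
  refine CfH7.le_Nm_sup_of_comm_le (inf_le_left.trans (CfH7.le_normalizer_pCoreOf L)) ?_
  rw [commutator_comm]
  exact ((Subgroup.commutator_mono le_rfl (hK.le_nclo hKL)).trans (h.comm_C_nclo)).trans
    le_sup_right

/-- 12.2.2 (subnormality) -/
theorem comp_subnIn : SubnIn K L := by
  have hLZ := CfH7.le_Nm_OZ_pCoreOf (p := 2) L
  have h1 : SubnIn (hb (ZL L) K) (hb (ZL L) L) :=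
    (CfH7.subnIn_of_isNilpotent (RL_nil L) (comp_le_RL h hK hKL)).trans
      (CfH7.subnIn_of_normal (RL_le L) (CfH7.le_normalizer_fittingOf _))
  have h2 : SubnIn (hp (ZL L) (hb (ZL L) K)) (hp (ZL L) (hb (ZL L) L)) :=
    (h1.comap _).map _
  rw [hp_hb (hKL.trans hLZ), hp_hb hLZ] at h2
  have h3 := h2.inf_right (le_sup_left : L ≤ _)
  rw [CfH9.inf_sup_dedekind (Or.inl ((hKL.trans hLZ).trans (Nm_le_Nm_Cz _))) hKL,
    inf_comm] at h3
  exact CfH7.SubnIn.step le_sup_left (sup_le le_normalizer (comp_C_le_Nm h hK hKL)) h3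

variable {K' : Subgroup G} (hK' : JC (JJ 2 T) K') (hKL' : K' ≤ L)
include hK' hKL'

theorem comp_le_of_hb_le (e : hb (ZL L) K' ≤ hb (ZL L) K) : K' ≤ K := by
  rw [hb_le_hb_iff' hKL' hKL] at e
  have hQ := comp_Q_le_Nm h hK hKL
  have h1 : K' ≤ K ⊔ pCoreOf 2 L := by
    rw [← hK'.comm]
    refine (Subgroup.commutator_mono e le_rfl).trans (CfH7.commutator_sup_left_le
      (le_sup_left.trans le_normalizer) ?_ (hK.comm.le.trans le_sup_left) ?_)
    · exact CfH7.le_normalizer_sup (comp_C_le_Nm h hK hKL)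
        (inf_le_left.trans (CfH7.le_normalizer_pCoreOf L))
    · exact ((Subgroup.commutator_mono le_rfl (J_le T)).trans (h.comm_C_T)).trans le_sup_right
  have := CfH7.pResidualOf_mono (p := 2) h1
  rwa [hK'.res, hK.pResidualOf_sup (CfH7.isPGroup_pCoreOf L) hQ] at this

theorem comp_eq_of_hb_eq (e : hb (ZL L) K = hb (ZL L) K') : K = K' :=
  le_antisymm (comp_le_of_hb_le h hK' hKL' hK hKL e.le)
    (comp_le_of_hb_le h hK hKL hK' hKL' e.ge)

theorem comp_wOf_inf (hne : K ≠ K') : wOf K ⊓ wOf K' = ⊥ := by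
  have := DD.W_inf_eq_bot' (elemAb_VL L) (RL_nil L) (RL_le_Nm L) (RL_faithful L)
    (comp_dd h hK hKL) (comp_dd h hK' hKL') (comp_le_RL h hK hKL)
    (comp_le_RL h hK' hKL') fun e => hne (comp_eq_of_hb_eq h hK hKL hK' hKL' e)
  rwa [comp_hv h hK hKL, comp_hv h hK' hKL', ← hv_inf,
    hv_eq_bot_iff (inf_le_left.trans (comp_wOf_le h hK hKL))] at this

theorem comp_eq_of_wOf_inf (hne : wOf K ⊓ wOf K' ≠ ⊥) : K = K' := by
  by_contra hc
  exact hne (comp_wOf_inf h hK hKL hK' hKL' hc)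

theorem comp_le_Cz_wOf (hne : K ≠ K') : K' ≤ Cz(wOf K) := by
  have := DD.le_Cz_W (elemAb_VL L) (RL_nil L) (RL_le_Nm L) (RL_faithful L)
    (comp_dd h hK hKL) (comp_dd h hK' hKL') (comp_le_RL h hK hKL)
    (comp_le_RL h hK' hKL') fun e => hne (comp_eq_of_hb_eq h hK hKL hK' hKL' e)
  rwa [comp_hv h hK hKL, hb_le_Cz_hv_iff (hKL'.trans (CfH7.le_Nm_OZ_pCoreOf L))
    (comp_wOf_le h hK hKL)] at this

theorem comp_commutator_le_C : ⁅K, K'⁆ ≤ L ⊓ Cz(ZL L) := by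
  have hLZ := CfH7.le_Nm_OZ_pCoreOf (p := 2) L
  have := DD.le_Cz (elemAb_VL L) (RL_nil L) (RL_le_Nm L) (RL_faithful L)
    (comp_dd h hK hKL) (comp_dd h hK' hKL') (comp_le_RL h hK hKL)
    (comp_le_RL h hK' hKL')
  rw [← CfH7.comm_eq_bot_right, ← hb_commutator (hKL.trans hLZ) (hKL'.trans hLZ),
    hb_eq_bot_iff ((commutator_le_self' hKL hKL').trans hLZ)] at this
  exact le_inf (commutator_le_self' hKL hKL') this

theorem comp_commutator_le_aux {a : G} (ha : a ∈ JJ 2 T) (h1 : ⁅K, zpowers a⁆ ≤ Cz(ZL L))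
    (h2 : ¬ ⁅K', zpowers a⁆ ≤ Cz(ZL L)) : ⁅K, K'⁆ ≤ pCoreOf 2 L := by
  have hQ := CfH7.le_normalizer_pCoreOf (p := 2) L
  have haJ : zpowers a ≤ JJ 2 T := zpowers_le.2 ha
  have e : ⁅K', zpowers a⁆ = K' := by
    refine hK'.eq_of_not_le (CfH7.comm_le_left (haJ.trans hK'.le_Nm))
      ((CfH7.pCoreOf_le _).trans (CfH7.left_le_Nm_comm _ _)) fun e => h2 ?_
    exact e.trans ((comp_pCoreOf_le h hK' hKL').trans (CfH7.le_Cz_OZ _))
  have h3 : ⁅zpowers a, K⁆ ≤ pCoreOf 2 L := by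
    rw [commutator_comm]
    refine le_trans ?_ (comp_pCoreOf_le h hK hKL)
    rw [← comp_inf_C h hK hKL]
    exact le_inf (CfH7.comm_le_left (haJ.trans hK.le_Nm)) h1
  rw [commutator_comm, ← e]
  refine three_subgroups (hKL'.trans hQ) ((haJ.trans h.J_le).trans hQ) (hKL.trans hQ) ?_ ?_
  · exact (Subgroup.commutator_mono h3 le_rfl).trans (CfH7.comm_le_left (hKL'.trans hQ))
  · exact (Subgroup.commutator_mono (comp_commutator_le_C h hK hKL hK' hKL')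
      (haJ.trans (J_le T))).trans (h.comm_C_T)

theorem comp_commutator_le (hne : K ≠ K') : ⁅K, K'⁆ ≤ pCoreOf 2 L := by
  have hLZ := CfH7.le_Nm_OZ_pCoreOf (p := 2) L
  have hne' : hb (ZL L) K ≠ hb (ZL L) K' := fun e => hne (comp_eq_of_hb_eq h hK hKL hK' hKL' e)
  obtain ⟨A, hA, hAK⟩ : ∃ A, MaxEl 2 A T ∧ ¬ hb (ZL L) A ≤ Cz(hb (ZL L) K) := by
    by_contra hc
    push Not at hc
    have h1 : hb (ZL L) (JJ 2 T) ≤ Cz(hb (ZL L) K) := by
      rw [hb_le_iff (h.J_le.trans hLZ), J_le_iff]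
      intro A hA
      rw [← hb_le_iff ((hA.le.trans h.syl.le).trans hLZ)]
      exact hc A hA
    rw [← CfH7.comm_eq_bot_right, ← hb_commutator (hKL.trans hLZ) (h.J_le.trans hLZ), hK.comm,
      hb_eq_bot_iff (hKL.trans hLZ)] at h1
    exact comp_not_le_C h hK hKL h1
  have hAL := hA.le.trans h.syl.le
  obtain ⟨x, hx, hsep⟩ := exists_separating (elemAb_VL L) (RL_nil L) (h.odd_RL) (RL_le_Nm L)
    (RL_faithful L) (elemAb_hb hA.el) (hb_le_Nm_hv_self _) (h.best hA) (hb_le_Nm_RL hAL)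
    (comp_le_RL h hK hKL) (comp_dd h hK hKL) (comp_le_RL h hK' hKL')
    (comp_dd h hK' hKL') hne' hAK
  obtain ⟨a, ha, rfl⟩ := mem_hb.1 hx
  have key : ∀ X : Subgroup G, X ≤ L →
      (holA (ZL L) a ∈ Cz(hb (ZL L) X) ↔ ⁅X, zpowers (a : G)⁆ ≤ Cz(ZL L)) := fun X hX => by
    have haL : zpowers (a : G) ≤ L := zpowers_le.2 (hAL ha)
    rw [← zpowers_le, ← hb_zpowers, ← CfH7.comm_eq_bot_right,
      ← hb_commutator (hX.trans hLZ) (haL.trans hLZ),
      hb_eq_bot_iff ((commutator_le_self' hX haL).trans hLZ)]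
  rw [key K hKL, key K' hKL'] at hsep
  rcases hsep with ⟨h1, h2⟩ | ⟨h1, h2⟩
  · exact comp_commutator_le_aux h hK hKL hK' hKL' (hA.le_J ha) h1 h2
  · rw [commutator_comm]
    exact comp_commutator_le_aux h hK' hKL' hK hKL (hA.le_J ha) h2 h1

theorem comp_le_Nm : K' ≤ Nm(K) := by
  by_cases hne : K = K'
  · exact hne ▸ le_normalizer
  refine hK.le_Nm_of_le_Nm_sup (CfH7.isPGroup_pCoreOf L) (comp_Q_le_Nm h hK hKL) ?_
  exact CfH7.le_Nm_sup_of_comm_le (hKL'.trans (CfH7.le_normalizer_pCoreOf L))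
    ((comp_commutator_le h hK hKL hK' hKL' hne).trans le_sup_right)

end comp

section

variable {T L : Subgroup G} (h : LL T L)
include h

theorem odd_relIndex_C : ¬ 2 ∣ (pCoreOf 2 L).relIndex (L ⊓ Cz(ZL L)) := by
  have hS : SylIn 2 (T ⊓ (L ⊓ Cz(ZL L))) (L ⊓ Cz(ZL L)) :=
    h.syl.inf_normal' (le_Nm_CL L) inf_le_left
  have e : T ⊓ (L ⊓ Cz(ZL L)) = pCoreOf 2 L := le_antisymm (h.inf_C_le)
    (le_inf h.Q_le (le_inf (CfH7.pCoreOf_le _) (CfH7.le_Cz_OZ _)))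
  rw [e] at hS
  exact hS.not_dvd_relIndex

theorem exists_comp {D : Subgroup (Hol (ZL L))} (hDL : D ≤ hb (ZL L) L) (hD3 : Nat.card D = 3)
    (hDJ : ⁅D, hb (ZL L) (JJ 2 T)⁆ = D) :
    ∃ K, JC (JJ 2 T) K ∧ K ≤ L ∧ hb (ZL L) K = D := by
  haveI : Fact (Nat.Prime 3) := ⟨Nat.prime_three⟩
  set J := JJ 2 T with hJdef
  set Q := pCoreOf 2 L with hQdef
  set C := L ⊓ Cz(ZL L) with hCdef
  have hLZ := CfH7.le_Nm_OZ_pCoreOf (p := 2) L
  have hLQ : L ≤ Nm(Q) := CfH7.le_normalizer_pCoreOf L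
  have hQp : IsPGroup 2 Q := CfH7.isPGroup_pCoreOf L
  have hQL : Q ≤ L := CfH7.pCoreOf_le L
  have hQC : Q ≤ C := le_inf hQL (CfH7.le_Cz_OZ _)
  have hJL : J ≤ L := h.J_le
  have hJp : IsPGroup 2 J := isPGroup_J h.pgrp
  set X := L ⊓ hp (ZL L) D with hXdef
  have hXL : X ≤ L := inf_le_left
  have hXD : hb (ZL L) X = D := hb_inf_hp_of_le hDL
  have hCX : C ≤ X := inf_le_inf_left _ (Cz_le_hp _)
  have hJX : J ≤ Nm(X) := CfH7.le_normalizer_inf (hJL.trans le_normalizer)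
    (le_Nm_hp (hJL.trans hLZ) (hDJ ▸ CfH7.right_le_Nm_comm _ _))
  have hCidx : C.relIndex X = 3 := by
    have := card_hb (hXL.trans hLZ)
    rw [hXD, hD3] at this
    rw [this, ← inf_relIndex_right (Cz(ZL L)), ← inf_relIndex_right C, hCdef, inf_assoc,
      inf_eq_right.2 (inf_le_right.trans hXL)]
  -- work modulo `Q`
  have hXodd : Odd (Nat.card (qb Q X)) := by
    rw [card_qb (hXL.trans hLQ), ← relIndex_mul_relIndex Q C X hQC hCX, hCidx,
      ← Nat.not_even_iff_odd, even_iff_two_dvd]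
    intro hd
    rcases (Nat.prime_two.dvd_mul).1 hd with h1 | h1
    · exact odd_relIndex_C h h1
    · omega
  set N := ⁅X, J⁆ with hNdef
  have hNX : N ≤ X := CfH7.comm_le_left hJX
  have hNL : N ≤ L := hNX.trans hXL
  have hJN : J ≤ Nm(N) := CfH7.right_le_Nm_comm _ _
  have hND : hb (ZL L) N = D := by
    rw [hNdef, hb_commutator (hXL.trans hLZ) (hJL.trans hLZ), hXD, hDJ]
  have hNE : N ≤ nclo J L := by
    rw [hNdef, commutator_comm]
    exact (Subgroup.commutator_mono le_rfl hXL).trans (CfH7.commutator_le_nclo _ _)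
  have hJq := isPGroup_qb (Q := Q) hJp
  have hcopX : (Nat.card (qb Q J)).Coprime (Nat.card (qb Q X)) :=
    (coprime_of_odd_of_elem hJq hXodd).symm
  have hNN : ⁅qb Q N, qb Q J⁆ = qb Q N := by
    rw [hNdef, qb_commutator (hXL.trans hLQ) (hJL.trans hLQ)]
    exact commutator_commutator_eq (qb_le_Nm hJX) hcopX (Or.inl (isSolvable_of_isPGroup hJq))
  have hNodd : Odd (Nat.card (qb Q N)) := odd_card_of_le (qb_mono hNX) hXodd
  have hNC : qb Q N ≤ Cz(qb Q C) := by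
    rw [qb_le_Cz_iff (hNL.trans hLQ) (inf_le_left.trans hLQ), commutator_comm]
    exact (Subgroup.commutator_mono le_rfl hNE).trans (h.comm_C_nclo)
  have hNnC : ¬ N ≤ C := fun e => by
    have : hb (ZL L) N = ⊥ := (hb_eq_bot_iff (hNL.trans hLZ)).2 (e.trans inf_le_right)
    rw [hND] at this
    rw [this, card_bot] at hD3
    omega
  obtain ⟨x, hxN, hxC⟩ := SetLike.not_le_iff_exists.1 hNnC
  have hXx : X = C ⊔ zpowers x :=
    ((eq_or_eq_of_relIndex_prime hCidx le_sup_left (sup_le hCX (zpowers_le.2 (hNX hxN)))).resolve_left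
      fun e => hxC (e ▸ (le_sup_right : zpowers x ≤ C ⊔ zpowers x) (mem_zpowers x))).symm
  have hxN' : zpowers x ≤ N := zpowers_le.2 hxN
  have hNx : N = (C ⊓ N) ⊔ zpowers x := by
    rw [← inf_sup_dedekind' ((hxN'.trans hNL).trans (le_Nm_CL L)) hxN', ← hXx,
      inf_eq_right.2 hNX]
  have hNab : IsMulCommutative (qb Q N) := by
    rw [hNx, qb_sup ((inf_le_right.trans hNL).trans hLQ) ((hxN'.trans hNL).trans hLQ)]
    have h1 : qb Q (C ⊓ N) ≤ Cz(qb Q N) :=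
      CfH7.le_Cz_comm (hNC.trans (Cz_anti (qb_mono inf_le_left)))
    refine comm_sup ?_ ?_ (h1.trans (Cz_anti (qb_mono hxN')))
    · exact CfH9.comm_of_le (le_inf le_rfl (h1.trans (Cz_anti (qb_mono inf_le_right))))
        (comm_inf_Cz _)
    · have := qb_zpowers (Q := Q) ⟨x, hLQ (hNL hxN)⟩
      rw [this]
      exact comm_zpowers _
  have hNJ : qb Q N ⊓ Cz(qb Q J) = ⊥ := by
    have := card_eq_mul_of_coprime hNab (qb_le_Nm hJN) (coprime_of_odd_of_elem hJq hNodd).symm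
    rw [hNN] at this
    have hp : 0 < Nat.card (qb Q N) := Nat.card_pos
    rw [← card_eq_one]
    exact (Nat.mul_eq_left hp.ne').1 this.symm
  have hNCQ : N ⊓ C ≤ Q := by
    rw [← qb_eq_bot_iff ((inf_le_left.trans hNL).trans hLQ), qb_inf (inf_le_left.trans hLQ) hQC,
      ← le_bot_iff, ← hNJ]
    refine inf_le_inf_left _ ?_
    rw [qb_le_Cz_iff (inf_le_left.trans hLQ) (hJL.trans hLQ)]
    exact (Subgroup.commutator_mono le_rfl (J_le T)).trans (h.comm_C_T)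
  have hN3 : Nat.card (qb Q N) = 3 := by
    rw [card_qb (hNL.trans hLQ), ← hD3, ← hND, card_hb (hNL.trans hLZ),
      ← inf_relIndex_right (Cz(ZL L)), ← inf_relIndex_right Q]
    congr 1
    exact le_antisymm (inf_le_inf_right _ (CfH7.le_Cz_OZ _))
      (le_inf (le_trans (le_inf inf_le_right (le_inf (inf_le_right.trans hNL) inf_le_left)) hNCQ)
        inf_le_right)
  -- the component
  set K := pResidualOf 2 (N ⊔ Q) with hKdef
  have hNQ : N ⊔ Q ≤ L := sup_le hNL hQL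
  have hKNQ : K ≤ N ⊔ Q := CfH7.pResidualOf_le _
  have hKL : K ≤ L := hKNQ.trans hNQ
  have hKq : qb Q K = qb Q N := by
    rw [hKdef, qb_pResidualOf (hNQ.trans hLQ), qb_sup_self (hNL.trans hLQ)]
    exact CfH7.pResidualOf_eq_self_of_coprime (by rw [hN3]; decide)
  have hKD : hb (ZL L) K = D := by
    rw [hKdef, hb_pResidualOf (hNQ.trans hLZ), hb_sup (hNL.trans hLZ) (hQL.trans hLZ), hND,
      (hb_eq_bot_iff (hQL.trans hLZ)).2 (CfH7.le_Cz_OZ _), sup_bot_eq]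
    exact CfH7.pResidualOf_eq_self_of_coprime (by rw [hD3]; decide)
  have hres : pResidualOf 2 K = K := CfH7.pResidualOf_pResidualOf _
  have hQK : Q ≤ Nm(K) := le_sup_right.trans (CfH7.le_normalizer_pResidualOf _)
  have hJK : J ≤ Nm(K) := (CfH7.le_normalizer_sup hJN (hJL.trans hLQ)).trans
    (CfH7.normalizer_le_normalizer_pResidualOf _)
  have hQidx : Q.relIndex K = 3 := by rw [← card_qb (hKL.trans hLQ), hKq, hN3]
  have hKnp : ¬ IsPGroup 2 K := fun e => by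
    have h1 := isPGroup_qb (Q := Q) e
    have := eq_bot_of_not_dvd h1 le_rfl (by rw [hKq, hN3]; decide)
    rw [hKq] at this
    rw [this, card_bot] at hN3
    omega
  have hO : pCoreOf 2 K = K ⊓ Q := by
    refine (eq_or_eq_of_relIndex_prime (p := 3) (C := K) (by rw [inf_relIndex_left, hQidx])
      (CfH7.le_pCoreOf inf_le_left (CfH7.le_normalizer_inf le_normalizer (hKL.trans hLQ))
        (hQp.to_le inf_le_right)) (CfH7.pCoreOf_le _)).resolve_right fun e => ?_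
    exact hKnp (CfH7.pCoreOf_eq_self_iff.1 e)
  have hidx : (pCoreOf 2 K).relIndex K = 3 := by rw [hO, inf_relIndex_left, hQidx]
  have hcomm : ⁅K, J⁆ = K := by
    refine le_antisymm (CfH7.comm_le_left hJK) ?_
    have h1 : K ≤ ⁅K, J⁆ ⊔ Q := by
      rw [← qb_le_qb_iff (hKL.trans hLQ) ((commutator_le_self' hKL hJL).trans hLQ),
        qb_commutator (hKL.trans hLQ) (hJL.trans hLQ), hKq, hNN]
    have := CfH7.pResidualOf_le_of_le_sup hQp
      (CfH7.le_normalizer_commutator hQK h.Q_le_Nm_J) h1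
    rwa [hres] at this
  have hKnC : ¬ K ≤ Cz(ZL L) := fun e => by
    rw [← hb_eq_bot_iff (hKL.trans hLZ), hKD] at e
    rw [e, card_bot] at hD3
    omega
  refine ⟨K, ⟨hres, hcomm, hidx, fun S hS hJS => ?_, ?_⟩, hKL, hKD⟩
  · exact h.J_eq hS.pgrp (hS.le.trans (sup_le hKL hJL)) hJS
  · have hKY := CfH7.le_Nm_OZ_pCoreOf (p := 2) K
    have hOQ : pCoreOf 2 K ≤ Q := hO ▸ inf_le_right
    rw [wOf_def]
    refine card_commutator_eq_four (CfH7.elemAb_OZ _) ((CfH7.OZ_le _).trans (hOQ.trans h.Q_le))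
      hKY (hJK.trans ((CfH7.normalizer_le_normalizer_pCoreOf _).trans (CfH7.Nm_le_Nm_OZ _)))
      hJK hcomm ?_
    rw [card_hb hKY, ← hidx, ← inf_relIndex_left K]
    congr 1
    refine (eq_or_eq_of_relIndex_prime hidx (le_inf (CfH7.pCoreOf_le _) (CfH7.le_Cz_OZ _))
      inf_le_left).resolve_right fun e => hKnC ?_
    have hKZ := hKL.trans hLZ
    have hZ := CfH7.elemAb_OZ (p := 2) Q
    have h1 : ⁅ZL L, K⁆ ≤ ZL L := CfH7.comm_le_left hKZ
    have h2 : ⁅ZL L, K⁆ ≤ OZ 2 (pCoreOf 2 K) := by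
      refine CfH7.le_OZ (CfH7.elemAb_of_le h1 hZ) ?_
        (h1.trans ((CfH7.OZ_le_Cz _).trans (Cz_anti hOQ)))
      rw [hO]
      exact le_inf (CfH7.comm_le_right ((CfH7.OZ_le _).trans hQK)) (h1.trans (CfH7.OZ_le _))
    rw [← CfH7.comm_eq_bot_right]
    exact commutator_eq_bot_of_pResidual (CfH7.elemAb_isPGroup hZ) hKZ hres h2
      (CfH7.comm_eq_bot_right.2 (e.ge.trans inf_le_right))

/-- `L` is generated by the `J(T)`-components in `L` and `N_L(J(T))` -/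
theorem le_of_comps {H : Subgroup G} (h1 : ∀ K, JC (JJ 2 T) K → K ≤ L → K ≤ H)
    (h2 : L ⊓ Nm(JJ 2 T) ≤ H) : L ≤ H := by
  set J := JJ 2 T with hJdef
  have hLZ := CfH7.le_Nm_OZ_pCoreOf (p := 2) L
  have hJL : J ≤ L := h.J_le
  have hJp : IsPGroup 2 J := isPGroup_J h.pgrp
  have hEL : nclo J L ≤ L := CfH7.nclo_le_of_le hJL
  have hLE := CfH7.right_le_Nm_nclo J L
  have hS : SylIn 2 (T ⊓ nclo J L) (nclo J L) := h.syl.inf_normal' hLE hEL
  have hJS : JJ 2 (T ⊓ nclo J L) = J :=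
    J_eq_of_J_le (le_inf (J_le T) (CfH7.le_nclo _ _)) inf_le_left
  have hCH : L ⊓ Cz(ZL L) ≤ H :=
    le_trans (le_inf inf_le_left ((h.C_le_Nm).trans (Nm_le_Nm_J T))) h2
  have hR : RL L ≤ hb (ZL L) (L ⊓ H) := by
    have hJb := isPGroup_hb (V := ZL L) hJp
    rw [← commutator_sup_centralizer_eq (hb_le_Nm_RL hJL)
      (coprime_of_odd_of_elem hJb (h.odd_RL)).symm (Or.inl (isSolvable_of_isPGroup hJb))]
    refine sup_le ((h.ff).2.1.trans (sSup_le ?_)) ?_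
    · rintro D ⟨hD, hDD, hDJ⟩
      obtain ⟨K, hK, hKL, rfl⟩ := exists_comp h (hD.trans (RL_le L)) hDD.card hDJ
      exact hb_mono (le_inf hKL (h1 K hK hKL))
    · rw [← hb_inf_hp_of_le (inf_le_left.trans (RL_le L))]
      refine hb_mono (le_inf inf_le_left (le_trans (le_inf inf_le_left ?_) h2))
      set Y := L ⊓ hp (ZL L) (RL L ⊓ Cz(hb (ZL L) J)) with hY
      have hYL : Y ≤ L := inf_le_left
      have h3 : ⁅J, Y⁆ ≤ L ⊓ Cz(ZL L) := by
        refine le_inf (commutator_le_self' hJL hYL) ?_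
        rw [← hb_eq_bot_iff ((commutator_le_self' hJL hYL).trans hLZ),
          hb_commutator (hJL.trans hLZ) (hYL.trans hLZ), CfH7.comm_eq_bot_right,
          hb_inf_hp_of_le (inf_le_left.trans (RL_le L))]
        exact inf_le_right
      have h4 : Y ≤ Nm(J ⊔ (L ⊓ Cz(ZL L))) :=
        CfH7.le_Nm_sup_of_comm_le (hYL.trans (le_Nm_CL L)) (h3.trans le_sup_right)
      intro y hy
      rw [mem_normalizer_iff_cj]
      refine cj_J_eq_of_le (h.le_of_le_sup_C (isPGroup_cj hJp y) ?_)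
      refine le_trans (cj_mono y le_sup_left) ((cj_eq_of_mem_normalizer (h4 hy)).le.trans ?_)
      exact sup_le_sup_right (J_le T) _
  have hres : pResidualOf 2 (nclo J L) ≤ H := by
    have h3 : hb (ZL L) (pResidualOf 2 (nclo J L)) ≤ hb (ZL L) (L ⊓ H) := by
      rw [hb_pResidualOf (hEL.trans hLZ), hb_nclo (hJL.trans hLZ) hLZ]
      exact (h.ff).1.trans hR
    rw [hb_le_hb_iff' ((CfH7.pResidualOf_le _).trans hEL) inf_le_left] at h3
    exact h3.trans (sup_le inf_le_right hCH)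
  have hN : L ⊓ Nm(T ⊓ nclo J L) ≤ H :=
    le_trans (inf_le_inf_left _ ((Nm_le_Nm_J _).trans (by rw [hJS]))) h2
  rw [← hS.frattini_sup hLE hEL]
  refine sup_le ?_ hN
  rw [← CfH7.sylIn_pResidualOf_sup hS]
  exact sup_le hres (le_trans (le_inf (inf_le_right.trans hEL) le_normalizer) hN)

theorem exists_comp_not_le {M : Subgroup G} (hM : ¬ L ≤ M) (h2 : L ⊓ Nm(JJ 2 T) ≤ M) :
    ∃ K, JC (JJ 2 T) K ∧ K ≤ L ∧ ¬ K ≤ M := by
  by_contra hc
  push Not at hc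
  exact hM (le_of_comps h hc h2)

theorem exists_comp_le : ∃ K, JC (JJ 2 T) K ∧ K ≤ L := by
  obtain ⟨K, h1, h2, -⟩ := exists_comp_not_le h (M := Nm(JJ 2 T)) (fun e =>
    h.nle (CfH7.le_pCoreOf h.J_le e (isPGroup_J h.pgrp))) inf_le_right
  exact ⟨K, h1, h2⟩

/-- the set of components of `L` is invariant under conjugation in `L` -/
theorem comp_cj {K : Subgroup G} (hK : JC (JJ 2 T) K) (hKL : K ≤ L) {g : G} (hg : g ∈ L) :
    JC (JJ 2 T) (cj g K) := by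
  let H : Subgroup G :=
    { carrier := {g | g ∈ L ∧ ∀ X, X ≤ L → (JC (JJ 2 T) (cj g X) ↔ JC (JJ 2 T) X)}
      one_mem' := ⟨one_mem _, fun X _ => by rw [cj_one]⟩
      mul_mem' := by
        rintro a b ⟨ha, ha'⟩ ⟨hb, hb'⟩
        refine ⟨mul_mem ha hb, fun X hX => ?_⟩
        rw [cj_mul, ha' _ ((cj_mono b hX).trans (cj_eq_of_mem hb).le), hb' X hX]
      inv_mem' := by
        rintro a ⟨ha, ha'⟩
        refine ⟨inv_mem ha, fun X hX => ?_⟩
        rw [← ha' _ ((cj_mono a⁻¹ hX).trans (cj_eq_of_mem (inv_mem ha)).le), cj_cj_inv] }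
  have : L ≤ H := by
    refine le_of_comps h (fun K' hK' hKL' x hx => ⟨hKL' hx, fun X hX => ⟨fun hc => ?_,
      fun hc => ?_⟩⟩) fun x hx => ⟨hx.1, fun X hX => ⟨fun hc => ?_, fun hc => ?_⟩⟩
    · have := comp_le_Nm h hc ((cj_mono x hX).trans (cj_eq_of_mem (hKL' hx)).le) hK' hKL'
        (inv_mem hx)
      rw [mem_normalizer_iff_cj, cj_inv_cj] at this
      rwa [this]
    · rwa [cj_eq_of_mem_normalizer (comp_le_Nm h hc hX hK' hKL' hx)]
    · have := hc.cj_of_mem (inv_mem hx.2)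
      rwa [cj_inv_cj] at this
    · exact hc.cj_of_mem hx.2
  exact ((this hg).2 K hKL).2 hK

theorem comp_mem_Nm {K : Subgroup G} (hK : JC (JJ 2 T) K) (hKL : K ≤ L) {g : G} (hg : g ∈ L)
    (hW : cj g (wOf K) ⊓ wOf K ≠ ⊥) : g ∈ Nm(K) := by
  rw [mem_normalizer_iff_cj]
  refine comp_eq_of_wOf_inf h (comp_cj h hK hKL hg)
    ((cj_mono g hKL).trans (cj_eq_of_mem hg).le) hK hKL ?_
  rwa [← cj_wOf]

/-- an element of `L` fixing a nontrivial element of `W_K` normalizes `K` -/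
theorem comp_le_Nm_of_Cz {K X : Subgroup G} (hK : JC (JJ 2 T) K) (hKL : K ≤ L) (hX : X ≤ L)
    (hW : wOf K ⊓ Cz(X) ≠ ⊥) : X ≤ Nm(K) := fun g hg => by
  refine comp_mem_Nm h hK hKL (hX hg) (ne_bot_of_le (le_inf ?_ inf_le_left) hW)
  rw [← cj_eq_of_mem_centralizer (g := g) (X := wOf K ⊓ Cz(X))
    (CfH7.le_Cz_comm inf_le_right hg)]
  exact cj_mono g inf_le_left

theorem comp_le_Nm_of_Nm {K X : Subgroup G} (hK : JC (JJ 2 T) K) (hKL : K ≤ L) (hX : X ≤ L)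
    (hW : X ≤ Nm(wOf K)) : X ≤ Nm(K) := fun g hg => by
  refine comp_mem_Nm h hK hKL (hX hg) ?_
  rw [cj_eq_of_mem_normalizer (hW hg), inf_idem]
  exact hK.wOf_ne_bot

end

end CfH8.W
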