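import Cfsg.Agent.OD.Pre
import Cfsg.Agent.H8.WJ
import Cfsg.Prelude.Def_QuasithinSetup

/-!
# Two orbits of J(T)-components: the configuration and the pieces
-/

set_option autoImplicit false
set_option linter.unusedSectionVars false

namespace CfH8.W

open Subgroup MulAction CfH9 Cfsg
open scoped commutatorElement
open CfH7 (OZ ChP SubnIn nclo RedOn)

universe u

variable {G : Type*} [Group G] [Finite G]

/-- the global hypothesis -/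
structure GH (T : Subgroup G) : Prop where
  syl : SylIn 2 T ⊤
  zc : Cz(OZ 2 T) ≤ T
  loc : ∀ H : Subgroup G, T ≤ H → pCoreOf 2 H ≠ ⊥ →
    Group.IsSolvable H ∧ Cz(pCoreOf 2 H) ≤ pCoreOf 2 H

/-- a `T`-orbit `{K, K₂}` of components (`K₂ = K` is allowed) -/
structure Orb (T K K₂ : Subgroup G) : Prop where
  jc : JC (JJ 2 T) K
  orb : ∀ t ∈ T, cj t K = K ∨ cj t K = K₂
  ex : ∃ t ∈ T, cj t K = K₂
  loc : pCoreOf 2 (K ⊔ K₂ ⊔ T) ≠ ⊥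

/-- two orbits without common normal 2-subgroup -/
structure Cf (T K K₂ L L₂ : Subgroup G) : Prop where
  gh : GH T
  oK : Orb T K K₂
  oL : Orb T L L₂
  core : ∀ N : Subgroup G, N ≤ T → T ≤ Nm(N) → K ≤ Nm(N) → L ≤ Nm(N) → N = ⊥
  nJ : Nm(JJ 2 T) ≤ T
  pK : ¬ pCoreOf 2 K ⊔ pCoreOf 2 K₂ ≤ pCoreOf 2 (L ⊔ L₂ ⊔ T)
  pL : ¬ pCoreOf 2 L ⊔ pCoreOf 2 L₂ ≤ pCoreOf 2 (K ⊔ K₂ ⊔ T)

theorem Cf.symm {T K K₂ L L₂ : Subgroup G} (h : Cf T K K₂ L L₂) : Cf T L L₂ K K₂ :=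
  ⟨h.gh, h.oL, h.oK, fun N a b c d => h.core N a b d c, h.nJ, h.pL, h.pK⟩

theorem GH.pgrp {T : Subgroup G} (h : GH T) : IsPGroup 2 T := h.syl.pgrp

theorem GH.ll {T H K : Subgroup G} (h : GH T) (hT : T ≤ H) (h1 : pCoreOf 2 H ≠ ⊥)
    (hK : JC (JJ 2 T) K) (hKH : K ≤ H) : LL T H := by
  refine ⟨⟨h.syl.mono hT le_top, fun hc => ?_, (h.loc H hT h1).2⟩, (h.loc H hT h1).1, h.zc⟩
  apply hK.not_le (CfH7.isPGroup_pCoreOf (p := 2) H)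
  conv_lhs => rw [← hK.comm]
  exact (Subgroup.commutator_mono le_rfl hc).trans
    (CfH7.comm_le_right (hKH.trans (CfH7.le_normalizer_pCoreOf _)))

namespace Orb

variable {T K K₂ : Subgroup G} (h : Orb T K K₂)
include h

theorem jc₂ : JC (JJ 2 T) K₂ := by
  obtain ⟨t, ht, rfl⟩ := h.ex
  exact h.jc.cj_of_mem (le_Nm_J T ht)

theorem swap : Orb T K₂ K := by
  obtain ⟨t, ht, e⟩ := h.ex
  refine ⟨h.jc₂, fun s hs => ?_, ⟨t⁻¹, inv_mem ht, by rw [← e, cj_inv_cj]⟩, by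
    rw [sup_comm K₂]; exact h.loc⟩
  rw [← e, ← cj_mul]
  exact ((h.orb _ (mul_mem hs ht)).imp id fun x => x.trans e.symm).symm

theorem ll (g : GH T) : LL T (K ⊔ K₂ ⊔ T) :=
  g.ll le_sup_right h.loc h.jc (le_sup_left.trans le_sup_left)

theorem le₁ : K ≤ K ⊔ K₂ ⊔ T := le_sup_left.trans le_sup_left

theorem le₂ : K₂ ≤ K ⊔ K₂ ⊔ T := le_sup_right.trans le_sup_left

theorem Nm₂ {N : Subgroup G} (hT : T ≤ Nm(N)) (hK : K ≤ Nm(N)) : K₂ ≤ Nm(N) := by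
  obtain ⟨t, ht, rfl⟩ := h.ex
  exact (cj_mono t hK).trans (cj_eq_of_mem (hT ht)).le

theorem T_le_Nm : T ≤ Nm(K ⊔ K₂) := fun t ht => by
  apply mem_normalizer_of_cj_le
  rw [cj_sup]
  refine sup_le ?_ ?_
  · rcases h.orb t ht with e | e <;> rw [e]
    exacts [le_sup_left, le_sup_right]
  · rcases h.swap.orb t ht with e | e <;> rw [e]
    exacts [le_sup_right, le_sup_left]

end Orb

theorem Cf.swap {T K K₂ L L₂ : Subgroup G} (h : Cf T K K₂ L L₂) : Cf T K₂ K L L₂ :=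
  ⟨h.gh, h.oK.swap, h.oL, fun N a b c d => h.core N a b (h.oK.swap.Nm₂ b c) d, h.nJ,
    by rw [sup_comm]; exact h.pK, by rw [sup_comm K₂]; exact h.pL⟩

/-- the pushing-up theorem in the form needed (from S1823) -/
def UU (T : Subgroup G) : Prop :=
  ∀ K K₂ M₀ R : Subgroup G, Orb T K K₂ → T ≤ M₀ → pCoreOf 2 M₀ ≠ ⊥ → R ≠ ⊥ → R ≤ T →
    pCoreOf 2 K ⊔ pCoreOf 2 K₂ ≤ R → M₀ ≤ Nm(R) →
    ∃ R₀ : Subgroup G, R₀ ≠ ⊥ ∧ R₀ ≤ R ∧ M₀ ≤ Nm(R₀) ∧ K ≤ Nm(R₀)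

/-- at most two components in a 2-local overgroup of `T` -/
def Two (T : Subgroup G) : Prop :=
  ∀ H K₁ K₂ K₃ : Subgroup G, T ≤ H → pCoreOf 2 H ≠ ⊥ → JC (JJ 2 T) K₁ → JC (JJ 2 T) K₂ →
    JC (JJ 2 T) K₃ → K₁ ≤ H → K₂ ≤ H → K₃ ≤ H → K₁ = K₂ ∨ K₁ = K₃ ∨ K₂ = K₃

def P0 : Prop := ∀ {G : Type u} [Group G] [Finite G] [IsSimpleGroup G], ¬ IsMulCommutative G →
  IsQTKE G → ∀ T : Sylow 2 G, GH (T : Subgroup G) → UU (T : Subgroup G)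

def P1 : Prop := ∀ {G : Type u} [Group G] [Finite G], IsQuasithin G → ∀ T : Subgroup G,
  GH T → Two T

def P2 : Prop := ∀ {G : Type u} [Group G] [Finite G] (T : Subgroup G), GH T → UU T → Two T →
  ∀ M₁ M₂ : Subgroup G, IsMaximalTwoLocal M₁ → IsMaximalTwoLocal M₂ → T ≤ M₁ → T ≤ M₂ → M₁ ≠ M₂ →
    ∃ K K₂ L L₂, Cf T K K₂ L L₂

def P3 : Prop := ∀ {G : Type u} [Group G] [Finite G] {T K K₂ L L₂ : Subgroup G},
  Cf T K K₂ L L₂ → pCoreOf 2 K = wOf K ∨ pCoreOf 2 L = wOf L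

def P4 : Prop := ∀ {G : Type u} [Group G] [Finite G] {T K K₂ L L₂ : Subgroup G},
  Cf T K K₂ L L₂ → pCoreOf 2 K = wOf K → OZ 2 (JJ 2 T) ≤ ⁅T, T⁆ → T ⊓ Cz(K ⊔ K₂) = ⊥

def P5 : Prop := ∀ {G : Type u} [Group G] [Finite G] [IsSimpleGroup G], ¬ IsMulCommutative G →
  ∀ {T K : Subgroup G}, GH T → Orb T K K → pCoreOf 2 K = wOf K → T ⊓ Cz(K) = ⊥ →
    (∃ (F : Type) (_ : Field F) (_ : Fintype F), Fintype.card F = 2 ∧
      Nonempty (G ≃* Matrix.ProjectiveSpecialLinearGroup (Fin 3) F)) ∨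
    Nonempty (G ≃* ↥(alternatingGroup (Fin 6)))

def P6 : Prop := ∀ {G : Type u} [Group G] [Finite G] {T K K₂ : Subgroup G}, GH T → Orb T K K₂ →
  K ≠ K₂ → pCoreOf 2 K = wOf K → T ⊓ Cz(K ⊔ K₂) = ⊥ →
    Nonempty (↥(K ⊔ K₂ ⊔ T) ≃* ↥blockStabilizerS4wr2)

end CfH8.W
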