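import Cfsg.Agent.OD.Pre
import Cfsg.Agent.H8.MB3a
/-! The further involution in a group with the local data of `M₂₂`. -/
set_option autoImplicit false
set_option maxRecDepth 100000
set_option Elab.async false
set_option linter.all false
open CfL CfH6 MulAction Subgroup CfH4.M22 CfH9 CfH5.Nat
namespace CfH8.M2

theorem syl {K : Type*} [Group K] [Finite K] (hK : Nat.card K = 1920) {y s : K} (y3 : orderOf y = 3)
    (hs : s * y * s⁻¹ = y⁻¹) (hC : Nat.card Cx(y) ∣ 36) : ∃ t : K, orderOf t = 2 ∧ t * y = y * t := by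
  classical
  have : Fact (Nat.Prime 3) := ⟨by norm_num⟩
  by_cases h : 2 ∣ Nat.card Cx(y)
  · obtain ⟨t, ht⟩ := exists_prime_orderOf_dvd_card' 2 h
    exact ⟨t, (orderOf_coe t).trans ht, mem_Cx.1 t.2⟩
  exfalso
  have c3 : Nat.card (zpowers y) = 3 := (Nat.card_zpowers y).trans y3
  have e : zpowers y = Cx(y) := eq_of_le_of_card_ge (zpowers_le_of_mem (mem_Cx.2 rfl)) (by
    have a : _ ∣ 12 := (by norm_num : Nat.gcd 36 1920 = 12) ▸ Nat.dvd_gcd hC (hK ▸ card_subgroup_dvd_card Cx(y))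
    have b := Nat.le_of_dvd (by norm_num) a
    rw [c3]
    generalize Nat.card Cx(y) = c at *
    interval_cases c <;> omega)
  have y1 : y ≠ 1 := fun h => by simp [h] at y3
  have yy : y * y = y⁻¹ := eq_inv_of_mul_eq_one_left (by rw [← pow_three', ← y3, pow_orderOf_eq_one])
  have z : ∀ g ∈ Nm(zpowers y), g ∈ Cx(y) ∨ g * y * g⁻¹ = y⁻¹ := fun g hg => by
    obtain ⟨n, hn, a⟩ := Finset.mem_image.1 (mem_zpowers_iff_mem_range_orderOf.1 ((mem_normalizer_iff.1 hg y).1 (mem_zpowers y)))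
    rw [y3, Finset.mem_range] at hn
    interval_cases n
    · exact absurd a.symm (by simpa using y1)
    · exact Or.inl (mem_Cx'.2 (a.symm.trans (pow_one y)))
    · exact Or.inr (a.symm.trans ((pow_two y).trans yy))
  have le : Cx(y) ≤ Nm(zpowers y) := e ▸ le_normalizer
  have a := idx2 le fun a ha b hb => (z a ha).elim Or.inl fun a1 => Or.inr ((z b hb).imp id fun b1 => mem_Cx'.2 (by
    rw [show a * b * y * (a * b)⁻¹ = a * (b * y * b⁻¹) * a⁻¹ by group, b1, ← conj_inv, a1, inv_inv]))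
  have b := dbl le (b := s) (mem_normalizer_of_cj_le (by
    rintro _ ⟨_, ⟨n, rfl⟩, rfl⟩
    change s * y ^ n * s⁻¹ ∈ _
    rw [← conj_zpow, hs]
    exact zpow_mem (inv_mem (mem_zpowers y)) n)) fun c => y1 (by
      rw [mem_Cx'.1 c, ← yy] at hs
      exact left_eq_mul.1 hs)
  rw [← e, c3] at a b
  have i := (zpowers y).card_mul_index
  let P : Sylow 3 K := (IsPGroup.of_card (c3.trans (pow_one 3).symm)).toSylow (by rw [c3, hK] at i; omega)
  have c := card_sylow_modEq_one 3 K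
  rw [P.card_eq_index_normalizer] at c
  have j := (Nm(zpowers y)).card_mul_index
  rw [le_antisymm a b, hK] at j
  rw [show (normalizer (P : Set K)).index = 320 from (by omega : (Nm(zpowers y)).index = 320)] at c
  exact absurd c (by decide)

/-- the centraliser of `y` looks like `3 × A₄` -/
def ZP {G : Type*} [Group G] (y : G) : Prop := ∀ t s, t * y = y * t → s * y = y * s → t * t = 1 →
  (s * s = 1 → t * s = s * t) ∧ (s * (s * s) = 1 → s = 1 ∨ s = y ∨ s * y = 1 ∨ t * s * (t * s * (t * s)) = 1)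
theorem ZP.map {G : Type*} [Group G] {y : G} (f : G ≃* G) (h : ZP (f y)) : ZP y := fun t s a b c => by
  simpa only [← map_mul, EmbeddingLike.apply_eq_iff_eq, EmbeddingLike.map_eq_one_iff] using h (f t) (f s)
    (by rw [← map_mul, a, map_mul]) (by rw [← map_mul, b, map_mul]) (by rw [← map_mul, c, map_one])

noncomputable def cX (w : List ℕ) : Bool := cC w [0, 2] && cC w wV
noncomputable def nrm (k : List ℕ) : Bool := allLt 7 k && L2.all fun w => cX (cw k w)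
noncomputable def LD : List (List ℕ) := LH.filter fun w => !cD (cw w wV) wV

namespace Emb
variable {G : Type*} [Group G] [Finite G] {ev : ℕ → G} (m : Emb ev) (L : Loc G)
include m
theorem o2 {w : List ℕ} (h : cE (w ++ w) [] = true := by decide +kernel) (h' : cN w [] = true := by decide +kernel) :
    orderOf (evw ev w) = 2 := orderOf_eq_prime (by rw [pow_two, ← evw_append]; exact m.eq h) (m.ne h')
theorem o3 {w : List ℕ} (h : cE (w ++ w ++ w) [] = true := by decide +kernel) (h' : cN w [] = true := by decide +kernel) :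
    orderOf (evw ev w) = 3 := haveI : Fact (Nat.Prime 3) := ⟨by norm_num⟩
  orderOf_eq_prime (by rw [pow_three', ← evw_append, ← evw_append]; exact m.eq h) (m.ne h')
abbrev X2 (ev : ℕ → G) : Subgroup G := Cx(evw ev [0, 2]) ⊓ Cx(evw ev wV)
theorem mX {w : List ℕ} (h : cX w = true := by decide +kernel) : evw ev w ∈ X2 ev := by
  rw [cX, Bool.and_eq_true] at h
  exact ⟨mem_Cx.2 (m.cm h.1), mem_Cx.2 (m.cm h.2)⟩
include L
theorem hH : ∀ g ∈ Cx(evw ev [0, 2]), ∃ w ∈ LH, g = evw ev w := m.list _ LH (by decide +kernel)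
  (fun w hw => mem_Cx.2 (m.cm ((by decide +kernel : ∀ w ∈ LH, cC w [0, 2] = true) w hw)))
  ((L.c2 _ m.o2).trans_le (by decide +kernel))
theorem hZ : ZP (evw ev wY) := by
  obtain ⟨c, hc⟩ := isConj_iff.1 (L.j3 _ _ (m.o3 (w := wY)) (m.o3 (w := wX)))
  refine ZP.map (MulAut.conj c) (hc.symm ▸ fun t s a b d => ?_ : ZP (c * evw ev wY * c⁻¹))
  have l := m.list Cx(evw ev wX) LZ (by decide +kernel)
    (fun w hw => mem_Cx.2 (m.cm ((by decide +kernel : ∀ w ∈ LZ, cC w wX = true) w hw)))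
    ((L.c3 _ m.o3).trans_le (by decide +kernel))
  obtain ⟨w, hw, rfl⟩ := l t (mem_Cx.2 a)
  obtain ⟨v, hv, rfl⟩ := l s (mem_Cx.2 b)
  simp only [← evw_append] at d ⊢
  have k := ((by decide +kernel : ∀ w ∈ LZ, cN (w ++ w) [] = true ∨ ∀ v ∈ LZ,
    (cN (v ++ v) [] = true ∨ cC w v = true) ∧ (cN (v ++ (v ++ v)) [] = true ∨ cE v [] = true ∨ cE v wX = true ∨
      cE (v ++ wX) [] = true ∨ cE (w ++ v ++ (w ++ v ++ (w ++ v))) [] = true)) w hw).resolve_left (m.ne · d) v hv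
  exact ⟨fun e => m.eq (k.1.resolve_left (m.ne · e)), fun e =>
    (k.2.resolve_left (m.ne · e)).imp (m.eq ·) (Or.imp (m.eq ·) (Or.imp (m.eq ·) (m.eq ·)))⟩
theorem hX : ∀ g ∈ X2 ev, g = 1 ∨ ∃ w ∈ L2, g = evw ev w := fun g hg => by
  obtain ⟨w, hw, rfl⟩ := m.hH L g hg.1
  exact (((by decide +kernel : ∀ w ∈ LH, cD w wV = true ∨ w = [] ∨ w ∈ L2) w hw).resolve_left
    (m.nc · (mem_Cx.1 hg.2))).imp (fun e => by rw [e]; rfl) fun h => ⟨w, h, rfl⟩
theorem nm {k : List ℕ} (h : nrm k = true := by decide +kernel) : evw ev k ∈ Nm(X2 ev) := by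
  rw [nrm, Bool.and_eq_true] at h
  refine mem_normalizer_of_cj_le (cj_le_iff_forall.2 fun g hg => ?_)
  rcases m.hX L g hg with rfl | ⟨w, hw, rfl⟩
  · simpa using one_mem _
  · exact m.cw h.1 ▸ m.mX (List.all_eq_true.1 h.2 w hw)
theorem sq : ∀ g ∈ X2 ev, g * g = 1 := fun g hg => by
  rcases m.hX L g hg with rfl | ⟨w, hw, rfl⟩
  · exact mul_one _
  · rw [← evw_append]; exact m.eq ((by decide +kernel : ∀ w ∈ L2, cE (w ++ w) [] = true) w hw)
theorem swap : ∃ n ∈ Nm(X2 ev), n * evw ev [0, 2] * n⁻¹ = evw ev wV := by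
  obtain ⟨g, hg⟩ := isConj_iff.1 (L.j2 _ _ (m.o2 (w := wV)) (m.o2 (w := [0, 2])))
  obtain ⟨w, hw, e⟩ := m.hH L (g * evw ev [0, 2] * g⁻¹) (mem_Cx.2 (by
    have := (cj_comm g).2 (m.cm (u := [0, 2]) (v := wV))
    rwa [hg] at this))
  rcases (by decide +kernel : ∀ w ∈ LH, cN (w ++ w) [] = true ∨ (∃ t ∈ LT, cC t w = true) ∨
    ∃ c ∈ LC, cJ c w wV = true) w hw with h | ⟨t, ht, h⟩ | ⟨c, hc, h⟩
  · exact absurd (by rw [evw_append, ← e, ← cjm, m.sq L _ (m.mX (w := [0, 2]))]; simp) (m.ne h)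
  · obtain ⟨a, b⟩ := (by decide +kernel : ∀ t ∈ LT, cC t [0, 2] = true ∧ cN (t ++ t) [] = true) t ht
    have k := m.sq L (g⁻¹ * evw ev t * g) ⟨mem_Cx.2 ((cj_comm g).1 (by rw [e]; simpa [mul_assoc] using m.cm h)),
      mem_Cx.2 ((cj_comm g).1 (by rw [hg]; simpa only [mul_assoc, mul_inv_cancel_left, mul_inv_cancel, mul_one] using m.cm a))⟩
    refine absurd ?_ (m.ne b)
    rw [evw_append, evw_nil, ← conj_eq_one_iff (a := g⁻¹), cjm, inv_inv, k]
  · have a : evw ev c * g * evw ev [0, 2] * (evw ev c * g)⁻¹ = evw ev wV := by rw [← m.cj h, ← e]; group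
    have b : evw ev c * g * evw ev wV * (evw ev c * g)⁻¹ = evw ev [0, 2] := by
      rw [← mem_Cx'.1 (mem_Cx.2 (m.cm ((by decide +kernel : ∀ c ∈ LC, cC c [0, 2] = true) c hc))), ← hg]; group
    exact ⟨_, mem_normalizer_of_cj_le (cj_le_iff_forall.2 fun x hx => ⟨mem_Cx.2 (b ▸ (cj_comm _).2 (mem_Cx.1 hx.2)),
      mem_Cx.2 (a ▸ (cj_comm _).2 (mem_Cx.1 hx.1))⟩), a⟩
theorem cN2 : Nat.card Nm(X2 ev) = 1920 := by
  obtain ⟨n, hn, e⟩ := m.swap L
  have a : {x | ∃ g ∈ Nm(X2 ev), g * evw ev [0, 2] * g⁻¹ = x} = {g | ∃ w ∈ L2, g = evw ev w} := by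
    refine Set.Subset.antisymm ?_ ?_
    · rintro _ ⟨g, hg, rfl⟩
      exact (m.hX L _ ((mem_normalizer_iff.1 hg _).1 m.mX)).resolve_left fun h =>
        m.ne (u := [0, 2]) (v := []) (by decide +kernel) (conj_eq_one_iff.1 h)
    · rintro _ ⟨w, hw, rfl⟩
      obtain ⟨c, hc, h⟩ := (by decide +kernel : ∀ w ∈ L2, ∃ c ∈ LM, cJ c [0, 2] w = true ∨ cJ c wV w = true) w hw
      have k := m.nm L ((by decide +kernel : ∀ c ∈ LM, nrm c = true) c hc)
      rcases h with h | h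
      · exact ⟨_, k, m.cj h⟩
      · exact ⟨_, mul_mem k hn, by rw [← m.cj h, ← e]; group⟩
  have b := m.card (Nm(X2 ev) ⊓ Cx(evw ev [0, 2])) LD (by decide +kernel) (fun w hw => by
    have := (by decide +kernel : ∀ w ∈ LD, nrm w = true ∧ cC w [0, 2] = true) w hw
    exact ⟨m.nm L this.1, mem_Cx.2 (m.cm this.2)⟩) fun g hg => by
      obtain ⟨w, hw, rfl⟩ := m.hH L g hg.2
      refine ⟨w, List.mem_filter.2 ⟨hw, (Bool.not_eq_true' _).mpr (Bool.eq_false_iff.2 fun h => m.nc h ?_)⟩, rfl⟩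
      rw [m.cw ((by decide +kernel : ∀ w ∈ LH, allLt 7 w = true) w hw)]
      exact mem_Cx.1 ((mem_normalizer_iff.1 hg.1 _).1 m.mX).2
  rw [orb _ (evw ev [0, 2]), a, b, m.ncard L2 (by decide +kernel)]
  decide +kernel
theorem tau : ∃ τ ∈ Nm(X2 ev), τ ≠ 1 ∧ τ * τ = 1 ∧ τ * evw ev wY = evw ev wY * τ ∧
    evw ev [5, 5] * τ = τ * evw ev [5, 5] := by
  have sy : evw ev [5, 5] * evw ev wY * (evw ev [5, 5])⁻¹ = (evw ev wY)⁻¹ :=
    (m.cj (v := invw il wY)).trans (evw_invw ev il 7 m.inv _ (by decide))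
  obtain ⟨⟨t, tN⟩, t2, ty⟩ := syl (m.cN2 L) (y := ⟨evw ev wY, m.nm L⟩) (s := ⟨evw ev [5, 5], m.nm L⟩)
    ((orderOf_coe _).symm.trans m.o3) (Subtype.ext sy) ((card_dvd_of_injective
      (((Nm(X2 ev)).subtype.comp (Cx((⟨evw ev wY, m.nm L⟩ : Nm(X2 ev)))).subtype).codRestrict Cx(evw ev wY) fun g =>
        mem_Cx.2 (by exact congrArg Subtype.val (mem_Cx.1 g.2)))
      fun a b e => Subtype.ext (Subtype.ext (congrArg (fun z : Cx(evw ev wY) => z.1) e))).trans (L.c3 _ m.o3).dvd)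
  replace t2 : orderOf t = 2 := (orderOf_coe _).trans t2
  replace ty : t * evw ev wY = evw ev wY * t := congrArg Subtype.val ty
  have tt : t * t = 1 := by rw [← pow_two, ← t2, pow_orderOf_eq_one]
  have sN := m.nm L (k := [5, 5])
  have ss : evw ev [5, 5] * evw ev [5, 5] = 1 := by rw [← evw_append]; exact m.eq (v := [])
  generalize evw ev [5, 5] = s at *
  by_cases h : s * t * s⁻¹ = t
  · exact ⟨t, tN, fun e => by simp [e] at t2, tt, ty, mul_inv_eq_iff_eq_mul.1 h⟩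
  have a : s * t * s⁻¹ * evw ev wY = evw ev wY * (s * t * s⁻¹) :=
    (Commute.inv_right_iff.1 (sy ▸ (cj_comm s).2 ty : Commute (s * t * s⁻¹) (evw ev wY)⁻¹)).eq
  have b : s * t * s⁻¹ * (s * t * s⁻¹) = 1 := by rw [← cjm, tt]; simp
  have c := (m.hZ L _ _ ty a tt).1 b
  refine ⟨t * (s * t * s⁻¹), mul_mem tN (mul_mem (mul_mem sN tN) (inv_mem sN)),
    fun e => h ((eq_inv_of_mul_eq_one_right e).trans (inv_eq_of_mul_eq_one_right tt)), ?_, ?_, mul_inv_eq_iff_eq_mul.1 ?_⟩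
  · rw [mul_assoc, ← mul_assoc (s * t * s⁻¹), ← c, mul_assoc t, b, mul_one, tt]
  · rw [mul_assoc, a, ← mul_assoc, ty, mul_assoc]
  · rw [cjm, c, show s * (s * t * s⁻¹) * s⁻¹ = (s * s) * t * (s * s)⁻¹ by group, ss]; group
end Emb

theorem pb3 : PB3 := fun {G} _ _ L ev hi hr h0 => by
  have m := emb hi hr h0
  obtain ⟨τ, tN, t1, tt, ty, ts⟩ := m.tau L
  have ti : τ⁻¹ = τ := inv_eq_of_mul_eq_one_right tt
  have U : ∀ w : List ℕ, allLt 7 w = true → evw (Function.update ev 7 τ) w = evw ev w := fun w h =>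
    evw_congr (fun x hx => Function.update_of_ne hx.ne _ _) (allLt_sound h)
  have r1 : evw (Function.update ev 7 τ) (7 :: wY ++ 7 :: wY') = 1 := by
    rw [List.cons_append, evw_cons, evw_append, evw_cons, Function.update_self, U _ rfl, U _ rfl, ← mul_assoc, ty,
      mul_assoc, ← mul_assoc τ, tt, one_mul, ← evw_append]
    exact m.eq (v := [])
  have r2 : evw (Function.update ev 7 τ) [7, 5, 5, 7, 6, 6] = 1 := by
    rw [show [7, 5, 5, 7, 6, 6] = 7 :: ([5, 5] ++ 7 :: [6, 6]) from rfl, evw_cons, evw_append, evw_cons _ 7,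
      Function.update_self, U _ rfl, U _ rfl, ← mul_assoc, ← ts, mul_assoc, ← mul_assoc τ, tt, one_mul, ← evw_append]
    exact m.eq (v := [])
  have r4 : evw (Function.update ev 7 τ) (7 :: wX ++ 7 :: wX ++ 7 :: wX) = 1 := by
    simp only [evw_append, evw_cons, Function.update_self, U wX rfl]
    rw [mul_assoc (τ * _)]
    exact ((((m.hZ L τ _ ty m.cm tt).2 (by rw [← evw_append, ← evw_append]; exact m.eq (v := []))).resolve_left
      (m.ne (v := []))).resolve_left m.ne).resolve_left (by rw [← evw_append]; exact m.ne (v := []))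
  have r3 : ∀ w, allLt 7 w = true → evw (Function.update ev 7 τ) ([7, 0, 2, 7] ++ w) = τ * evw ev [0, 2] * τ⁻¹ * evw ev w :=
    fun w h => by
      rw [show [7, 0, 2, 7] ++ w = 7 :: ([0, 2] ++ 7 :: w) from rfl, evw_cons, evw_append, evw_cons _ 7,
        Function.update_self, U _ rfl, U _ h, ti, mul_assoc, mul_assoc]
  obtain ⟨w, hw, e⟩ := (m.hX L _ ((mem_normalizer_iff.1 tN _).1 (m.mX (w := [0, 2])))).resolve_left fun h =>
    m.ne (u := [0, 2]) (v := []) (by decide +kernel) (conj_eq_one_iff.1 h)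
  rcases (by decide +kernel : ∀ w ∈ L2, cD [5, 5] w = true ∨ cE w [0, 2] = true ∨ cE (w ++ ([] ++ wU)) [] = true ∨
    cE (w ++ ([0, 2] ++ wU)) [] = true) w hw with h | h | h | h
  · refine absurd ?_ (m.nc h)
    rw [← e, ← mul_inv_eq_iff_eq_mul.2 ts.symm]
    exact (cj_comm τ).2 m.cm
  · obtain ⟨v, hv, rfl⟩ := m.hH L τ (mem_Cx'.2 (e.trans (m.eq h)))
    exact (((by decide +kernel : ∀ v ∈ LH, cD v wY = true ∨ v = []) v hv).elim (m.nc · ty) fun a => t1 (a ▸ rfl)).elim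
  · exact ⟨τ, false, tt, List.forall_mem_cons.2 ⟨r1, List.forall_mem_cons.2 ⟨r2, List.forall_mem_cons.2
      ⟨(r3 ([] ++ wU) rfl).trans (by rw [e, ← evw_append]; exact m.eq h), List.forall_mem_cons.2 ⟨r4, forall_nil⟩⟩⟩⟩⟩
  · exact ⟨τ, true, tt, List.forall_mem_cons.2 ⟨r1, List.forall_mem_cons.2 ⟨r2, List.forall_mem_cons.2
      ⟨(r3 ([0, 2] ++ wU) rfl).trans (by rw [e, ← evw_append]; exact m.eq h), List.forall_mem_cons.2 ⟨r4, forall_nil⟩⟩⟩⟩⟩
end CfH8.M2
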