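import Cfsg.Agent.H4.Mc2
import Cfsg.Agent.H4.Det
import Cfsg.Agent.OD.Helper8x53a50b6a67
import Cfsg.Agent.OD.Helper8xf0e503a5e1
/-! Values of the irreducible characters of a simple group at involutions. -/
set_option autoImplicit false
open Cfsg CfH4 CfH4.GA CfH9 CfH4.D1 CfH4.PA Subgroup Finset
open scoped ComplexConjugate
namespace CfH8.PA
universe u

theorem pm (s : Multiset ℂ) (h : ∀ z ∈ s, z ^ 2 = 1) :
    ∃ a b : ℕ, s.card = a + b ∧ s.sum = a - b ∧ s.prod = (-1) ^ b := by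
  induction s using Multiset.induction_on with
  | empty => exact ⟨0, 0, by simp⟩
  | cons z s ih =>
    obtain ⟨a, b, h1, h2, h3⟩ := ih fun w hw => h w (Multiset.mem_cons_of_mem hw)
    rcases sq_eq_one_iff.1 (h z (Multiset.mem_cons_self z s)) with rfl | rfl
    · exact ⟨a + 1, b, by simp [h1]; ring, by simp [h2]; ring, by simp [h3]⟩
    · exact ⟨a, b + 1, by simp [h1]; ring, by simp [h2]; ring, by simp [h3, pow_succ]⟩

variable {G : Type u} [Group G] [Finite G] [IsSimpleGroup G] (nc : ¬ ∀ a b : G, a * b = b * a)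
include nc

omit [Finite G] in
theorem hom1 (f : G →* ℂˣ) (g : G) : f g = 1 := by
  rcases f.normal_ker.eq_bot_or_eq_top with h | h
  · exact (nc fun a b => (MonoidHom.ker_eq_bot_iff f).1 h (by rw [map_mul, map_mul, mul_comm])).elim
  · exact MonoidHom.mem_ker.1 (h ▸ mem_top g)

omit nc in
theorem faith (i : Ir G) : charKer (i.1 : G → ℂ) = ⊥ := by
  refine i.1.2.classFun.normal_charKer.eq_bot_or_eq_top.resolve_right fun h => i.2 ?_
  haveI := Fintype.ofFinite G
  refine Subtype.ext (i.1.2.eq_of_classInner_ne_zero (triv G).2 ?_)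
  have h1 : (i.1 : G → ℂ) = (i.1 : G → ℂ) 1 • (triv G : G → ℂ) := by
    funext g
    simpa [triv_apply] using apply_eq_of_mem_charKer (h ▸ mem_top g)
  rw [h1, classInner_smul_left, (triv G).2.classInner_self, mul_one]
  exact i.1.2.apply_one_ne_zero

theorem cen (i : Ir G) : charCenter (i.1 : G → ℂ) = ⊥ :=
  i.1.2.classFun.normal_charCenter.eq_bot_or_eq_top.resolve_right fun h => nc fun a b => by
    have := i.1.2.isCharacter.commutator_mem_charKer (h ▸ mem_top a) b
    rw [faith, mem_bot] at this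
    rw [← one_mul (b * a), ← this]; group

theorem dg1 (i : Ir G) : 1 < dg i := by
  refine lt_of_le_of_ne i.1.2.deg_pos fun h => i.2 (Subtype.ext (funext fun g => ?_))
  obtain ⟨f, hf⟩ := i.1.2.isCharacter.exists_hom (by rw [← i.1.2.isCharacter.deg_eq]; exact_mod_cast h.symm)
  rw [hf, hom1 nc]; rfl

theorem val (s : Iv G) (i : Ir G) :
    (i.1 : G → ℂ) s.1 = vv s.1 i ∧ 4 ∣ (dg i : ℤ) - vv s.1 i ∧ |vv s.1 i| < dg i := by
  obtain ⟨n, ρ, h1⟩ := i.1.2.isCharacter
  obtain ⟨t, t1, t2, t3, t4⟩ := rep_exists_eigen ρ s.1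
  obtain ⟨a, b, a1, a2, a3⟩ := pm t (s.2 ▸ t2)
  have hd : dg i = a + b := deg_eq_of_eq (by rw [← h1, ρ.char_one, ← t1, a1])
  have hv : (i.1 : G → ℂ) s.1 = ((a - b : ℤ) : ℂ) := by simpa [h1, a2] using t3 1
  have e : vv s.1 i = a - b := by rw [vv, hv, Complex.intCast_re, Int.floor_intCast]
  have hb : Even b := by
    have : LinearMap.det (ρ s.1) = 1 := congrArg Units.val (hom1 nc (LinearMap.det.comp ρ).toHomUnits s.1)
    exact (neg_one_pow_eq_one_iff_even (R := ℂ) (by norm_num)).1 (by rw [← a3, ← t4, this])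
  refine ⟨e ▸ hv, ?_, lt_of_le_of_ne (by rw [e, hd, abs_le]; omega) fun c => ?_⟩
  · obtain ⟨k, rfl⟩ := hb
    exact ⟨k, by rw [e, hd]; push_cast; ring⟩
  · have : s.1 ∈ charCenter (i.1 : G → ℂ) := i.1.2.isCharacter.mem_charCenter.2 (by
      rw [← i.1.2.isCharacter.deg_eq, hv, ← e, Complex.norm_intCast, Complex.norm_natCast]
      exact_mod_cast c)
    rw [cen nc, mem_bot] at this
    simpa [this] using s.2

theorem sys : Sys (Nat.card G) (dg (G := G)) cc (fun s => vv s.1) := by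
  have hd : ∀ i : Ir G, (i.1 : G → ℂ) 1 = dg i := fun i => i.1.2.isCharacter.deg_eq.symm
  refine ⟨fun i => ⟨CfH5.degree_dvd_card i.1.2 (hd i), dg1 nc i⟩, ?_, fun s => ⟨card_subgroup_dvd_card _,
    s.2 ▸ orderOf_dvd_natCard _ (mem_Cx.2 rfl), fun i => ?_, fun i => (val nc s i).2.1, fun i => (val nc s i).2.2, ?_, ?_⟩⟩
  · have := sum_irr_one_sq (G := G)
    simp only [sum_Ir, hd, triv_apply, sq] at this
    exact_mod_cast (add_comm _ _).trans this
  · have := CfH5.isIntegral_centralChar i.1.2 s.1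
    rw [centralChar, hd, (val nc s i).1, ← Nat.div_eq_of_eq_mul_left Nat.card_pos (index_mul_card _).symm] at this
    exact CfH5.int_dvd_of_isIntegral_div (by exact_mod_cast i.1.2.deg_pos.ne') (by rw [Int.cast_mul]; exact this)
  · have := sum_irr_mul_conj_self s.1
    simp only [sum_Ir, (val nc s _).1, triv_apply, map_intCast, ← sq, map_one] at this
    exact_mod_cast (add_comm _ _).trans this
  · have := sum_irr_one_mul s.1
    rw [if_neg fun c => by simpa [c] using s.2] at this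
    simp only [sum_Ir, (val nc s _).1, triv_apply, hd] at this
    exact_mod_cast eq_neg_of_add_eq_zero_right this

omit nc [IsSimpleGroup G] in
theorem cinv {k : ℕ} (h : 2 ^ (k + 1) ∣ Nat.card G) : ∃ j : Iv G, 2 ^ (k + 1) ∣ cc j := by
  obtain ⟨P, hP⟩ := Sylow.exists_subgroup_card_pow_prime 2 h
  have : Nontrivial P := Finite.one_lt_card_iff_nontrivial.1 (hP ▸ Nat.one_lt_two_pow k.succ_ne_zero)
  have := (IsPGroup.of_card hP).center_nontrivial
  obtain ⟨z, hz⟩ := exists_prime_orderOf_dvd_card' (G := center P) 2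
    (((IsPGroup.of_card hP).to_subgroup _).card_eq_or_dvd.resolve_left Finite.one_lt_card.ne')
  refine ⟨⟨z.1.1, by rw [orderOf_coe, orderOf_coe, hz]⟩, hP ▸ card_dvd_of_le fun g hg => mem_Cx.2 ?_⟩
  exact congrArg Subtype.val (mem_center_iff.1 z.2 ⟨g, hg⟩)

omit nc in
theorem ncm (h : ¬ (Nat.card G).Prime) : ¬ ∀ a b : G, a * b = b * a := fun c =>
  h (@IsSimpleGroup.prime_card G { (inferInstance : Group G) with mul_comm := c } ‹_›)

omit nc [IsSimpleGroup G] [Finite G] [Group G] G in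
theorem p1 : P1.{u} := fun hs hG =>
  have nc := ncm (hG ▸ by norm_num)
  ⟨hG ▸ sys nc, cinv (k := 6) (hG ▸ by norm_num), fun s i => (val nc s i).1⟩
end CfH8.PA
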