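import Cfsg.Agent.H8.MG5
/-! Two exclusions for a simple group of order `443520`. -/
set_option autoImplicit false
open Subgroup CfH9 Cfsg CfH7
namespace CfH8.MG
variable {G : Type*} [Group G] [Finite G] {p : ℕ}

/-- the number of Sylow subgroups of a subgroup -/
theorem syl_mod [Fact p.Prime] {S H : Subgroup G} (h : SylIn p S H) : (Nm(S)).relIndex H ≡ 1 [MOD p] := by
  have a := card_sylow_modEq_one p H
  rwa [h.toSylow.card_eq_index_normalizer, show normalizer (h.toSylow : Set H) = Nm(S.subgroupOf H) from rfl,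
    ← subgroupOf_normalizer_eq h.le] at a

theorem g2 [IsSimpleGroup G] (hG : Nat.card G = 443520) {y : G} (hy : orderOf y = 7) :
    Nat.card (centralizer ({y} : Set G)) ≠ 105 := fun c => by
  have : Fact (Nat.Prime 5) := ⟨by norm_num⟩
  have : Fact (Nat.Prime 7) := ⟨by norm_num⟩
  obtain ⟨K, a1, -, a2, a3, -, a4, -, -, S⟩ := g5 (p := 7) (by norm_num) (by rw [hG]; norm_num) (by rw [hG]; norm_num) hy
  have n := card_Nm_zp (by norm_num) hy
  rw [c] at a1 n
  obtain rfl : K = 15 := by omega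
  rw [hG] at a4
  generalize Nat.card {t : ZMod 7 // IsConj y (y ^ t.val)} = e at *
  obtain rfl : e = 3 := by
    have := Nat.le_of_dvd (by norm_num) a2
    interval_cases e <;> omega
  obtain ⟨⟨w, hw⟩, w5⟩ := exists_prime_orderOf_dvd_card' (G := Cx(y)) 5 (by rw [c]; norm_num)
  replace w5 : orderOf w = 5 := (orderOf_coe _).trans w5
  obtain ⟨-, -, -, b2, b3, -⟩ := g5 (p := 5) (by norm_num) (by rw [hG]; norm_num) (by rw [hG]; norm_num) w5
  have m := card_Nm_zp (by norm_num) w5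
  generalize Nat.card {t : ZMod 5 // IsConj w (w ^ t.val)} = e at *
  have le : Cx(w) ≤ Nm(zpowers w) := Cz_zpowers w ▸ centralizer_le_normalizer _
  rw [CfH5.Nat.orb _ w, inf_eq_right.2 le] at m
  have k := CfH5.Nat.orb (Nm(zpowers w) ⊓ Nm(zpowers y)) w
  rw [show {x | ∃ g ∈ Nm(zpowers w) ⊓ Nm(zpowers y), g * w * g⁻¹ = x} = {x | ∃ g ∈ Nm(zpowers w), g * w * g⁻¹ = x} from
    Set.Subset.antisymm (fun _ ⟨g, a, b⟩ => ⟨g, a.1, b⟩) fun _ ⟨g, a, b⟩ => by
      obtain ⟨x, hx, t, ht, rfl⟩ := (S.mono (zpowers_le_of_mem (mem_Cx.2 (mem_Cx.1 hw).symm)) le_top).frattini'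
        (Cz_zpowers w ▸ normalizer_le_normalizer_centralizer _ a : g ∈ Nm(Cx(w)))
      exact ⟨x, ⟨(mul_mem_cancel_right (le ht)).1 a, hx⟩, by
        rw [← b, show x * t * w * (x * t)⁻¹ = x * (t * w * t⁻¹) * x⁻¹ by group, mem_Cx'.1 ht]⟩,
    Nat.eq_of_mul_eq_mul_right Nat.card_pos m] at k
  have := (Dvd.intro _ k.symm).trans (n ▸ card_dvd_of_le inf_le_right)
  have := Nat.le_of_dvd (by norm_num) b2
  interval_cases e <;> omega

theorem g4 (hG : Nat.card G = 443520) {y s : G} (hy : orderOf y = 7) (c : Nat.card (centralizer ({y} : Set G)) = 28)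
    (s2 : s * s = 1) (s1 : s ≠ 1) (h : s * y = y * s) : Nat.card (centralizer ({s} : Set G)) ≠ 896 := fun d => by
  have : Fact (Nat.Prime 7) := ⟨by norm_num⟩
  obtain ⟨P, hP⟩ := syl_zp (p := 7) (by norm_num) (by rw [hG]; norm_num) hy
  have a := syl_mod ((hP ▸ sylIn_top P : SylIn 7 (zpowers y) ⊤).mono (zpowers_le_of_mem (mem_Cx.2 h.symm)) le_top)
  have b := card_mul_relIndex (inf_le_right : Nm(zpowers y) ⊓ Cx(s) ≤ Cx(s))
  rw [inf_relIndex_right, d] at b
  have e := (card_dvd_of_le (inf_le_left : Nm(zpowers y) ⊓ Cx(s) ≤ _)).trans (c ▸ dvd_pred (by norm_num) hy)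
  obtain ⟨R, hR, sR⟩ := exists_sylIn_ge (p := 2) (Q := zpowers s) (IsPGroup.of_card (n := 1) (by
    rw [Nat.card_zpowers, orderOf_eq_prime (by rwa [pow_two]) s1]; rfl)) (zpowers_le_of_mem (mem_Cx.2 h))
  have r : Nat.card R = 2 ^ 2 := by rw [hR.card_eq_multiplicity, c]; decide +kernel
  have f := r ▸ card_dvd_of_le (le_inf (hR.le.trans (Cz_zpowers y ▸ centralizer_le_normalizer _ : Cx(y) ≤ Nm(zpowers y)))
    fun g hg => mem_Cx.2 (congrArg Subtype.val ((IsPGroup.isMulCommutative_of_card_eq_prime_sq r).is_comm.comm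
      (⟨g, hg⟩ : R) ⟨s, sR (mem_zpowers s)⟩)) : R ≤ Nm(zpowers y) ⊓ Cx(s))
  generalize Nat.card (Nm(zpowers y) ⊓ Cx(s) : Subgroup G) = n at *
  generalize (Nm(zpowers y)).relIndex Cx(s) = i at *
  have := Nat.le_of_dvd (by norm_num) e
  obtain ⟨k, rfl⟩ := f
  have : k ≤ 42 := by omega
  unfold Nat.ModEq at a
  interval_cases k <;> omega
end CfH8.MG
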