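import Cfsg.Agent.H4.Mc2b
import Cfsg.Agent.H8.MG2
import Cfsg.Agent.H1.MG1
/-! Assembly of the block data for a simple group of order `443520`. -/
set_option autoImplicit false
open Cfsg CfH4 CfH4.GA CfH9 CfH4.D1 CfH4.PA Subgroup Finset CfH8.MG
namespace CfH8.PA
universe u
section
variable {G : Type u} [Group G] [Finite G] {p q : ℕ} [hp : Fact p.Prime] [hq : Fact q.Prime] {x y : G}

theorem cxeq (h : Syl p x) (o : orderOf y = p) : Nat.card Cx(y) = Nat.card Cx(x) := by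
  obtain ⟨g, -, hg⟩ := h.syl.exists_cj_le (Q := zpowers y)
    (IsPGroup.of_card (n := 1) (by rw [Nat.card_zpowers, o, pow_one])) le_top
  obtain ⟨a, ha⟩ := mem_powers_iff_mem_zpowers.2 (hg (conj_mem_cj g (mem_zpowers y)))
  have ha : xp x (a : ZMod p) = g * y * g⁻¹ := (h.xp_nat a).trans ha
  have a0 : (a : ZMod p) ≠ 0 := fun c => by
    rw [c, h.xp_zero, eq_comm, conj_eq_one_iff] at ha
    rw [ha, orderOf_one] at o; exact hp.out.one_lt.ne o
  rw [← h.cx a0, ha, ← cj_Cx, card_cj]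

theorem swp (h : Syl p x) {s : G} {n : ℕ} (o : orderOf s = n) (d : p ∣ Nat.card Cx(s)) : n ∣ Nat.card Cx(x) := by
  obtain ⟨⟨z, hz⟩, zo⟩ := exists_prime_orderOf_dvd_card' (G := Cx(s)) p d
  rw [← cxeq h ((orderOf_coe _).trans zo), ← o]
  exact orderOf_dvd_natCard _ (mem_Cx.2 (mem_Cx.1 hz).symm)

theorem bt (h : Syl p x) (h' : Syl q y) (ne : p ≠ q) (d : ¬ q ∣ Nat.card Cx(x)) {n : ZMod p} {l : ZMod q} (n0 : n ≠ 0)
    (l0 : l ≠ 0) : BT (uu x n) (uu y l) := by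
  have k : ∀ {j : ZMod p} {l : ZMod q}, j ≠ 0 → l ≠ 0 → ∑ i : Ir G, u x j i.1 * u y l i.1 = -1 := fun {j l} a b => by
    have := h.BT h' ne (fun z s c1 c2 _ => by
      obtain ⟨g, rfl⟩ := isConj_iff.1 c1
      refine ((Nat.Prime.coprime_iff_not_dvd hq.out).2 fun e => d (e.trans ?_)).symm
      rw [← cxeq h (((MulAut.conj g).orderOf_eq x).trans h.ord)]
      exact orderOf_dvd_natCard _ (mem_Cx.2 c2.eq.symm)) j l
    rw [sum_Ir, h.u_triv a, h'.u_triv b] at this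
    linarith
  exact ⟨k one_ne_zero one_ne_zero, k one_ne_zero l0, k n0 one_ne_zero, k n0 l0⟩

def ok (p e K : ℕ) : Prop := ¬ p ∣ K ∧ p * e * K ∣ 443520 ∧ 443520 / (p * e * K) % p = 1 ∧ 1 < 443520 / (p * e * K)
instance (p e K : ℕ) : Decidable (ok p e K) := by unfold ok; infer_instance

theorem opt [IsSimpleGroup G] (hG : Nat.card G = 443520) (h2 : ¬ p ^ 2 ∣ 443520) (h3 : 443520 ≠ p) (hx : orderOf x = p) :
    ∃ K, Syl p x ∧ Nat.card Cx(x) = p * K ∧ e p x ∣ p - 1 ∧ 1 < e p x ∧ K ∈ Nat.divisors 443520 ∧ ok p (e p x) K := by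
  obtain ⟨K, a1, a2, a3, a4, a5, a6, a7, -, a8⟩ := g5 hp.out (hG ▸ h2) (hG ▸ h3) hx
  rw [hG] at a5 a6 a7
  exact ⟨K, ⟨hx, a8⟩, a1, a3, a4, Nat.mem_divisors.2 ⟨(Dvd.intro_left _ rfl).trans a5, by norm_num⟩, a2, a5, a6, a7⟩
end

def DL : List ℕ := [1, 2, 3, 4, 5, 6, 7, 8, 9, 10, 11, 12, 14, 15, 16, 18, 20, 21, 22, 24, 28, 30, 32, 33, 35, 36, 40, 42, 44, 45, 48, 55, 56, 60, 63, 64, 66, 70, 72, 77, 80, 84, 88, 90, 96, 99, 105, 110, 112, 120, 126, 128, 132, 140, 144, 154, 160, 165, 168, 176, 180, 192, 198, 210, 220, 224, 231, 240, 252, 264, 280, 288, 308, 315, 320, 330, 336, 352, 360, 384, 385, 396, 420, 440, 448, 462, 480, 495, 504, 528, 560, 576, 616, 630, 640, 660, 672, 693, 704, 720, 770, 792, 840, 880, 896, 924, 960, 990, 1008, 1056, 1120, 1152, 1155, 1232, 1260, 1320, 1344, 1386, 1408, 1440, 1540, 1584, 1680, 1760, 1848, 1920, 1980, 2016, 2112, 2240, 2310, 2464, 2520, 2640, 2688, 2772, 2880,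 3080, 3168, 3360, 3465, 3520, 3696, 3960, 4032, 4224, 4480, 4620, 4928, 5040, 5280, 5544, 5760, 6160, 6336, 6720, 6930, 7040, 7392, 7920, 8064, 9240, 9856, 10080, 10560, 11088, 12320, 12672, 13440, 13860, 14784, 15840, 18480, 20160, 21120, 22176, 24640, 27720, 29568, 31680, 36960, 40320, 44352, 49280, 55440, 63360, 73920, 88704, 110880, 147840, 221760, 443520]
theorem dl : Nat.divisors 443520 = DL.toFinset := by
  rw [show 443520 = 2 ^ 7 * (9 * (5 * (7 * 11))) from rfl, Nat.divisors_mul, Nat.divisors_mul, Nat.divisors_mul, Nat.divisors_mul]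
  decide +kernel

theorem p4 : P4'.{u} := fun h1 h2 h3 n1 n2 G _ _ hs hG => by
  obtain ⟨S, c128, -⟩ := h1 hs hG
  obtain ⟨e11, e7⟩ := h3 h1 hs hG
  obtain ⟨x, hx⟩ := exists_prime_orderOf_dvd_card' (G := G) 11 (by rw [hG]; norm_num)
  obtain ⟨y, hy⟩ := exists_prime_orderOf_dvd_card' (G := G) 7 (by rw [hG]; norm_num)
  obtain ⟨w, hw⟩ := exists_prime_orderOf_dvd_card' (G := G) 5 (by rw [hG]; norm_num)
  obtain ⟨K, X, x1, x2, x3, x4, x5⟩ := opt hG (by norm_num) (by norm_num) hx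
  obtain ⟨K7, Y, y1, y2, y3, y4, y5⟩ := opt hG (by norm_num) (by norm_num) hy
  obtain ⟨K5, W, w1, w2, w3, w4, w5⟩ := opt hG (by norm_num) (by norm_num) hw
  rw [dl, List.mem_toFinset] at x4 y4 w4
  have ex : e 11 x = 5 ∨ e 11 x = 10 := by
    have := e11 x hx
    have := Nat.le_of_dvd (by norm_num) x2
    generalize e 11 x = a at *
    interval_cases a <;> omega
  have sx := h2 h1 hs hG 11 2 x K (by norm_num) (by decide) X x1 x2 (by omega)
  have kx : e 11 x = 5 ∧ K = 1 := by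
    simpa using ((by decide +kernel : ∀ a ∈ [5, 10], ∀ K ∈ DL, ok 11 a K → (a, K) ∈ O11 ∨ (a, K) = (5, 1)) _
      (by simpa using ex) K x4 x5).resolve_left (n1 _ _ _ _ _ _ _ S sx)
  obtain ⟨ex, rfl⟩ := kx
  rw [ex] at sx
  have ny : ¬ 11 ∣ Nat.card Cx(y) := fun d => absurd (x1 ▸ swp X hy d) (by norm_num)
  have nw : ¬ 11 ∣ Nat.card Cx(w) := fun d => absurd (x1 ▸ swp X hw d) (by norm_num)
  have ey : e 7 y = 3 ∨ e 7 y = 6 := by
    have := e7 y hy ny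
    have := Nat.le_of_dvd (by norm_num) y2
    generalize e 7 y = a at *
    interval_cases a <;> omega
  have ew : e 5 w = 2 ∨ e 5 w = 4 := by
    have := Nat.le_of_dvd (by norm_num) w2
    generalize e 5 w = a at *
    interval_cases a <;> omega
  have sy := h2 h1 hs hG 7 3 y K7 (by norm_num) (by decide) Y y1 y2 (by omega)
  have sw := h2 h1 hs hG 5 2 w K5 (by norm_num) (by decide) W w1 w2 (by omega)
  obtain ⟨rfl, rfl, r⟩ := n2 _ _ _ _ _ _ _ _ _ _ _ _ _ S c128 sx sy sw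
    ((by decide +kernel : ∀ a ∈ [3, 6], ∀ K ∈ DL, ok 7 a K → ¬ 11 ∣ 7 * K → 7 * K ≠ 105 → (a, K) ∈ O7) _
      (by simpa using ey) K7 y4 y5 (y1 ▸ ny) (y1 ▸ g2 hG hy))
    ((by decide +kernel : ∀ a ∈ [2, 4], ∀ K ∈ DL, ok 5 a K → ¬ 11 ∣ 5 * K → 5 * K ≠ 105 → (a, K) ∈ O5) _
      (by simpa using ew) K5 w4 w5 (w1 ▸ nw) (w1 ▸ CfH1.MG.g3 hG hw))
    ⟨fun d => (Nat.Coprime.dvd_mul_left (by norm_num)).1 (w1 ▸ swp W hy (y1 ▸ d.mul_left 7)),
      fun d => (Nat.Coprime.dvd_mul_left (by norm_num)).1 (y1 ▸ swp Y hw (w1 ▸ d.mul_left 5))⟩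
    (bt X Y (by norm_num) (by rw [x1]; norm_num) (by decide) (by decide))
    (bt X W (by norm_num) (by rw [x1]; norm_num) (by decide) (by decide))
    (fun d => bt Y W (by norm_num) (fun k => d ((Nat.Coprime.dvd_mul_left (by norm_num)).1 (y1 ▸ k))) (by decide) (by decide))
    fun k j c => by
      replace c : Nat.card Cx(j.1) = 896 := c
      obtain ⟨⟨z, hz⟩, zo⟩ := exists_prime_orderOf_dvd_card' (G := Cx(j.1)) 7 (by rw [c]; norm_num)
      replace zo : orderOf z = 7 := (orderOf_coe _).trans zo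
      have o : orderOf j.1 = 2 := j.2
      generalize j.1 = s at *
      exact g4 hG zo (by rw [cxeq Y zo, y1, k]) (by rw [← pow_two, ← o, pow_orderOf_eq_one])
        (fun a => by simp [a] at o) (mem_Cx.1 hz).symm c
  exact ⟨x, y, w, X, Y, W, x1, y1, w1, ex, r⟩
end CfH8.PA
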