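import Cfsg.Agent.OD.Pre
import Cfsg.Agent.H8.D0
import Cfsg.Agent.L.ZA
/-! The symplectic group as a permutation group on 63 points. -/
set_option autoImplicit false
set_option maxRecDepth 100000
set_option Elab.async false
set_option linter.all false
open CfL hiding Tp Tm Zp Zm hZp hZm cZp cZm es_rels autp autm
open CfH6 CfH6.Co MulAction Subgroup CfH9
namespace CfH8.C2
open CfH8.C3 (Sp A cA A_eq A_gen card_Sp6)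
def xil : List ℕ := [0, 1, 2, 3, 4, 5, 6]
def xr : List (List ℕ) := wpow [0, 1, 2, 3, 4, 5, 6] 9 :: [[0, 1, 0, 1, 0, 1], [0, 2, 0, 2], [1, 2, 1, 2, 1, 2], [0, 3, 0, 3], [1, 3, 1, 3], [2, 3, 2, 3, 2, 3], [0, 4, 0, 4], [1, 4, 1, 4], [2, 4, 2, 4, 2, 4], [3, 4, 3, 4], [0, 5, 0, 5], [1, 5, 1, 5], [2, 5, 2, 5], [3, 5, 3, 5, 3, 5], [4, 5, 4, 5], [0, 6, 0, 6], [1, 6, 1, 6], [2, 6, 2, 6], [3, 6, 3, 6], [4, 6, 4, 6], [5, 6, 5, 6, 5, 6]]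
abbrev XG : Type := WP 7 xil xr
def xe : ℕ → XG := wel 7 xil xr
def σ6 : List (List ℕ) := [[], [], [0], [0], [1], [1], [2], [2], [3], [3], [4], [4], [5], [5], [6], [6]]

theorem finX : Finite XG ∧ Nat.card XG ≤ 1451520 := by
  have hi := wp_inv 7 xil xr
  have hr := wp_rel 7 xil xr
  have i : ∀ x < 16, byW xe σ6 (C3N.il.getD x 0) = (byW xe σ6 x)⁻¹ :=
    inv_of_rels fun r h => by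
      rw [← evw_subst]; exact follows_sound _ hi (n := 1) hr (ws := ((List.range 16).map fun x =>
        [x, C3N.il.getD x 0]).map (subst σ6)) (by decide +kernel) _ (List.mem_map_of_mem h)
  have f := C3.finE7 i (fun r h => by
      rw [← evw_subst]; exact follows_sound _ hi (n := 1) hr (ws := (C3N.cox :: C3N.urels).map (subst σ6))
        (by decide +kernel) _ (List.mem_map_of_mem h))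
    ((C3.P1_cov _ ⊥ (fun x hx => i x (by omega)) (by simp [C3.P1r, byW, σ6]) forall_nil).card_le bot_fin)
  refine fin_top (fin_le ((wp_top 7 xil xr).ge.trans (gensub_le fun x hx => ?_)) f)
  have : byW xe σ6 (2 * x + 2) = xe x := by interval_cases x <;> exact mul_one _
  change xe x ∈ _
  rw [← this]
  exact mem_gensub (by omega)

theorem exE : ∃ e : XG ≃* Sp, ∀ i < 7, e (xe i) = A i := by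
  have k : ∀ r ∈ ((List.range 7).map fun x => [x, xil.getD x 0]) ++ xr, evw A r = 1 := fun r h =>
    A_eq r [] (List.all_eq_true.1 (by decide +kernel : (_ ++ xr).all (cA · []) = true) r h)
  obtain ⟨ρ, h⟩ := wp_hom 7 xil xr (by decide +kernel) A (inv_of_rels fun r h => k r (List.mem_append_left _ h))
    fun r h => k r (List.mem_append_right _ h)
  have := finX.1
  exact ⟨MulEquiv.ofBijective ρ ((MonoidHom.range_eq_top.1 (A_gen _ fun i hi => ⟨_, h i hi⟩)).bijective_of_nat_card_le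
    (card_Sp6 ▸ finX.2)), h⟩

theorem homX {Γ : Type*} [Group Γ] (ev : ℕ → Γ) (h : ∀ r ∈ ((List.range 7).map fun x => [x, xil.getD x 0]) ++ xr, evw ev r = 1) :
    ∃ ρ : Sp →* Γ, ∀ i < 7, ρ (A i) = ev i := by
  obtain ⟨e, he⟩ := exE
  obtain ⟨ρ, k⟩ := wp_hom 7 xil xr (by decide +kernel) ev (inv_of_rels fun r a => h r (List.mem_append_left _ a))
    fun r a => h r (List.mem_append_right _ a)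
  exact ⟨ρ.comp e.symm.toMonoidHom, fun i hi => by rw [← he i hi, ← k i hi]; simp [xe]⟩

theorem lv_mul {T : Tab} {G : Type*} [Group G] {ev : ℕ → G} (r : Rep T ev) [Finite G] {k : ℕ} (hk : k ≤ T.nc) (l : Lv) :
    ∀ bs, T.lvOk k l bs = true → lvN l * Nat.card (gensub ev k ⊓ r.Fx (l.foldl (fun bs s => s.1 :: bs) bs) : Subgroup G) ≤
      Nat.card (gensub ev k ⊓ r.Fx bs : Subgroup G) := by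
  induction l with
  | nil => exact fun _ _ => by simp [lvN]
  | cons s l ih =>
    intro bs h
    obtain ⟨p, hp, h1, -, B, b1, b2, -⟩ := r.lv_step hk h
    rw [card_orbit_mul (gensub ev k ⊓ r.Fx bs) p, r.Fx_cons, List.foldl_cons, ← hp, lvN, List.map_cons, List.prod_cons, mul_assoc]
    exact Nat.mul_le_mul (b2.ge.trans (Set.ncard_le_ncard b1)) (ih _ h1)

theorem lv_fix {T : Tab} {G : Type*} [Group G] {ev : ℕ → G} (r : Rep T ev) [Finite G] (l : Lv) (ht : gensub ev T.nc = ⊤)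
    (h : T.lvOk T.nc l [] = true) : lvN l * Nat.card (r.Fx (l.foldl (fun bs s => s.1 :: bs) [])) ≤ Nat.card G := by
  have := lv_mul r le_rfl l [] h
  rw [ht, top_inf_eq] at this
  exact this.trans (card_le_card_group _)

theorem lv_base {T : Tab} {G : Type*} [Group G] {ev : ℕ → G} (r : Rep T ev) [Finite G] (l : Lv) (ht : gensub ev T.nc = ⊤)
    (h : T.lvOk T.nc l [] = true) (hc : Nat.card G ≤ lvN l) : ∀ g ∈ r.Fx (l.foldl (fun bs s => s.1 :: bs) []), g = 1 := by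
  have a := lv_fix r l ht h
  have b : 0 < Nat.card G := Nat.card_pos
  exact fun g hg => mem_bot.1 (eq_bot_of_card_le _ (by nlinarith) ▸ hg)

noncomputable def XTc0 : ℕ := nat_lit 0x3dfbcefae78df6d74c72cf0becb6eaea9239e6969a2271b7de76181a4914165544d96172ca34c3ce1851c9203101080
noncomputable def XTc1 : ℕ := nat_lit 0x3ef3defae78df1d74cf2dacbeeb70923a6886696ba9b9e065875c8907de5d63ce4d245a5542482ca34c1061470c2001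
noncomputable def XTc2 : ℕ := nat_lit 0x3ef7bf3ae76df8c34cf2c75aaeb6caef8689df95c8e2a5899e56445a66038d7543126ca3d75932d02481c61420440c0
noncomputable def XTc3 : ℕ := nat_lit 0x3ef7ce78efadf6d74cf2c6bbe99a4c22ba09ed76c6ea8687de95c8da6585d654d4d24503c95072c638430a0c8142040
noncomputable def XTc4 : ℕ := nat_lit 0x3ef7cebbe39d76defcf2c70d2eb6caeaa687e69648e26609d57526da84f5d678c4dc2d06081d444510e343289182040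
noncomputable def XTc5 : ℕ := nat_lit 0x3ef7cefadf5e70e34badb36bf3cb1aeaa689e69648da8577d44dc42264e81631e75229b21835515124f1c62c40c2040
noncomputable def XTc6 : ℕ := nat_lit 0x3ef7cefae78d36bf7cf2c6ad689638b082e79db5bb2b62956799191a3e15d67d44cb71064e34c48a2481c61440c2040
noncomputable def XT : Tab := ⟨nat_lit 63, nat_lit 7, nat_lit 6, nat_lit 63, [XTc0, XTc1, XTc2, XTc3, XTc4, XTc5, XTc6], 0, 0, 0, 0, 0⟩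
theorem XT_act : XT.Act xil xr := ⟨by decide +kernel, by decide +kernel, by decide +kernel⟩
noncomputable def RX : Rep XT A := (Classical.choice XT_act.rep).comap exE.choose.symm.toMonoidHom fun x hx => by
  rw [← exE.choose_spec x hx]; exact exE.choose.symm_apply_apply _
theorem Atop : gensub A 7 = ⊤ := A_gen _ fun _ => mem_gensub
def lvF : Lv := [(45, [[], [3], [5], [6], [3, 2], [3, 6], [3, 2, 1], [3, 2, 4], [3, 2, 6], [3, 6, 5], [3, 2, 1, 0], [3, 2, 1, 4], [3, 2, 1, 6], [3, 2, 4, 6], [3, 2, 6, 5], [3, 2, 1, 0, 4], [3, 2, 1, 0, 6], [3, 2, 1, 4, 2], [3, 2, 1, 4, 6], [3, 2, 1, 6, 5], [3, 2, 4, 6, 5], [3, 2, 6, 5, 3], [3, 2, 1, 0, 4, 2], [3, 2, 1, 0, 4, 6], [3, 2, 1, 0, 6, 5], [3, 2, 1, 4, 2, 3], [3, 2, 1, 4, 2, 6], [3, 2, 1, 4, 6, 5], [3, 2, 1, 6, 5, 3], [3,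 2, 4, 6, 5, 3], [3, 2, 1, 0, 4, 2, 1], [3, 2, 1, 0, 4, 2, 3], [3, 2, 1, 0, 4, 2, 6], [3, 2, 1, 0, 4, 6, 5], [3, 2, 1, 0, 6, 5, 3], [3, 2, 1, 4, 2, 3, 5], [3, 2, 1, 4, 2, 3, 6], [3, 2, 1, 4, 2, 6, 5], [3, 2, 1, 4, 6, 5, 3], [3, 2, 1, 6, 5, 3, 2], [3, 2, 4, 6, 5, 3, 2], [3, 2, 1, 0, 4, 2, 1, 3], [3, 2, 1, 0, 4, 2, 1, 6], [3, 2, 1, 0, 4, 2, 3, 5], [3, 2, 1, 0, 4, 2, 3, 6], [3, 2, 1, 0, 4, 2, 6, 5], [3, 2, 1, 0, 4, 6, 5, 3], [3, 2, 1, 0, 6, 5, 3, 2], [3, 2, 1, 0, 4, 2, 1, 3, 2], [3, 2, 1, 0, 4, 2, 1, 3, 5], [3, 2, 1, 0, 4, 2, 1, 3, 6], [3, 2, 1, 0, 4, 2, 1, 6, 5], [3, 2, 1, 0, 6, 5, 3, 2, 1], [3, 2, 1, 0, 4, 2, 1, 3, 2, 4], [3, 2, 1, 0, 4, 2, 1, 3, 2, 5], [3, 2, 1, 0, 4, 2, 1, 3, 2, 6], [3, 2, 1, 0, 4, 2, 1, 3, 2, 4, 5], [3, 2, 1, 0, 4, 2, 1, 3, 2, 4, 6], [3,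 2, 1, 0, 4, 2, 1, 3, 2, 5, 3], [3, 2, 1, 0, 4, 2, 1, 3, 2, 4, 5, 3], [3, 2, 1, 0, 4, 2, 1, 3, 2, 4, 5, 3, 2], [3, 2, 1, 0, 4, 2, 1, 3, 2, 4, 5, 3, 2, 1], [3, 2, 1, 0, 4, 2, 1, 3, 2, 4, 5, 3, 2, 1, 0]]),
  (38, [[], [2], [2, 1], [2, 4], [2, 1, 0], [2, 1, 4], [3, 5, 3], [5, 6, 5], [2, 1, 0, 4], [2, 1, 4, 2], [2, 5, 6, 5], [5, 3, 6, 5], [2, 1, 0, 4, 2], [2, 1, 5, 6, 5], [2, 4, 5, 6, 5], [2, 1, 0, 4, 2, 1], [2, 1, 0, 5, 6, 5], [2, 1, 4, 5, 6, 5], [2, 1, 0, 4, 5, 6, 5], [2, 1, 4, 2, 3, 5, 3], [2, 1, 4, 2, 5, 6, 5], [2, 1, 0, 4, 2, 3, 5, 3], [2, 1, 0, 4, 2, 5, 6, 5], [2, 1, 4, 2, 5, 3, 6, 5], [2, 1, 0, 4, 2, 1, 3, 5, 3], [2, 1, 0, 4, 2, 1, 5, 6, 5], [2, 1, 0, 4, 2, 5, 3, 6, 5], [2, 1, 0, 4, 2, 1, 3, 5, 3, 2], [2, 1, 0, 4, 2, 1, 5, 3, 6, 5], [2, 1, 0, 4, 2, 1, 3,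 5, 3, 2, 4], [2, 1, 0, 4, 2, 1, 5, 3, 2, 6, 5], [2, 1, 0, 4, 2, 1, 5, 3, 2, 4, 6, 5]]),
  (11, [[], [0], [4], [0, 1], [0, 4], [0, 1, 4], [2, 3, 5, 3, 2], [0, 2, 3, 5, 3, 2], [2, 3, 5, 3, 2, 1], [0, 1, 4, 2, 3, 5, 3, 2], [2, 1, 3, 2, 1, 4, 2, 1, 3, 2, 6, 5, 3, 2, 1, 4, 2, 3, 5, 6], [2, 1, 3, 2, 1, 4, 2, 1, 3, 2, 4, 6, 5, 3, 2, 1, 4, 2, 3, 5, 6], [2, 1, 3, 2, 1, 4, 2, 1, 5, 3, 2, 6, 5, 3, 2, 1, 4, 2, 3, 5, 6], [2, 1, 3, 2, 1, 4, 2, 1, 3, 2, 4, 6, 5, 3, 2, 1, 0, 4, 2, 3, 5, 6], [2, 1, 3, 2, 1, 4, 2, 1, 5, 3, 2, 1, 6, 5, 3, 2, 1, 4, 2, 3, 5, 6]]),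
  (30, [[], [1], [1, 4, 2, 3, 5, 3, 2, 4], [2, 1, 0, 3, 2, 1, 4, 2, 3, 5, 6, 5, 3, 2, 1, 0, 4, 2, 1, 3, 2], [1, 2, 1, 0, 3, 2, 1, 4, 2, 3, 5, 6, 5, 3, 2, 1, 0, 4, 2, 1, 3, 2], [1, 0, 2, 3, 2, 4, 2, 1, 3, 2, 4, 5, 3, 2, 1, 6, 5, 3, 2, 1, 0, 4, 2, 3, 5, 6]]),
  (15, [[], [0, 1, 2, 3, 5, 3, 2, 1, 0], [0, 1, 2, 1, 3, 2, 1, 4, 2, 1, 3, 2, 4, 6, 5, 3, 2, 1, 0, 4, 2, 3, 5, 6], [0, 1, 2, 1, 3, 2, 1, 4, 2, 1, 5, 3, 2, 4, 6, 5, 3, 2, 1, 0, 4, 2, 3, 5, 6]]),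
  (1, [[], [4, 2, 3, 5, 3, 2, 4]])]
def lvH : Lv := [(0, [[], [1], [1, 0], [1, 2], [1, 0, 2], [1, 2, 3], [1, 2, 4], [1, 0, 2, 1], [1, 0, 2, 3], [1, 0, 2, 4], [1, 2, 3, 4], [1, 2, 3, 5], [1, 0, 2, 1, 3], [1, 0, 2, 1, 4], [1, 0, 2, 3, 4], [1, 0, 2, 3, 5], [1, 2, 3, 4, 2], [1, 2, 3, 4, 5], [1, 2, 3, 5, 6], [1, 0, 2, 1, 3, 2], [1, 0, 2, 1, 3, 4], [1, 0, 2, 1, 3, 5], [1, 0, 2, 1, 4, 2], [1, 0, 2, 3, 4, 2], [1, 0, 2, 3, 4, 5], [1, 0, 2, 3, 5, 6], [1, 2, 3, 4, 2, 1], [1, 2, 3, 4, 2, 5], [1, 2, 3, 4, 5, 6], [1, 0, 2, 1, 3, 2, 5], [1, 0, 2, 1, 3, 4, 5], [1, 0, 2, 1, 3, 5, 6], [1, 0, 2, 3, 4, 2, 5], [1, 0, 2, 3, 4, 5, 6], [1, 2, 3, 4, 2, 1, 5], [1, 2, 3, 4, 2, 5, 3], [1, 2, 3, 4, 2, 5, 6], [1, 0, 2, 1, 3, 2, 5, 3], [1, 0, 2, 1, 3, 2, 5, 6], [1, 0, 2, 1, 3, 4, 5, 6],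 [1, 0, 2, 3, 4, 2, 5, 3], [1, 0, 2, 3, 4, 2, 5, 6], [1, 2, 3, 4, 2, 1, 5, 3], [1, 2, 3, 4, 2, 1, 5, 6], [1, 2, 3, 4, 2, 5, 3, 6], [1, 0, 2, 1, 3, 2, 5, 3, 6], [1, 0, 2, 3, 4, 2, 5, 3, 6], [1, 2, 3, 4, 2, 1, 5, 3, 2], [1, 2, 3, 4, 2, 1, 5, 3, 6], [1, 2, 3, 4, 2, 5, 3, 6, 5], [1, 0, 2, 1, 3, 2, 5, 3, 6, 5], [1, 0, 2, 3, 4, 2, 5, 3, 6, 5], [1, 2, 3, 4, 2, 1, 5, 3, 2, 4], [1, 2, 3, 4, 2, 1, 5, 3, 2, 6], [1, 2, 3, 4, 2, 1, 5, 3, 6, 5], [1, 2, 3, 4, 2, 1, 5, 3, 2, 4, 6], [1, 2, 3, 4, 2, 1, 5, 3, 2, 6, 5], [1, 2, 3, 4, 2, 1, 5, 3, 2, 4, 6, 5], [1, 2, 3, 4, 2, 1, 5, 3, 2, 6, 5, 3], [1, 2, 3, 4, 2, 1, 5, 3, 2, 4, 6, 5, 3], [1, 2, 3, 4, 2, 1, 5, 3, 2, 4, 6, 5, 3, 2], [1, 2, 3, 4, 2, 1, 5, 3, 2, 4, 6, 5, 3, 2, 1], [1, 2, 3, 4, 2, 1, 5, 3, 2, 4, 6, 5, 3, 2, 1, 0]]),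
  (18, [[], [0], [4], [6], [0, 4], [0, 6], [4, 2], [4, 6], [6, 5], [0, 4, 2], [0, 4, 6], [0, 6, 5], [4, 2, 3], [4, 2, 6], [4, 6, 5], [6, 5, 3], [0, 4, 2, 3], [0, 4, 2, 6], [0, 4, 6, 5], [0, 6, 5, 3], [4, 2, 3, 5], [4, 2, 3, 6], [4, 2, 6, 5], [4, 6, 5, 3], [6, 5, 3, 2], [0, 4, 2, 3, 5], [0, 4, 2, 3, 6], [0, 4, 2, 6, 5], [0, 4, 6, 5, 3], [0, 6, 5, 3, 2], [4, 2, 1, 0, 3, 2, 1, 4, 2, 5, 3, 2, 1, 0, 4, 2, 1], [0, 4, 2, 1, 0, 3, 2, 1, 4, 2, 5, 3, 2, 1, 0, 4, 2, 1]]),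
  (24, [[], [2], [5], [2, 3], [2, 5], [5, 3], [1, 0, 2, 1, 4, 2, 5, 3, 2, 1, 0, 4, 2, 1], [1, 0, 2, 1, 0, 4, 2, 5, 3, 2, 1, 0, 4, 2, 1], [1, 0, 2, 1, 4, 2, 5, 3, 2, 1, 0, 4, 2, 1, 3], [1, 0, 2, 1, 4, 2, 5, 3, 2, 1, 0, 4, 2, 1, 3, 5], [0, 1, 0, 2, 1, 0, 4, 2, 1, 6, 5, 3, 2, 1, 0, 4, 2, 1, 3, 5, 6], [0, 1, 0, 2, 1, 0, 4, 2, 1, 5, 6, 5, 3, 2, 1, 0, 4, 2, 1, 3, 5, 6], [0, 2, 1, 0, 3, 2, 1, 4, 2, 1, 6, 5, 3, 2, 1, 0, 4, 2, 1, 3, 5, 6], [0, 1, 0, 2, 1, 0, 4, 2, 1, 5, 3, 6, 5, 3, 2, 1, 0, 4, 2, 1, 3, 5, 6], [0, 1, 0, 2, 1, 0, 4, 2, 1, 5, 3, 6, 5, 3, 2, 1, 0, 4, 2, 1, 3, 2, 5, 6]]),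
  (23, [[], [1, 0, 2, 1, 3, 2, 4, 2, 1, 0, 3, 2, 1], [1, 0, 2, 1, 0, 3, 2, 1, 4, 2, 1, 0, 3, 2, 1, 5, 3, 2], [1, 0, 2, 1, 3, 2, 4, 2, 1, 0, 3, 2, 1, 4, 2, 3, 5, 6, 5, 3, 2, 4], [0, 1, 0, 4, 5, 3, 2, 1, 4, 2, 3, 5, 6, 5, 3, 2, 1, 0, 4, 2, 1, 3, 5, 6], [1, 0, 2, 1, 0, 3, 2, 1, 4, 2, 1, 0, 3, 2, 1, 4, 2, 3, 5, 3, 2, 4, 6, 5, 3, 2, 4]]),
  (7, [[], [3], [2, 3, 5, 3, 2], [2, 3, 2, 5, 3, 2]]),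
  (1, [[], [4, 2, 3, 5, 6, 5, 3, 2, 4]])]
theorem kF : XT.lvOk 7 lvF [] = true := by decide +kernel
theorem kH : XT.lvOk 7 lvH [] = true := by decide +kernel
theorem cX {l : Lv} (h : lvN l = 1451520 := by decide +kernel) : Nat.card (gensub A 7) ≤ lvN l := by rw [Atop, card_top, card_Sp6, h]
theorem bX : ∀ g ∈ RX.Fx [1, 15, 30, 11, 38, 45], g = 1 := lv_base RX lvF Atop kF (card_top.symm.trans_le (Atop ▸ cX))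
def fX : List ℕ := [0, 1, 2, 3, 5, 3, 2, 4]
theorem sF1 {g : Sp} (h : evw A fX * g = g * evw A fX) (h2 : g * g = 1) : ∃ c ∈ [[], [5, 6, 5], [3], [3, 5, 6, 5, 3]], g = evw A c :=
  RX.solve le_rfl bX kF cX [[⟨[0, 1, 2, 3, 5, 3, 2, 4], 45, 45, 0⟩], [⟨[0, 1, 2, 3, 5, 3, 2, 4], 38, 38, 0⟩], [], [⟨[0, 1, 2, 3, 5, 3, 2, 4], 11, 30, 0⟩], [⟨[0, 1, 2, 3, 5, 3, 2, 4], 30, 15, 0⟩], [⟨[0, 1, 2, 3, 5, 3, 2, 4], 15, 1, 0⟩]] [fX] [] [[7, 7]] _ (by decide +kernel) (Atop.ge trivial)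
    (forall_cons h forall_nil) forall_nil (forall_cons (by simpa [upd, XT] using h2) forall_nil)
def cF : List (List ℕ) := (List.range 5).flatMap fun i => [wpow fX i, wpow fX i ++ [3]]
theorem sF2 {g : Sp} (h : evw A fX * g = g * evw A fX) (h2 : evw A [3] * g = g * evw A [3]) : ∃ c ∈ cF, g = evw A c :=
  RX.solve le_rfl bX kF cX [[⟨[0, 1, 2, 3, 5, 3, 2, 4], 45, 45, 0⟩], [⟨[0, 1, 2, 3, 5, 3, 2, 4], 38, 38, 0⟩, ⟨[3], 38, 45, 0⟩], [⟨[3], 11, 11, 0⟩], [⟨[0, 1, 2, 3, 5, 3, 2, 4], 11, 30, 0⟩, ⟨[3], 30, 30, 0⟩], [⟨[0, 1, 2, 3, 5, 3, 2, 4], 30, 15, 0⟩, ⟨[3], 15, 15, 0⟩], [⟨[0, 1, 2, 3, 5, 3, 2, 4], 15, 1, 0⟩, ⟨[3], 1, 1, 0⟩]] [fX, [3]] [] [] _ (by decide +kernel) (Atop.ge trivial)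
    (forall_cons h (forall_cons h2 forall_nil)) forall_nil forall_nil
def yH : List (List ℕ) := [[0, 4, 2, 1, 0, 3, 2, 1, 4, 2, 3, 5, 3, 2, 1, 0, 4, 2, 1, 3, 2, 4], [1, 0, 5, 3, 2, 1, 4, 2, 3, 5, 6, 5, 3, 2, 1, 0, 4, 2, 1, 3, 5], [6, 5, 3, 2, 1, 4, 2, 3, 5, 6]]
def cH : List (List ℕ) := [[2, 4, 2, 1, 3, 2, 4, 5, 3, 2, 1, 4, 6, 5, 3, 2, 4], [1, 2, 3, 2, 1, 4, 2, 1, 3, 2, 4, 5, 3, 2, 1, 4, 2], [1, 2, 1, 3, 4, 2, 1, 3, 2, 4, 5, 3, 2, 1, 4, 2, 3], [3, 2, 4, 2, 1, 3, 2, 4, 5, 3, 2, 1, 4, 2, 6, 5, 3, 2, 4]]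
theorem sH {g : Sp} (h : ∀ y ∈ yH, evw A y * g = g * evw A y) (h2 : (g * evw A [3, 4, 6]) ^ 3 = 1) : ∃ c ∈ cH, g = evw A c :=
  RX.solve le_rfl bX kH cX [[⟨[0, 4, 2, 1, 0, 3, 2, 1, 4, 2, 3, 5, 3, 2, 1, 0, 4, 2, 1, 3, 2, 4], 0, 0, 0⟩, ⟨[1, 0, 5, 3, 2, 1, 4, 2, 3, 5, 6, 5, 3, 2, 1, 0, 4, 2, 1, 3, 5], 0, 0, 0⟩], [⟨[6, 5, 3, 2, 1, 4, 2, 3, 5, 6], 18, 0, 0⟩], [⟨[1, 0, 5, 3, 2, 1, 4, 2, 3, 5, 6, 5, 3, 2, 1, 0, 4, 2, 1, 3, 5], 24, 18, 0⟩, ⟨[6, 5, 3, 2, 1, 4, 2, 3, 5, 6], 24, 24, 0⟩], [⟨[0, 4, 2, 1, 0, 3, 2, 1, 4, 2, 3, 5, 3, 2, 1, 0, 4, 2, 1, 3, 2, 4], 23, 24, 0⟩, ⟨[6, 5, 3, 2, 1, 4, 2, 3, 5, 6], 23, 23, 0⟩], [⟨[0, 4, 2, 1, 0, 3, 2, 1, 4, 2, 3, 5, 3, 2, 1, 0, 4, 2, 1, 3, 2, 4], 7, 7, 0⟩, ⟨[6, 5, 3, 2, 1, 4, 2, 3, 5, 6], 7, 7, 0⟩], []] yH [] [wpow [7, 3, 4, 6] 3]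 cH (by decide +kernel) (Atop.ge trivial)
    h forall_nil (forall_cons (by rw [evw_wpow, ← h2]; simp [upd, XT]) forall_nil)
end CfH8.C2
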