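import Cfsg.Agent.OD.Pre
import Cfsg.Agent.H8.DN
import Cfsg.Agent.H8.DDA.D0
import Cfsg.Agent.H8.DDA.P0
set_option autoImplicit false
set_option maxRecDepth 100000
set_option Elab.async false
set_option linter.all false
namespace CfH8.DD
open CfH6 CfH6.D MulAction
theorem exD : ∃ ρ : DN.G →* Equiv.Perm ℕ, ∀ x < 16, ∀ p < 2016, fD (Nat.succ x) p = ρ (DN.el x) p ∧ ρ (DN.el x) p < 2016 :=
  tab_hom (fun x => fD (Nat.succ x)) DN.hhom (by decide +kernel) (iD0) (rD0)
noncomputable def rhoD : DN.G →* Equiv.Perm ℕ := Classical.choose exD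
@[reducible] noncomputable def actD : MulAction DN.G ℕ := MulAction.compHom ℕ rhoD
section
attribute [local instance] actD
theorem tb0D : Tb (fun x => fD (Nat.succ x)) 2016 16 DN.el := Classical.choose_spec exD
noncomputable def lt : ℕ → DN.G := slp DN.el 16 sa sb
noncomputable def cd : ℕ → DN.G := cdF lt 6 63 7
theorem tbD : Tb fD 2016 64 lt := tb0D.slp (by decide) (dD0) (sD0)
noncomputable def trD : ℕ → ℕ → ℕ := trC fD 6 63 7
theorem trsD : Trs trD cd 2016 := tbD.trs 7 (by decide)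
noncomputable def QD : RP := ⟨(nat_lit 2016), (nat_lit 15), (nat_lit 96), (nat_lit 12), (nat_lit 4095), (nat_lit 5), (nat_lit 31)⟩
theorem low : Low (⊤ : Subgroup DN.G) [0, 1, 5, 2] 743178240 := levs_low (code := fun k => k) (ok := fun _ => 0) (Q := QD) trsD (fun _ _ => Subgroup.mem_top _) levs _ _ (by decide +kernel)
theorem cd0 : cd 0 = 1 := cdF_zero _
theorem cdx : ∀ x < 16, cd (x + 1) = DN.el x := fun x hx =>
  (cdF_letter (by interval_cases x <;> decide)).trans (slp_succ _ _ _ hx)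
noncomputable def eq : List ℕ → List ℕ → ℕ := eqc fD 6 63 7 (nat_lit 0) (nat_lit 1) (nat_lit 5) (nat_lit 2)
end
end CfH8.DD
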