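import Cfsg.Agent.OD.Pre
import Cfsg.Agent.H8.DDA
import Cfsg.Agent.H8.DNO
set_option autoImplicit false
set_option maxRecDepth 100000
set_option Elab.async false
set_option linter.all false
namespace CfH8.DD
open CfH6 CfH6.D MulAction
attribute [local instance] actD
theorem fin : Finite DN.G := DNO.finG.1
theorem card : Nat.card DN.G = 743178240 := (low.top DNO.finG).1
theorem base : ∀ g : DN.G, (∀ b ∈ [0, 1, 5, 2], g • b = b) → g = 1 := (low.top DNO.finG).2
theorem heq : ∀ a b, eq a b = 0 → evw cd a = evw cd b := fun a b h => tbD.eqc 7 (by decide) base a b h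
end CfH8.DD
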