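import Cfsg.Agent.OD.Pre
import Cfsg.Agent.H8.JComp2
import Cfsg.Agent.H1.Subnormal

/-!
# J(T)-components: the maximal straddling subgroups
-/

set_option autoImplicit false
set_option linter.unusedSectionVars false

namespace CfH8

open Subgroup MulAction CfH9 Cfsg
open scoped commutatorElement Pointwise
open CfH7 (OZ ChP SubnIn nclo RedOn)

variable {G : Type*} [Group G] [Finite G]

theorem isTwoLocal_Nm {P : Subgroup G} (hP : IsPGroup 2 P) (h : P ≠ ⊥) : IsTwoLocal Nm(P) :=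
  ⟨P, hP, h, rfl⟩

theorem IsTwoLocal.cj' {L : Subgroup G} (h : IsTwoLocal L) (g : G) : IsTwoLocal (cj g L) := by
  obtain ⟨P, hP, h1, rfl⟩ := h
  exact ⟨cj g P, isPGroup_cj hP g, cj_ne_bot h1, cj_normalizer g P⟩

theorem ZN.cz_le_of_local (hG : ZN G) {L : Subgroup G} (h : IsTwoLocal L) :
    Cz(pCoreOf 2 L) ≤ pCoreOf 2 L := by
  obtain ⟨P, hP, h1, rfl⟩ := h
  exact hG.cz_le hP h1

theorem pCoreOf_ne_bot_of_local {L : Subgroup G} (h : IsTwoLocal L) : pCoreOf 2 L ≠ ⊥ := by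
  obtain ⟨P, hP, h1, rfl⟩ := h
  exact ne_bot_of_le (CfH7.le_pCoreOf le_normalizer le_rfl hP) h1

theorem max_straddling {M T U : Subgroup G} (hT : T ∈ maxStraddlingTwoSubgroups M)
    (hU : U ∈ straddlingTwoSubgroups M) (h : JJ 2 T ≤ U) :
    JJ 2 U = JJ 2 T ∧ Nat.card U ≤ Nat.card T := by
  obtain ⟨h1, h2⟩ := hT.2 U hU
  obtain ⟨A, hA⟩ := exists_maxEl 2 T
  obtain ⟨B, hB⟩ := exists_maxEl 2 U
  rw [hA.order_eq, hB.order_eq] at h1 h2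
  have h3 : Nat.card B = Nat.card A := le_antisymm h1 (hB.max A (hA.le_J.trans h) hA.el)
  obtain ⟨h4, h5⟩ := h2 h3
  have h6 : JJ 2 T ≤ JJ 2 U := by
    rw [J_le_iff]
    intro C hC
    exact (hB.of_card_le (hC.le_J.trans h) hC.el (h3.trans (hA.card_eq hC)).le).le_J
  have e := eq_of_le_of_card_ge h6 h4
  exact ⟨e.symm, h5 (by rw [show thompsonSubgroupOf 2 U = JJ 2 U from rfl, ← e])⟩

/-- standing hypothesis of the last section: `M ⊇ N(J(S))` and `T ∈ 𝒯*(M)` -/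
structure TS (S M T : Subgroup G) : Prop where
  syl : SylIn 2 S ⊤
  hM : Nm(JJ 2 S) ≤ M
  hT : T ∈ maxStraddlingTwoSubgroups M

namespace TS

variable {S M T : Subgroup G} (h : TS S M T)
include h

theorem pgrp : IsPGroup 2 T := h.hT.1.1

theorem ne_bot : T ≠ ⊥ := h.hT.1.2.1

theorem le : T ≤ M := h.hT.1.2.2.1

theorem J_ne : JJ 2 T ≠ ⊥ := J_ne_bot h.pgrp h.ne_bot

theorem S_le : S ≤ M := (le_Nm_J S).trans h.hM

theorem exists_syl : ∃ S', TS S' M T ∧ T ≤ S' := by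
  obtain ⟨m, hm, hle⟩ := (h.syl.mono h.S_le le_top).exists_le_cj h.pgrp h.le
  refine ⟨cj m S, ⟨h.syl.cj_top m, ?_, h.hT⟩, hle⟩
  rw [← cj_J, ← cj_normalizer, ← cj_eq_of_mem hm]
  exact cj_mono m h.hM

theorem Nm_J_le : Nm(JJ 2 T) ≤ M := by
  obtain ⟨S', h', hle⟩ := h.exists_syl
  by_contra hc
  have hT1 : T ≤ S' ⊓ Nm(JJ 2 T) := le_inf hle (le_Nm_J T)
  have hU : S' ⊓ Nm(JJ 2 T) ∈ straddlingTwoSubgroups M :=
    ⟨h'.syl.pgrp.to_le inf_le_left, ne_bot_of_le hT1 h.ne_bot, inf_le_left.trans h'.S_le,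
      _, isTwoLocal_Nm (isPGroup_J h.pgrp) h.J_ne, inf_le_right, hc⟩
  have e := eq_of_le_of_card_ge hT1 (max_straddling h.hT hU ((J_le T).trans hT1)).2
  rcases hle.eq_or_lt with e' | hlt
  · exact hc (e' ▸ h'.hM)
  · have := lt_inf_Nm h'.syl.pgrp hlt
    exact this.not_ge ((inf_le_inf_left _ (Nm_le_Nm_J T)).trans e.ge)

theorem syl_local {L T₀ : Subgroup G} (hL : IsTwoLocal L) (hLM : ¬ L ≤ M) (hT₀ : IsPGroup 2 T₀)
    (hT₀L : T₀ ≤ L) (hJ : JJ 2 T ≤ T₀) :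
    JJ 2 T₀ = JJ 2 T ∧ T₀ ∈ straddlingTwoSubgroups M ∧ Nat.card T₀ ≤ Nat.card T := by
  have hJ1 : JJ 2 T ≤ T₀ ⊓ M := le_inf hJ ((J_le T).trans h.le)
  have hU : T₀ ⊓ M ∈ straddlingTwoSubgroups M :=
    ⟨hT₀.to_le inf_le_left, ne_bot_of_le hJ1 h.J_ne, inf_le_right, L, hL,
      inf_le_left.trans hT₀L, hLM⟩
  obtain ⟨e1, e2⟩ := max_straddling h.hT hU hJ1
  have e : T₀ ⊓ M = T₀ := by
    by_contra hc
    have := lt_inf_Nm hT₀ (lt_of_le_of_ne inf_le_left hc)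
    refine this.not_ge (inf_le_inf_left _ ((Nm_le_Nm_J (p := 2) _).trans ?_))
    rw [e1]
    exact h.Nm_J_le
  rw [e] at e1 e2 hU
  exact ⟨e1, hU, e2⟩

theorem ll (hG : ZN G) {L T₀ : Subgroup G} (hL : IsTwoLocal L) (hLM : ¬ L ≤ M)
    (hT₀ : SylIn 2 T₀ L) (hJ : JJ 2 T ≤ T₀) : LL T₀ L := by
  have e := (h.syl_local hL hLM hT₀.pgrp hT₀.le hJ).1
  refine ⟨hT₀, fun hc => hLM ?_, hG.cz_le_of_local hL⟩
  have e2 := J_eq_of_J_le hc (CfH7.sylIn_pCoreOf_le hT₀)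
  refine le_trans ?_ h.Nm_J_le
  rw [← e, ← e2]
  exact (CfH7.le_normalizer_pCoreOf L).trans (Nm_le_Nm_J _)

theorem exists_ll (hG : ZN G) {L : Subgroup G} (hL : IsTwoLocal L) (hLM : ¬ L ≤ M)
    (hJ : JJ 2 T ≤ L) : ∃ T₀, LL T₀ L ∧ JJ 2 T₀ = JJ 2 T := by
  obtain ⟨T₀, hT₀, hJ'⟩ := exists_sylIn_ge (isPGroup_J h.pgrp) hJ
  exact ⟨T₀, h.ll hG hL hLM hT₀ hJ', (h.syl_local hL hLM hT₀.pgrp hT₀.le hJ').1⟩

theorem ll_self (hG : ZN G) {L : Subgroup G} (hL : IsTwoLocal L) (hLM : ¬ L ≤ M)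
    (hT : T ≤ L) : LL T L := by
  obtain ⟨T₀, hT₀, hJ'⟩ := exists_sylIn_ge h.pgrp hT
  have := (h.syl_local hL hLM hT₀.pgrp hT₀.le ((J_le T).trans hJ')).2.2
  rw [← eq_of_le_of_card_ge hJ' this] at hT₀
  exact h.ll hG hL hLM hT₀ (J_le T)

theorem jz {K : Subgroup G} (hK : JC (JJ 2 T) K) (hKM : ¬ K ≤ M) : JZ (JJ 2 T) K :=
  ⟨hK, fun _ hJ hS => (h.syl_local (isTwoLocal_Nm (isPGroup_wOf K) hK.wOf_ne_bot)
    (fun e => hKM ((le_Nm_wOf K).trans e)) hS.pgrp hS.le hJ).1⟩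

theorem exists_comp (hG : ZN G) :
    ∃ K, JC (JJ 2 T) K ∧ ¬ K ≤ M ∧ pCoreOf 2 (K ⊔ T) ≠ ⊥ := by
  obtain ⟨L, hL, hTL, hLM⟩ := h.hT.1.2.2.2
  have hLL := h.ll_self hG hL hLM hTL
  obtain ⟨K, hK, hKL, hKM⟩ := exists_comp_not_le hG hLL hLM (inf_le_right.trans h.Nm_J_le)
  exact ⟨K, hK, hKM, ne_bot_of_le (CfH7.pCoreOf_le_pCoreOf_of_le (sup_le hKL hTL)
    (hLL.Q_le.trans le_sup_right)) hLL.Q_ne_bot⟩

/-- 12.3.4 -/
theorem exists_unique_local (hG : ZN G) {K : Subgroup G} (hK : JC (JJ 2 T) K) (hKM : ¬ K ≤ M) :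
    ∃ L, IsTwoLocal L ∧ K ⊔ JJ 2 T ≤ L ∧ ∀ L', IsTwoLocal L' → K ⊔ JJ 2 T ≤ L' → L' ≤ L := by
  have hLL : ∀ V, IsTwoLocal V → K ⊔ JJ 2 T ≤ V → ∃ T₀, LL T₀ V ∧ JJ 2 T₀ = JJ 2 T :=
    fun V hV hle => h.exists_ll hG hV (fun e => hKM (le_sup_left.trans (hle.trans e)))
      (le_sup_right.trans hle)
  obtain ⟨L, hL, hmax⟩ := CfH1.zipper_general {V : Subgroup G | IsTwoLocal V ∧ K ⊔ JJ 2 T ≤ V}
    ⟨_, isTwoLocal_Nm (isPGroup_wOf K) hK.wOf_ne_bot, sup_le (le_Nm_wOf K) hK.le_Nm_wOf⟩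
    (fun V => {B | JC (JJ 2 T) B ∧ B ≤ V})
    (by
      rintro V ⟨hV, hle⟩ B ⟨hB, hBV⟩
      obtain ⟨T₀, h1, e⟩ := hLL V hV hle
      exact comp_subnIn hG h1 (e ▸ hB) hBV)
    (by
      rintro V ⟨hV, hle⟩ B ⟨hB, hBV⟩ g hg
      obtain ⟨T₀, h1, e⟩ := hLL V hV hle
      exact ⟨e ▸ comp_cj hG h1 (e ▸ hB) hBV hg, (cj_mono g hBV).trans (cj_eq_of_mem hg).le⟩)
    (by
      rintro V - W - B ⟨hB, -⟩ hBV
      exact ⟨hB, hBV⟩)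
    (by
      rintro V ⟨hV, hle⟩ W ⟨hW, hle'⟩
      obtain ⟨T₀, h1, e⟩ := hLL V hV hle
      set F := sSup ({B | JC (JJ 2 T) B ∧ B ≤ V} ∩ {B | JC (JJ 2 T) B ∧ B ≤ W}) with hF
      have hKF : K ≤ F := le_sSup ⟨⟨hK, le_sup_left.trans hle⟩, hK, le_sup_left.trans hle'⟩
      have hFK : F ≤ Nm(K) := sSup_le fun B hB =>
        comp_le_Nm hG h1 (e ▸ hK) (le_sup_left.trans hle) (e ▸ hB.1.1) hB.1.2
      have hJF : JJ 2 T ≤ Nm(F) := le_Nm_sSup fun B hB => hB.1.1.le_Nm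
      refine ⟨Nm(pCoreOf 2 F), ⟨isTwoLocal_Nm (CfH7.isPGroup_pCoreOf F) (ne_bot_of_le
        ((wOf_le_pCoreOf K).trans (CfH7.pCoreOf_le_pCoreOf_of_normal hKF hFK)) hK.wOf_ne_bot),
        sup_le (hKF.trans (CfH7.le_normalizer_pCoreOf F))
          (hJF.trans (CfH7.normalizer_le_normalizer_pCoreOf F))⟩,
        CfH7.normalizer_le_normalizer_pCoreOf F⟩)
  exact ⟨L, hL.1, hL.2, fun L' h1 h2 => hmax L' ⟨h1, h2⟩⟩

end TS

/-- `K` is a `J(T)`-component, `L` is the unique maximal 2-local subgroup above `K J(T)`, and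
`L ∈ 𝓛(T)` -/
structure UC (T K L : Subgroup G) : Prop where
  jc : JC (JJ 2 T) K
  ll : LL T L
  le : K ≤ L
  loc : IsTwoLocal L
  uniq : ∀ L', IsTwoLocal L' → K ⊔ JJ 2 T ≤ L' → L' ≤ L

theorem TS.exists_uc (hG : ZN G) {S M T K : Subgroup G} (h : TS S M T) (hK : JC (JJ 2 T) K)
    (hKM : ¬ K ≤ M) (hO : pCoreOf 2 (K ⊔ T) ≠ ⊥) : ∃ L, UC T K L := by
  obtain ⟨L, hL, hle, hu⟩ := h.exists_unique_local hG hK hKM
  have hTL : T ≤ L := le_trans (le_sup_right.trans (CfH7.le_normalizer_pCoreOf (K ⊔ T)))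
    (hu _ (isTwoLocal_Nm (CfH7.isPGroup_pCoreOf _) hO)
      ((sup_le_sup_left (J_le T) K).trans (CfH7.le_normalizer_pCoreOf (K ⊔ T))))
  exact ⟨L, hK, h.ll_self hG hL (fun e => hKM (le_sup_left.trans (hle.trans e))) hTL,
    le_sup_left.trans hle, hL, hu⟩

theorem UC.sup_le' {T K L : Subgroup G} (h : UC T K L) : K ⊔ JJ 2 T ≤ L := sup_le h.le h.ll.J_le

theorem UC.isMax {T K L : Subgroup G} (h : UC T K L) : IsMaximalTwoLocal L :=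
  ⟨h.loc, fun N hN hle => le_antisymm (h.uniq N hN (h.sup_le'.trans hle)) hle⟩

theorem UC.eq_of_max {T K L L' : Subgroup G} (h : UC T K L) (h' : IsMaximalTwoLocal L')
    (hle : K ⊔ JJ 2 T ≤ L') : L' = L :=
  (h'.2 L h.loc (h.uniq L' h'.1 hle)).symm

end CfH8
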