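import Cfsg.Agent.OD.Pre
import Cfsg.Agent.H8.JComp3
import Cfsg.Agent.H8.Amalgam5
import Cfsg.Agent.H9.SPE

/-!
# J(T)-components: the amalgam of two maximal 2-local subgroups
-/

set_option autoImplicit false
set_option linter.unusedSectionVars false

namespace CfH8

open Subgroup MulAction CfH9 Cfsg
open scoped commutatorElement
open CfH7 (OZ ChP SubnIn nclo RedOn)

variable {G : Type*} [Group G] [Finite G]

theorem conj_of_odd_mul {x w : G} (hx : x * x = 1) (hw : w * w = 1) (ho : Odd (orderOf (x * w))) :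
    ∃ g : G, g * x * g⁻¹ = w := by
  obtain ⟨k, hk⟩ := ho
  have hxi : x⁻¹ = x := inv_eq_of_mul_eq_one_right hx
  have hwi : w⁻¹ = w := inv_eq_of_mul_eq_one_right hw
  have h1 : x * (x * w) * x⁻¹ = (x * w)⁻¹ := by
    rw [← mul_assoc, hx, one_mul, mul_inv_rev, hwi]
  have h2 : x * (x * w) ^ k * x⁻¹ = ((x * w) ^ k)⁻¹ := by rw [← conj_pow, h1, inv_pow]
  have h3 : (x * w) ^ k * (x * w) ^ k * (x * w) = 1 := by
    rw [← pow_add, ← pow_succ, ← two_mul, ← hk, pow_orderOf_eq_one]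
  refine ⟨((x * w) ^ k)⁻¹⁻¹, ?_⟩
  set d := (x * w) ^ k
  have h4 : d * x = x * d⁻¹ := by
    rw [← h2, ← mul_assoc, ← mul_assoc, hx, one_mul, hxi]
  calc d⁻¹⁻¹ * x * d⁻¹⁻¹⁻¹ = (d * x) * d⁻¹ := by group
    _ = x * (d * d)⁻¹ := by rw [h4]; group
    _ = x * (x * w) := by rw [inv_eq_of_mul_eq_one_right h3]
    _ = w := by rw [← mul_assoc, hx, one_mul]

/-- the involutions of a strongly embedded subgroup are conjugate -/
theorem spe_conj {M : Subgroup G} (h : SPE 2 M ⊤) {u v : G} (hu : u ∈ M) (hv : v ∈ M)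
    (hu1 : u ≠ 1) (hv1 : v ≠ 1) (hu2 : u * u = 1) (hv2 : v * v = 1) :
    ∃ g ∈ M, g * u * g⁻¹ = v := by
  obtain ⟨a, -, haM⟩ := h.exists_not_mem
  have p2 : ∀ {x : G}, x * x = 1 → x ^ 2 ^ 1 = 1 := fun e => by rw [pow_one, sq, e]
  have hw : a * u * a⁻¹ ∉ M := fun e => haM (h.mem_of_conj_mem hu hu1 (p2 hu2) (mem_top a) e)
  have hw2 : (a * u * a⁻¹) * (a * u * a⁻¹) = 1 := by
    calc _ = a * (u * u) * a⁻¹ := by group
      _ = 1 := by rw [hu2]; group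
  set w := a * u * a⁻¹
  have key : ∀ x ∈ M, x ≠ 1 → x * x = 1 → ∃ g : G, g * x * g⁻¹ = w := by
    intro x hx hx1 hx2
    refine conj_of_odd_mul hx2 hw2 ?_
    by_contra ho
    obtain ⟨k, hk⟩ := Nat.not_odd_iff_even.1 ho
    have hxi : x⁻¹ = x := inv_eq_of_mul_eq_one_right hx2
    have hwi : w⁻¹ = w := inv_eq_of_mul_eq_one_right hw2
    have hz2 : (x * w) ^ k * (x * w) ^ k = 1 := by rw [← pow_add, ← hk, pow_orderOf_eq_one]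
    have hz1 : (x * w) ^ k ≠ 1 := pow_ne_one_of_lt_orderOf
      (by have := orderOf_pos (x * w); omega) (by have := orderOf_pos (x * w); omega)
    have h1 : x * (x * w) * x⁻¹ = (x * w)⁻¹ := by
      rw [← mul_assoc, hx2, one_mul, mul_inv_rev, hwi]
    have h2 : x * (x * w) ^ k * x⁻¹ = (x * w) ^ k := by
      rw [← conj_pow, h1, inv_pow, inv_eq_of_mul_eq_one_right hz2]
    have hzM : (x * w) ^ k ∈ M := h.centralizer_le hx hx1 (p2 hx2) (mi (mem_top _) (by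
      rw [mem_Cx, ← h2]; conv_rhs => rw [h2]
      group))
    have h3 : x * w ∈ M := h.centralizer_le hzM hz1 (p2 hz2) (mi (mem_top _) (by
      rw [mem_Cx, ← pow_succ, ← pow_succ']))
    exact hw (by simpa [← mul_assoc] using mul_mem (inv_mem hx) h3)
  obtain ⟨g₁, e₁⟩ := key u hu hu1 hu2
  obtain ⟨g₂, e₂⟩ := key v hv hv1 hv2
  have e : g₂⁻¹ * g₁ * u * (g₂⁻¹ * g₁)⁻¹ = v := by
    calc _ = g₂⁻¹ * (g₁ * u * g₁⁻¹) * g₂ := by group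
      _ = v := by rw [e₁, ← e₂]; group
  exact ⟨_, h.mem_of_conj_mem hu hu1 (p2 hu2) (mem_top _) (e ▸ hv), e⟩

theorem four_cases {V : Subgroup G} (hV : IsElementaryAbelian 2 V) (h4 : Nat.card V ≤ 4)
    {a b x : G} (ha : a ∈ V) (hb : b ∈ V) (ha1 : a ≠ 1) (hb1 : b ≠ 1) (hab : a ≠ b) (hx : x ∈ V) :
    x = 1 ∨ x = a ∨ x = b ∨ x = a * b := by
  have hn : zpowers a ≤ Nm(zpowers b) :=
    le_Nm_of_le_of_comm hV.1 (zpowers_le.2 ha) (zpowers_le.2 hb)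
  have oa : orderOf a = 2 := orderOf_eq_prime (hV.2 a ha) ha1
  have ob : orderOf b = 2 := orderOf_eq_prime (hV.2 b hb) hb1
  have h1 := card_sup_mul_card_inf hn
  rw [CfH3.inf_zpowers_eq_bot b (ob ▸ Nat.prime_two) _ (fun e => by
    rcases eq_one_or_eq_of_mem_zpowers (hV.2 a ha) e with e | e
    · exact hb1 e
    · exact hab e.symm), card_bot, Nat.card_zpowers, Nat.card_zpowers, oa, ob] at h1
  have e := eq_of_le_of_card_ge (sup_le (zpowers_le.2 ha) (zpowers_le.2 hb)) (by omega)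
  obtain ⟨y, hy, z, hz, rfl⟩ := (mem_sup_of_le_Nm hn).1 (e ▸ hx)
  rcases eq_one_or_eq_of_mem_zpowers (hV.2 a ha) hy with rfl | rfl <;>
    rcases eq_one_or_eq_of_mem_zpowers (hV.2 b hb) hz with rfl | rfl <;> simp

theorem exists_max_straddling {M : Subgroup G} (h : (straddlingTwoSubgroups M).Nonempty) :
    ∃ T, T ∈ maxStraddlingTwoSubgroups M := by
  obtain ⟨T, hT, hmax⟩ := Set.exists_max_image (straddlingTwoSubgroups M)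
    (fun T => toLex (maxElemAbelianOrder T,
      toLex (Nat.card (thompsonSubgroupOf 2 T), Nat.card T))) (Set.toFinite _) h
  refine ⟨T, hT, fun U hU => ?_⟩
  have := hmax U hU
  simp only [Prod.Lex.toLex_le_toLex] at this
  omega

theorem syl_mem_max {S L : Subgroup G} (hS : SylIn 2 S ⊤) (h : S ∈ straddlingTwoSubgroups L) :
    S ∈ maxStraddlingTwoSubgroups L := by
  refine ⟨h, fun T hT => ?_⟩
  obtain ⟨g, -, hg⟩ := hS.exists_cj_le hT.1 le_top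
  obtain ⟨A, hA⟩ := exists_maxEl 2 T
  obtain ⟨B, hB⟩ := exists_maxEl 2 S
  have hA' := hA.cj g
  rw [hA.order_eq, hB.order_eq, ← card_cj g A]
  refine ⟨hB.max _ (hA'.le.trans hg) hA'.el, fun e => ⟨?_, fun _ => hS.card_le hT.1 le_top⟩⟩
  rw [← card_cj g, cj_J]
  exact card_le_of_le (J_le_J_of_maxEl_le (hB.of_card_le (hA'.le.trans hg) hA'.el e.ge) hA'.le hg)

theorem spe_of_straddling {M : Subgroup G} (hO : pCore 2 G = ⊥) (hM : IsTwoLocal M)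
    (h : straddlingTwoSubgroups M = ∅) : SPE 2 M ⊤ := by
  obtain ⟨R, hR, hR1, hMR⟩ := hM
  have hRM : R ≤ M := hMR ▸ le_normalizer
  refine ⟨le_top, fun e => hR1 ?_, dvd_card_iff_exists.2 ⟨R, hRM, hR, hR1⟩, fun A hA hAp hA1 => ?_⟩
  · exact CfH7.eq_bot_of_normal_of_pCore_eq_bot hO (normalizer_eq_top_iff.1 (hMR ▸ e)) hR
  · by_contra hc
    refine (Set.eq_empty_iff_forall_notMem.1 h) A ⟨hAp, hA1, hA, Nm(A), ⟨A, hAp, hA1, rfl⟩,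
      le_normalizer, fun h' => hc (le_trans inf_le_right h')⟩

theorem JC.not_le_Cz_OZ (hG : ZN G) {T K S : Subgroup G} (h : JC (JJ 2 T) K) (hS : SylIn 2 S ⊤)
    (hTS : T ≤ S) : ¬ K ≤ Cz(OZ 2 S) := fun e => by
  apply h.not_le hS.pgrp
  rw [← h.comm]
  exact (Subgroup.commutator_mono le_rfl ((J_le T).trans hTS)).trans
    (CfH7.comm_le_right (e.trans (hG.zc S hS)))

theorem LL.OZ_syl_le {T L S : Subgroup G} (h : LL T L) (hTS : T ≤ S) : OZ 2 S ≤ OZ 2 T :=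
  CfH7.OZ_le_OZ hTS ((CfH7.OZ_le_Cz S).trans ((Cz_anti (h.Q_le.trans hTS)).trans
    (h.cz.trans h.Q_le)))

theorem JC.card_OZ {T K : Subgroup G} (hT : IsPGroup 2 T) (h : JC (JJ 2 T) K) :
    Nat.card (OZ 2 (JJ 2 T)) = 2 * Nat.card (OZ 2 (JJ 2 T) ⊓ Cz(K) : Subgroup G) := by
  have h1 := card_sup_mul_card_inf (A := OZ 2 (JJ 2 T) ⊓ Cz(K)) (B := OZ 2 (JJ 2 T) ⊓ wOf K)
    (le_Nm_of_le_of_comm (CfH7.elemAb_OZ _).1 inf_le_left inf_le_left)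
  have h2 : OZ 2 (JJ 2 T) ⊓ Cz(K) ⊓ (OZ 2 (JJ 2 T) ⊓ wOf K) = ⊥ := by
    rw [← le_bot_iff, ← (h.irred inf_le_left (CfH7.le_normalizer_inf (CfH8.le_Nm_wOf K)
      (le_normalizer.trans (Nm_le_Nm_Cz _)))).resolve_right
      fun e => h.not_le_Cz_wOf (CfH7.le_Cz_comm (e.ge.trans inf_le_right))]
    exact le_inf (inf_le_right.trans inf_le_right) (inf_le_left.trans inf_le_right)
  rw [h2, card_bot, h.card_OZ_inf_wOf hT,
    le_antisymm (sup_le inf_le_left inf_le_left) (h.OZ_le_sup hT)] at h1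
  omega

namespace UC

variable {T K L : Subgroup G} (h : UC T K L)
include h

theorem cj (g : G) : UC (cj g T) (cj g K) (cj g L) := by
  refine ⟨cj_J g T ▸ h.jc.cj g, h.ll.cj g, cj_mono g h.le, IsTwoLocal.cj' h.loc g,
    fun L' h1 h2 => ?_⟩
  rw [← cj_J, ← cj_sup, cj_le_iff] at h2
  exact le_cj_iff.2 (h.uniq _ (IsTwoLocal.cj' h1 _) h2)

theorem Nm_le {P : Subgroup G} (hP : IsPGroup 2 P) (h1 : P ≠ ⊥) (h2 : K ⊔ JJ 2 T ≤ Nm(P)) :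
    Nm(P) ≤ L := h.uniq _ (isTwoLocal_Nm hP h1) h2

theorem Nm_self : Nm(L) ≤ L :=
  (CfH7.normalizer_le_normalizer_pCoreOf L).trans (h.Nm_le (CfH7.isPGroup_pCoreOf L)
    h.ll.Q_ne_bot (h.sup_le'.trans (CfH7.le_normalizer_pCoreOf L)))

theorem Cx_le {z : G} (hz : z ∈ OZ 2 (JJ 2 T) ⊓ Cz(K)) (hz1 : z ≠ 1) : Cx(z) ≤ L := by
  have h1 : K ⊔ JJ 2 T ≤ Cx(z) :=
    sup_le (le_Cx_iff.2 hz.2) (le_Cx_iff.2 (CfH7.OZ_le_Cz _ hz.1))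
  rw [← Cz_zpowers] at h1 ⊢
  exact (Cz_le_Nm _).trans (h.Nm_le ((CfH7.elemAb_isPGroup (CfH7.elemAb_OZ _)).to_le
    (zpowers_le.2 hz.1)) (zpowers_ne_bot' hz1) (h1.trans (Cz_le_Nm _)))

theorem sup_le_Cx {z : G} (hz : z ∈ OZ 2 (JJ 2 T) ⊓ Cz(K)) : K ⊔ JJ 2 T ≤ Cx(z) :=
  sup_le (le_Cx_iff.2 hz.2) (le_Cx_iff.2 (CfH7.OZ_le_Cz _ hz.1))

theorem mem_of_conj {z z' g : G} (hz : z ∈ OZ 2 (JJ 2 T) ⊓ Cz(K)) (hz1 : z ≠ 1)
    (hz' : z' ∈ OZ 2 (JJ 2 T) ⊓ Cz(K)) (e : g * z * g⁻¹ = z') : g ∈ L := by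
  refine h.Nm_self (mem_normalizer_of_cj_le (h.uniq _ (IsTwoLocal.cj' h.loc g) ?_))
  refine (h.sup_le_Cx hz').trans ?_
  rw [← e, ← cj_Cx]
  exact cj_mono g (h.Cx_le hz hz1)

/-- 12.3.5 in the case `N(Z₀) ≰ L` -/
theorem tri (hG : ZN G) {S : Subgroup G} (hS : SylIn 2 S ⊤) (hTS : T ≤ S)
    (hN : ¬ Nm(OZ 2 (JJ 2 T)) ≤ L) :
    OZ 2 T = OZ 2 (JJ 2 T) ∧
    ((OZ 2 S = OZ 2 (JJ 2 T) ∧ Nat.card (OZ 2 (JJ 2 T)) = 2) ∨
      (Nat.card (OZ 2 (JJ 2 T)) = 4 ∧ T = S) ∨ (Nat.card (OZ 2 (JJ 2 T)) = 4 ∧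
        (L ⊓ Cz(OZ 2 (JJ 2 T))).relIndex Nm(OZ 2 (JJ 2 T)) = 2)) := by
  obtain ⟨g, hg, hgL⟩ := SetLike.not_le_iff_exists.1 hN
  have hT := h.ll.pgrp
  have hc := h.jc.card_OZ hT
  set Z₀ := OZ 2 (JJ 2 T) with hZ₀
  have hZ : IsElementaryAbelian 2 Z₀ := CfH7.elemAb_OZ _
  have h1 : (Z₀ ⊓ Cz(K)) ⊓ CfH9.cj g (Z₀ ⊓ Cz(K)) = ⊥ := by
    rw [eq_bot_iff]
    rintro z ⟨hz, hz'⟩
    obtain ⟨y, hy, rfl⟩ := mem_cj'.1 hz'
    by_contra hc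
    exact hgL (h.mem_of_conj hy (fun e => hc (by simp [e])) hz rfl)
  have h2 := card_mul_card_le (inf_le_left : Z₀ ⊓ Cz(K) ≤ Z₀)
    ((cj_mono g (inf_le_left : Z₀ ⊓ Cz(K) ≤ Z₀)).trans (cj_eq_of_mem_normalizer hg).le)
  rw [h1, card_bot, card_cj, hc] at h2
  have hp : 0 < Nat.card (Z₀ ⊓ Cz(K) : Subgroup G) := Nat.card_pos
  have h3 : Nat.card (Z₀ ⊓ Cz(K) : Subgroup G) ≤ 2 := by nlinarith
  have hST := h.ll.OZ_syl_le hTS
  have hTZ : OZ 2 T ≤ Z₀ := OZ_le_OZ_J T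
  have hS1 : OZ 2 S ≠ ⊥ := CfH7.OZ_ne_bot hS.pgrp
    (ne_bot_of_le (h.ll.Q_le.trans hTS) h.ll.Q_ne_bot)
  by_cases hc2 : Nat.card Z₀ = 2
  · have e := (eq_bot_or_eq_of_card_prime hc2 (hST.trans hTZ)).resolve_left hS1
    exact ⟨le_antisymm hTZ (e ▸ hST), Or.inl ⟨e, hc2⟩⟩
  have hc4 : Nat.card Z₀ = 4 := by omega
  obtain ⟨z₁, hz₁, hz₁1⟩ := exists_ne_one_of_ne_bot (A := Z₀ ⊓ Cz(K)) fun e => by
    rw [e, card_bot] at hc; omega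
  have cne : ∀ {a x : G}, x ≠ 1 → a * x * a⁻¹ ≠ 1 := fun hx e => hx (by simpa using e)
  have hfix : ∀ t ∈ L, t ∈ Nm(Z₀) → t * z₁ * t⁻¹ = z₁ := by
    intro t ht htN
    by_contra hc'
    have key : ∀ a ∈ Nm(Z₀), a ∉ L → a * z₁ * a⁻¹ = z₁ * (t * z₁ * t⁻¹) := by
      intro a ha haL
      rcases four_cases hZ hc4.le hz₁.1 (conj_mem_of_mem_normalizer htN hz₁.1) hz₁1 (cne hz₁1)
        (Ne.symm hc') (conj_mem_of_mem_normalizer ha hz₁.1) with e | e | e | e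
      · exact absurd e (cne hz₁1)
      · exact absurd (h.mem_of_conj hz₁ hz₁1 hz₁ e) haL
      · refine absurd ?_ haL
        have := mul_mem ht (h.mem_of_conj (g := t⁻¹ * a) hz₁ hz₁1 hz₁ (by
          calc _ = t⁻¹ * (a * z₁ * a⁻¹) * t := by group
            _ = z₁ := by rw [e]; group))
        rwa [mul_inv_cancel_left] at this
      · exact e
    have e1 := key g hg hgL
    have e2 := key (g * t) (mul_mem hg htN) fun e => hgL (by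
      have := mul_mem e (inv_mem ht); rwa [mul_inv_cancel_right] at this)
    apply hc'
    calc t * z₁ * t⁻¹ = g⁻¹ * (g * t * z₁ * (g * t)⁻¹) * g := by group
      _ = z₁ := by rw [e2, ← e1]; group
  have hJT : Z₀ ≤ T := (CfH7.OZ_le _).trans (J_le T)
  have hz₁T : z₁ ∈ OZ 2 T := by
    refine CfH7.mem_OZ.2 ⟨⟨hJT hz₁.1, ?_⟩, hZ.2 _ hz₁.1⟩
    rw [← le_Cx_iff]
    exact fun t ht => mem_Cx'.2 (hfix t (h.ll.syl.le ht) (CfH7.Nm_le_Nm_OZ _ (le_Nm_J T ht)))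
  obtain ⟨z, hz, hzK⟩ := SetLike.not_le_iff_exists.1
    (fun e => h.jc.not_le_Cz_OZ hG hS hTS (CfH7.le_Cz_comm e))
  have hz1 : z ≠ 1 := fun e => hzK (e ▸ one_mem _)
  have hzz : z₁ ≠ z := fun e => hzK (e ▸ hz₁.2)
  have cases := fun x (hx : x ∈ Z₀) => four_cases hZ hc4.le hz₁.1 (hTZ (hST hz)) hz₁1 hz1 hzz hx
  refine ⟨le_antisymm hTZ fun x hx => ?_, Or.inr ?_⟩
  · rcases cases x hx with rfl | rfl | rfl | rfl
    exacts [one_mem _, hz₁T, hST hz, mul_mem hz₁T (hST hz)]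
  by_cases hconj : ∃ a : G, a * z * a⁻¹ = z₁
  · obtain ⟨a, ha⟩ := hconj
    refine Or.inl ⟨hc4, eq_of_le_of_card_ge hTS ?_⟩
    rw [← card_cj a S]
    refine h.ll.syl.card_le (isPGroup_cj hS.pgrp a) (le_trans ?_ (h.Cx_le hz₁ hz₁1))
    rw [← ha, ← cj_Cx]
    exact cj_mono a (le_Cx_iff.2 (CfH7.OZ_le_Cz S hz))
  push Not at hconj
  refine Or.inr ⟨hc4, ?_⟩
  have hz2 : z * z = 1 := by rw [← sq]; exact hZ.2 _ (hTZ (hST hz))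
  have hb1 : ∀ b ∈ Nm(Z₀), b * z₁ * b⁻¹ = z₁ ∨ b * z₁ * b⁻¹ = z₁ * z := by
    intro b hb
    rcases cases _ (conj_mem_of_mem_normalizer hb hz₁.1) with e | e | e | e
    · exact absurd e (cne hz₁1)
    · exact Or.inl e
    · exact absurd (by rw [← e]; group) (hconj b⁻¹)
    · exact Or.inr e
  have hg1 : g * z₁ * g⁻¹ = z₁ * z :=
    (hb1 g hg).resolve_left fun e => hgL (h.mem_of_conj hz₁ hz₁1 hz₁ e)
  have hb2 : ∀ b ∈ Nm(Z₀), b * z * b⁻¹ = z := by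
    intro b hb
    rcases cases _ (conj_mem_of_mem_normalizer hb (hTZ (hST hz))) with e | e | e | e
    · exact absurd e (cne hz1)
    · exact absurd e (hconj b)
    · exact e
    · refine absurd ?_ (hconj (g⁻¹ * b))
      calc _ = g⁻¹ * (b * z * b⁻¹) * g := by group
        _ = z₁ := by rw [e, ← hg1]; group
  have hmem : ∀ b ∈ Nm(Z₀), b ∈ L ⊓ Cz(Z₀) ↔ b * z₁ * b⁻¹ = z₁ := by
    intro b hb
    refine ⟨fun hb' => conj_eq_of_mem_centralizer hb'.2 hz₁.1, fun e =>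
      mi (h.mem_of_conj hz₁ hz₁1 hz₁ e) (mem_centralizer_of_conj_eq fun x hx => ?_)⟩
    rcases cases x hx with rfl | rfl | rfl | rfl
    · simp
    · exact e
    · exact hb2 b hb
    · calc _ = (b * z₁ * b⁻¹) * (b * z * b⁻¹) := by group
        _ = _ := by rw [e, hb2 b hb]
  rw [relIndex, index_eq_two_iff]
  refine ⟨⟨g, hg⟩, fun b => ?_⟩
  rw [mem_subgroupOf, mem_subgroupOf, hmem _ (b * ⟨g, hg⟩).2, hmem _ b.2]
  have e3 : ((b * ⟨g, hg⟩ : Nm(Z₀)) : G) * z₁ * ((b * ⟨g, hg⟩ : Nm(Z₀)) : G)⁻¹ =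
      (b * z₁ * (b : G)⁻¹) * z := by
    calc _ = (b : G) * (g * z₁ * g⁻¹) * (b : G)⁻¹ := by simp only [coe_mul]; group
      _ = (b * z₁ * (b : G)⁻¹) * (b * z * (b : G)⁻¹) := by rw [hg1]; group
      _ = _ := by rw [hb2 b b.2]
  rw [e3]
  have hne : z₁ * z ≠ z₁ := fun e => hz1 (by simpa using e)
  rcases hb1 b b.2 with e | e
  · rw [e]
    exact Or.inr ⟨rfl, hne⟩
  · rw [e, mul_assoc, hz2, mul_one]
    exact Or.inl ⟨rfl, hne⟩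

variable (hG : ZN G) (hZ : OZ 2 T = OZ 2 (JJ 2 T))
include hG hZ

theorem T_le_Nm : T ≤ Nm(K) :=
  comp_le_Nm_of_Cz hG h.ll h.jc h.le h.ll.syl.le (ne_bot_of_le (le_inf inf_le_right
    (inf_le_left.trans (hZ ▸ CfH7.OZ_le_Cz T))) (h.jc.OZ_inf_wOf_ne_bot h.ll.pgrp))

theorem P_le : K ⊔ T ≤ L := sup_le h.le h.ll.syl.le

theorem Q_le_pCoreOf : pCoreOf 2 L ≤ pCoreOf 2 (K ⊔ T) :=
  CfH7.pCoreOf_le_pCoreOf_of_le (h.P_le hG hZ) (h.ll.Q_le.trans le_sup_right)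

theorem P_cz : Cz(pCoreOf 2 (K ⊔ T)) ≤ pCoreOf 2 (K ⊔ T) :=
  (Cz_anti (h.Q_le_pCoreOf hG hZ)).trans (h.ll.cz.trans (h.Q_le_pCoreOf hG hZ))

theorem P_syl : SylIn 2 T (K ⊔ T) := h.ll.syl.mono le_sup_right (h.P_le hG hZ)

theorem P_not_le : ¬ ⁅K ⊔ T, K ⊔ T⁆ ≤ pCoreOf 2 (K ⊔ T) := fun e =>
  h.jc.not_le (CfH7.isPGroup_pCoreOf _) (h.jc.comm.ge.trans
    ((Subgroup.commutator_mono le_sup_left ((J_le T).trans le_sup_right)).trans e))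

theorem P_nc : ¬ K ⊔ T ≤ Cz(OZ 2 T) := fun e => by
  obtain ⟨S, hS, hTS⟩ := exists_sylIn_ge h.ll.pgrp le_top
  exact h.jc.not_le_Cz_OZ hG hS hTS ((le_sup_left.trans e).trans (Cz_anti (h.ll.OZ_syl_le hTS)))

theorem P_idx : (pCoreOf 2 (K ⊔ T)).relIndex (K ⊔ T) = 6 := by
  have hT := h.ll.pgrp
  have hTK := h.T_le_Nm hG hZ
  have hPW : K ⊔ T ≤ Nm(wOf K) := sup_le (le_Nm_wOf K) (hTK.trans (Nm_le_Nm_wOf K))
  have h1 : (K ⊔ T) ⊓ Cz(wOf K) ≤ pCoreOf 2 (K ⊔ T) := by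
    refine CfH7.le_pCoreOf inf_le_left (CfH7.le_normalizer_inf le_normalizer
      (hPW.trans (Nm_le_Nm_Cz _))) (CfH7.isPGroup_of_forall_coprime fun x hx ho => ?_)
    have h1 := CfH7.mem_pResidualOf hx.1 ho
    rw [h.jc.pResidualOf_sup hT hTK] at h1
    refine CfH7.eq_one_of_mem_of_coprime (CfH7.isPGroup_pCoreOf K) ?_ ho
    rw [← h.jc.inf_Cz_wOf]
    exact ⟨h1, hx.2⟩
  have h2 := relIndex_Cz_dvd hPW
  rw [h.jc.cardW, ← inf_relIndex_left] at h2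
  have h3 := (relIndex_dvd_of_le_left (K ⊔ T) h1).trans h2
  have hQT := CfH7.sylIn_pCoreOf_le (h.P_syl hG hZ)
  have h4 : T.relIndex (K ⊔ T) = 3 := by
    have e1 := card_sup_mul_card_inf hTK
    have e2 : T ⊓ K = pCoreOf 2 K := by
      rw [inf_comm]
      exact h.jc.inf_eq ((comp_pCoreOf_le hG h.ll h.jc h.le).trans h.ll.Q_le) (h.jc.not_le hT)
    have e3 := card_mul_relIndex (CfH7.pCoreOf_le (p := 2) K)
    have e4 := card_mul_relIndex (le_sup_right : T ≤ K ⊔ T)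
    rw [e2, sup_comm, ← e3, ← e4, h.jc.idx] at e1
    have p1 : 0 < Nat.card T := Nat.card_pos
    have p2 : 0 < Nat.card (pCoreOf 2 K) := Nat.card_pos
    have : Nat.card T * Nat.card (pCoreOf 2 K) * T.relIndex (K ⊔ T) =
      Nat.card T * Nat.card (pCoreOf 2 K) * 3 := by linarith
    exact Nat.eq_of_mul_eq_mul_left (Nat.mul_pos p1 p2) this
  rw [← relIndex_mul_relIndex _ _ _ hQT le_sup_right, h4] at h3 ⊢
  have h5 : (pCoreOf 2 (K ⊔ T)).relIndex T ≠ 1 := fun e => by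
    apply h.jc.not_le (CfH7.isPGroup_pCoreOf (p := 2) (K ⊔ T))
    conv_lhs => rw [← h.jc.comm]
    exact (Subgroup.commutator_mono le_rfl ((J_le T).trans (relIndex_eq_one.1 e))).trans
      (CfH7.comm_le_right (le_sup_left.trans (CfH7.le_normalizer_pCoreOf _)))
  have h6 : (pCoreOf 2 (K ⊔ T)).relIndex T ∣ 2 :=
    Nat.dvd_of_mul_dvd_mul_right (k := 3) (by omega) h3
  rcases (Nat.dvd_prime Nat.prime_two).1 h6 with e | e
  · exact absurd e h5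
  · rw [e]

theorem amSide : AmSide 3 (K ⊔ T) T :=
  ⟨inferInstance, inf_le_right.trans (h.P_cz hG hZ), h.P_syl hG hZ, h.P_idx hG hZ⟩

theorem eq_P (hel : IsElementaryAbelian 2 (pCoreOf 2 (K ⊔ T)))
    (h8 : Nat.card (pCoreOf 2 (K ⊔ T)) ≤ 8) : L = K ⊔ T := by
  have hQ : pCoreOf 2 (K ⊔ T) = pCoreOf 2 L := le_antisymm
    (((CfH7.elemAb_le_Cz hel).trans (Cz_anti (h.Q_le_pCoreOf hG hZ))).trans h.ll.cz)
    (h.Q_le_pCoreOf hG hZ)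
  rw [hQ] at hel h8
  have hLQ := CfH7.le_normalizer_pCoreOf (p := 2) L
  have hZQ : ZL L = pCoreOf 2 L :=
    le_antisymm (CfH7.OZ_le _) (CfH7.le_OZ hel le_rfl (CfH7.elemAb_le_Cz hel))
  have hWQ : wOf K ≤ pCoreOf 2 L := hZQ ▸ comp_wOf_le hG h.ll h.jc h.le
  have hLK : L ≤ Nm(K) := fun g hg => by
    refine comp_mem_Nm hG h.ll h.jc h.le hg fun e => ?_
    have := card_mul_card_le ((cj_mono g hWQ).trans (cj_eq_of_mem_normalizer (hLQ hg)).le) hWQ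
    rw [e, card_bot, card_cj, h.jc.cardW] at this
    omega
  have hLW := hLK.trans (Nm_le_Nm_wOf K)
  have hQK : ⁅pCoreOf 2 L, K⁆ = wOf K := by
    rw [← comp_commutator_eq hG h.ll h.jc h.le, hZQ]
  have h1 : L ⊓ Cz(wOf K) ≤ pCoreOf 2 L := by
    refine CfH7.le_pCoreOf inf_le_left (CfH7.le_normalizer_inf le_normalizer
      (hLW.trans (Nm_le_Nm_Cz _))) (CfH7.isPGroup_of_forall_coprime fun x hx ho => ?_)
    refine CfH7.eq_one_of_mem_of_coprime (CfH7.isPGroup_pCoreOf L) (h.ll.cz ?_) ho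
    have hm := card_modEq_card_inf_Cz (p := 2) (P := zpowers x) (U := pCoreOf 2 L)
    have hd := card_dvd_of_le (inf_le_left : pCoreOf 2 L ⊓ Cz(zpowers x) ≤ _)
    have hle : wOf K ≤ pCoreOf 2 L ⊓ Cz(zpowers x) :=
      le_inf hWQ (CfH7.le_Cz_comm (zpowers_le.2 hx.2))
    have hcop : (Nat.card (zpowers x)).Coprime (Nat.card (pCoreOf 2 L)) :=
      coprime_card_of_isPGroup' (CfH7.isPGroup_pCoreOf L) (card_zpowers_coprime ho)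
    have hxQ : zpowers x ≤ Nm(pCoreOf 2 L) := zpowers_le.2 (hLQ hx.1)
    have h2 := card_eq_mul_of_coprime hel.1 hxQ hcop
    have h3 := card_le_of_le hle
    rw [h.jc.cardW] at h3
    have h4 : Nat.card (⁅pCoreOf 2 L, zpowers x⁆ : Subgroup G) ≤ 2 := by nlinarith
    have h5 := le_Cz_of_card_le_two (CfH7.right_le_Nm_comm (pCoreOf 2 L) (zpowers x)) h4
    rw [← zpowers_le, ← CfH7.comm_eq_bot_right]
    exact commutator_eq_bot_of_quadratic hxQ hcop (Or.inl (isSolvable_zpowers x))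
      (CfH7.comm_eq_bot_right.2 h5)
  have h2 := relIndex_Cz_dvd hLW
  rw [h.jc.cardW, ← inf_relIndex_left] at h2
  have h3 := (relIndex_dvd_of_le_left L h1).trans h2
  have h4 := h.P_idx hG hZ
  rw [hQ] at h4
  rw [← relIndex_mul_relIndex _ _ _ (hQ ▸ CfH7.pCoreOf_le (K ⊔ T)) (h.P_le hG hZ), h4] at h3
  refine le_antisymm (relIndex_eq_one.1 ?_) (h.P_le hG hZ)
  exact Nat.dvd_one.1 (Nat.dvd_of_mul_dvd_mul_left (k := 6) (by omega) h3)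

end UC

section pair

variable {T K₁ L₁ K₂ L₂ : Subgroup G} (hG : ZN G) (h₁ : UC T K₁ L₁) (h₂ : UC T K₂ L₂)
  (hne : L₁ ≠ L₂)
include hG h₁ h₂ hne

omit hG in
theorem pair_not_le : ¬ K₁ ≤ L₂ := fun e =>
  hne (h₁.eq_of_max h₂.isMax (sup_le e h₂.ll.J_le)).symm

omit hG in
theorem pair_ne {z z' : G} (hz : z ∈ OZ 2 (JJ 2 T) ⊓ Cz(K₁)) (hz' : z' ∈ OZ 2 (JJ 2 T) ⊓ Cz(K₂))
    (h1 : z ≠ 1) : z ≠ z' := fun e =>
  pair_not_le h₁ h₂ hne (le_sup_left.trans ((h₁.sup_le_Cx hz).trans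
    (e ▸ h₂.Cx_le hz' (e ▸ h1))))

omit hG in
theorem pair_card : Nat.card (OZ 2 (JJ 2 T)) = 2 ∨ Nat.card (OZ 2 (JJ 2 T)) = 4 := by
  have c1 := h₁.jc.card_OZ h₁.ll.pgrp
  have c2 := h₂.jc.card_OZ h₁.ll.pgrp
  have h2 := card_mul_card_le (inf_le_left : OZ 2 (JJ 2 T) ⊓ Cz(K₁) ≤ _)
    (inf_le_left : OZ 2 (JJ 2 T) ⊓ Cz(K₂) ≤ _)
  have h1 : (OZ 2 (JJ 2 T) ⊓ Cz(K₁)) ⊓ (OZ 2 (JJ 2 T) ⊓ Cz(K₂)) = ⊥ := by
    rw [eq_bot_iff]
    rintro z ⟨hz, hz'⟩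
    by_contra hc
    exact pair_ne h₁ h₂ hne hz hz' hc rfl
  rw [h1, card_bot, c1] at h2
  have hp : 0 < Nat.card (OZ 2 (JJ 2 T) ⊓ Cz(K₁) : Subgroup G) := Nat.card_pos
  have h3 : Nat.card (OZ 2 (JJ 2 T) ⊓ Cz(K₂) : Subgroup G) ≤ 2 := by nlinarith
  omega

theorem pair_OZ : OZ 2 T = OZ 2 (JJ 2 T) := by
  have hT := h₁.ll.pgrp
  obtain ⟨S, hS, hTS⟩ := exists_sylIn_ge hT le_top
  have hST := h₁.ll.OZ_syl_le hTS
  have hTZ : OZ 2 T ≤ OZ 2 (JJ 2 T) := OZ_le_OZ_J T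
  have hT1 : OZ 2 T ≠ ⊥ := CfH7.OZ_ne_bot hT (ne_bot_of_le h₁.ll.Q_le h₁.ll.Q_ne_bot)
  rcases pair_card h₁ h₂ hne with hc | hc
  · exact (eq_bot_or_eq_of_card_prime hc hTZ).resolve_left hT1
  have c1 := h₁.jc.card_OZ hT
  have c2 := h₂.jc.card_OZ hT
  set Z₀ := OZ 2 (JJ 2 T) with hZ₀
  have hZ : IsElementaryAbelian 2 Z₀ := CfH7.elemAb_OZ _
  obtain ⟨z₁, hz₁, n₁⟩ := exists_ne_one_of_ne_bot (A := Z₀ ⊓ Cz(K₁)) fun e => by
    rw [e, card_bot] at c1; omega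
  obtain ⟨z₂, hz₂, n₂⟩ := exists_ne_one_of_ne_bot (A := Z₀ ⊓ Cz(K₂)) fun e => by
    rw [e, card_bot] at c2; omega
  have cases := fun x (hx : x ∈ Z₀) =>
    four_cases hZ hc.le hz₁.1 hz₂.1 n₁ n₂ (pair_ne h₁ h₂ hne hz₁ hz₂ n₁) hx
  have cne : ∀ {a x : G}, x ≠ 1 → a * x * a⁻¹ ≠ 1 := fun hx e => hx (by simpa using e)
  by_contra hc'
  have hc2 : Nat.card (OZ 2 T) = 2 := by
    have a1 := card_lt_of_lt (lt_of_le_of_ne hTZ hc')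
    have a2 := card_dvd_of_le hTZ
    have a3 := dvd_card_of_ne_bot (CfH7.elemAb_isPGroup (CfH7.elemAb_OZ (p := 2) T)) hT1
    have hp : 0 < Nat.card (OZ 2 T) := Nat.card_pos
    omega
  have eS : OZ 2 S = OZ 2 T := (eq_bot_or_eq_of_card_prime hc2 hST).resolve_left
    (CfH7.OZ_ne_bot hS.pgrp (ne_bot_of_le (h₁.ll.Q_le.trans hTS) h₁.ll.Q_ne_bot))
  have nm : ∀ {K : Subgroup G} {z : G}, JC (JJ 2 T) K → z ∈ Cz(K) → z ≠ 1 → z ∉ OZ 2 T :=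
    fun hK hz h1 e => hK.not_le_Cz_OZ hG hS hTS (by
      rw [eS, ← zpowers_eq_of_card_prime hc2 e h1]
      exact CfH7.le_Cz_comm (zpowers_le.2 hz))
  obtain ⟨z, hz, hz1⟩ := exists_ne_one_of_ne_bot hT1
  have ez : z = z₁ * z₂ := by
    rcases cases z (hTZ hz) with e | e | e | e
    · exact absurd e hz1
    · exact absurd (e ▸ hz) (nm h₁.jc hz₁.2 n₁)
    · exact absurd (e ▸ hz) (nm h₂.jc hz₂.2 n₂)
    · exact e
  apply nm h₁.jc hz₁.2 n₁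
  refine CfH7.mem_OZ.2 ⟨⟨J_le T (CfH7.OZ_le _ hz₁.1), ?_⟩, hZ.2 _ hz₁.1⟩
  rw [← le_Cx_iff]
  intro t ht
  rw [mem_Cx']
  have htN : t ∈ Nm(Z₀) := CfH7.Nm_le_Nm_OZ _ (le_Nm_J T ht)
  rcases cases _ (conj_mem_of_mem_normalizer htN hz₁.1) with e | e | e | e
  · exact absurd e (cne n₁)
  · exact e
  · have h3 := h₁.cj t
    rw [cj_eq_of_mem ht, cj_eq_of_mem (h₁.ll.syl.le ht)] at h3
    refine absurd e (pair_ne h3 h₂ hne (mi (conj_mem_of_mem_normalizer htN hz₁.1) ?_) hz₂ (cne n₁))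
    rw [← cj_centralizer]
    exact conj_mem_cj t hz₁.2
  · rw [← ez, ← conj_eq_of_mem_centralizer (CfH7.le_Cz_OZ T ht) hz] at e
    have : z₁ = z := by simpa using e
    exact absurd (this ▸ hz) (nm h₁.jc hz₁.2 n₁)

theorem pair_core {N : Subgroup G} (hN : IsPGroup 2 N) (n1 : K₁ ⊔ T ≤ Nm(N))
    (n2 : K₂ ⊔ T ≤ Nm(N)) : N = ⊥ := by
  by_contra hc
  exact pair_not_le h₁ h₂ hne ((le_sup_left.trans n1).trans
    (h₂.Nm_le hN hc ((sup_le_sup_left (J_le T) _).trans n2)))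

theorem pair_inf : (K₁ ⊔ T) ⊓ (K₂ ⊔ T) = T := by
  have hZ := pair_OZ hG h₁ h₂ hne
  refine (eq_or_eq_of_relIndex_prime' Nat.prime_three
    ((h₁.amSide hG hZ).relIndex_eq Nat.prime_three).2 (le_inf le_sup_right le_sup_right)
    inf_le_left).resolve_right fun e => pair_not_le h₁ h₂ hne ?_
  exact (le_sup_left.trans (e.ge.trans inf_le_right)).trans (h₂.P_le hG hZ)

theorem pair_amalgam : IsElementaryAbelian 2 (pCoreOf 2 (K₁ ⊔ T)) ∧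
    IsElementaryAbelian 2 (pCoreOf 2 (K₂ ⊔ T)) ∧
    ((Nat.card (pCoreOf 2 (K₁ ⊔ T)) = 4 ∧ Nat.card (pCoreOf 2 (K₂ ⊔ T)) = 4 ∧
      Nonempty ((K₁ ⊔ T : Subgroup G) ≃* Equiv.Perm (Fin 4)) ∧
      Nonempty ((K₂ ⊔ T : Subgroup G) ≃* Equiv.Perm (Fin 4))) ∨
    (Nat.card (pCoreOf 2 (K₁ ⊔ T)) = 8 ∧ Nat.card (pCoreOf 2 (K₂ ⊔ T)) = 8 ∧
      Nonempty ((K₁ ⊔ T : Subgroup G) ≃* Multiplicative (ZMod 2) × Equiv.Perm (Fin 4)) ∧
      Nonempty ((K₂ ⊔ T : Subgroup G) ≃* Multiplicative (ZMod 2) × Equiv.Perm (Fin 4)))) := by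
  have hZ := pair_OZ hG h₁ h₂ hne
  have e := pair_inf hG h₁ h₂ hne
  refine amalgam_S4 Nat.prime_three (fun N hN n1 n2 =>
    pair_core hG h₁ h₂ hne (h₁.ll.pgrp.to_le (e ▸ hN)) n1 n2) ?_ ?_ ?_ ?_ <;> rw [e]
  exacts [h₁.amSide hG hZ, h₂.amSide hG hZ, h₁.P_nc hG hZ, h₂.P_nc hG hZ]

end pair

theorem UC.pair_of_mem {T K L : Subgroup G} (h : UC T K L) {x : G} (hx : x ∈ Nm(T))
    (hxL : x ∉ L) : UC T (CfH9.cj x K) (CfH9.cj x L) ∧ L ≠ CfH9.cj x L := by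
  have := h.cj x
  rw [cj_eq_of_mem_normalizer hx] at this
  exact ⟨this, fun e => hxL (h.Nm_self (mem_normalizer_iff_cj.2 e.symm))⟩

/-- a Sylow subgroup lies in a second maximal 2-local subgroup -/
theorem UC.exists_local (hG : ZN G) (hO : pCore 2 G = ⊥) {S K L : Subgroup G} (h : UC S K L)
    (hS : SylIn 2 S ⊤) (hN : Nm(JJ 2 S) ≤ L) : ∃ L', IsTwoLocal L' ∧ S ≤ L' ∧ ¬ L' ≤ L := by
  by_contra hc
  push Not at hc
  have hLV := CfH7.le_Nm_OZ_pCoreOf (p := 2) L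
  by_cases he : straddlingTwoSubgroups L = ∅
  · have hspe := spe_of_straddling hO h.loc he
    obtain ⟨v, hv, hv1⟩ := exists_ne_one_of_ne_bot
      (CfH7.OZ_ne_bot (CfH7.isPGroup_pCoreOf (p := 2) L) h.ll.Q_ne_bot)
    apply h.ll.nle
    rw [J_le_iff]
    intro A hA a ha
    by_cases ha1 : a = 1
    · exact ha1 ▸ one_mem _
    obtain ⟨g, hg, rfl⟩ := spe_conj hspe (CfH7.pCoreOf_le L (CfH7.OZ_le _ hv))
      (h.ll.syl.le (hA.le ha)) hv1 ha1 (by rw [← sq]; exact (CfH7.elemAb_OZ _).2 v hv)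
      (by rw [← sq]; exact hA.el.2 a ha)
    exact CfH7.OZ_le _ (conj_mem_of_mem_normalizer (hLV hg) hv)
  obtain ⟨T₀, hT₀⟩ := exists_max_straddling (Set.nonempty_iff_ne_empty.2 he)
  obtain ⟨m, hm, hle⟩ := h.ll.syl.exists_cj_le hT₀.1.1 hT₀.1.2.2.1
  have ts₀ : TS S L T₀ := ⟨hS, hN, hT₀⟩
  obtain ⟨K₀, hK₀, hK₀L, hK₀O⟩ := ts₀.exists_comp hG
  obtain ⟨L₀, u₀⟩ := ts₀.exists_uc hG hK₀ hK₀L hK₀O
  have u₁ := u₀.cj m
  have hK₁L : ¬ CfH9.cj m K₀ ≤ L := by rwa [← cj_eq_of_mem hm, cj_le_cj_iff]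
  generalize CfH9.cj m T₀ = T, CfH9.cj m K₀ = K₁, CfH9.cj m L₀ = L₁ at u₁ hK₁L hle
  have hT := u₁.ll.pgrp
  have hlt : T < S := lt_of_le_of_ne hle fun e =>
    hK₁L (u₁.le.trans (hc L₁ u₁.loc (e ▸ u₁.ll.syl.le)))
  obtain ⟨x, hx, hxT⟩ := SetLike.exists_of_lt (lt_inf_Nm hS.pgrp hlt)
  have hnot : ∀ U : Subgroup G, U ≤ S → U ≤ Nm(T) → U ≤ L₁ → U ≤ T := fun U h1 h2 h3 =>
    u₁.ll.syl.le_of_le_Nm' (hS.pgrp.to_le h1) h3 h2
  have hxL : x ∉ L₁ := fun e => hxT (zpowers_le.1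
    (hnot _ (zpowers_le.2 hx.1) (zpowers_le.2 hx.2) (zpowers_le.2 e)))
  obtain ⟨u₂, hne⟩ := u₁.pair_of_mem hx.2 hxL
  have hZ := pair_OZ hG u₁ u₂ hne
  obtain ⟨el₁, el₂, -⟩ := pair_amalgam hG u₁ u₂ hne
  have i₁ := ((u₁.amSide hG hZ).relIndex_eq Nat.prime_three).1
  have i₂ := ((u₂.amSide hG hZ).relIndex_eq Nat.prime_three).1
  have c₁ := u₁.P_cz hG hZ
  have eQ : pCoreOf 2 (CfH9.cj x K₁ ⊔ T) = CfH9.cj x (pCoreOf 2 (K₁ ⊔ T)) := by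
    rw [CfH7.cj_pCoreOf, cj_sup, cj_eq_of_mem_normalizer hx.2]
  have l₁ := CfH7.sylIn_pCoreOf_le (u₁.P_syl hG hZ)
  have l₂ := CfH7.sylIn_pCoreOf_le (u₂.P_syl hG hZ)
  have n₁ := CfH7.le_normalizer_pCoreOf (p := 2) (K₁ ⊔ T)
  have n₂ := CfH7.le_normalizer_pCoreOf (p := 2) (CfH9.cj x K₁ ⊔ T)
  have hQ1 : pCoreOf 2 (K₁ ⊔ T) ≠ ⊥ := ne_bot_of_le (u₁.Q_le_pCoreOf hG hZ) u₁.ll.Q_ne_bot
  set Q₁ := pCoreOf 2 (K₁ ⊔ T) with hQ₁
  set Q₂ := pCoreOf 2 (CfH9.cj x K₁ ⊔ T) with hQ₂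
  have h21 : ¬ Q₂ ≤ Q₁ := fun e => by
    have e' : Q₂ = Q₁ := eq_of_le_of_card_ge e (by rw [eQ, card_cj])
    exact hQ1 (pair_core hG u₁ u₂ hne (hT.to_le l₁) n₁ (e' ▸ n₂))
  have hT12 : T ≤ Q₁ ⊔ Q₂ := ((eq_or_eq_of_relIndex_prime i₁ le_sup_left
    (sup_le l₁ l₂)).resolve_left fun e => h21 (le_sup_right.trans e.le)).ge
  have hVS : ZL L ≤ S := h.ll.Z_le
  have hV := CfH7.elemAb_OZ (p := 2) (pCoreOf 2 L)
  have hxV : x ∈ Nm(ZL L ⊓ T) := mem_Nm_inf (hLV (h.ll.syl.le hx.1)) hx.2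
  have hiff : ZL L ⊓ T ≤ Q₂ ↔ ZL L ⊓ T ≤ Q₁ := by
    rw [eQ, le_cj_iff, cj_eq_of_mem_normalizer (inv_mem hxV)]
  have hV1 : ZL L ⊓ T ≤ Q₁ := by
    by_contra hc1
    obtain ⟨a, ha, ha'⟩ := SetLike.not_le_iff_exists.1 hc1
    obtain ⟨b, hb, hb'⟩ := SetLike.not_le_iff_exists.1 (fun e => hc1 (hiff.1 e))
    obtain ⟨v, hv, hv1, hv2⟩ : ∃ v ∈ ZL L ⊓ T, v ∉ Q₁ ∧ v ∉ Q₂ := by
      by_cases h1 : a ∈ Q₂
      · by_cases h2 : b ∈ Q₁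
        · exact ⟨a * b, mul_mem ha hb, fun e => ha' ((Q₁.mul_mem_cancel_right h2).1 e),
            fun e => hb' ((Q₂.mul_mem_cancel_left h1).1 e)⟩
        · exact ⟨b, hb, h2, hb'⟩
      · exact ⟨a, ha, ha', h1⟩
    obtain ⟨q₁, hq₁, q₂, hq₂, rfl⟩ := (mem_sup_of_le_Nm (l₁.trans (le_sup_right.trans n₂))).1
      (hT12 hv.2)
    have m1 : q₁ ∉ Q₂ := fun e => hv2 (mul_mem e hq₂)
    have m2 : q₂ ∉ Q₁ := fun e => hv1 (mul_mem hq₁ e)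
    have s1 : q₁ * q₁ = 1 := by rw [← sq]; exact el₁.2 _ hq₁
    have s2 : q₂ * q₂ = 1 := by rw [← sq]; exact el₂.2 _ hq₂
    have s3 : q₁ * q₂ * (q₁ * q₂) = 1 := by rw [← sq]; exact hV.2 _ hv.1
    have hcomm : q₁ * q₂ = q₂ * q₁ := by
      rw [← inv_eq_of_mul_eq_one_right s3, mul_inv_rev, inv_eq_of_mul_eq_one_right s1,
        inv_eq_of_mul_eq_one_right s2]
    apply m2
    apply c₁
    rw [← le_Cx_iff]
    refine l₁.trans ((le_sup_zpowers_of_relIndex_two l₂ (by rw [i₂]) (l₁ hq₁) m1).trans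
      (sup_le ((CfH7.elemAb_le_Cz el₂).trans (Cz_le_Cx hq₂)) (zpowers_le.2 (mem_Cx.2 hcomm))))
  have hU : ZL L ⊓ Nm(T) ≤ T := by
    refine hnot _ (inf_le_left.trans hVS) inf_le_right (le_trans ?_
      (u₁.Nm_le (hT.to_le l₁) hQ1 ((sup_le_sup_left (J_le T) _).trans n₁)))
    refine CfH7.le_Nm_of_comm_le l₁ (le_trans (le_inf ?_ (CfH7.comm_le_left inf_le_right)) hV1)
    exact (Subgroup.commutator_mono le_rfl inf_le_left).trans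
      (CfH7.comm_le_right (hle.trans (h.ll.syl.le.trans hLV)))
  have hVT : ZL L ≤ T := by
    by_contra hc1
    have := lt_inf_Nm (hS.pgrp.to_le (sup_le hle hVS))
      (lt_of_le_of_ne le_sup_left fun e => hc1 (le_sup_right.trans e.ge))
    rw [CfH9.inf_sup_dedekind (Or.inl (hle.trans (h.ll.syl.le.trans hLV))) le_normalizer] at this
    exact this.not_ge (sup_le le_rfl hU)
  have hVZ : ZL L ≤ OZ 2 (JJ 2 T) := by
    rw [← hZ]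
    refine CfH7.le_OZ hV hVT (CfH7.le_Cz_comm (hT12.trans (sup_le ?_ ?_)))
    · exact (CfH7.elemAb_le_Cz el₁).trans (Cz_anti ((le_inf le_rfl hVT).trans hV1))
    · exact (CfH7.elemAb_le_Cz el₂).trans (Cz_anti ((le_inf le_rfl hVT).trans (hiff.2 hV1)))
  have hWZ := (comp_wOf_le hG h.ll h.jc h.le).trans hVZ
  have hc4 := card_le_of_le hWZ
  rw [h.jc.cardW] at hc4
  rcases (u₁.tri hG hS hle fun e => hxL
    (e (CfH7.Nm_le_Nm_OZ _ (Nm_le_Nm_J T hx.2)))).2 with ⟨-, e⟩ | ⟨-, e⟩ | ⟨e, e'⟩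
  · omega
  · exact hlt.ne e
  · rw [← eq_of_le_of_card_ge hWZ (by rw [e, h.jc.cardW])] at e'
    have a1 := relIndex_le_of_le_left (L := Nm(wOf K)) (inf_le_right : L₁ ⊓ Cz(wOf K) ≤ _)
      (by rw [e']; omega)
    have a2 := relIndex_le_of_le_right (H := Cz(wOf K)) (le_Nm_wOf K) index_ne_zero_of_finite
    rw [← inf_relIndex_left, h.jc.inf_Cz_wOf, h.jc.idx] at a2
    omega

theorem UC.exists_pair (hG : ZN G) (hO : pCore 2 G = ⊥) {T K L : Subgroup G} (h : UC T K L) :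
    ∃ K₂ L₂, UC T K₂ L₂ ∧ L ≠ L₂ := by
  by_cases hc : Nm(T) ≤ L
  swap
  · obtain ⟨x, hx, hxL⟩ := SetLike.not_le_iff_exists.1 hc
    exact ⟨_, _, h.pair_of_mem hx hxL⟩
  have hS : SylIn 2 T ⊤ := h.ll.syl.of_Nm_le le_top (inf_le_right.trans hc)
  have hN : Nm(OZ 2 (JJ 2 T)) ≤ L := by
    by_contra hN
    apply hN
    rw [← (h.tri hG hS le_rfl hN).1]
    intro g hg
    obtain ⟨n, hn, x, hx, rfl⟩ := (hS.mono (CfH7.le_Cz_OZ T) le_top).frattini (mem_Nm_Cz hg)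
    exact hc (mul_mem (hG.zc T hS hn) hx)
  have hN' := (CfH7.Nm_le_Nm_OZ _).trans hN
  obtain ⟨L', h1, h2, h3⟩ := h.exists_local hG hO hS hN'
  have ts : TS T L T := ⟨hS, hN', syl_mem_max hS ⟨hS.pgrp,
    ne_bot_of_le h.ll.Q_le h.ll.Q_ne_bot, h.ll.syl.le, L', h1, h2, h3⟩⟩
  obtain ⟨K₂, hK₂, hK₂L, hK₂O⟩ := ts.exists_comp hG
  obtain ⟨L₂, u₂⟩ := ts.exists_uc hG hK₂ hK₂L hK₂O
  exact ⟨K₂, L₂, u₂, fun e => hK₂L (e ▸ u₂.le)⟩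

end CfH8
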