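import Cfsg.Agent.OD.Pre
import Cfsg.Agent.H8.MC0
import Cfsg.Agent.H5.Nat1
import Cfsg.Agent.H6.N23I
import Cfsg.Agent.OD.Helper3x2a47a6fbf7
/-! The model of `2⁴ : A₇` and its embedding. -/
set_option autoImplicit false
set_option maxRecDepth 100000
set_option Elab.async false
set_option linter.all false
open CfL CfH6 MulAction Subgroup CfH6.M23 CfH9 CfH5.Nat
namespace CfH8.M3
noncomputable def NTc0 : ℕ := nat_lit 0xe2dc9a41068b7f53
noncomputable def NTc1 : ℕ := nat_lit 0x2fdc4ab536190e87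
noncomputable def NTc2 : ℕ := nat_lit 0x816dba97fc34250e
noncomputable def NTc3 : ℕ := nat_lit 0x70c6ba9f8d2453e1
noncomputable def NTc4 : ℕ := nat_lit 0xef27ba95c1840d63
noncomputable def NTc5 : ℕ := nat_lit 0x71dc2a89f6305be4
noncomputable def NTc6 : ℕ := nat_lit 0x94a62df78c3e5b01
noncomputable def NTc7 : ℕ := nat_lit 0x816a3c7f9d20b5e4
noncomputable def NTc8 : ℕ := nat_lit 0xef23ab410569cd87
noncomputable def NTc9 : ℕ := nat_lit 0x2de094b5318a7f6c
noncomputable def NT : Tab := ⟨nat_lit 16, nat_lit 10, nat_lit 4, nat_lit 15, [NTc0, NTc1, NTc2, NTc3, NTc4, NTc5, NTc6, NTc7, NTc8, NTc9], 0, 0, 0, 0, 0⟩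
def lvN4 : Lv := [(0, [[], [0], [1], [2], [3], [5], [9], [0, 2], [0, 3], [0, 7], [1, 2], [1, 3], [1, 7], [2, 9], [3, 4], [5, 9]]),
  (1, [[], [0, 4], [3, 6], [4, 1], [6, 2], [4, 0, 8], [5, 4, 5], [0, 3, 5, 4], [0, 4, 3, 6], [0, 4, 6, 2], [0, 5, 2, 4], [4, 1, 3, 6], [4, 3, 5, 4], [4, 5, 1, 2], [1, 4, 5, 0, 9]]),
  (2, [[], [1, 8], [5, 7], [8, 0], [0, 5, 1, 6], [0, 8, 5, 9], [1, 7, 8, 5], [2, 5, 7, 3], [5, 1, 7, 8], [5, 1, 8, 5], [5, 7, 8, 0], [5, 8, 0, 5], [5, 2, 4, 5, 0, 4], [5, 4, 1, 5, 7, 4, 3]]),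
  (3, [[], [1, 4, 0, 5, 6, 4, 2], [2, 5, 4, 5, 0, 4, 6], [3, 4, 5, 1, 6, 4, 0], [4, 0, 5, 4, 6, 2, 5], [5, 3, 4, 5, 1, 4, 9], [4, 5, 4, 5, 4, 9, 1, 5], [4, 5, 7, 3, 4, 5, 4, 5], [0, 4, 5, 3, 7, 4, 3, 5, 4], [0, 5, 2, 4, 5, 0, 4, 1, 7], [0, 7, 4, 1, 5, 4, 3, 5, 1], [4, 5, 2, 4, 2, 5, 6, 4, 1]])]
def b4 : List ℕ := [3, 2, 1, 0]
def EW : List (List ℕ) := [[6], [7], [8], [9], [6, 7], [6, 8], [6, 9], [7, 8], [7, 9], [8, 9], [4, 7, 4], [6, 7, 8], [6, 7, 9], [6, 8, 9], [4, 7, 4, 6]]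
def L0 : List (List ℕ) := [[0, 4], [0, 2, 4], [4], [1, 4], [4, 2], [0, 4, 3], [1, 5, 4], [2], [3], [4, 3], [3, 4], [5, 4], [2, 4], [0, 5, 4], []]
theorem NT_act : NT.Act il rN := ⟨by decide +kernel, by decide +kernel, by decide +kernel⟩
abbrev N : Type := WP 10 il rN
abbrev el : ℕ → N := wel 10 il rN
theorem finN' : Finite N ∧ Nat.card N ≤ 16 * (70 * (4 * (9 * 1))) :=
  fin_top (wp_top 10 il rN ▸ (N23T2.covers el (gensub el 6)
    (fun x hx => by rw [← wp_inv 10 il rN x hx]; interval_cases x <;> rfl)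
    (fun w h => wp_rel 10 il rN w (by revert w; decide)) (subs_in (by decide))).card_le
    (finA (fun x hx => wp_inv 10 il rN x (by omega)) fun w h => wp_rel 10 il rN w (by revert w; decide)))
instance : Finite N := finN'.1
noncomputable def RN : Rep NT el := Classical.choice NT_act.rep
theorem kN : NT.lvOk 10 lvN4 [] = true := by decide +kernel
theorem cN4 : Nat.card N ≤ lvN lvN4 := finN'.2.trans (by decide +kernel)
theorem bN : ∀ g ∈ RN.Fx b4, g = 1 := (M2.lv_base RN lvN4 (wp_top 10 il rN) kN cN4).2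

noncomputable def cE (u v : List ℕ) : Bool := allLt 10 u && allLt 10 v && NT.same b4 u v
noncomputable def cN (u v : List ℕ) : Bool := allLt 10 u && allLt 10 v && !NT.same b4 u v
def cw (k w : List ℕ) : List ℕ := k ++ (w ++ invw il k)
noncomputable def cJ (k u v : List ℕ) : Bool := allLt 10 k && cE (cw k u) v
noncomputable def cC (u v : List ℕ) : Bool := cE (u ++ v) (v ++ u)
noncomputable def cD (u v : List ℕ) : Bool := cN (u ++ v) (v ++ u)
noncomputable def code (w : List ℕ) : ℕ := NT.trL w 0 + 16 * (NT.trL w 1 + 16 * (NT.trL w 2 + 16 * NT.trL w (b4.headD 0)))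
noncomputable def nd (L : List (List ℕ)) : Bool := L.all (allLt 10) && decide (L.map code).Nodup

/-- the words take the same values as in the model -/
structure Emb {G : Type*} [Group G] (ev : ℕ → G) : Prop where
  inv : ∀ x < 10, ev (il.getD x 0) = (ev x)⁻¹
  iff : ∀ u v, allLt 10 u = true → allLt 10 v = true → (NT.same b4 u v = true ↔ evw ev u = evw ev v)

namespace Emb
variable {G : Type*} [Group G] {ev : ℕ → G} (m : Emb ev) {k u v : List ℕ}
include m
theorem eq (h : cE u v = true := by decide +kernel) : evw ev u = evw ev v := by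
  simp only [cE, Bool.and_eq_true] at h
  exact (m.iff u v h.1.1 h.1.2).1 h.2
theorem ne (h : cN u v = true := by decide +kernel) : evw ev u ≠ evw ev v := fun e => by
  simp only [cN, Bool.and_eq_true] at h
  rw [(m.iff u v h.1.1 h.1.2).2 e] at h
  exact absurd h.2 (by decide)
theorem cw (h : allLt 10 k = true) : evw ev (cw k u) = evw ev k * evw ev u * (evw ev k)⁻¹ := by
  rw [M3.cw, evw_append, evw_append, evw_invw ev il 10 m.inv k (allLt_sound h), mul_assoc]
theorem cj (h : cJ k u v = true := by decide +kernel) : evw ev k * evw ev u * (evw ev k)⁻¹ = evw ev v := by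
  rw [cJ, Bool.and_eq_true] at h
  rw [← m.eq h.2, m.cw h.1]
theorem cm (h : cC u v = true := by decide +kernel) : evw ev u * evw ev v = evw ev v * evw ev u := by
  rw [← evw_append, m.eq h, evw_append]
theorem nc (h : cD u v = true := by decide +kernel) : evw ev u * evw ev v ≠ evw ev v * evw ev u := by
  rw [← evw_append, ← evw_append]; exact m.ne h
theorem ncard (L : List (List ℕ)) (h : nd L = true) : {g | ∃ w ∈ L, g = evw ev w}.ncard = L.length := by
  classical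
  rw [nd, Bool.and_eq_true, decide_eq_true_eq, List.all_eq_true] at h
  have : (L.map (evw ev)).Nodup := List.pairwise_map.2 ((List.pairwise_map.1 h.2).imp_of_mem fun {a b} ha hb n e => n (by
    have := List.all_eq_true.1 ((m.iff a b (h.1 a ha) (h.1 b hb)).2 e)
    rw [code, code, Nat.eq_of_beq_eq_true (this 0 (by decide)), Nat.eq_of_beq_eq_true (this 1 (by decide)),
      Nat.eq_of_beq_eq_true (this 2 (by decide)), Nat.eq_of_beq_eq_true (this (b4.headD 0) (by decide))]))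
  rw [← List.length_map (evw ev), ← List.toFinset_card_of_nodup this, ← Set.ncard_coe_finset]
  congr 1
  ext g
  simp [eq_comm]
end Emb

theorem mN : Emb el := ⟨wp_inv 10 il rN, fun u v hu hv => ⟨RN.of_same bN (allLt_sound hu) (allLt_sound hv),
  RN.same_of (by decide) (allLt_sound hu) (allLt_sound hv)⟩⟩

def rs6 : List (List Rul) := [[], [⟨[6], 0, 1, 0⟩]]
theorem enumN (fin : List ℕ → Bool) (h : NT.dfs fin lvN4 rs6 [] = true) (n : N) (hn : el 6 * n = n * el 6) :
    ∃ u, allLt 10 u = true ∧ evw el u = n ∧ fin u = true := by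
  obtain ⟨u, a, b, c⟩ := RN.lv_enum le_rfl fin lvN4 [] rs6 [] (by simp) kN (by decide)
    ((card_le_card_group _).trans cN4) (by simp) h n ⟨wp_top 10 il rN ▸ mem_top n, fun _ h => absurd h List.not_mem_nil⟩
    (by simpa using RN.ok_of (h := n) (ys := [[6]]) (fx := []) (by simpa using hn) (by simp) rs6.flatten (by decide +kernel))
  exact ⟨u, List.all_eq_true.2 fun x hx => Nat.ble_eq_true_of_le (a x hx), by simpa using b, c⟩

def E4 : Subgroup N := Cx(el 6) ⊓ Cx(el 7) ⊓ (Cx(el 8) ⊓ Cx(el 9))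
theorem E4_iff {g : N} : g ∈ E4 ↔ ∀ y ∈ [[6], [7], [8], [9]], evw el y * g = g * evw el y := by
  simp [E4, mem_Cx, eq_comm, and_assoc]
theorem E4_list : ∀ g ∈ E4, g = 1 ∨ ∃ w ∈ EW, g = evw el w := fun g hg => by
  have a := E4_iff.1 hg
  obtain ⟨u, -, rfl, h⟩ := enumN (fun u => cD [7] u || cD [8] u || cD [9] u || cE u [] || EW.any (cE u))
    (by decide +kernel) g (by simpa using a [6] (by simp))
  simp only [Bool.or_eq_true, List.any_eq_true] at h
  rcases h with (((h | h) | h) | h) | ⟨w, hw, h⟩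
  exacts [(mN.nc h (a _ (by simp))).elim, (mN.nc h (a _ (by simp))).elim, (mN.nc h (a _ (by simp))).elim,
    Or.inl (mN.eq h), Or.inr ⟨w, hw, mN.eq h⟩]
theorem E4_nm (k : N) : k ∈ Nm(E4) := (wp_top 10 il rN).ge.trans (gensub_le (K := Nm(E4)) fun x hx =>
  mem_normalizer_of_cj_le (cj_le_iff_forall.2 fun g hg => by
    rcases E4_list g hg with rfl | ⟨w, hw, rfl⟩
    · simpa using one_mem _
    refine E4_iff.2 fun y hy => ?_
    have := mN.cm ((by decide +kernel : ∀ x < 10, ∀ w ∈ EW, ∀ y ∈ [[6], [7], [8], [9]], cC y (cw [x] w) = true) x hx w hw y hy)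
    rw [mN.cw (by simp [allLt, hx])] at this
    simpa using this)) (mem_top k)
theorem E4_gen : ∀ y ∈ [[6], [7], [8], [9]], evw el y ∈ E4 := fun y hy => E4_iff.2 fun z hz =>
  mN.cm ((by decide +kernel : ∀ z ∈ [[6], [7], [8], [9]], ∀ y ∈ [[6], [7], [8], [9]], cC z y = true) z hz y hy)
theorem cN5 : 40320 ≤ Nat.card N :=
  (by decide +kernel : 40320 ≤ lvN lvN4).trans (M2.lv_base RN lvN4 (wp_top 10 il rN) kN cN4).1
theorem cH : 2688 ≤ Nat.card Cx(evw el [6]) := by
  have a := orb_le (L := ⊤) (b := evw el [6]) (S := {g | ∃ w ∈ EW, g = evw el w}) fun g _ =>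
    (E4_list _ ((mem_normalizer_iff.1 (E4_nm g) _).1 (E4_gen _ (by simp)))).resolve_left fun h =>
      mN.ne (u := [6]) (v := []) (by decide +kernel) (conj_eq_one_iff.1 h)
  rw [mN.ncard EW (by decide +kernel), top_inf_eq, card_top, show EW.length = 15 from rfl] at a
  have := cN5
  omega

theorem emb {G : Type*} [Group G] [Finite G] {ev : ℕ → G} (hi : ∀ x < 10, ev (il.getD x 0) = (ev x)⁻¹)
    (hr : ∀ w ∈ rN, evw ev w = 1) (h0 : ev 6 ≠ 1) : Emb ev ∧ 40320 ≤ Nat.card (gensub ev 10) ∧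
      (Nat.card Cx(evw ev [6]) = 2688 → ∀ fin : List ℕ → Bool, NT.dfs fin lvN4 rs6 [] = true →
        ∀ g ∈ Cx(evw ev [6]), ∃ u, allLt 10 u = true ∧ evw ev u = g ∧ fin u = true) := by
  obtain ⟨φ, hφ⟩ := wp_hom 10 il rN (by decide +kernel) ev hi hr
  have a : ∀ g ∈ E4, φ g = 1 → g = 1 := fun g hg e => by
    rcases E4_list g hg with rfl | ⟨w, hw, rfl⟩
    · rfl
    obtain ⟨c, -, h⟩ := (by decide +kernel : ∀ w ∈ EW, ∃ c ∈ L0, cJ c [6] w = true) w hw
    rw [← mN.cj h] at e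
    simp [hφ 6 (by decide), h0] at e
  have b : Function.Injective φ := (injective_iff_map_eq_one φ).2 fun k e => a k (E4_iff.2 fun y hy => by
    have s := E4_gen y hy
    have := a _ (mul_mem ((mem_normalizer_iff.1 (E4_nm k) _).1 s) (inv_mem s)) (by simp [e])
    rw [mul_inv_eq_one, mul_inv_eq_iff_eq_mul] at this
    exact this.symm) e
  have p : φ (evw el [6]) = evw ev [6] := hom_evw hφ _ (by decide)
  refine ⟨⟨hi, fun u v hu hv => by
    rw [mN.iff u v hu hv, ← hom_evw hφ u (allLt_sound hu), ← hom_evw hφ v (allLt_sound hv), b.eq_iff]⟩, ?_,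
    fun c fin h g hg => ?_⟩
  · rw [← range_hom hφ (wp_top 10 il rN), ← Nat.card_congr (MonoidHom.ofInjective b).toEquiv]; exact cN5
  obtain ⟨n, hn, rfl⟩ := (eq_of_le_of_card_ge (H := (Cx(evw el [6])).map φ) (K := Cx(evw ev [6])) (by
    rintro _ ⟨n, hn, rfl⟩
    exact mem_Cx.2 (by rw [← p, ← map_mul, mem_Cx.1 hn, map_mul])) (by rw [c, card_map_of_injective b]; exact cH)).ge hg
  obtain ⟨u, h1, rfl, h3⟩ := enumN fin h n (by simpa using (mem_Cx.1 hn).symm)
  exact ⟨u, h1, (hom_evw hφ u (allLt_sound h1)).symm, h3⟩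
end CfH8.M3
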