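import Cfsg.Agent.OD.Pre
import Cfsg.Agent.H8.N4a
/-! The further involution in a group with the local data of `M₂₃`. -/
set_option autoImplicit false
set_option maxRecDepth 100000
set_option Elab.async false
set_option linter.all false
open CfL CfH6 MulAction Subgroup CfH6.M23 CfH9 CfH5.Nat
namespace CfH8.M3
def L32 : List (List ℕ) := [[], [5], [6], [7], [5, 6], [5, 7], [6, 7], [0, 5, 1], [1, 5, 0], [5, 6, 7], [0, 5, 1, 6], [0, 5, 1, 7], [1, 5, 0, 6], [1, 5, 0, 7], [2, 5, 7, 3], [3, 5, 6, 2], [4, 5, 4, 5, 4], [4, 5, 4, 5, 4, 5], [4, 5, 4, 5, 4, 6], [4, 5, 4, 5, 4, 7], [7, 4, 5, 4, 5, 4], [0, 4, 5, 4, 5, 4, 0], [1, 4, 5, 4, 5, 4, 1], [4, 5, 4, 5, 4, 5, 6], [4, 5, 4, 5, 4, 5, 7], [5, 7, 4, 5, 4, 5, 4], [0, 4, 5, 4, 5, 4, 0, 6], [0, 4, 5, 4, 5, 4, 0, 7], [0, 7, 4, 5, 4, 5, 4, 0], [1, 4, 5, 4, 5, 4, 1, 6], [1, 4, 5, 4, 5, 4, 1, 7], [1, 7, 4, 5, 4, 5, 4, 1]]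
def LT : List (List ℕ) := [[0], [0, 4, 0, 5, 4, 2, 5], [2, 4, 5, 0, 4, 5], [4, 2, 5, 2, 4], [0, 4, 1, 5, 4, 3], [3, 4, 5, 1, 4, 5], [1, 4, 0, 5, 4, 2]]
def LC : List (List ℕ) := [[], [8], [9], [1], [0], [8, 9], [1, 9], [9, 1], [8, 0], [0, 8], [0, 9], [1, 8], [0, 2, 4, 5, 0, 4, 5, 1], [2, 4, 5, 0, 4, 5], [3, 4, 5, 1, 4, 5], [0, 2, 4, 5, 0, 4, 1], [0, 2, 4, 5, 0, 4, 5, 1, 7], [0, 2, 4, 5, 0, 4, 5, 9, 1], [0, 4, 2, 5, 2, 4, 5], [0, 2, 4, 5, 0, 4], [0, 2, 4, 5, 0, 4, 5], [0, 4, 2, 5, 2, 4], [2, 4, 5, 0, 4, 5, 8], [2, 4, 5, 0, 4, 5, 7], [3, 4, 5, 1, 4, 5, 8], [2, 4, 5, 0, 4, 5, 1], [2, 4, 5, 2, 4, 5, 3], [4, 0, 5, 4, 2, 5], [4, 1, 5, 4, 3, 5], [4, 1, 5, 4, 3], [4, 0, 5, 4, 2], [0, 2, 4, 5, 0, 4, 1, 7], [0, 2, 4, 5, 0, 4, 1, 9], [0, 2, 4, 5, 2, 7, 4, 3], [0, 2, 4, 5, 0, 4, 5, 1, 9], [2, 4, 5, 0, 4], [0, 4, 2, 5, 2, 4, 5, 7], [0, 2, 4, 5, 0, 4, 7], [0, 2, 4, 9, 5, 0, 4], [0, 4, 2, 5,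 2, 4, 5, 8], [0, 2, 4, 5, 0, 4, 8], [3, 4, 5, 1, 4], [0, 2, 4, 5, 0, 4, 5, 7], [0, 4, 2, 5, 2, 4, 7], [0, 4, 2, 5, 2, 4, 8], [0, 2, 4, 5, 0, 4, 5, 9], [0, 4, 2, 5, 2, 7, 4], [2, 4, 5, 0, 4, 5, 9], [3, 4, 5, 1, 7, 4, 5], [3, 4, 5, 1, 4, 5, 7], [2, 4, 5, 0, 4, 5, 1, 9], [2, 4, 5, 0, 4, 5, 1, 7], [2, 4, 5, 0, 4, 5, 9, 1], [2, 4, 5, 2, 4, 9, 5, 3], [2, 4, 5, 2, 4, 5, 3, 9], [2, 4, 5, 2, 4, 5, 3, 7], [4, 0, 5, 6, 4, 2, 5], [4, 0, 5, 4, 2, 5, 7], [4, 0, 5, 4, 2, 5, 8], [4, 1, 5, 4, 3, 5, 9], [4, 1, 5, 6, 4, 3], [4, 1, 5, 4, 3, 8], [4, 0, 5, 6, 4, 2], [4, 0, 5, 4, 2, 7], [0, 2, 4, 5, 0, 4, 5, 8], [4, 0, 5, 4, 2, 8], [4, 1, 5, 4, 3, 5, 8], [4, 0, 5, 4, 0, 2], [2, 4, 5, 0, 4, 1], [2, 4, 5, 0, 4, 8], [0, 4, 2, 5, 2, 7, 4, 5], [2, 4, 5, 0, 4, 7], [2, 4, 9, 5, 0, 4], [3, 4, 5, 1, 4, 8], [3, 4, 5, 1, 7, 4], [3, 4, 5, 1, 4, 7], [4, 1, 5, 4, 3, 5, 7], [4, 1, 5, 4, 3, 7], [4, 0, 5, 6, 4, 0,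 2], [4, 0, 5, 4, 0, 2, 7], [4, 0, 5, 4, 0, 2, 9], [2, 4, 5, 0, 4, 1, 9], [2, 4, 5, 2, 7, 4, 3], [2, 4, 5, 0, 4, 1, 7]]
def vB : List ℕ := [5, 6, 7]
def cB : List (List (List ℕ)) := [[[1], [0, 1], [0]], [[0, 3, 3, 1, 3], [2, 0, 2, 2, 3, 3, 1, 3], [2, 0, 2, 2]]]
def cG : List (List ℕ × List (List (List ℕ))) := [([10, 10], [[[1], [0]], [[0], [1]], [[2, 3, 3], [2, 3, 3]]]), ([10, 2, 10, 3], [[[1], [2, 2, 0, 2]], [[0], [3, 1, 3, 3]], [[2, 3, 3], [2, 3, 3]]]), ([10, 0, 10, 0, 2], [[[1], [2, 0, 2, 2]], [[0], [1]], [[2, 3, 3], [2, 3, 3]]]), ([10, 6, 10, 5], [[[1], [0]], [[0], [1]], [[2, 3, 3], [2, 3, 1, 3]]]), ([10, 8, 10, 8, 10, 8], [[[1], [0, 1], [0]], [[0], [1], [0, 1]], [[2, 3, 3], [2, 3, 3], [2, 3, 3]]]), ([10, 4, 5, 4, 5, 4, 5, 10, 5, 4, 5, 4, 5, 4], [[[1], [0]], [[0], [1]], [[2, 3, 3], [2, 2, 3]]])]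
def cK : List (List (List ℕ)) := [[[1], [4], [0]], [[4], [0], [1]], [[3, 3, 1, 3]]]
def LV : List (List ℕ) := [[], [6], [7], [6, 7]]
def b1 : List ℕ := [2, 5, 3]
def A4 : List (List ℕ) := [[6], [5], [0, 2], [0]]
def wk : List ℕ := 10 :: wH ++ 10 :: wH ++ [10]
noncomputable def run (A B : List (List ℕ)) (u : List ℕ) : List ℕ → List (List ℕ) → List ℕ → Bool
  | [], _, v => cE u v
  | x :: w, ls, v => if x = 10 then cE (subst B (ls.headD [])) v && run A B u w ls.tail (subst A (ls.headD []))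
    else Nat.blt x 10 && run A B u w ls (il.getD x 0 :: (v ++ [x]))

variable {G : Type*} [Group G] [Finite G] {ev : ℕ → G} {g k : G} {u v w u' v' : List ℕ} {A B : List (List ℕ)}
def Cj (ev : ℕ → G) (g : G) (u v : List ℕ) : Prop := g * evw ev u * g⁻¹ = evw ev v
def CJ (ev : ℕ → G) (g : G) (A B : List (List ℕ)) : Prop := ∀ i, Cj ev g (A.getD i []) (B.getD i [])
theorem CJ.nil : CJ ev g [] [] := fun i => by simp [Cj]
theorem Cj.cons (h : Cj ev g u v) (t : CJ ev g A B) : CJ ev g (u :: A) (v :: B) := fun i => by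
  cases i
  exacts [h, t _]
theorem CJ.sub (h : CJ ev g A B) (l : List ℕ) : Cj ev g (subst A l) (subst B l) := by
  induction l with
  | nil => simp [Cj, subst]
  | cons x l ih =>
    rw [Cj, subst, subst, List.flatMap_cons, List.flatMap_cons, evw_append, evw_append, cjm, h x]
    exact congrArg _ ih
theorem Cj.one (h : Cj ev g u v) : evw ev u = evw ev [] ↔ evw ev v = evw ev [] := by
  rw [← h, evw_nil, conj_eq_one_iff]
theorem Cj.comm (h : Cj ev g u v) (h' : Cj ev g u' v') :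
    evw ev u * evw ev u' = evw ev u' * evw ev u ↔ evw ev v * evw ev v' = evw ev v' * evw ev v := by
  rw [← h, ← h', cj_comm]
theorem Cj.mul (h : Cj ev g u v) (h' : Cj ev k v w) : Cj ev (k * g) u w := by
  rw [Cj, ← h', ← h]; group

structure Su (ev : ℕ → G) : Prop extends Emb ev where
  en : ∀ fin : List ℕ → Bool, NT.dfs fin lvN4 rs6 [] = true →
    ∀ g ∈ Cx(evw ev [6]), ∃ u, allLt 10 u = true ∧ evw ev u = g ∧ fin u = true

theorem Emb.run (m : Emb ev) (h : CJ ev g A B) (w : List ℕ) : ∀ ls v, run A B u w ls v = true →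
    Cj ev (evw (Function.update ev 10 g) w) u v := by
  induction w with
  | nil => exact fun _ v e => by simpa [Cj] using m.eq e
  | cons x w ih =>
    intro ls v e
    rw [M3.run] at e
    rw [evw_cons]
    split_ifs at e with c
    · rw [Bool.and_eq_true] at e
      rw [c, Function.update_self]
      exact (ih _ _ e.2).mul ((h.sub _).trans (m.eq e.1))
    · rw [Bool.and_eq_true, Nat.blt_eq] at e
      rw [Function.update_of_ne c]
      exact (ih _ _ e.2).mul (by rw [Cj, evw_cons, evw_append, m.inv x e.1]; simp [mul_assoc])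
theorem Emb.o2 (m : Emb ev) (h : cE (w ++ w) [] = true := by decide +kernel) (h' : cN w [] = true := by decide +kernel) :
    orderOf (evw ev w) = 2 := orderOf_eq_prime (by rw [pow_two, ← evw_append]; exact m.eq h) (m.ne h')

namespace Su
variable (m : Su ev)
include m
theorem h32 (a : g * evw ev [6] = evw ev [6] * g) (b : g * evw ev [5] = evw ev [5] * g) : ∃ w ∈ L32, g = evw ev w := by
  obtain ⟨u, -, rfl, h⟩ := m.en (fun u => cD u [5] || L32.any (cE u)) (by decide +kernel) g (mem_Cx.2 a)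
  simp only [Bool.or_eq_true, List.any_eq_true] at h
  exact h.elim (fun h => (m.nc h b).elim) fun ⟨w, hw, h⟩ => ⟨w, hw, m.eq h⟩
theorem triv (a : Cj ev g [6] [6]) (b : Cj ev g [5] [5]) (c : Cj ev g [2] [2]) : g = 1 := by
  obtain ⟨w, hw, rfl⟩ := m.h32 (mul_inv_eq_iff_eq_mul.1 a) (mul_inv_eq_iff_eq_mul.1 b)
  exact ((by decide +kernel : ∀ w ∈ L32, cD w [2] = true ∨ w = []) w hw).elim
    (fun h => (m.nc h (mul_inv_eq_iff_eq_mul.1 c)).elim) fun e => by rw [e]; rfl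
theorem s1 (h : IsConj (evw ev [5]) (evw ev [6])) : ∃ g, Cj ev g [6] [5] ∧ Cj ev g [5] [6] := by
  obtain ⟨g, hg⟩ := isConj_iff.1 h
  obtain ⟨u, -, e, h⟩ := m.en (fun u => cN (subst [u, [6]] [0, 0]) [] || cE (subst [u, [6]] [0]) [] ||
    cE (subst [u, [6]] [0, 1]) [] || LT.any (cC · u) || LC.any (cJ · u [5])) (by decide +kernel)
    (g * evw ev [6] * g⁻¹) (mem_Cx.2 (by have := (cj_comm g).2 (m.cm (u := [6]) (v := [5])); rwa [hg] at this))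
  have k : Cj ev g [6] u := e.symm
  have J := k.cons (Cj.cons hg .nil)
  simp only [Bool.or_eq_true, List.any_eq_true] at h
  rcases h with (((h | h) | h) | ⟨t, ht, h⟩) | ⟨c, hc, h⟩
  · exact (m.ne h ((J.sub _).one.1 m.eq)).elim
  · exact (m.ne (by decide +kernel) ((J.sub _).one.2 (m.eq h))).elim
  · exact (m.ne (by decide +kernel) ((J.sub _).one.2 (m.eq h))).elim
  · obtain ⟨a, b⟩ := (by decide +kernel : ∀ t ∈ LT, cC t [6] = true ∧ cN (subst [t] [0, 0, 0, 0]) [] = true) t ht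
    have c : g * (g⁻¹ * evw ev t * g) * g⁻¹ = evw ev t := by group
    obtain ⟨w, hw, f⟩ := m.h32 (g := g⁻¹ * evw ev t * g) ((cj_comm g).1 (by rw [c, k]; exact m.cm h))
      ((cj_comm g).1 (by rw [c, hg]; exact m.cm a))
    exact (m.ne b (((Cj.cons (show Cj ev g w t from by rw [Cj, ← f, c]) .nil).sub _).one.1
      (m.eq ((by decide +kernel : ∀ w ∈ L32, cE (subst [w] [0, 0, 0, 0]) [] = true) w hw)))).elim
  · exact ⟨_, k.mul (m.cj h), Cj.mul hg (m.cj ((by decide +kernel : ∀ c ∈ LC, cJ c [6] [6] = true) c hc))⟩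
theorem sb (a : Cj ev g [6] [5]) (b : Cj ev g [5] [6]) : ∃ t ∈ L32, Cj ev g b1 t ∧ ¬ cE (subst [t, [6]] [0]) [] = true ∧
    ¬ cE (subst [t, [6]] [0, 1]) [] = true := by
  obtain ⟨t, ht, e⟩ := m.h32 (g := g * evw ev b1 * g⁻¹) (b ▸ (cj_comm g).2 m.cm) (a ▸ (cj_comm g).2 m.cm)
  have J := Cj.cons e (b.cons .nil)
  exact ⟨t, ht, e, fun h => m.ne (by decide +kernel) ((J.sub _).one.2 (m.eq h)),
    fun h => m.ne (by decide +kernel) ((J.sub _).one.2 (m.eq h))⟩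
theorem s2 (a : Cj ev g [6] [5]) (b : Cj ev g [5] [6]) : ∃ g, Cj ev g [6] [5] ∧ Cj ev g [5] [6] ∧ Cj ev g [0, 2] [1] := by
  obtain ⟨u, -, e, h⟩ := m.en (fun u => cN (subst [[5], u] [1, 1, 1]) [] || cE (subst [[5], u] [1]) [] ||
    cN (subst [[5], u] [0, 1, 0, 1, 0, 1]) [] || L32.any (cJ · u [1]) || L32.all fun t => cD t u ||
      cE (subst [t, [6]] [0]) [] || cE (subst [t, [6]] [0, 1]) []) (by decide +kernel)
    (g * evw ev [0, 2] * g⁻¹) (mem_Cx.2 (b ▸ (cj_comm g).2 m.cm))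
  have k : Cj ev g [0, 2] u := e.symm
  have J := a.cons (k.cons .nil)
  simp only [Bool.or_eq_true, List.any_eq_true, List.all_eq_true] at h
  rcases h with (((h | h) | h) | ⟨c, hc, h⟩) | h
  · exact (m.ne h ((J.sub _).one.1 m.eq)).elim
  · exact (m.ne (by decide +kernel) ((J.sub _).one.2 (m.eq h))).elim
  · exact (m.ne h ((J.sub _).one.1 m.eq)).elim
  · obtain ⟨c1, c2⟩ := (by decide +kernel : ∀ c ∈ L32, cJ c [5] [5] = true ∧ cJ c [6] [6] = true) c hc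
    exact ⟨_, a.mul (m.cj c1), b.mul (m.cj c2), k.mul (m.cj h)⟩
  · obtain ⟨t, ht, f, n1, n2⟩ := m.sb a b
    exact (m.nc (((h t ht).resolve_right n2).resolve_right n1) ((f.comm k).1 m.cm)).elim
theorem s3 (a : Cj ev g [6] [5]) (b : Cj ev g [5] [6]) (c : Cj ev g [0, 2] [1]) :
    ∃ g, CJ ev g A4 [[5], [6], [1], [0, 2]] ∨ CJ ev g A4 [[5], [6], [1], [1, 3]] := by
  obtain ⟨t, ht, f, n1, n2⟩ := m.sb a b
  obtain ⟨j, hj, h⟩ := ((((by decide +kernel : ∀ t ∈ L32, cD t [1] = true ∨ cE (subst [t, [6]] [0]) [] = true ∨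
    cE (subst [t, [6]] [0, 1]) [] = true ∨ ∃ j ∈ [[2], [3]], cJ j ([6] ++ t) [6] = true) t ht).resolve_left
      fun h => m.nc h ((f.comm c).1 m.cm)).resolve_left n1).resolve_left n2
  obtain ⟨u, -, e, h⟩ := m.en _ ((by decide +kernel : ∀ j ∈ [[2], [3]], NT.dfs (fun u => cD (invw il j ++ u) [5] ||
    cD (invw il j ++ u) [1] || cN (subst [invw il j ++ u] [0, 0, 0]) [] || LV.any fun k => cJ k (invw il j ++ u) [0, 2] ||
      cJ k (invw il j ++ u) [1, 3]) lvN4 rs6 [] = true) j hj) (evw ev j * (g * evw ev [0] * g⁻¹)) (mem_Cx'.2 (by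
    have := m.cj (k := [0]) (u := [5]) (v := [5] ++ b1)
    conv_rhs => rw [← m.cj h, evw_append, ← b, ← f, ← cjm, ← evw_append, ← this]
    rw [← b]; group))
  have k : Cj ev g [0] (invw il j ++ u) := by
    rw [Cj, evw_append, e, evw_invw ev il 10 m.inv j ((by decide : ∀ j ∈ [[2], [3]], ∀ x ∈ j, x < 10) j hj), inv_mul_cancel_left]
  simp only [Bool.or_eq_true, List.any_eq_true] at h
  rcases h with ((h | h) | h) | ⟨z, hz, h⟩
  · exact (m.nc h ((k.comm a).1 m.cm)).elim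
  · exact (m.nc h ((k.comm c).1 m.cm)).elim
  · exact (m.ne h (((k.cons .nil).sub _).one.1 m.eq)).elim
  · obtain ⟨c1, c2, c3⟩ := (by decide +kernel : ∀ c ∈ LV, cJ c [5] [5] = true ∧ cJ c [6] [6] = true ∧
      cJ c [1] [1] = true) z hz
    exact ⟨_, h.imp (fun h => (a.mul (m.cj c1)).cons ((b.mul (m.cj c2)).cons ((c.mul (m.cj c3)).cons
      ((k.mul (m.cj h)).cons .nil)))) fun h => (a.mul (m.cj c1)).cons ((b.mul (m.cj c2)).cons ((c.mul (m.cj c3)).cons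
      ((k.mul (m.cj h)).cons .nil)))⟩
theorem s4 (J : CJ ev g A4 [[5], [6], [1], [0, 2]]) : False := by
  obtain ⟨u, hu, e, h⟩ := m.en (fun k => cN (cw k [7]) vB) (by decide +kernel) _
    (mem_Cx'.2 (m.run J [10, 8, 10, 8, 10] (cB.getD 0 []) [6] (by decide +kernel)))
  exact m.ne h (by rw [m.cw hu, e]; exact m.run J _ (cB.getD 1 []) vB (by decide +kernel))
theorem s5 (J : CJ ev g A4 [[5], [6], [1], [1, 3]]) : g * g = 1 ∧
    ∃ k, ∀ w ∈ rT k, evw (Function.update ev 10 g) w = 1 := by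
  have R : ∀ w ∈ cG.map (·.1), evw (Function.update ev 10 g) w = 1 := List.forall_mem_map.2 fun c hc => by
    obtain ⟨a, b, d⟩ := (by decide +kernel : ∀ c ∈ cG, run A4 [[5], [6], [1], [1, 3]] [6] c.1 (c.2.getD 0 []) [6] = true ∧
      run A4 [[5], [6], [1], [1, 3]] [5] c.1 (c.2.getD 1 []) [5] = true ∧
      run A4 [[5], [6], [1], [1, 3]] [2] c.1 (c.2.getD 2 []) [2] = true) c hc
    exact m.triv (m.run J _ _ _ a) (m.run J _ _ _ b) (m.run J _ _ _ d)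
  have U : ∀ w : List ℕ, allLt 10 w = true → evw (Function.update ev 10 g) w = evw ev w := fun w h =>
    evw_congr (fun x hx => Function.update_of_ne hx.ne _ _) (allLt_sound h)
  have gg : g * g = 1 := by simpa using R [10, 10] (by decide)
  have gi : g⁻¹ = g := inv_eq_of_mul_eq_one_right gg
  have s : Cj ev g wS wS := by
    have := R (10 :: (wS ++ 10 :: invw il wS)) (by decide)
    rw [evw_cons, evw_append, evw_cons, Function.update_self, U _ rfl, U _ rfl, evw_invw ev il 10 m.inv _ (by decide),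
      ← mul_assoc, ← mul_assoc, mul_inv_eq_one] at this
    rwa [Cj, gi]
  have J5 : CJ ev g (A4 ++ [wS]) ([[5], [6], [1], [1, 3]] ++ [wS]) :=
    (J 0).cons ((J 1).cons ((J 2).cons ((J 3).cons (s.cons .nil))))
  have e : evw (Function.update ev 10 g) wk = g * evw ev wH * g * (g * evw ev wH)⁻¹ := by
    rw [wk, evw_append, evw_append, evw_cons, evw_cons, Function.update_self, U _ rfl, evw_nil, mul_inv_rev, gi,
      inv_eq_of_mul_eq_one_right ((evw_append ev _ _).symm.trans (m.eq (u := wH ++ wH) (v := [])))]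
    simp only [mul_assoc, mul_one]
  have r : g * evw ev [8] * (g * evw ev [8] * (g * evw ev [8])) = 1 := by
    simpa [mul_assoc] using R [10, 8, 10, 8, 10, 8] (by decide)
  have f : evw (Function.update ev 10 g) wk * evw ev b1 = g * evw ev wH * (g * evw ev [8]) * (g * evw ev wH)⁻¹ := by
    have a : Cj ev (g * 1) b1 [7] := by simpa using m.run J [10] (cK.getD 2 []) [7] (by decide +kernel)
    rw [e, ← m.cj (k := invw il wH) (u := [7]) (v := [8]), evw_invw ev il 10 m.inv _ (by decide), ← a, mul_inv_rev g, gi,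
      inv_inv, mul_one, gi]
    simp only [mul_assoc, mul_inv_cancel_left, gg, mul_one]
  obtain ⟨u, hu, a, h⟩ := m.en (fun u => cN (u ++ u) [] || cN (cw u [5]) wS ||
    cN (u ++ b1 ++ (u ++ b1 ++ (u ++ b1))) [] || cE (u ++ cond false wH' wH) [] || cE (u ++ cond true wH' wH) [])
    (by decide +kernel) _ (mem_Cx'.2 (m.run J5 wk (cK.getD 0 []) [6] (by decide +kernel)))
  have z : ∀ k, cE (u ++ cond k wH' wH) [] = true → ∀ w ∈ rT k, evw (Function.update ev 10 g) w = 1 := fun k h w hw => by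
    rcases (by decide : ∀ k, ∀ w ∈ rT k, w ∈ cG.map (·.1) ∨ w = wk ++ cond k wH' wH) k w hw with c | rfl
    · exact R w c
    · rw [evw_append, ← a, U _ (by cases k <;> rfl), ← evw_append]; exact m.eq h
  simp only [Bool.or_eq_true] at h
  rcases h with (((h | h) | h) | h) | h
  · exact (m.ne h (by rw [evw_append, a, e, ← cjm, gg]; simp)).elim
  · exact (m.ne h (by rw [m.cw hu, a]; exact m.run J5 _ (cK.getD 1 []) wS (by decide +kernel))).elim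
  · exact (m.ne h (by simp only [evw_append]; rw [a, f, ← cjm, ← cjm, r]; simp)).elim
  · exact ⟨gg, _, z _ h⟩
  · exact ⟨gg, _, z _ h⟩
end Su

theorem q4 : Q4 := fun {G} _ _ L ev F => by
  obtain ⟨m, c, h⟩ := emb F.inv F.rel fun e => absurd (F.ee.e4.inj (c := 1) (d := 0) (by norm_num) (by norm_num)
    (by rw [CfH1.MB2.el1, CfH1.MB2.el0]; exact e)) (by norm_num)
  have : Fact (Nat.Prime 3) := ⟨by norm_num⟩
  have M : Su ev := ⟨m, h (L.c2 _ (evw ev [0]) m.o2 (orderOf_eq_prime (by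
    rw [pow_three', ← evw_append, ← evw_append]; exact m.eq (v := [])) (m.ne (v := []))) m.cm)⟩
  obtain ⟨g, a1, a2⟩ := M.s1 (L.j2 ⟨evw ev [0, 2, 4, 5, 6], orderOf_eq_prime_pow (p := 2) (n := 2)
    (by simpa [pow_succ, subst, mul_assoc] using m.ne (u := subst [[0, 2, 4, 5, 6]] [0, 0, 0, 0]) (v := []))
    (by simpa [pow_succ, subst, mul_assoc] using m.eq (u := subst [[0, 2, 4, 5, 6]] [0, 0, 0, 0, 0, 0, 0, 0]) (v := []))⟩ _ _ m.o2 m.o2)
  obtain ⟨g, a1, a2, a3⟩ := M.s2 a1 a2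
  obtain ⟨g, J | J⟩ := M.s3 a1 a2 a3
  · exact (M.s4 J).elim
  obtain ⟨gg, k, r⟩ := M.s5 J
  cases k
  · exact ⟨g, gg, r⟩
  have := (card_le_of_le (gensub_le (el := ev) (K := gensub (Function.update ev 10 g) 11) fun x (hx : x < 10) => by
    rw [← Function.update_of_ne hx.ne g ev]; exact mem_gensub (by omega))).trans (badK (upd F gg).1 fun w hw =>
      (List.mem_append.1 hw).elim ((upd F gg).2 w) (r w)).2
  omega
end CfH8.M3
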