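import Mathlib.Algebra.Order.BigOperators.Ring.Finset
import Mathlib.Algebra.BigOperators.Ring.Finset
import Mathlib.Data.Int.GCD
import Mathlib.Tactic
import Cfsg.Agent.OD.Pre
/-! Numerical part for the principal `23`-block of a simple group of order `10200960`. -/
set_option autoImplicit false
open Finset
namespace CfH8.QA

def L : List (ℕ × ℕ) := [(11, 24), (22, 12), (11, 576), (22, 288), (11, 1680), (22, 840)]

/-- a character of the block and its value at an involution with `I` conjugates -/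
def Row (K I c d : ℕ) (a b : ℤ) : Prop := d * d < 10200960 ∧ d ∣ 10200960 ∧ (d : ℤ) ∣ (10200960 / K : ℕ) * a ∧
  (d : ℤ) ∣ (10200960 / K : ℕ) * b ∧ ∃ m n : ℤ, d = 23 * m + 11 * (a + b) ∧ 2 ∣ n ∧ 0 < n ∧ n ≤ m ∧ n ≤ m + a ∧ n ≤ m + b ∧
    (d : ℤ) ∣ I * (d - 46 * n) ∧ (d - 46 * n : ℤ) ^ 2 < c

def ok (e K d : ℕ) (a b : ℤ) : Prop := (23 : ℤ) ∣ d - 11 * (a + b) ∧ (d : ℤ) ∣ (10200960 / K : ℕ) * a ∧
  (d : ℤ) ∣ (10200960 / K : ℕ) * b ∧ ∀ x ∈ [0, a, b], (if e * K = 264 ∧ 11 ∣ d then 506 else 46) ≤ d - 11 * (a + b) + 23 * x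
instance (e K d : ℕ) (a b : ℤ) : Decidable (ok e K d a b) := by unfold ok; infer_instance

theorem n11 {I c d : ℕ} {n : ℤ} (hI : I * c = 10200960) (h : 11 ∣ c) (k : 11 ∣ d) (r : (d : ℤ) ∣ I * (d - 46 * n)) :
    11 ∣ n := by
  have k' : (11 : ℤ) ∣ d := by exact_mod_cast k
  rcases (Int.Prime.dvd_mul' (by norm_num) (k'.trans r)) with q | q
  · exact absurd (hI ▸ Nat.mul_dvd_mul (by exact_mod_cast q : 11 ∣ I) h) (by norm_num)
  · push_cast at q; omega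

theorem Row.ok {e K I c d : ℕ} {a b : ℤ} (r : Row K I c d a b) (hI : I * c = 10200960) (h : e * K = 264 → 11 ∣ c) :
    d ∈ List.range 3194 ∧ 10200960 % d = 0 ∧ ok e K d a b := by
  obtain ⟨r1, r2, r3, r4, m, n, r5, r6, r7, r8, r9, r10, r11, -⟩ := r
  refine ⟨List.mem_range.2 (by nlinarith), Nat.mod_eq_zero_of_dvd r2, by omega, r3, r4, fun x hx => ?_⟩
  have : n ≤ m + x := by simp only [List.mem_cons, List.not_mem_nil, or_false] at hx; omega
  split_ifs with k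
  · have := n11 hI (h k.1) k.2 r11; omega
  · omega

theorem Row.symm {K I c d : ℕ} {a b : ℤ} (r : Row K I c d a b) : Row K I c d b a := by
  obtain ⟨r1, r2, r3, r4, m, n, r5, r6, r7, r8, r9, r10, r11⟩ := r
  exact ⟨r1, r2, r4, r3, m, n, by rw [r5, add_comm a], r6, r7, r8, r10, r9, r11⟩

theorem dA : ∀ d ∈ List.range 3194, 10200960 % d = 0 → d % 2 = 1 → ∀ a ∈ [-3, -1, 1, (3 : ℤ)], ∀ b ∈ [a - 1, a, a + 1],
    ∀ x ∈ L, (x.1 = 22 → a = b) → ok x.1 x.2 d a b →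
      (d = 693 ∧ a = -3 ∧ b = -3 ∧ x.1 * x.2 = 264) ∨ (d = 105 ∧ a = -1 ∧ b = -2 ∧ x = (11, 24)) := by decide +kernel

theorem dC : ∀ d ∈ List.range 3194, 10200960 % d = 0 → ∀ a ∈ [-2, -1, 1, (2 : ℤ)], ok 11 24 d a a →
    3 ∣ a * d % 35 ∧ a * d % 35 ≤ 3 * a ^ 2 := by decide +kernel

theorem d2 : ∀ K ∈ [40, 132, 224, 960, 3168, 9240], ∀ d ∈ List.range 3194, 46 ≤ d → d ∣ 10200960 / K →
    d + 1 ∣ 10200960 / K → 23 ∣ d ∨ 23 ∣ d + 1 := by decide +kernel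

variable {ι : Type*} [Fintype ι] {d : ι → ℕ} {a b : ι → ℤ} {e K I c : ℕ}

theorem exn {q : ℤ} (hq : ¬ q ∣ 1) (l : ∑ i, a i * d i = 1) : ∃ i, ¬ q ∣ a i * d i := by
  by_contra! h
  exact hq (l ▸ dvd_sum fun i _ => h i)

theorem odd (hK : (e, K) ∈ L) (hI : I * c = 10200960) (h : e * K = 264 → 11 ∣ c) (n1 : ∑ i, a i ^ 2 = e)
    (n2 : ∑ i, b i ^ 2 = e) (n3 : ∑ i, (a i - b i) ^ 2 = if e + 1 = 23 then 0 else 2) (l : ∑ i, a i * d i = 1)
    (R : ∀ i, a i ≠ 0 ∨ b i ≠ 0 → Row K I c (d i) (a i) (b i)) : ∃ i, d i = 105 ∧ a i = -1 ∧ b i = -2 ∧ (e, K) = (11, 24) := by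
  have he : e ≤ 22 := (by decide : ∀ x ∈ L, x.1 ≤ 22) _ hK
  have A : ∀ i, -5 < a i ∧ a i < 5 ∧ -5 < b i ∧ b i < 5 ∧ -2 < a i - b i ∧ a i - b i < 2 ∧ (e = 22 → a i = b i) := fun i => by
    have h1 := single_le_sum (f := fun i => a i ^ 2) (fun _ _ => sq_nonneg _) (mem_univ i)
    have h2 := single_le_sum (f := fun i => b i ^ 2) (fun _ _ => sq_nonneg _) (mem_univ i)
    have h3 := single_le_sum (f := fun i => (a i - b i) ^ 2) (fun _ _ => sq_nonneg _) (mem_univ i)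
    have h4 : (a i - b i) ^ 2 ≤ 2 := h3.trans (by rw [n3]; split_ifs <;> norm_num)
    have he' : (e : ℤ) ≤ 22 := by exact_mod_cast he
    simp only [n1, n2, n3] at h1 h2 h3
    refine ⟨by nlinarith, by nlinarith, by nlinarith, by nlinarith, by nlinarith, by nlinarith, fun k => ?_⟩
    rw [if_pos (by omega)] at h3
    nlinarith
  obtain ⟨i, hi⟩ := exn (q := 2) (by norm_num) l
  have a2 : ¬ 2 ∣ a i := fun k => hi (k.mul_right _)
  have r := R i (.inl fun k => a2 (by simp [k]))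
  obtain ⟨o1, o2, o3⟩ := r.ok hI h
  obtain ⟨b1, b2, b3, b4, b5, b6, b7⟩ := A i
  refine (dA _ o1 o2 (by have : ¬ (2 : ℤ) ∣ d i := fun k => hi (k.mul_left _); omega) (a i) (by simp; omega) (b i)
    (by simp; omega) _ hK b7 o3).elim (fun ⟨k1, k2, k3, k4⟩ => False.elim ?_) fun k => ⟨i, k⟩
  obtain ⟨-, -, -, -, m, n, r5, r6, r7, r8, r9, r10, r11, r12⟩ := r
  have := n11 hI (h k4) (by rw [k1]; norm_num) r11
  rw [k1] at r5 r11 r12
  obtain rfl : n = 22 := by push_cast at r5; omega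
  have hc : 101761 < c := by norm_num at r12; exact_mod_cast r12
  obtain rfl : I = 63 := by
    have : I < 101 := by nlinarith
    have : I ≠ 0 := by rintro rfl; simp at hI
    omega
  obtain ⟨j, hj⟩ := exn (q := 3) (by norm_num) l
  have a0 : a j ≠ 0 := fun k => hj (by simp [k])
  obtain ⟨-, -, -, -, m, n, r5, r6, r7, r8, r9, r10, r11, -⟩ := R j (.inl a0)
  obtain ⟨b1, b2, b3, b4, b5, b6, -⟩ := A j
  have c3 : IsCoprime (d j : ℤ) 3 := ((Int.prime_three.coprime_iff_not_dvd).2 fun k => hj (k.mul_left _)).symm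
  have c23 : IsCoprime (d j : ℤ) 23 := (((Int.prime_iff_natAbs_prime.2 (by norm_num)).coprime_iff_not_dvd).2 fun k => by
    obtain ⟨t, ht⟩ := (show IsCoprime (23 : ℤ) 11 by norm_num).dvd_of_dvd_mul_left (z := a j + b j) (by omega)
    obtain rfl : t = 0 := by clear r5 r6 r8 r9 r10 k; omega
    omega).symm
  have : (d j : ℤ) ∣ 3 * (3 * (23 * (14 * n))) := by
    have := dvd_sub (dvd_mul_left (d j : ℤ) 63) r11
    rwa [show 63 * (d j : ℤ) - ((63 : ℕ) : ℤ) * (d j - 46 * n) = 3 * (3 * (23 * (14 * n))) by push_cast; ring] at this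
  have := Int.le_of_dvd (by omega) (c23.dvd_of_dvd_mul_left (c3.dvd_of_dvd_mul_left (c3.dvd_of_dvd_mul_left this)))
  omega

theorem num (hK : (e, K) ∈ L) (hI : I * c = 10200960) (h : e * K = 264 → 11 ∣ c) (n1 : ∑ i, a i ^ 2 = e)
    (n2 : ∑ i, b i ^ 2 = e) (n3 : ∑ i, (a i - b i) ^ 2 = if e + 1 = 23 then 0 else 2) (l1 : ∑ i, a i * d i = 1)
    (l2 : ∑ i, b i * d i = 1) (R : ∀ i, a i ≠ 0 ∨ b i ≠ 0 → Row K I c (d i) (a i) (b i)) : False := by
  classical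
  obtain ⟨i, i1, i2, i3, i4⟩ := odd hK hI h n1 n2 n3 l1 R
  obtain ⟨j, j1, j2, j3, -⟩ := odd hK hI h n2 n1 (by simpa only [sub_sq_comm] using n3) l2 fun i k => (R i k.symm).symm
  obtain ⟨rfl, rfl⟩ := Prod.ext_iff.1 i4
  have ij : i ≠ j := by rintro rfl; omega
  have S : ∀ f : ι → ℤ, (∀ k, 0 ≤ f k) → ∀ k, k ≠ i → k ≠ j → f k + (f i + f j) ≤ ∑ k, f k := fun f hf k ki kj => by
    rw [← sum_pair ij, ← sum_insert (by simp [ki, kj])]
    exact sum_le_sum_of_subset_of_nonneg (subset_univ _) fun k _ _ => hf k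
  have P : ∀ k, 3 ∣ a k * d k % 35 ∧ a k * d k % 35 ≤ 3 * a k ^ 2 := fun k => by
    by_cases ki : k = i
    · rw [ki, i1, i2]; norm_num
    by_cases kj : k = j
    · rw [kj, j1, j3]; norm_num
    by_cases k0 : a k = 0
    · simp [k0]
    have s1 := S (fun i => a i ^ 2) (fun _ => sq_nonneg _) k ki kj
    have s2 := S (fun i => (a i - b i) ^ 2) (fun _ => sq_nonneg _) k ki kj
    simp only [n1, n3, i2, i3, j2, j3] at s1 s2
    norm_num at s1 s2
    obtain ⟨o1, o2, o3⟩ := (R k (.inl k0)).ok hI h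
    rw [← show a k = b k by nlinarith] at o3
    have : -3 < a k := by nlinarith
    have : a k < 3 := by nlinarith
    exact dC _ o1 o2 _ (by simp; omega) o3
  have h1 : 3 ∣ ∑ k, a k * d k % 35 := dvd_sum fun k _ => (P k).1
  have h2 : ∑ k, a k * d k % 35 ≤ 3 * ∑ k, a k ^ 2 := by rw [mul_sum]; exact sum_le_sum fun k _ => (P k).2
  have h3 : 0 ≤ ∑ k, a k * d k % 35 := sum_nonneg fun k _ => Int.emod_nonneg _ (by norm_num)
  have h4 := Finset.sum_int_mod univ 35 fun k => a k * d k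
  rw [n1] at h2
  rw [l1] at h4
  omega
end CfH8.QA
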