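import Cfsg.Agent.H8.QA1
import Cfsg.Agent.H8.QA2
import Cfsg.Agent.H8.PA1
import Cfsg.Agent.H8.PA2
import Cfsg.Agent.H8.PA4
import Cfsg.Agent.L.M23a
/-! Elements of order `23` in a simple group of order `10200960`. -/
set_option autoImplicit false
open Cfsg CfH4 CfH4.GA CfH9 CfH4.D1 CfH4.PA CfH8.PA CfH8.MG Subgroup Finset
open scoped ComplexConjugate
namespace CfH8.QA
universe u
section
variable {G : Type u} [Group G] [Finite G] {p : ℕ} [hp : Fact p.Prime] {x : G} (h : Syl p x)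
include h

omit h in
theorem inB {j : ZMod p} {χ : IrrCharacter G} (k : u x j χ ≠ 0) : χ ∈ B0 p G := by
  by_contra c
  exact k (by simp [u, c])

/-- central characters -/
theorem cz (j : ZMod p) (i : Ir G) : (dg i : ℤ) ∣ (Cx(x).index * p : ℕ) * u x j i.1 := by
  by_cases k : u x j i.1 = 0
  · simp [k]
  refine CfH5.int_dvd_of_isIntegral_div (by exact_mod_cast i.1.2.deg_pos.ne') ?_
  have := h.pu j i.1
  rw [if_pos (inB k)] at this
  push_cast
  rw [mul_assoc, this, mul_sum, sum_div]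
  refine IsIntegral.sum _ fun a _ => ?_
  by_cases a0 : a = 0
  · simp [a0, κ_zero, isIntegral_zero]
  have := (CfH5.isIntegral_centralChar i.1.2 (xp x a)).mul ((CfH5.isIntegral_conj
    (CfH5.isIntegral_of_pow_eq_one (z := ψ (j * a)) hp.out.ne_zero (by rw [← AddChar.map_nsmul_eq_pow]; simp))).sub isIntegral_one)
  rw [centralChar, show centralizer {xp x a} = Cx(x) from h.cx a0, ← i.1.2.isCharacter.deg_eq] at this
  convert this using 1
  rw [κ, dg]; ring

/-- an involution centralizing `x` -/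
theorem inv2 [IsSimpleGroup G] (nc : ¬ ∀ a b : G, a * b = b * a) (p2 : p ≠ 2) (s : Iv G) (hc : s.1 ∈ Cx(x)) (i : Ir G)
    (b : i.1 ∈ B0 p G) : ∃ n : ℤ, 2 ∣ n ∧ 0 < n ∧ (∀ j : ZMod p, n ≤ m x i.1 j) ∧ (dg i : ℤ) - vv s.1 i = 2 * p * n := by
  obtain ⟨v1, v2, v3⟩ := val nc s i
  have I : ∀ j : ZMod p, ∃ t : ℕ, t ≤ m x i.1 j ∧ (dg i : ℤ) - vv s.1 i = 2 * p * t := fun j => by
    obtain ⟨t, t1, t2⟩ := h.inK (s := s.1) (by rw [← pow_two]; exact orderOf_dvd_iff_pow_eq_one.1 (dvd_of_eq s.2)) (mem_Cx.1 hc).symm p2 b j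
    rw [v1, ← i.1.2.isCharacter.deg_eq] at t2
    exact ⟨t, t1, by exact_mod_cast t2⟩
  obtain ⟨n, -, hn⟩ := I 0
  have P : (0 : ℤ) < 2 * p := by have := hp.out.pos; positivity
  refine ⟨n, ?_, (pos_iff_pos_of_mul_pos (hn ▸ by have := le_abs_self (vv s.1 i); omega)).1 P, fun j => ?_, hn⟩
  · obtain ⟨k, hk⟩ := hp.out.odd_of_ne_two p2
    rw [hn, hk] at v2
    push_cast at v2
    rw [show 2 * (2 * (k : ℤ) + 1) * n = 4 * (k * n) + 2 * n by ring] at v2
    omega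
  · obtain ⟨t, t1, t2⟩ := I j
    rw [mul_left_cancel₀ P.ne' (hn.symm.trans t2)]
    exact_mod_cast t1

theorem dsum {χ : IrrCharacter G} (b : χ ∈ B0 p G) : (deg (χ : G → ℂ) : ℤ) = p * m x χ (0 : ZMod p) + ∑ j : ZMod p, u x j χ := by
  simp [h.deg_eq χ.2.isCharacter, u, b]

/-- automizer of order two -/
theorem e2 [IsSimpleGroup G] (nc : ¬ ∀ a b : G, a * b = b * a) (he : e p x = 2) : ∃ a b : Ir G, dg a = dg b + 1 ∧
    u x (1 : ZMod p) a.1 = 1 ∧ u x (1 : ZMod p) b.1 = -1 ∧ ¬ p ∣ dg a ∧ ¬ p ∣ dg b := by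
  classical
  have N : ∀ l : ZMod p, l ≠ 0 → ∑ i : Ir G, u x l i.1 * u x l i.1 = 2 := fun l hl => by
    have := gr h hl hl
    rw [if_pos (by rw [mul_inv_cancel₀ hl]; exact (EH h).one_mem), he] at this
    push_cast at this; linarith
  have A : ∀ i : Ir G, u x (1 : ZMod p) i.1 ≠ 0 → u x (1 : ZMod p) i.1 = 1 ∨ u x (1 : ZMod p) i.1 = -1 := fun i k => by
    have := single_le_sum (f := fun i : Ir G => u x (1 : ZMod p) i.1 * u x (1 : ZMod p) i.1) (fun _ _ => mul_self_nonneg _) (mem_univ i)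
    rw [N 1 one_ne_zero] at this
    have : -2 < u x (1 : ZMod p) i.1 := by nlinarith
    have : u x (1 : ZMod p) i.1 < 2 := by nlinarith
    omega
  have F : ∀ f : Ir G → ℤ, ∑ i, u x (1 : ZMod p) i.1 * f i =
      ∑ i ∈ univ.filter fun i : Ir G => u x (1 : ZMod p) i.1 ≠ 0, u x (1 : ZMod p) i.1 * f i := fun f =>
    (sum_filter_of_ne fun i _ k => left_ne_zero_of_mul k).symm
  obtain ⟨a, b, ab, e⟩ := card_eq_two.1 (show (univ.filter fun i : Ir G => u x (1 : ZMod p) i.1 ≠ 0).card = 2 by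
    have := N 1 one_ne_zero
    rw [F, sum_congr rfl (g := fun _ => 1) fun i k => by rcases A i (mem_filter.1 k).2 with k | k <;> simp [k]] at this
    rw [sum_const, nsmul_eq_mul, mul_one] at this
    exact_mod_cast this)
  simp only [e, sum_pair ab] at F
  have ha := (mem_filter.1 (e.ge (mem_insert_self _ _))).2
  have hb := (mem_filter.1 (e.ge (mem_insert_of_mem (mem_singleton_self b)))).2
  have D : ∀ a b : Ir G, a ≠ b → (∀ f : Ir G → ℤ, ∑ i, u x (1 : ZMod p) i.1 * f i = u x (1 : ZMod p) a.1 * f a +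
      u x (1 : ZMod p) b.1 * f b) → u x (1 : ZMod p) a.1 ≠ 0 → u x (1 : ZMod p) b.1 ≠ 0 → ¬ p ∣ dg a := fun a b ab F ha hb d => by
    have T : ∀ l : ZMod p, 0 ≤ u x (1 : ZMod p) a.1 * u x l a.1 ∧
        u x (1 : ZMod p) a.1 * u x l a.1 ≤ 1 - if l = 0 then 1 else 0 := fun l => by
      split_ifs with hl
      · simp [hl, u]
      have g1 := gr h one_ne_zero hl
      have g2 := (sum_pair ab).ge.trans (sum_le_sum_of_subset_of_nonneg (f := fun i : Ir G => u x l i.1 * u x l i.1)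
        (subset_univ _) fun _ _ _ => mul_self_nonneg _)
      rw [N l hl] at g2
      rw [F, he] at g1
      have : -2 < u x l a.1 ∧ u x l a.1 < 2 ∧ -2 < u x l b.1 ∧ u x l b.1 < 2 :=
        ⟨by nlinarith, by nlinarith, by nlinarith, by nlinarith⟩
      rcases A a ha with k | k <;> rcases A b hb with k' | k' <;> rw [k, k'] at g1 <;> rw [k] <;> split_ifs at g1 <;> omega
    have t1 := single_le_sum (fun l _ => (T l).1) (mem_univ (1 : ZMod p))
    have t2 := sum_le_sum fun l (_ : l ∈ univ) => (T l).2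
    rw [sum_sub_distrib, sum_ite_eq', if_pos (mem_univ _), sum_const, card_univ, ZMod.card, nsmul_eq_mul] at t2
    have t3 : (p : ℤ) ∣ ∑ l : ZMod p, u x (1 : ZMod p) a.1 * u x l a.1 := by
      rw [← mul_sum]
      exact ((dvd_add_right (dvd_mul_right _ _)).1 (dsum h (inB ha) ▸ Int.natCast_dvd_natCast.2 d)).mul_left _
    have t4 := mul_self_pos.2 ha
    have := Int.le_of_dvd (by omega) t3
    omega
  have l := ln h one_ne_zero PReg.one (v := fun i => dg i) fun i => by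
    rw [Int.cast_natCast]; exact i.1.2.isCharacter.deg_eq.symm
  have d1 := D a b ab F ha hb
  have d2 := D b a ab.symm (fun f => by rw [F, add_comm]) hb ha
  have := dg1 nc a
  have := dg1 nc b
  rw [F] at l
  rcases A a ha with k | k <;> rcases A b hb with k' | k' <;> rw [k, k'] at l
  · omega
  · exact ⟨a, b, by omega, k, k', d1, d2⟩
  · exact ⟨b, a, by omega, k', k, d2, d1⟩
  · omega
end

instance f23 : Fact (Nat.Prime 23) := ⟨by norm_num⟩

set_option synthInstance.maxSize 2000 in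
set_option synthInstance.maxHeartbeats 200000 in
theorem opts : ∀ e ∈ [1, 2, 11, 22], ∀ K ∈ DL, 1 < e → 23 * e * K ∣ 10200960 →
    10200960 / (23 * e * K) % 23 = 1 → 1 < 10200960 / (23 * e * K) → (e = 11 ∧ K = 1) ∨
    ((e * K = 126 ∨ e * K = 770) ∧ 7 ∣ 23 * K) ∨ (e = 2 ∧ K ∈ [40, 132, 224, 960, 3168, 9240] ∧ 2 ∣ K) ∨
    ((e, K) ∈ L ∧ 2 ∣ K ∧ 22 ≤ 2 * e ∧ (e * K = 264 → K = 24 ∨ K = 12)) := by decide +kernel

theorem dv22 : ∀ e ∈ Nat.divisors 22, e ∈ [1, 2, 11, 22] := by decide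

theorem qa : CfLm.QA.{u} := fun {G} _ _ hs hG z hz => by
  classical
  have nc := ncm (G := G) (hG ▸ by norm_num)
  obtain ⟨K, a1, -, a3, a4, a5, a6, a7, -, a8⟩ := g5 (p := 23) (by norm_num) (by rw [hG]; norm_num) (by rw [hG]; norm_num) hz
  have h : Syl 23 z := ⟨hz, a8⟩
  have hN := card_Nm_zp (by norm_num) hz
  change e 23 z ∣ _ at a3
  change 1 < e 23 z at a4
  change 23 * e 23 z * K ∣ _ at a5
  change _ / (23 * e 23 z * K) % 23 = 1 at a6
  change 1 < _ / (23 * e 23 z * K) at a7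
  change _ = e 23 z * _ at hN
  rw [hG] at a5 a6 a7
  rw [a1, mul_left_comm] at hN
  have S := sys nc
  have ix : Cx(z).index * 23 = 10200960 / K := by
    rw [← hG, ← Cx(z).index_mul_card, a1, ← mul_assoc, Nat.mul_div_cancel _ (Nat.pos_of_ne_zero (by rintro rfl; simp at a7))]
  have lt : ∀ i : Ir G, dg i * dg i < 10200960 := fun i => by
    rw [← hG, ← S.sq]
    exact Nat.lt_succ_of_le (single_le_sum (f := fun i => dg i * dg i) (fun _ _ => Nat.zero_le _) (mem_univ i))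
  have ex : 2 ∣ K → ∃ s : Iv G, s.1 ∈ Cx(z) := fun k => by
    obtain ⟨⟨s, hx⟩, so⟩ := exists_prime_orderOf_dvd_card' (G := Cx(z)) 2 (a1 ▸ k.mul_left 23)
    exact ⟨⟨s, (orderOf_coe _).trans so⟩, hx⟩
  rcases opts _
      (dv22 _ (Nat.mem_divisors.2 ⟨a3, by norm_num⟩)) K (by
        rw [← List.mem_toFinset, ← CfH8.PA.dl, Nat.mem_divisors]
        exact ⟨(Dvd.intro_left _ rfl).trans (Nat.dvd_of_mul_dvd_mul_left (by norm_num : 0 < 23) (mul_assoc 23 _ K ▸ a5)),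
          by norm_num⟩) a4 a5 a6 a7 with ⟨k, rfl⟩ | ⟨k1, k2⟩ | ⟨k1, k2, k3⟩ | ⟨k1, k2, k3, k4⟩
  · exact ⟨a1, by rw [hN, k]; rfl⟩
  · exact absurd (a1 ▸ k2) (dbl hG hz k1 hN)
  · obtain ⟨a, b, b1, b2, b3, b4, b5⟩ := e2 h nc k1
    obtain ⟨s, hs⟩ := ex k3
    obtain ⟨n, n1, n2, n3, -⟩ := inv2 h nc (by norm_num) s hs b (inB (j := 1) (by rw [b3]; norm_num))
    have c1 := cz h 1 a
    have c2 := cz h 1 b
    rw [ix, b2, mul_one, Int.natCast_dvd_natCast, b1] at c1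
    rw [ix, b3, mul_neg_one, dvd_neg, Int.natCast_dvd_natCast] at c2
    have c3 := sum_le_sum fun j (_ : j ∈ univ) => n3 j
    rw [← Nat.cast_sum, ← h.deg_eq b.1.2.isCharacter, sum_const, card_univ, ZMod.card, nsmul_eq_mul] at c3
    have := lt b
    exact ((d2 K k2 _ (List.mem_range.2 (by nlinarith)) (by change 46 ≤ deg _; omega) c2 c1).elim b5 (b1 ▸ b4)).elim
  · exfalso
    obtain ⟨s, hs, s11⟩ : ∃ s : Iv G, s.1 ∈ Cx(z) ∧ (e 23 z * K = 264 → 11 ∣ cc s) := by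
      by_cases k : e 23 z * K = 264
      · obtain ⟨s, s1, s2, s3⟩ := w11 (k4 k) a1 (by rw [hN, k]; norm_num)
        exact ⟨⟨s, s2⟩, s1, fun _ => s3⟩
      · exact (ex k2).imp fun s hs => ⟨hs, fun c => absurd c k⟩
    have n5 : ¬ IsSquare (5 : ZMod 23) := by decide
    have n0 : (5 : ZMod 23) ≠ 0 := by decide
    have E1 : ∀ {j : ZMod 23}, j ≠ 0 → E z (j * j⁻¹) := fun hj => by rw [mul_inv_cancel₀ hj]; exact (EH h).one_mem
    have D : ∀ i : Ir G, (i.1 : G → ℂ) 1 = ((dg i : ℤ) : ℂ) := fun i => by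
      rw [Int.cast_natCast]; exact i.1.2.isCharacter.deg_eq.symm
    have g1 := gr h (one_ne_zero (α := ZMod 23)) one_ne_zero
    have g2 := gr h n0 n0
    have g3 := gr h one_ne_zero n0
    rw [if_pos (E1 one_ne_zero)] at g1
    rw [if_pos (E1 n0)] at g2
    have V := S.inv s
    refine num (a := fun i : Ir G => u z (1 : ZMod 23) i.1) (b := fun i => u z (5 : ZMod 23) i.1) k1
      (hG ▸ Nat.div_mul_cancel V.cg) s11 (by simpa [pow_two] using g1) (by simpa [pow_two] using g2) ?_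
      (ln h one_ne_zero PReg.one D) (ln h n0 PReg.one D) fun i k => ?_
    · simp only [sub_sq, sum_add_distrib, sum_sub_distrib, mul_assoc, ← mul_sum]
      simp only [pow_two]
      simp only [E_iff h k3 n5] at g3
      split_ifs at g3 ⊢ <;> linarith
    have b : i.1 ∈ B0 23 G := k.elim inB inB
    obtain ⟨n, n1, n2, n3, n4⟩ := inv2 h nc (by norm_num) s hs i b
    have v : vv s.1 i = dg i - 46 * n := by push_cast at n4; omega
    refine ⟨lt i, hG ▸ (S.dv i).1, ix ▸ cz h 1 i, ix ▸ cz h 5 i, m z i.1 (0 : ZMod 23), n, ?_, n1, n2, n3 0, ?_, ?_,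
      v ▸ hG ▸ V.dvd i, ?_⟩
    · rw [dg, deg2 h (by norm_num) k3 n5 i.1.2.isCharacter]; simp [u, b]
    · simpa [u, b] using n3 1
    · simpa [u, b] using n3 5
    · rw [← v, ← V.sq]
      exact Int.lt_add_one_of_le (single_le_sum (f := fun i => vv s.1 i ^ 2) (fun _ _ => sq_nonneg _) (mem_univ i))
end CfH8.QA
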