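import Cfsg.Agent.H8.PA2
import Cfsg.Agent.H8.PA1
/-! Block data for a Sylow subgroup of prime order in an arbitrary nonabelian simple group. -/
set_option autoImplicit false
open Cfsg CfH4 CfH4.GA CfH9 CfH4.D1 CfH4.PA Subgroup Finset
open scoped ComplexConjugate
namespace CfH8.PA
universe u

theorem st {G : Type u} [Group G] [Finite G] [IsSimpleGroup G] (nc : ¬ ∀ a b : G, a * b = b * a) {p : ℕ} [Fact p.Prime]
    {n : ZMod p} {x : G} {K : ℕ} (p2 : p ≠ 2) (hn : ¬ IsSquare n) (h : Syl p x) (hK : Nat.card Cx(x) = p * K)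
    (he : p - 1 ≤ 2 * e p x) : St (Nat.card G) p (e p x) K dg cc (fun s => vv s.1) (uu x n) (mm p x) := by
  classical
  have S := sys nc
  have V : ∀ (s : Iv G) (i : Ir G), (i.1 : G → ℂ) s.1 = vv s.1 i := fun s i => (val nc s i).1
  have hp : p.Prime := Fact.out
  have n0 : n ≠ 0 := by rintro rfl; exact hn IsSquare.zero
  have E1 : ∀ {j : ZMod p}, j ≠ 0 → E x (j * j⁻¹) := fun hj => by rw [mul_inv_cancel₀ hj]; exact (EH h).one_mem
  have D : ∀ i : Ir G, (i.1 : G → ℂ) 1 = ((dg i : ℤ) : ℂ) := fun i => by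
    rw [Int.cast_natCast]; exact i.1.2.isCharacter.deg_eq.symm
  have B : ∀ i : Ir G, uu x n i ≠ 0 → i.1 ∈ B0 p G := fun i k => by
    by_contra c
    exact k (by simp [uu, u, c])
  have U : ∀ (i : Ir G) (j : ZMod p), i.1 ∈ B0 p G → mm p x i + u x j i.1 = m x i.1 j := fun i j k => by
    simp [mm, u, k]
  have a1 := gr h (one_ne_zero (α := ZMod p)) one_ne_zero
  have a2 := gr h n0 n0
  have a3 := gr h one_ne_zero n0
  rw [if_pos (E1 one_ne_zero)] at a1
  rw [if_pos (E1 n0)] at a2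
  have R : ∀ s : Iv G, PReg p s.1 := fun s => by
    change (orderOf s.1).Coprime p
    rw [s.2]; exact (Nat.coprime_primes Nat.prime_two hp).2 p2.symm
  have sq : ∀ {t : G}, orderOf t = 2 → t * t = 1 := fun o => by rw [← pow_two, ← o, pow_orderOf_eq_one]
  have s2 : ∀ s : Iv G, s.1 * s.1 = 1 := fun s => sq s.2
  refine ⟨⟨by simpa [uu, pow_two] using a1, by simpa [uu, pow_two] using a2, ?_, ln h one_ne_zero PReg.one D,
    ln h n0 PReg.one D, fun i k => ?_, fun i k k1 => ?_⟩, fun s => ⟨ln h one_ne_zero (R s) (V s), ln h n0 (R s) (V s),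
      ⟨Nat.card (Syl.A x s.1), fun k => ?_, h.A_dvd p2, ?_⟩, fun k => ?_⟩, fun k => ?_⟩
  · simp only [uu, sub_sq, sum_add_distrib, sum_sub_distrib, mul_assoc, ← mul_sum]
    simp only [pow_two]
    simp only [E_iff h he hn] at a3
    split_ifs at a3 ⊢ <;> linarith
  · have b := B i k
    refine ⟨?_, Nat.cast_nonneg _, ?_, ?_⟩
    · rw [dg, deg2 h p2 he hn i.1.2.isCharacter]; simp [uu, mm, u, b]
    · exact (U i 1 b).symm ▸ Nat.cast_nonneg _
    · exact (U i n b).symm ▸ Nat.cast_nonneg _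
  · have c : ∀ j : ZMod p, u x j i.1 = 0 → m x i.1 j = m x i.1 (0 : ZMod p) := fun j c => by
      by_cases b : i.1 ∈ B0 p G
      · rw [u, if_pos b, sub_eq_zero] at c; exact_mod_cast c
      · exact h.K1 (by rw [hK, k1, mul_one]) b j
    have := deg2 h p2 he hn i.1.2.isCharacter
    rw [c 1 (congrArg Prod.fst k), c n (congrArg Prod.snd k), sub_self, add_zero, mul_zero, add_zero] at this
    exact ⟨_, by exact_mod_cast this⟩
  · by_contra c
    obtain ⟨⟨g, hg⟩⟩ := (Nat.card_ne_zero.1 c).1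
    have : (-1 : (ZMod p)ˣ) ∈ EH h := by
      change IsConj x (xp x (-1 : ZMod p))
      rw [h.xp_neg, h.xp_one]
      exact isConj_iff.2 ⟨_, mul_inv_eq_iff_eq_mul.2 hg⟩
    have : Fact (2 < p) := ⟨lt_of_le_of_ne hp.two_le p2.symm⟩
    have o := (EH h).orderOf_dvd_natCard ‹_›
    rw [card_EH, orderOf_eq_prime (p := 2) (by simp) (fun e => ZMod.neg_one_ne_one (congrArg Units.val e))] at o
    exact k o
  · have q := h.quad (s2 s) p2 one_ne_zero
    rw [sum_Ir, h.u_triv one_ne_zero, hK] at q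
    simp only [V s, D, triv_apply, map_div₀, map_mul, map_intCast, map_one] at q
    have : ((((Nat.card G : ℤ) - ∑ i : Ir G, (uu x n i).1 * vv s.1 i ^ 2 * (Nat.card G / dg i : ℕ)) * K * p : ℤ) : ℂ) =
        ((Nat.card (Syl.A x s.1) : ℤ) ^ 2 : ℤ) := by
      have d : ∀ i : Ir G, ((Nat.card G / dg i : ℕ) : ℂ) = Nat.card G / dg i := fun i =>
        Nat.cast_div (S.dv i).1 (Nat.cast_ne_zero.2 (by have := (S.dv i).2; omega))
      simp only [Int.cast_mul, Int.cast_sub, Int.cast_sum, Int.cast_pow, Int.cast_natCast, Int.cast_ofNat, d, uu]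
      push_cast at q
      rw [← neg_neg (_ ^ 2), ← q, mul_add, mul_sum, sub_mul, sub_mul, sum_mul, sum_mul, neg_add, sub_eq_add_neg]
      congr 1
      · ring
      · exact congrArg _ (sum_congr rfl fun i _ => by ring)
    exact_mod_cast this
  · obtain ⟨⟨y, hy⟩, yo⟩ := exists_prime_orderOf_dvd_card' (G := Cx(s.1)) p k
    replace yo : orderOf y = p := (orderOf_coe _).trans yo
    obtain ⟨g, -, hg⟩ := h.syl.exists_cj_le (Q := zpowers y)
      (IsPGroup.of_card (n := 1) (by rw [Nat.card_zpowers, yo, pow_one])) le_top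
    obtain ⟨a, ha⟩ := mem_powers_iff_mem_zpowers.2 (hg (conj_mem_cj g (mem_zpowers y)))
    have ha : xp x (a : ZMod p) = g * y * g⁻¹ := (h.xp_nat a).trans ha
    have a0 : (a : ZMod p) ≠ 0 := fun c => by
      rw [c, h.xp_zero, eq_comm, conj_eq_one_iff] at ha
      rw [ha, orderOf_one] at yo; exact hp.one_lt.ne yo
    have m1 : g * s.1 * g⁻¹ ∈ Cx(x) := h.cx a0 ▸ mem_Cx.2 (by
      rw [ha, show g * s.1 * g⁻¹ * (g * y * g⁻¹) = g * (s.1 * y) * g⁻¹ by group, ← mem_Cx.1 hy]; group)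
    have so : orderOf (g * s.1 * g⁻¹) = 2 := ((MulAut.conj g).orderOf_eq s.1).trans s.2
    refine ⟨((Nat.Prime.dvd_mul Nat.prime_two).1 (hK ▸ so ▸ orderOf_dvd_natCard _ m1)).resolve_left fun c =>
      p2 ((Nat.prime_dvd_prime_iff_eq Nat.prime_two hp).1 c).symm, fun i k => ?_⟩
    have b := B i k
    have I : ∀ j : ZMod p, ∃ t : ℕ, (t : ℤ) ≤ mm p x i + u x j i.1 ∧ (dg i : ℤ) - vv s.1 i = 2 * p * t := fun j => by
      obtain ⟨t, t1, t2⟩ := h.inK (s := g * s.1 * g⁻¹) (sq so) (mem_Cx.1 m1).symm p2 b j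
      rw [i.1.2.classFun.conj_apply s.1 g, V s, D] at t2
      exact ⟨t, by rw [U i j b]; exact_mod_cast t1, by exact_mod_cast t2⟩
    have P : (0 : ℤ) ≤ 2 * p := by positivity
    obtain ⟨t0, b0, c0⟩ := I 0
    obtain ⟨t1, b1, c1⟩ := I 1
    obtain ⟨tn, bn, cn⟩ := I n
    rw [show u x (0 : ZMod p) i.1 = 0 by simp [u], add_zero] at b0
    exact ⟨⟨_, c0⟩, c0 ▸ mul_le_mul_of_nonneg_left b0 P, c1 ▸ mul_le_mul_of_nonneg_left b1 P,
      cn ▸ mul_le_mul_of_nonneg_left bn P⟩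
  · obtain ⟨⟨s, hx⟩, so⟩ := exists_prime_orderOf_dvd_card' (G := Cx(x)) 2 (hK ▸ k.mul_left p)
    exact ⟨⟨s, (orderOf_coe _).trans so⟩, h.ord ▸ orderOf_dvd_natCard _ (mem_Cx.2 (mem_Cx.1 hx).symm)⟩
end CfH8.PA
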