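import Cfsg.Agent.H8.QA3
import Cfsg.Agent.H8.PA2g
import Cfsg.Agent.H6.N23Q0
/-! Eigenvalue multiplicities of all characters at an element of prime order. -/
set_option autoImplicit false
open Cfsg CfH4 CfH4.GA CfH9 CfH4.D1 CfH4.PA CfH8.PA CfH8.QA CfH8.MG CfH6.QC Subgroup Finset
open scoped ComplexConjugate
namespace CfH8.QC
universe u
section
variable {G : Type u} [Group G] [Finite G] {p q : ℕ} [hp : Fact p.Prime] [hq : Fact q.Prime] {x y : G}

noncomputable def U (x : G) (j : ZMod p) (χ : IrrCharacter G) : ℤ := (m x χ j : ℤ) - m x χ (0 : ZMod p)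
open Classical in
noncomputable def W (x : G) (j : ZMod p) (χ : IrrCharacter G) : ℤ := if χ ∈ B0 p G then 0 else U x j χ

theorem W_eq (j : ZMod p) (χ : IrrCharacter G) : W x j χ = U x j χ - u x j χ := by
  rw [W, u, U]; split_ifs <;> simp
theorem W_mul (j l : ZMod p) (χ : IrrCharacter G) : W x j χ * W x l χ = U x j χ * U x l χ - u x j χ * u x l χ := by
  simp only [W, u, U]; split_ifs <;> simp
theorem W_triv (j : ZMod p) : W x j (triv G) = 0 := if_pos (triv_mem_B0 hp.out)

theorem pU (h : Syl p x) (j : ZMod p) (χ : IrrCharacter G) : (p : ℂ) * U x j χ = ∑ a, (χ : G → ℂ) (xp x a) * κ j a := by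
  rw [U]; push_cast
  rw [mul_sub, ← h.F_eq χ.2.isCharacter, ← h.F_eq χ.2.isCharacter, F, F, ← sum_sub_distrib]
  simp [κ, mul_sub]

theorem ex2 (h : Syl p x) (h' : Syl q y) (S : Finset (IrrCharacter G)) (j : ZMod p) (l : ZMod q) :
    (p * q : ℂ) * ((∑ χ ∈ S, U x j χ * U y l χ : ℤ) : ℂ) = ∑ a, ∑ b, κ j a * conj (κ l b) *
      ∑ χ ∈ S, (χ : G → ℂ) (xp x a) * conj ((χ : G → ℂ) (xp y b)) := by
  push_cast
  simp only [mul_sum]
  rw [sum_congr rfl fun a _ => sum_comm, sum_comm]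
  refine sum_congr rfl fun χ _ => ?_
  have := congrArg conj (pU h' l χ)
  rw [map_mul, map_natCast, map_intCast, map_sum] at this
  rw [mul_mul_mul_comm, this, pU h, sum_mul_sum]
  exact sum_congr rfl fun a _ => sum_congr rfl fun b _ => by rw [map_mul]; ring

theorem gramF (h : Syl p x) {K : ℕ} (hK : Nat.card Cx(x) = p * K) (j l : ZMod p) :
    ∑ χ, U x j χ * U x l χ = K * ∑ χ, u x j χ * u x l χ := by
  classical
  have e : ∑ χ, u x j χ * u x l χ = ∑ χ ∈ B0 p G, U x j χ * U x l χ := by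
    simp only [u, U, ite_zero_mul_ite_zero, and_self, ← sum_filter, filter_mem_eq_inter, univ_inter]
  rw [e]
  refine Int.cast_injective (α := ℂ) (mul_left_cancel₀ (mul_ne_zero (pne (p := p)) (pne (p := p))) ?_)
  rw [Int.cast_mul, mul_left_comm, ex2 h h, ex2 h h, mul_sum]
  refine sum_congr rfl fun a _ => ?_
  by_cases ha : a = 0
  · simp [ha, κ_zero]
  rw [mul_sum]
  refine sum_congr rfl fun b _ => ?_
  rw [h.col ha, sum_irr_mul_conj, show centralizer {xp x a} = Cx(x) from h.cx ha, hK, h.conj_iff ha]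
  split_ifs <;> push_cast <;> ring

theorem ordx (h : Syl p x) {a : ZMod p} (ha : a ≠ 0) : orderOf (xp x a) = p :=
  orderOf_eq_prime (by rw [xp, ← pow_mul, mul_comm, pow_mul, h.xpp, one_pow]) (h.xp_ne ha)

theorem orthF (h : Syl p x) (h' : Syl q y) (ne : p ≠ q) (j : ZMod p) (l : ZMod q) : ∑ χ, U x j χ * U y l χ = 0 := by
  refine Int.cast_injective (α := ℂ) (mul_left_cancel₀ (mul_ne_zero (pne (p := p)) (pne (p := q))) ?_)
  rw [ex2 h h', Int.cast_zero, mul_zero]
  refine sum_eq_zero fun a _ => sum_eq_zero fun b _ => ?_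
  by_cases ha : a = 0
  · simp [ha, κ_zero]
  by_cases hb : b = 0
  · simp [hb, κ_zero]
  rw [sum_irr_mul_conj_of_not_isConj, mul_zero]
  intro c
  obtain ⟨g, hg⟩ := isConj_iff.1 c
  exact ne (by rw [← ordx h ha, ← ordx h' hb, ← hg]; exact ((MulAut.conj g).orderOf_eq _).symm)

theorem linF (h : Syl p x) (j : ZMod p) : ∑ χ, U x j χ * deg (χ : G → ℂ) = 0 := by
  classical
  refine Int.cast_injective (α := ℂ) (mul_left_cancel₀ (pne (p := p)) ?_)
  push_cast
  simp only [mul_sum, ← mul_assoc, pU h, sum_mul, mul_zero, (Subtype.prop (_ : IrrCharacter G)).isCharacter.deg_eq]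
  rw [sum_comm]
  refine sum_eq_zero fun a _ => ?_
  by_cases ha : a = 0
  · simp [ha, κ_zero]
  have := sum_irr_one_mul (xp x a)
  rw [if_neg (h.xp_ne ha)] at this
  rw [← mul_zero (κ j a), ← this, mul_sum]
  exact sum_congr rfl fun _ _ => by ring

theorem czU (h : Syl p x) (j : ZMod p) (i : Ir G) : (dg i : ℤ) ∣ U x j i.1 * (Cx(x).index * p : ℕ) := by
  refine CfH5.int_dvd_of_isIntegral_div (by exact_mod_cast i.1.2.deg_pos.ne') ?_
  push_cast
  rw [mul_comm, mul_assoc, pU h, mul_sum, sum_div]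
  refine IsIntegral.sum _ fun a _ => ?_
  by_cases a0 : a = 0
  · simp [a0, κ_zero, isIntegral_zero]
  have := (CfH5.isIntegral_centralChar i.1.2 (xp x a)).mul ((CfH5.isIntegral_conj
    (CfH5.isIntegral_of_pow_eq_one (z := ψ (j * a)) hp.out.ne_zero (by rw [← AddChar.map_nsmul_eq_pow]; simp))).sub isIntegral_one)
  rw [centralChar, show centralizer {xp x a} = Cx(x) from h.cx a0, ← i.1.2.isCharacter.deg_eq] at this
  convert this using 1
  rw [κ, dg]; ring

theorem gW (h : Syl p x) {K : ℕ} (hK : Nat.card Cx(x) = p * K) {j l : ZMod p} (hj : j ≠ 0) (hl : l ≠ 0)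
    [Decidable (E x (j * l⁻¹))] :
    ∑ i : Ir G, W x j i.1 * W x l i.1 = (K - 1) * (e p x + if E x (j * l⁻¹) then 1 else 0) := by
  have := sum_Ir fun χ : IrrCharacter G => W x j χ * W x l χ
  rw [W_triv, zero_mul, zero_add] at this
  rw [← this]
  simp only [W_mul, sum_sub_distrib, gramF h hK, h.gram hj hl]
  split_ifs <;> ring

theorem laW (h : Syl p x) (h' : Syl q y) (ne : p ≠ q) (hc : Nat.card Cx(x) = p) {n : ZMod p} {l : ZMod q}
    (b : BT (uu x n) (uu y l)) : ∑ i : Ir G, (uu x n i).1 * W y (1 : ZMod q) i.1 = 0 := by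
  have e : ∀ χ, u x (1 : ZMod p) χ = U x (1 : ZMod p) χ := fun χ => by
    rw [u, U]; split_ifs with c
    · rfl
    · rw [h.K1 hc c, sub_self]
  have a := orthF h h' ne 1 1
  have t := W_triv (x := y) (1 : ZMod q)
  rw [W_eq, h'.u_triv one_ne_zero] at t
  simp only [← e] at a
  rw [sum_Ir, h.u_triv one_ne_zero] at a
  have b1 := b.1
  simp only [uu, W_eq, mul_sub, sum_sub_distrib] at b1 ⊢
  linarith
end

theorem r4 : R4.{u} := fun {G} _ _ hs hG c23 c11 x w hx hw => by
  classical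
  have nc := ncm (G := G) (hG ▸ by norm_num)
  have S := sys nc
  have X : Syl 23 x := ⟨hx, CfH1.MG.sylz hx (by rw [hG]; norm_num) (mem_top x)⟩
  have Y : Syl 11 w := ⟨hw, CfH1.MG.sylz hw (by rw [hG]; norm_num) (mem_top w)⟩
  obtain ⟨x1, x2⟩ := c23 x hx
  obtain ⟨w1, w2⟩ := c11 w hw
  have ex : e 23 x = 11 := by have := card_Nm_zp (by norm_num) hx; rw [x1, x2] at this; rw [e]; omega
  have ew : e 11 w = 5 := by have := card_Nm_zp (by norm_num) hw; rw [w1, w2] at this; rw [e]; omega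
  refine ⟨⟨hG ▸ S.dv, hG ▸ S.sq, ex ▸ (st nc (K := 1) (by norm_num) (by decide) X x1 (by omega)).blk,
    ew ▸ (st nc (K := 1) (by norm_num) (by decide) Y w1 (by omega)).blk,
    bt X Y (by norm_num) (by rw [x1]; norm_num) (by decide) (by decide)⟩, fun p _ n y K hp hn h hK _ he => ?_⟩
  have n0 : n ≠ 0 := by rintro rfl; exact hn IsSquare.zero
  have p2 : p ≠ 2 := by omega
  have ix : Cx(y).index * p = 10200960 / K := by
    rw [← hG, ← Cx(y).index_mul_card, hK, ← mul_assoc, Nat.mul_div_cancel _ (Nat.pos_of_ne_zero (by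
      rintro rfl; exact Nat.card_pos.ne' hK))]
  have ba := bt X h (n := 5) (by omega) (by rw [x1]; rcases hp with rfl | rfl <;> norm_num) (by decide) n0
  have bb := bt Y h (n := 2) (by omega) (by rw [w1]; rcases hp with rfl | rfl <;> norm_num) (by decide) n0
  have E1 : ∀ {j : ZMod p}, j ≠ 0 → E y (j * j⁻¹) := fun hj => by rw [mul_inv_cancel₀ hj]; exact (EH h).one_mem
  have g1 := gW h hK one_ne_zero one_ne_zero
  have g2 := gW h hK n0 n0
  have g3 := gW h hK one_ne_zero n0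
  rw [if_pos (E1 one_ne_zero)] at g1
  rw [if_pos (E1 n0)] at g2
  have dW : ∀ (j : ZMod p) (i : Ir G), (dg i : ℤ) ∣ W y j i.1 * (10200960 / K : ℕ) := fun j i => by
    rw [W]; split_ifs
    · simp
    · exact ix ▸ czU h j i
  refine ⟨⟨(st nc p2 hn h hK he).blk, ba, bb, fun i => ⟨by rw [mul_comm, ← ix]; exact cz h 1 i, by rw [mul_comm, ← ix]; exact cz h n i⟩⟩,
    fun i => (W y (1 : ZMod p) i.1, W y n i.1), by simpa only [pow_two] using g1, by simpa only [pow_two] using g2, ?_,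
    fun i k => ?_, fun i k => ?_, fun i => ⟨dW 1 i, dW n i⟩, ?_, laW X h (by omega) x1 ba, laW Y h (by omega) w1 bb⟩
  · simp only [sub_sq, sum_add_distrib, sum_sub_distrib, mul_assoc, ← mul_sum]
    simp only [pow_two]
    simp only [E_iff h he hn] at g3
    split_ifs at g3 ⊢ <;> linarith
  · have b : i.1 ∈ B0 p G := by
      by_contra c
      exact k (by simp [uu, u, c])
    simp [W, b]
  · refine ⟨m y i.1 (0 : ZMod p), ?_⟩
    have k1 : u y (1 : ZMod p) i.1 = 0 := congrArg Prod.fst k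
    have k2 : u y n i.1 = 0 := congrArg Prod.snd k
    simp only [W_eq, k1, k2, U, dg, deg2 h p2 he hn i.1.2.isCharacter]
    ring
  · have a := linF h 1
    rw [sum_Ir] at a
    have t := W_triv (x := y) (1 : ZMod p)
    rw [W_eq, h.u_triv one_ne_zero] at t
    have b := (st nc p2 hn h hK he).blk.l1
    rw [deg_eq_of_eq (d := 1) (by simp [triv_apply])] at a
    simp only [uu, W_eq, sub_mul, sum_sub_distrib, dg] at b ⊢
    push_cast at a
    linarith
end CfH8.QC
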