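import Cfsg.Agent.OD.Pre
import Cfsg.Agent.H6.WP
import Cfsg.Agent.H6.Top
/-! A presentation of the double cover of `Sp₆(2)`. -/
set_option autoImplicit false
set_option maxRecDepth 100000
set_option Elab.async false
namespace CfH8.C3N
open CfH6
def il : List ℕ := [0, 1, 3, 2, 5, 4, 7, 6, 9, 8, 11, 10, 13, 12, 15, 14]
def urels : List (List ℕ) := [[2, 2, 0], [4, 4, 0], [6, 6, 0], [8, 8, 0], [10, 10, 0], [12, 12, 0], [14, 14, 0], [2, 4, 2, 5, 3, 5], [2, 6, 3, 7, 1], [2, 8, 3, 9, 1], [2, 10, 3, 11, 1], [2, 12, 3, 13, 1], [2, 14, 3, 15, 1], [4, 6, 4, 7, 5, 7], [4, 8, 5, 9, 1], [4, 10, 5, 11, 1], [4, 12, 5, 13, 1], [4, 14, 5, 15, 1], [6, 8, 6, 9, 7, 9], [6, 10, 6, 11, 7, 11], [6, 12, 7, 13, 1], [6, 14, 7, 15, 1], [8, 10, 9, 11, 1], [8, 12, 8, 13, 9, 13], [8, 14, 9, 15, 1], [10, 12, 11, 13, 1], [10, 14, 11, 15, 1], [12, 14, 12, 15, 13, 15],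 [1, 2, 1, 3], [1, 4, 1, 5], [1, 6, 1, 7], [1, 8, 1, 9], [1, 10, 1, 11], [1, 12, 1, 13], [1, 14, 1, 15], [0, 1, 0, 1]]
def cox : List ℕ := wpow [2, 4, 6, 8, 10, 12, 14] 9
def rels : List (List ℕ) := [0, 1] :: cox :: urels
abbrev G : Type := WP 16 il rels
def el : ℕ → G := wel 16 il rels
theorem hinv : ∀ x < 16, el (il.getD x 0) = (el x)⁻¹ := wp_inv _ _ _
theorem hrel : ∀ r ∈ rels, evw el r = 1 := wp_rel _ _ _
theorem htop : gensub el 16 = ⊤ := wp_top _ _ _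
theorem hhom {Γ : Type*} [Group Γ] (ev : ℕ → Γ) (h1 : ∀ x < 16, ev (il.getD x 0) = (ev x)⁻¹) (h2 : ∀ r ∈ rels, evw ev r = 1) :
    ∃ ρ : G →* Γ, ∀ x < 16, ρ (el x) = ev x := wp_hom _ _ _ (by decide +kernel) ev h1 h2
end CfH8.C3N
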