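import Cfsg.Agent.OD.Pre
import Cfsg.Agent.H8.C3U
import Cfsg.Agent.H6.MatG
import Cfsg.Agent.H2.Symp
import Cfsg.Agent.H2.Orders
import Cfsg.Prelude.Def_SporadicB
import Cfsg.Agent.OD.Helper8x3851817c64
import Cfsg.Agent.OD.Helper8xa50a5188d9
/-! Non-split double covers of `Sp₆(2)`. -/
set_option autoImplicit false
set_option maxRecDepth 100000
set_option Elab.async false
open CfH6 CfL CfH8.ON Subgroup
namespace CfH8.C3

section
variable {G : Type*} [Group G] {ev : ℕ → G}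

theorem subs_mem {k : ℕ} {subs : List (List ℕ)} (h : subs.all (allLt k) = true) :
    ∀ s ∈ subs, evw ev s ∈ gensub ev k := fun s hs => evw_mem (fun _ hx => mem_gensub hx) (allLt_all h s hs)

theorem finE6 (hinv : ∀ x < 16, ev (C3N.il.getD x 0) = (ev x)⁻¹) (hr : ∀ r ∈ C3N.urels, evw ev r = 1) {m : ℕ}
    (h : Finite (gensub ev 2) ∧ Nat.card (gensub ev 2) ≤ m) :
    Finite (gensub ev 14) ∧ Nat.card (gensub ev 14) ≤ 27 * (80 * (24 * m)) :=
  (E6_cov ev _ (fun x hx => hinv x (by omega)) (follows_sound ev hinv (n := 0) hr (by decide +kernel))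
    (subs_mem (k := 12) rfl)).card_le
  ((D5_cov ev _ (fun x hx => hinv x (by omega)) (follows_sound ev hinv (n := 0) hr (by decide +kernel))
    (subs_mem (k := 8) rfl)).card_le
  ((A3_cov ev _ (fun x hx => hinv x (by omega)) (follows_sound ev hinv (n := 0) hr (by decide +kernel))
    (subs_mem (k := 2) rfl)).card_le h))

theorem finE7 (hinv : ∀ x < 16, ev (C3N.il.getD x 0) = (ev x)⁻¹) (hr : ∀ r ∈ C3N.cox :: C3N.urels, evw ev r = 1) {m : ℕ}
    (h : Finite (gensub ev 2) ∧ Nat.card (gensub ev 2) ≤ m) :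
    Finite (gensub ev 16) ∧ Nat.card (gensub ev 16) ≤ 28 * (27 * (80 * (24 * m))) :=
  (E7c_cov ev _ hinv (follows_sound ev hinv (n := 0) hr (by decide +kernel)) (subs_mem (k := 14) rfl)).card_le
    (finE6 hinv (fun r h => hr r (List.mem_cons_of_mem _ h)) h)

theorem finG : Finite C3N.G ∧ Nat.card C3N.G ≤ 2903040 := fin_top (C3N.htop ▸ finE7 C3N.hinv
  (fun r h => C3N.hrel r (List.mem_cons_of_mem _ h)) ((P2_cov C3N.el ⊥ (fun x hx => C3N.hinv x (by omega))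
    (follows_sound _ C3N.hinv (n := 0) C3N.hrel (by decide +kernel)) forall_nil).card_le bot_fin))

theorem cox_sq (hinv : ∀ x < 16, ev (C3N.il.getD x 0) = (ev x)⁻¹) (hr : ∀ r ∈ C3N.urels, evw ev r = 1) :
    evw ev C3N.cox * evw ev C3N.cox * (ev 0 * ev 1) = 1 := by
  have i := wp_inv 16 C3N.il C3N.urels
  have r := wp_rel 16 C3N.il C3N.urels
  have f := (E7_cov _ _ i (follows_sound _ i (n := 0) r (by decide +kernel)) (subs_mem (k := 14) rfl)).card_le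
    (finE6 i r ((P4_cov _ ⊥ (fun x hx => i x (by omega)) (follows_sound _ i (n := 0) r (by decide +kernel))
      forall_nil).card_le bot_fin))
  rw [wp_top] at f
  replace f := fin_top f
  have := f.1
  obtain ⟨R⟩ := UT_act.rep
  obtain ⟨h1, k, hk, -, h3⟩ := base_of_chain (G := WP 16 C3N.il C3N.urels) R 8 Uch Uch_ok f.2 (k := 16) le_rfl
    (ks := [[]]) (w := C3N.cox ++ C3N.cox ++ [0, 1]) (by decide +kernel)
  obtain ⟨ρ, hρ⟩ := wp_hom 16 C3N.il C3N.urels (by decide +kernel) ev hinv hr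
  rw [List.mem_singleton.1 hk, List.append_nil] at h3
  have := hom_evw hρ _ h1
  replace h3 : evw (wel 16 C3N.il C3N.urels) (C3N.cox ++ C3N.cox ++ [0, 1]) = 1 := h3
  rw [h3, map_one] at this
  simpa [mul_assoc] using this.symm
end

section
open Matrix
abbrev Sp : Type := Matrix.symplecticGroup (Fin 3) (ZMod 2)
abbrev PM : MP := ⟨6, 6, 2, 1, 4, 1, 1, 0, 0⟩
def ms : List ℕ := [0x40001000001000000000040000000001000000000040000000001, 0x40000000001000000000040000040001000000000040000000001, 0x40001040001001040000040000000001000000000040000000001, 0x40000000001000000000040000000001000001000040000000001, 0x40000000001000000001040001000001000001000041000000001, 0x40000000001040040000040000000001000000000040000040041, 0x40000000001000000000040001000001000000000040000000001]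
def tw : List (List ℕ) := [[], [4, 2, 3, 5, 1, 2, 4, 3, 2, 1, 0, 1, 2, 3, 4, 2, 1, 5, 3, 2, 4], [3], [6, 2, 3, 5, 1, 2, 4, 3, 2, 1, 0, 1, 2, 3, 4, 2, 1, 5, 3, 2, 6], [1], [6, 5, 4, 3, 2, 1, 0, 1, 2, 3, 4, 5, 6], [5, 6, 3, 5, 2, 4, 3, 2, 1, 2, 3, 4, 2, 5, 3, 6, 5], [5, 3, 2, 1, 0, 1, 2, 3, 5], [6], [6, 4, 2, 3, 5, 1, 2, 4, 3, 2, 1, 0, 1, 2, 3, 4, 2, 1, 5, 3, 2, 4, 6], [4], [2, 3, 5, 1, 2, 4, 3, 2, 1, 0, 1, 2, 3, 4, 2, 1, 5, 3, 2], [2, 4, 3, 2, 1, 2, 3, 4, 2], [5, 4, 3, 2, 1, 0, 1, 2, 3, 4, 5], [0, 1, 2, 3, 5, 6, 4, 2, 3, 5, 1, 2, 4, 3, 2, 1, 0, 1, 2, 3, 4, 2, 1, 5, 3, 2, 4, 6, 5, 3, 2, 1, 0], [6, 5, 3, 2, 1, 0, 1, 2, 3, 5, 6], [3, 5, 6, 2, 3, 5, 1, 2, 4, 3, 2, 1, 0, 1, 2, 3, 4, 2, 1, 5, 3, 2, 6, 5, 3], [5], [5, 6, 2, 3, 5, 1, 2, 4, 3, 2, 1, 0, 1, 2, 3, 4, 2, 1, 5, 3, 2, 6, 5], [5, 3, 5], [2, 1, 0, 1, 2], [6, 5, 2, 4, 3, 2, 1, 2, 3, 4, 2, 5, 6], [3, 2, 1, 0, 1, 2, 3], [6, 3, 5, 2, 4, 3, 2, 1, 2,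 3, 4, 2, 5, 3, 6], [5, 6, 4, 2, 3, 5, 1, 2, 4, 3, 2, 1, 0, 1, 2, 3, 4, 2, 1, 5, 3, 2, 4, 6, 5], [6, 5, 6], [3, 5, 6, 4, 2, 3, 5, 1, 2, 4, 3, 2, 1, 0, 1, 2, 3, 4, 2, 1, 5, 3, 2, 4, 6, 5, 3], [6, 5, 3, 5, 6], [4, 3, 2, 1, 0, 1, 2, 3, 4], [5, 2, 4, 3, 2, 1, 2, 3, 4, 2, 5], [4, 2, 1, 0, 1, 2, 4], [3, 5, 2, 4, 3, 2, 1, 2, 3, 4, 2, 5, 3], [0], [6, 5, 4, 3, 2, 3, 4, 5, 6], [5, 6, 3, 5, 1, 2, 4, 3, 2, 1, 0, 1, 2, 3, 4, 2, 1, 5, 3, 6, 5], [5, 3, 2, 3, 5], [1, 0, 1], [6, 5, 4, 3, 2, 1, 2, 3, 4, 5, 6], [5, 6, 3, 5, 2, 4, 3, 2, 1, 0, 1, 2, 3, 4, 2, 5, 3, 6, 5], [5, 3, 2, 1, 2, 3, 5], [1, 2, 4, 3, 2, 1, 0, 1, 2, 3, 4, 2, 1], [5, 4, 3, 2, 3, 4, 5], [2, 3, 5, 6, 4, 2, 3, 5, 1, 2, 4, 3, 2, 1, 0, 1, 2, 3, 4, 2, 1, 5, 3, 2, 4, 6, 5, 3, 2], [6, 5, 3, 2, 3, 5, 6], [2, 4, 3, 2, 1, 0, 1, 2, 3, 4, 2], [5, 4, 3, 2, 1, 2, 3, 4, 5], [1, 2, 3, 5, 6, 4, 2, 3, 5, 1, 2, 4, 3, 2, 1, 0, 1, 2, 3, 4, 2, 1, 5, 3, 2, 4, 6, 5, 3,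 2, 1], [6, 5, 3, 2, 1, 2, 3, 5, 6], [2], [6, 5, 1, 2, 4, 3, 2, 1, 0, 1, 2, 3, 4, 2, 1, 5, 6], [3, 2, 3], [6, 3, 5, 1, 2, 4, 3, 2, 1, 0, 1, 2, 3, 4, 2, 1, 5, 3, 6], [2, 1, 2], [6, 5, 2, 4, 3, 2, 1, 0, 1, 2, 3, 4, 2, 5, 6], [3, 2, 1, 2, 3], [6, 3, 5, 2, 4, 3, 2, 1, 0, 1, 2, 3, 4, 2, 5, 3, 6], [4, 3, 2, 3, 4], [5, 1, 2, 4, 3, 2, 1, 0, 1, 2, 3, 4, 2, 1, 5], [4, 2, 4], [3, 5, 1, 2, 4, 3, 2, 1, 0, 1, 2, 3, 4, 2, 1, 5, 3], [4, 3, 2, 1, 2, 3, 4], [5, 2, 4, 3, 2, 1, 0, 1, 2, 3, 4, 2, 5], [4, 2, 1, 2, 4], [3, 5, 2, 4, 3, 2, 1, 0, 1, 2, 3, 4, 2, 5, 3]]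
def e6 : Fin 3 ⊕ Fin 3 ≃ Fin 6 := finSumFinEquiv
noncomputable abbrev sem : ℕ → Matrix (Fin 3 ⊕ Fin 3) (Fin 3 ⊕ Fin 3) (ZMod 2) := PM.toM (ZMod 2) e6
abbrev τ : Sp →* Matrix (Fin 3 ⊕ Fin 3) (Fin 3 ⊕ Fin 3) (ZMod 2) := (Matrix.symplecticGroup (Fin 3) (ZMod 2)).subtype
theorem D : Mdl PM.mm PM.okb PM.one sem := MP.mdl (P := PM) (ZMod 2) e6 (by decide) (by decide +kernel)
theorem hm : ∀ a < 7, PM.okb (lget ms 0 a) = true := by decide +kernel
theorem hs : ∀ x < 7, ∃ g, τ g = sem (lget ms 0 x) := by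
  have : ∀ x < 7, sem (lget ms 0 x) * J (Fin 3) (ZMod 2) * (sem (lget ms 0 x))ᵀ = J (Fin 3) (ZMod 2) := by
    decide +kernel
  exact fun x hx => ⟨⟨_, SymplecticGroup.mem_iff.mpr (this x hx)⟩, rfl⟩
noncomputable def A : ℕ → Sp := liftS τ sem ms
noncomputable def mw (w : List ℕ) : ℕ := mW PM.mm ms w PM.one

theorem A_val (w : List ℕ) (h : (allLt 7 w && Nat.blt 0 (mw w)) = true) : (evw A w).1 = sem (mw w - 1) := by
  rw [Bool.and_eq_true, Nat.blt_eq] at h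
  exact D.liftW hm hs h.1 (Nat.sub_add_cancel h.2).symm

noncomputable def cA (u v : List ℕ) : Bool :=
  (allLt 7 u && Nat.blt 0 (mw u)) && (allLt 7 v && Nat.blt 0 (mw v)) && Nat.beq (mw u) (mw v)

theorem A_eq (u v : List ℕ) (h : cA u v = true) : evw A u = evw A v := by
  simp only [cA, Bool.and_eq_true (_ && _), Bool.and_eq_true (_ && _ && _)] at h
  exact Subtype.ext (by rw [A_val u h.1.1, A_val v h.1.2, Nat.eq_of_beq_eq_true h.2])

def vec (n : ℕ) : Fin 3 ⊕ Fin 3 → ZMod 2 := fun i => ((n / 2 ^ (e6 i).1 % 2 : ℕ) : ZMod 2)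

theorem A_gen (K : Subgroup Sp) (h : ∀ i < 7, A i ∈ K) : K = ⊤ := by
  rw [eq_top_iff, ← CfH2.sp_closure_transvections, closure_le]
  rintro M ⟨w, c, e⟩
  have h1 : ∀ a b c d e f : ZMod 2, ∃ n < 64, Sum.elim ![a, b, c] ![d, e, f] = vec n := by decide +kernel
  have h2 : ∀ n < 64, (allLt 7 (tw.getD n []) && Nat.blt 0 (mw (tw.getD n []))) = true ∧
      Cfsg.sympTransvection 3 (vec n) 1 = sem (mw (tw.getD n []) - 1) := by decide +kernel
  have h3 : ∀ c : ZMod 2, c = 0 ∨ c = 1 := by decide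
  rcases h3 c with rfl | rfl
  · rw [show M = 1 from Subtype.ext (by simpa [Cfsg.sympTransvection] using e)]
    exact K.one_mem
  · obtain ⟨n, hn, e1⟩ := h1 (w (.inl 0)) (w (.inl 1)) (w (.inl 2)) (w (.inr 0)) (w (.inr 1)) (w (.inr 2))
    have e2 : w = vec n := by
      rw [← e1]
      ext (i | i) <;> fin_cases i <;> rfl
    obtain ⟨p1, p2⟩ := h2 n hn
    rw [show M = evw A (tw.getD n []) from Subtype.ext (by rw [e, e2, p2, A_val _ p1])]
    rw [Bool.and_eq_true] at p1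
    exact evw_mem h (allLt_sound p1.1)

theorem card_Sp6 : Nat.card Sp = 1451520 := by
  rw [CfH2.card_Sp (q := 2) (ZMod.card 2)]
  decide
end

section
variable {X : Type*} [Group X]

theorem rq1 {x p : X} (h : x * x = p) (p2 : p * p = 1) : x * (x * (p * 1)) = 1 := by
  rw [mul_one, ← mul_assoc, h, p2]
theorem rq2 {x y : X} (h : x * y * x = y * x * y) : x * (y * (x * (y⁻¹ * (x⁻¹ * (y⁻¹ * 1))))) = 1 := by
  rw [← mul_assoc, ← mul_assoc, h]; group
theorem rq3 {x y q : X} (h : x * y = q * (y * x)) (q2 : q * q = 1) : x * (y * (x⁻¹ * (y⁻¹ * (q * 1)))) = 1 := by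
  rw [← mul_assoc, h, mul_one]
  calc _ = q * q := by group
    _ = 1 := q2
theorem rq4 {x q : X} (h : ∀ g, q * g = g * q) (q2 : q * q = 1) : q * (x * (q * (x⁻¹ * 1))) = 1 := by
  rw [← mul_assoc x, ← h x, mul_assoc, ← mul_assoc q, q2]; group
theorem sq_br {x y p : X} (hb : x * y * x = y * x * y) (h : x * x = p) (hp : ∀ g, p * g = g * p) : y * y = p := by
  have : y = x * y * x * (x * y)⁻¹ := by rw [hb]; group
  calc y * y = x * y * (x * x) * (x * y)⁻¹ := by nth_rewrite 1 2 [this]; group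
    _ = p := by rw [h, ← hp]; group

/-- a central involution generating the kernel -/
structure Ker (π : X →* Sp) (z : X) : Prop where
  cen : ∀ g, z * g = g * z
  z2 : z * z = 1
  z1 : z ≠ 1
  ker : ∀ g, π g = 1 ↔ g = 1 ∨ g = z
  sur : Function.Surjective π

namespace Ker
variable {π : X →* Sp} {z : X} (h : Ker π z)
include h

theorem eq {a b : X} (e : π a = π b) : a = b ∨ a = z * b := by
  rcases (h.ker (a * b⁻¹)).1 (by rw [map_mul, map_inv, e, mul_inv_cancel]) with e | e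
  exacts [Or.inl (mul_inv_eq_one.1 e), Or.inr (mul_inv_eq_iff_eq_mul.1 e)]

theorem c1 {q : X} (e : q = 1 ∨ q = z) : (∀ g, q * g = g * q) ∧ q * q = 1 := by
  rcases e with rfl | rfl
  exacts [⟨by simp, by simp⟩, ⟨h.cen, h.z2⟩]

theorem pz (x : X) : π (z * x) = π x := by rw [map_mul, (h.ker z).2 (Or.inr rfl), one_mul]

theorem br_z {x y : X} (hb : x * y * x = y * x * y) : z * x * (z * y) * (z * x) = z * y * (z * x) * (z * y) := by
  have k : ∀ a b c : X, z * a * (z * b) * (z * c) = z * (a * b * c) := fun a b c => by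
    rw [mul_assoc z a, ← mul_assoc a, ← h.cen a, mul_assoc z a, ← mul_assoc z, h.z2, one_mul, ← mul_assoc, ← h.cen,
      mul_assoc]
  rw [k, k, hb]

theorem adj {x : X} {i : ℕ} (hx : π x = A i) (j : ℕ) (e : cA [i, j, i] [j, i, j] = true) :
    ∃ y, π y = A j ∧ x * y * x = y * x * y := by
  obtain ⟨y, hy⟩ := h.sur (A j)
  rcases h.eq (a := x * y * x) (b := y * x * y) (by simpa [hx, hy, mul_assoc] using A_eq _ _ e) with e | e
  · exact ⟨y, hy, e⟩
  · refine ⟨z * y, (h.pz y).trans hy, ?_⟩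
    calc x * (z * y) * x = z * (x * y * x) := by rw [← mul_assoc x, ← h.cen x]; simp only [mul_assoc]
      _ = z * (z * (y * x * y)) := by rw [e]
      _ = z * y * x * (z * y) := by
        rw [mul_assoc z y, mul_assoc z, ← mul_assoc (y * x), ← h.cen (y * x), mul_assoc z (y * x)]

theorem cm {x y : X} {i j : ℕ} (hx : π x = A i) (hy : π y = A j) (e : cA [i, j] [j, i] = true) :
    ∃ q, (q = 1 ∨ q = z) ∧ x * y = q * (y * x) := by
  rcases h.eq (a := x * y) (b := y * x) (by simpa [hx, hy] using A_eq _ _ e) with e | e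
  exacts [⟨1, Or.inl rfl, by rw [e, one_mul]⟩, ⟨z, Or.inr rfl, e⟩]

theorem sym {x y q : X} (hq : q = 1 ∨ q = z) (e : x * y = q * (y * x)) : y * x = q * (x * y) := by
  rw [e, ← mul_assoc, (h.c1 hq).2, one_mul]

theorem mv {x y k q : X} {j l : ℕ} (hq : q = 1 ∨ q = z) (hb : x * y * x = y * x * y) (e : x * k = q * (k * x))
    (hy : π y = A j) (hk : π k = A l) (c : cA [j, l] [l, j] = true) : y * k = q * (k * y) := by
  obtain ⟨r, hr, e'⟩ := h.cm hy hk c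
  obtain ⟨q1, q2⟩ := h.c1 hq
  obtain ⟨r1, r2⟩ := h.c1 hr
  have k3 : ∀ a b u v : X, (∀ g, u * g = g * u) → (∀ g, v * g = g * v) → u * u = 1 → a * k = u * (k * a) →
      b * k = v * (k * b) → a * b * a * k = v * (k * (a * b * a)) := fun a b u v hu hv u2 ea eb => by
    calc a * b * a * k = a * (b * (a * k)) := by simp only [mul_assoc]
      _ = u * (a * (b * k)) * a := by rw [ea, ← mul_assoc b, ← hu b, mul_assoc u, ← mul_assoc a, ← hu a]; group
      _ = u * (v * (a * k) * b) * a := by rw [eb, ← mul_assoc a, ← hv a]; group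
      _ = v * (u * u) * (k * (a * b * a)) := by rw [ea, ← mul_assoc u, ← mul_assoc u, ← hv u]; group
      _ = _ := by rw [u2, mul_one]
  have := k3 x y q r q1 r1 q2 e e'
  rw [hb, k3 y x r q r1 q1 r2 e' e] at this
  rw [e', mul_right_cancel this]

theorem fin [Finite X] (hc : Nat.card X = 2903040) (hn : ∀ L : Subgroup X, ¬ (center X).IsComplement' L)
    (hz : ∀ g ∈ center X, g = 1 ∨ g = z) {a b c d e f g : X} (ha : π a = A 0) (hb : π b = A 1) (hc' : π c = A 2) (hd : π d = A 3)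
    (he : π e = A 4) (hf : π f = A 5) (hg : π g = A 6) (ab : a * b * a = b * a * b) (bc : b * c * b = c * b * c)
    (cd : c * d * c = d * c * d) (ce : c * e * c = e * c * e) (df : d * f * d = f * d * f)
    (fg : f * g * f = g * f * g) (cox : (a * (b * (c * (d * (e * (f * g)))))) ^ 9 = 1) :
    ∃ ψ : C3N.G →* X, Function.Bijective ψ ∧ ψ (C3N.el 0) = z := by
  obtain ⟨q, hq, ac⟩ := h.cm ha hc' (by decide +kernel)
  have hp := (h.ker (a * a)).1 (by simpa [ha] using A_eq [0, 0] [] (by decide +kernel))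
  generalize a2 : a * a = p at hp
  obtain ⟨p1, p2⟩ := h.c1 hp
  obtain ⟨q1, q2⟩ := h.c1 hq
  have b2 := sq_br ab a2 p1
  have c2 := sq_br bc b2 p1
  have d2 := sq_br cd c2 p1
  have f2 := sq_br df d2 p1
  have ca := h.sym hq ac
  have da := h.mv hq cd ca hd ha (by decide +kernel)
  have ea := h.mv hq ce ca he ha (by decide +kernel)
  have fa := h.mv hq df da hf ha (by decide +kernel)
  have ga := h.mv hq fg fa hg ha (by decide +kernel)
  have ad := h.sym hq da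
  have ae := h.sym hq ea
  have af := h.sym hq fa
  have ag := h.sym hq ga
  have bd := h.mv hq ab ad hb hd (by decide +kernel)
  have be := h.mv hq ab ae hb he (by decide +kernel)
  have bf := h.mv hq ab af hb hf (by decide +kernel)
  have bg := h.mv hq ab ag hb hg (by decide +kernel)
  have cf := h.mv hq bc bf hc' hf (by decide +kernel)
  have cg := h.mv hq bc bg hc' hg (by decide +kernel)
  have dg := h.mv hq cd cg hd hg (by decide +kernel)
  have eg := h.mv hq ce cg he hg (by decide +kernel)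
  have fe := h.mv hq fg.symm (h.sym hq eg) hf he (by decide +kernel)
  have de := h.mv hq df.symm fe hd he (by decide +kernel)
  let ev : ℕ → X := fun l => [p, q, a, a⁻¹, b, b⁻¹, c, c⁻¹, d, d⁻¹, e, e⁻¹, f, f⁻¹, g, g⁻¹].getD l 1
  have hinv : ∀ x < 16, ev (C3N.il.getD x 0) = (ev x)⁻¹ := by
    intro x hx
    interval_cases x
    exacts [eq_inv_of_mul_eq_one_left p2, eq_inv_of_mul_eq_one_left q2, rfl, (inv_inv _).symm, rfl, (inv_inv _).symm,
      rfl, (inv_inv _).symm, rfl, (inv_inv _).symm, rfl, (inv_inv _).symm, rfl, (inv_inv _).symm, rfl, (inv_inv _).symm]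
  have hr : ∀ r ∈ C3N.urels, evw ev r = 1 := by
    simp only [C3N.urels, List.forall_mem_cons, evw_cons, evw_nil]
    exact ⟨rq1 a2 p2, rq1 b2 p2, rq1 c2 p2, rq1 d2 p2, rq1 (sq_br ce c2 p1) p2, rq1 f2 p2, rq1 (sq_br fg f2 p1) p2,
      rq2 ab, rq3 ac q2, rq3 ad q2, rq3 ae q2, rq3 af q2, rq3 ag q2, rq2 bc, rq3 bd q2, rq3 be q2, rq3 bf q2, rq3 bg q2,
      rq2 cd, rq2 ce, rq3 cf q2, rq3 cg q2, rq3 de q2, rq2 df, rq3 dg q2, rq3 (h.sym hq fe) q2, rq3 eg q2, rq2 fg,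
      rq4 q1 q2, rq4 q1 q2, rq4 q1 q2, rq4 q1 q2, rq4 q1 q2, rq4 q1 q2, rq4 q1 q2,
      by change p * (q * (p * (q * 1))) = 1; rw [← mul_assoc q, q1 p, mul_one, mul_assoc, q2, mul_one, p2], forall_nil⟩
  have hx : evw ev C3N.cox = 1 := by rw [C3N.cox, evw_wpow]; simpa [ev] using cox
  have pq : p * q = 1 := by
    have := cox_sq hinv hr
    rw [hx, one_mul, one_mul] at this
    exact this
  have gen : ∀ x : X, x ∈ gensub ev 16 ∨ z * x ∈ gensub ev 16 := fun x => by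
    have : (gensub ev 16).map π = ⊤ := A_gen _ fun i hi => by
      interval_cases i
      exacts [⟨a, mem_gensub (x := 2) (by decide), ha⟩, ⟨b, mem_gensub (x := 4) (by decide), hb⟩,
        ⟨c, mem_gensub (x := 6) (by decide), hc'⟩, ⟨d, mem_gensub (x := 8) (by decide), hd⟩,
        ⟨e, mem_gensub (x := 10) (by decide), he⟩, ⟨f, mem_gensub (x := 12) (by decide), hf⟩,
        ⟨g, mem_gensub (x := 14) (by decide), hg⟩]
    obtain ⟨y, hy, e⟩ := this.ge (mem_top (π x))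
    rcases h.eq e with rfl | rfl
    exacts [Or.inl hy, Or.inr hy]
  rcases hp with rfl | rfl
  · rw [one_mul] at pq
    subst pq
    have k := (finE7 hinv (forall_cons hx hr) ((P1_cov ev ⊥ (fun x hx => hinv x (by omega))
      (by simp [P1r, ev]) forall_nil).card_le bot_fin)).2
    have zK : z ∉ gensub ev 16 := fun zK => by
      have : gensub ev 16 = ⊤ := eq_top_iff.2 fun x _ => (gen x).elim id fun k => (mul_mem_cancel_left zK).1 k
      rw [this, card_top, hc] at k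
      omega
    refine (hn (gensub ev 16) (isComplement'_of_disjoint_and_mul_eq_univ ?_ ?_)).elim
    · exact disjoint_def.2 fun h1 h2 => (hz _ h1).resolve_right fun e => zK (e ▸ h2)
    · refine Set.eq_univ_of_forall fun x => (gen x).elim (fun k => ⟨1, one_mem _, x, k, one_mul x⟩) fun k =>
        ⟨z, mem_center_iff.2 fun g => (h.cen g).symm, _, k, ?_⟩
      change z * (z * x) = x
      rw [← mul_assoc, h.z2, one_mul]
  · obtain ⟨ψ, hψ⟩ := C3N.hhom ev hinv (forall_cons (by simpa [ev] using pq) (forall_cons hx hr))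
    have := finG.1
    have zK : p ∈ gensub ev 16 := mem_gensub (x := 0) (by decide)
    have su : Function.Surjective ψ := MonoidHom.range_eq_top.1 (by
      rw [range_hom hψ C3N.htop]
      exact eq_top_iff.2 fun x _ => (gen x).elim id fun k => (mul_mem_cancel_left zK).1 k)
    exact ⟨ψ, su.bijective_of_nat_card_le (hc ▸ finG.2), hψ 0 (by decide)⟩
end Ker

theorem cover_iso [Finite X] (h : Cfsg.IsNonsplitDoubleCover X Sp) :
    ∃ ψ : C3N.G →* X, Function.Bijective ψ ∧ ψ (C3N.el 0) ≠ 1 ∧ ∀ g ∈ center X, g = 1 ∨ g = ψ (C3N.el 0) := by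
  obtain ⟨h1, ⟨e⟩, h3⟩ := h
  obtain ⟨z, z1, hz⟩ := (Nat.card_eq_two_iff' (1 : center X)).1 h1
  have hz' : ∀ g ∈ center X, g = 1 ∨ g = z := fun g hg => by
    by_cases c : g = 1
    · exact Or.inl c
    · exact Or.inr (congrArg Subtype.val (hz ⟨g, hg⟩ fun e => c (congrArg Subtype.val e)))
  have z1' : (z : X) ≠ 1 := fun e => z1 (Subtype.ext e)
  let π : X →* Sp := e.toMonoidHom.comp (QuotientGroup.mk' _)
  have K : Ker π z := ⟨fun g => (mem_center_iff.1 z.2 g).symm,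
    (hz' _ (mul_mem z.2 z.2)).resolve_right fun e => z1' (mul_eq_left.1 e), z1', fun g => by
      simp only [π, MonoidHom.comp_apply, MulEquiv.coe_toMonoidHom, EmbeddingLike.map_eq_one_iff, QuotientGroup.mk'_apply,
        QuotientGroup.eq_one_iff]
      exact ⟨hz' g, by rintro (rfl | rfl); exacts [one_mem _, z.2]⟩, e.surjective.comp (QuotientGroup.mk'_surjective _)⟩
  have hc : Nat.card X = 2903040 := by
    rw [card_eq_card_quotient_mul_card_subgroup (center X), h1, Nat.card_congr e.toEquiv, card_Sp6]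
  obtain ⟨a, ha⟩ := K.sur (A 0)
  obtain ⟨b, hb, ab⟩ := K.adj ha 1 (by decide +kernel)
  obtain ⟨c, hc', bc⟩ := K.adj hb 2 (by decide +kernel)
  obtain ⟨d, hd, cd⟩ := K.adj hc' 3 (by decide +kernel)
  obtain ⟨e', he, ce⟩ := K.adj hc' 4 (by decide +kernel)
  obtain ⟨f, hf, df⟩ := K.adj hd 5 (by decide +kernel)
  obtain ⟨g, hg, fg⟩ := K.adj hf 6 (by decide +kernel)
  have : ∃ ψ : C3N.G →* X, Function.Bijective ψ ∧ ψ (C3N.el 0) = z := by
    rcases (K.ker ((a * (b * (c * (d * (e' * (f * g)))))) ^ 9)).1 (by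
      have := A_eq (wpow [0, 1, 2, 3, 4, 5, 6] 9) [] (by decide +kernel)
      rw [evw_wpow] at this
      simpa [ha, hb, hc', hd, he, hf, hg] using this) with k | k
    · exact K.fin hc h3 hz' ha hb hc' hd he hf hg ab bc cd ce df fg k
    · refine K.fin hc h3 hz' ((K.pz _).trans ha) ((K.pz _).trans hb) ((K.pz _).trans hc') ((K.pz _).trans hd)
        ((K.pz _).trans he) ((K.pz _).trans hf) ((K.pz _).trans hg) (K.br_z ab) (K.br_z bc) (K.br_z cd) (K.br_z ce)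
        (K.br_z df) (K.br_z fg) ?_
      have k2 : ∀ u : X, z * (z * u) = u := fun u => by rw [← mul_assoc, K.z2, one_mul]
      have k4 : ∀ u v : X, u * (z * v) = z * (u * v) := fun u v => by rw [← mul_assoc, ← K.cen u, mul_assoc]
      rw [← mul_one (z * g)]
      simp only [mul_assoc, k4, mul_one]
      rw [k2, k2, k2, (Commute.mul_pow (K.cen _)), k, ← pow_succ,
        show 9 + 1 = 2 * 5 from rfl, pow_mul, pow_two, K.z2, one_pow]
  obtain ⟨ψ, p1, p2⟩ := this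
  exact ⟨ψ, p1, p2 ▸ z1', p2 ▸ hz'⟩
end

end CfH8.C3
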