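import Cfsg.Agent.OD.Pre
import Cfsg.Agent.H8.C32
import Cfsg.Agent.H8.C3G
import Cfsg.Agent.H8.C3F
import Cfsg.Agent.OD.Helper8xac03f70451
/-! Groups with an involution centraliser `2.Sp₆(2)`: the amalgam. -/
set_option autoImplicit false
set_option maxRecDepth 100000
set_option Elab.async false
namespace CfH8.C3
open CfH6 CfL CfH8.ON Subgroup CfH9

variable {G : Type*} [Group G]

structure Cen (ψ : N →* G) : Prop where
  inj : Function.Injective ψ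
  sur : ∀ g, g * ψ tt = ψ tt * g → ∃ x, ψ x = g

theorem com (ψ : N →* G) (x : N) : ψ x * ψ tt = ψ tt * ψ x := by rw [← map_mul, ttc, map_mul]
theorem tt1 : tt ≠ 1 := cNe_ok _ [] (by decide +kernel)
theorem ιt : ιQ tQ = tt := ιQ_eq _ _ (by decide +kernel)
theorem ιs : ιQ sQ = ss := ιQ_eq _ _ (by decide +kernel)
theorem ιp : ιQ pQ = ss * tt := (ιQ_eq _ (sw ++ [0]) (by decide +kernel)).trans (evw_append ..)
theorem comQ (ψ : N →* G) (x : QG) : ψ (ιQ x) * ψ ss = ψ ss * ψ (ιQ x) := by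
  rw [← map_mul, mem_Cx.1 (cls.1.le ⟨x, rfl⟩), map_mul]

structure Th (ψ : N →* G) (γ : G) (a b c : QG) : Prop where
  ts : γ * ψ tt * γ⁻¹ = ψ ss
  st : γ * ψ ss * γ⁻¹ = ψ tt
  h0 : γ * ψ (ιQ j0) * γ⁻¹ = ψ (ιQ a)
  h1 : γ * ψ (ιQ j1) * γ⁻¹ = ψ (ιQ b)
  h2 : γ * ψ (ιQ j2) * γ⁻¹ = ψ (ιQ c)

def defs : List (List ℕ) := [[0], [1], [2], [2, 0, 1, 0, 1, 0, 2], [1, 2, 0, 2, 0, 1, 0, 1, 0, 2, 0, 2, 1], [0, 2, 2, 0, 1, 0, 1, 0, 2, 2, 1, 2, 0, 2, 0, 1, 0, 1, 0, 2, 0, 2, 1, 2, 0, 1, 0, 1, 0, 2], [0, 1, 0, 0, 2, 2, 0, 1, 0, 1, 0, 2, 2, 1, 2, 0, 2, 0, 1, 0, 1, 0, 2, 0, 2, 1, 2, 0, 1, 0, 1, 0, 2, 0, 0, 2, 2, 0, 1, 0, 1, 0, 2, 2, 1, 2, 0, 2, 0, 1, 0, 1, 0, 2, 0, 2, 1, 2, 0, 1, 0, 1, 0, 2, 0], [0, 1, 2, 1, 2, 0, 2, 0, 1, 0, 1, 0, 2, 0, 2, 1, 1, 1, 2, 0, 2, 0, 1, 0, 1, 0, 2, 0, 2, 1]]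
noncomputable def thf (a b c x : QG) : QG := evw (ev3 a b c) (subst defs (QT.wl x.1))
noncomputable def stp (w : List ℕ) (a b c : QG) (x y : ℕ) : Bool :=
  allLt 16 w && cE (w ++ qw (thf a b c (ix QT_g x)) ++ invw C3N.il w) (qw (ix QT_g y))
noncomputable def st3 (w : List ℕ) (a b c : QG) (x0 x1 x2 x3 : ℕ) : Bool :=
  stp w a b c x0 x1 && stp w a b c x1 x2 && stp w a b c x2 x3
def cw : List ℕ := [2, 6, 4, 2, 8, 6, 4, 10, 6]
def evG (ψ : N →* G) (γ : G) : ℕ → G := fun k => if k < 16 then ψ (el k) else γ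
def ilG : List ℕ := C3N.il ++ [16]

theorem evG_w (ψ : N →* G) (γ : G) (w : List ℕ) (h : allLt 16 w = true) : evw (evG ψ γ) w = ψ (evw el w) :=
  (hom_evw (fun _ hx => (if_pos hx).symm) w (allLt_sound h)).symm

theorem evG_inv (ψ : N →* G) {γ : G} (h : γ * γ = 1) : ∀ x < 17, evG ψ γ (ilG.getD x 0) = (evG ψ γ x)⁻¹ := fun x hx => by
  by_cases c : x < 16
  · have : ∀ x < 16, ilG.getD x 0 = C3N.il.getD x 0 ∧ C3N.il.getD x 0 < 16 := by decide
    rw [(this x c).1, evG, evG, if_pos (this x c).2, if_pos c, ← map_inv, ← C3N.hinv x c]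
  · obtain rfl : x = 16 := by omega
    exact (sinv h).symm

theorem evG_3 (ψ : N →* G) (γ : G) (u v : List ℕ) (hu : allLt 16 u = true) (hv : allLt 16 v = true)
    (hv' : allLt 16 (invw C3N.il v) = true) (h : (ψ (evw el u) * γ) ^ 3 = ψ (evw el v)) :
    evw (evG ψ γ) (wpow (u ++ [16]) 3 ++ invw C3N.il v) = 1 := by
  rw [evw_append, evw_wpow, evw_append, evG_w _ _ _ hu, evG_w _ _ _ hv', iv_ok _ hv, map_inv, ← h]
  simp [evG]

namespace Th
variable {ψ : N →* G} {γ : G} {a b c : QG} (h : Th ψ γ a b c)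
include h

theorem word (w : List ℕ) : γ * ψ (ιQ (evw (ev3 j0 j1 j2) w)) * γ⁻¹ = ψ (ιQ (evw (ev3 a b c) w)) := by
  induction w with
  | nil => simp
  | cons l w ih =>
    have : γ * ψ (ιQ (ev3 j0 j1 j2 l)) * γ⁻¹ = ψ (ιQ (ev3 a b c l)) := by
      rcases l with _ | _ | _ | l
      exacts [h.h0, h.h1, h.h2, by simp [ev3]]
    simp only [evw_cons, map_mul, ← ih, ← this]
    group

theorem all (x : QG) : γ * ψ (ιQ x) * γ⁻¹ = ψ (ιQ (thf a b c x)) := by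
  have : ∀ k < 8, byW (ev3 j0 j1 j2) defs k = tel QT_g k := by decide +kernel
  rw [thf, ← h.word, evw_subst, evw_congr this (QT_g.w_spec x.2).1, evw_tel_wl]

theorem cj (k : QG) {a' b' c' : QG} (e0 : k * a = a' * k) (e1 : k * b = b' * k) (e2 : k * c = c' * k) :
    Th ψ (ψ (ιQ k) * γ) a' b' c' := by
  have p : ∀ x y z : G, γ * x * γ⁻¹ = y → ψ (ιQ k) * y = z * ψ (ιQ k) → ψ (ιQ k) * γ * x * (ψ (ιQ k) * γ)⁻¹ = z :=
    fun x y z e e' => by rw [← mul_inv_eq_iff_eq_mul.2 e', ← e]; group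
  exact ⟨p _ _ _ h.ts (comQ ..), p _ _ _ h.st (com ..), p _ _ _ h.h0 (by simp only [← map_mul, e0]),
    p _ _ _ h.h1 (by simp only [← map_mul, e1]), p _ _ _ h.h2 (by simp only [← map_mul, e2])⟩

theorem step {w : List ℕ} {x y : ℕ} (e : stp w a b c x y = true) :
    ψ (evw el w) * γ * ψ (ιQ (ix QT_g x)) * (ψ (evw el w) * γ)⁻¹ = ψ (ιQ (ix QT_g y)) := by
  rw [ιQ_w (ix QT_g y), ← cj_ok _ _ _ e, ← ιQ_w, map_mul, map_mul, map_inv, ← h.all]; group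

theorem step3 {w : List ℕ} {x0 x1 x2 x3 : ℕ} (e : st3 w a b c x0 x1 x2 x3 = true) :
    (ψ (evw el w) * γ) ^ 3 * ψ (ιQ (ix QT_g x0)) = ψ (ιQ (ix QT_g x3)) * (ψ (evw el w) * γ) ^ 3 := by
  simp only [st3, Bool.and_eq_true] at e
  rw [← h.step e.2, ← h.step e.1.2, ← h.step e.1.1]
  generalize ψ (evw el w) * γ = X
  rw [pow_succ, pow_two]; group

theorem bw (h2 : γ * γ = 1) (x : QG) (u v : List ℕ) (e : (cE (qw x) u && cE (qw (thf a b c x)) v &&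
    (allLt 16 u && allLt 16 v && allLt 16 (invw C3N.il v))) = true) :
    evw (evG ψ γ) ([16] ++ u ++ [16] ++ invw C3N.il v) = 1 := by
  simp only [Bool.and_eq_true] at e
  have := h.all x
  rw [ιQ_eq _ _ e.1.1, ιQ_eq _ _ e.1.2, sinv h2] at this
  rw [evw_append, evw_append, evw_append, evG_w _ _ _ e.2.1.1, evG_w _ _ _ e.2.2, iv_ok _ e.2.1.2, map_inv, ← this]
  simp [evG]
end Th

namespace Cen
variable {ψ : N →* G} (h : Cen ψ)
include h

theorem t1 : ψ tt ≠ 1 := fun e => tt1 (h.inj (e.trans (map_one ψ).symm))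
omit h in
theorem t2 : ψ tt * ψ tt = 1 := by rw [← map_mul, tt2, map_one]

theorem inv {w : G} (c : w * ψ tt = ψ tt * w) (w2 : w * w = 1) (w1 : w ≠ 1) :
    w = ψ tt ∨ (∃ k, ψ k * ψ ss * (ψ k)⁻¹ = w) ∨ ∃ k, ψ k * ψ uu * (ψ k)⁻¹ = w := by
  obtain ⟨x, rfl⟩ := h.sur w c
  rcases invN x (h.inj (by rw [map_mul, w2, map_one])) with rfl | rfl | p | p
  · exact absurd (map_one ψ) w1
  · exact Or.inl rfl
  all_goals obtain ⟨k, rfl⟩ := isConj_iff.1 p
  · exact Or.inr (Or.inl ⟨k, by simp⟩)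
  · exact Or.inr (Or.inr ⟨k, by simp⟩)

theorem ntu : ¬ IsConj (ψ tt) (ψ uu) := fun c => by
  obtain ⟨g, hg⟩ := isConj_iff.1 c.symm
  have key : ∀ (k b m : N), ψ k * ψ b * (ψ k)⁻¹ = g * ψ tt * g⁻¹ → m * m = tt → m * b = b * m → False := fun k b m e e1 e2 => by
    obtain ⟨x, hx⟩ := h.sur (g⁻¹ * ψ (k * m * k⁻¹) * g⁻¹⁻¹) (by
      have := comm_cj g⁻¹ (comm_cj (ψ k) (show ψ m * ψ b = ψ b * ψ m by rw [← map_mul, e2, map_mul]))
      rw [e] at this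
      simpa [mul_assoc] using this)
    refine sqN x (h.inj ?_)
    rw [map_mul, hx, conj_mul, ← map_mul, conj_mul, e1, cj1 (ttc k), ← hg]
    group
  have c' : IsConj (ψ tt) (g * ψ tt * g⁻¹) := isConj_mk g rfl
  rcases h.inv (w := g * ψ tt * g⁻¹) (by nth_rewrite 2 3 [← hg]; exact comm_cj g (com ψ uu).symm) (sq_of_isConj c' t2)
    (ne_one_of_isConj c' h.t1) with e | ⟨k, e⟩ | ⟨k, e⟩
  · exact uut (h.inj (conj_injective (hg.trans e.symm)))
  · exact key k _ (evw el [8]) e ((evw_append ..).symm.trans (cE_ok _ _ (by decide +kernel))) (cm_ok _ _ (by decide +kernel))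
  · exact key k _ (evw el [4]) e ((evw_append ..).symm.trans (cE_ok _ _ (by decide +kernel))) (cm_ok _ _ (by decide +kernel))

theorem clsG {w : G} (c : w * ψ tt = ψ tt * w) (cw : IsConj (ψ tt) w) (n : w ≠ ψ tt) : ∃ k, ψ k * ψ ss * (ψ k)⁻¹ = w :=
  ((h.inv c (sq_of_isConj cw t2) (ne_one_of_isConj cw h.t1)).resolve_left n).resolve_right fun ⟨k, e⟩ =>
    h.ntu (cw.trans (isConj_mk _ e).symm)

theorem swap [Finite G] (hO : Cfsg.oddCore G = ⊥) (hZ : center G = ⊥) :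
    ∃ γ : G, γ * ψ tt * γ⁻¹ = ψ ss ∧ γ * ψ ss * γ⁻¹ = ψ tt := by
  have c : IsConj (ψ tt) (ψ ss) := by
    by_contra hn
    have := CfH4.zstar G (ψ tt) (orderOf_eq_prime (by rw [pow_two, t2]) h.t1) fun g hg => by
      by_contra hne
      obtain ⟨k, e⟩ := h.clsG hg.symm (isConj_mk g rfl) hne
      exact hn ((isConj_mk g rfl).trans (isConj_mk _ e).symm)
    refine h.t1 (mem_bot.1 (hZ ▸ mem_center_iff.2 fun g => cj2 (mul_inv_eq_one.1 (mem_bot.1 ?_))))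
    exact hO ▸ this g
  obtain ⟨g, hg⟩ := isConj_iff.1 c.symm
  obtain ⟨k, e⟩ := h.clsG (w := g * ψ tt * g⁻¹) (by nth_rewrite 2 3 [← hg]; exact comm_cj g (com ψ ss).symm)
    (isConj_mk g rfl) fun e => sst (h.inj (conj_injective (hg.trans e.symm)))
  refine ⟨(ψ k)⁻¹ * g, ?_, ?_⟩
  · rw [mul_inv_rev, inv_inv, mul_assoc _ g, mul_assoc, ← mul_assoc _ g⁻¹, ← e]; group
  · rw [mul_inv_rev, inv_inv, mul_assoc _ g, mul_assoc, ← mul_assoc _ g⁻¹, hg, ← com, inv_mul_cancel_left]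

theorem injQ {a b : QG} (e : ψ (ιQ a) = ψ (ιQ b)) : a = b := ιQ_inj (h.inj e)

theorem memQ {g : G} (e1 : g * ψ tt = ψ tt * g) (e2 : g * ψ ss = ψ ss * g) : ∃ r, ψ (ιQ r) = g := by
  obtain ⟨x, rfl⟩ := h.sur g e1
  obtain ⟨r, rfl⟩ := cls.1.ge (mem_Cx.2 (h.inj (by rw [map_mul, map_mul, e2])) : x ∈ Cx(ss))
  exact ⟨r, rfl⟩

theorem rel {γ : G} {a b c : QG} (T : Th ψ γ a b c) (w : List ℕ) (e : evw (ev3 j0 j1 j2) w = 1) :
    evw (ev3 a b c) w = 1 := h.injQ (by rw [← T.word, e]; simp)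

theorem exTh [Finite G] (hO : Cfsg.oddCore G = ⊥) (hZ : center G = ⊥) :
    ∃ γ, ∃ v ∈ [1, tQ, sQ, pQ], Th ψ γ (j0 * v) (a1 * v) (a2 * v) := by
  obtain ⟨γ, h1, h2⟩ := h.swap hO hZ
  have m : ∀ x, ∃ y, ψ (ιQ y) = γ * ψ (ιQ x) * γ⁻¹ := fun x =>
    h.memQ (by rw [← h2]; exact comm_cj γ (comQ ..)) (by rw [← h1]; exact comm_cj γ (com ..))
  obtain ⟨a, ha⟩ := m j0
  obtain ⟨b, hb⟩ := m j1
  obtain ⟨c, hc⟩ := m j2
  have T : Th ψ γ a b c := ⟨h1, h2, ha.symm, hb.symm, hc.symm⟩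
  have sq : ∀ {γ : G} {a b c : QG}, Th ψ γ a b c → a * a = 1 ∧ b * b = 1 ∧ c * c = 1 := fun T =>
    ⟨by simpa [ev3] using h.rel T [0, 0] (by decide +kernel), by simpa [ev3] using h.rel T [1, 1] (by decide +kernel),
      by simpa [ev3] using h.rel T [2, 2] (by decide +kernel)⟩
  have T' := fun a' e => T.cj (wQ a) (a' := a') e (inv_mul_cancel_right _ _).symm (inv_mul_cancel_right _ _).symm
  generalize wQ a * b * (wQ a)⁻¹ = b at T'
  generalize wQ a * c * (wQ a)⁻¹ = c at T'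
  rcases (fA a (sq T).1).1 with e | ⟨r, hr, e⟩
  · replace T := T' _ e
    obtain ⟨c, hc, rfl⟩ := (fA c (sq T).2.2).2.2.1 (h.rel T w02 (by decide +kernel))
    obtain ⟨b, hb, rfl⟩ := (fA b (sq T).2.1).2.2.2 (h.injQ (by
      rw [ιs, ← T.ts, ← ιt, show tQ = evw (ev3 j0 j1 j2) w01 by decide +kernel, T.word]; rfl))
    obtain ⟨k, -, v, hv, e0, e1, e2⟩ := fB b hb c hc (h.injQ (by
      rw [← T.word, show evw (ev3 j0 j1 j2) w12 = pQ by decide +kernel, ιp, map_mul, ← conj_mul, T.ts, T.st, com]))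
      (h.rel T _ (by decide +kernel)) (h.rel T _ (by decide +kernel))
    exact ⟨_, v, hv, T.cj _ e0 e1 e2⟩
  · replace T := T' _ e
    have := (fA c (sq T).2.2).2.1 r hr (h.rel T w02 (by decide +kernel))
    exact absurd (h.injQ (conj_injective (T.h0.trans (this ▸ T.h2.symm)))) (by decide +kernel)

theorem pow3 {γ : G} {a b c : QG} (T : Th ψ γ a b c) (w : List ℕ) {x1 x2 y1 y2 : ℕ}
    (e1 : st3 w a b c 3987 x1 x2 3987 = true) (e2 : st3 w a b c 2016 y1 y2 2016 = true) :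
    ∃ r, ψ (ιQ r) = (ψ (evw el w) * γ) ^ 3 ∧ (∀ x0 x1 x2 x3, st3 w a b c x0 x1 x2 x3 = true →
      r * ix QT_g x0 = ix QT_g x3 * r) ∧ ∀ x y, stp w a b c x y = true → ix QT_g x ≠ ix QT_g y → r ≠ ix QT_g x := by
  obtain ⟨r, hr⟩ := h.memQ (ιt ▸ T.step3 e1) (ιs ▸ T.step3 e2)
  refine ⟨r, hr, fun _ _ _ _ e => h.injQ (by simp only [map_mul, hr, T.step3 e]), fun x y e n e' => n (h.injQ ?_)⟩
  rw [← T.step e, ← e', hr]
  generalize ψ (evw el w) * γ = X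
  group

theorem sit [Finite G] (hO : Cfsg.oddCore G = ⊥) (hZ : center G = ⊥) :
    ∃ γ : G, γ * γ = 1 ∧ γ * ψ ss * γ⁻¹ = ψ tt ∧ ∀ w ∈ C3G.gls, evw (evG ψ γ) w = 1 := by
  obtain ⟨γ, T⟩ : ∃ γ, Th ψ γ j0 a1 a2 := by
    obtain ⟨γ, v, hv, T⟩ := h.exTh hO hZ
    simp only [List.mem_cons, List.not_mem_nil, or_false] at hv
    rcases hv with rfl | rfl | rfl | rfl
    · exact ⟨γ, by simpa using T⟩
    · obtain ⟨r, -, p, -⟩ := h.pow3 T cw (x1 := 4572) (x2 := 2016) (y1 := 3987) (y2 := 4572) (by decide +kernel) (by decide +kernel)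
      exact absurd (p 213 3812 4309 1631 (by decide +kernel)) (fD r (p 4572 2016 3987 4572 (by decide +kernel))).1
    · obtain ⟨r, -, p, -⟩ := h.pow3 T cw (x1 := 4572) (x2 := 2016) (y1 := 3987) (y2 := 4572) (by decide +kernel) (by decide +kernel)
      exact absurd (p 213 1017 4405 2719 (by decide +kernel)) (fD r (p 4572 2016 3987 4572 (by decide +kernel))).2.1
    · obtain ⟨r, -, p, -⟩ := h.pow3 T cw (x1 := 4572) (x2 := 2016) (y1 := 3987) (y2 := 4572) (by decide +kernel) (by decide +kernel)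
      exact absurd (p 213 3994 4272 1532 (by decide +kernel)) (fD r (p 4572 2016 3987 4572 (by decide +kernel))).2.2.1
  obtain ⟨γ, T, g2⟩ : ∃ γ, Th ψ γ j0 a1 a2 ∧ γ * γ = 1 := by
    have k : ∀ x y z : G, γ * x * γ⁻¹ = y → γ * y * γ⁻¹ = z → γ * γ * x = z * (γ * γ) := fun x y z e e' => by
      rw [← e', ← e]; group
    obtain ⟨r, hr⟩ := h.memQ (k _ _ _ T.ts T.st) (k _ _ _ T.st T.ts)
    have k2 : ∀ x, thf j0 a1 a2 (thf j0 a1 a2 x) = x → r * x = x * r := fun x e =>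
      h.injQ (by simp only [map_mul, hr, k _ _ _ (T.all x) (T.all _), e])
    have k3 : thf j0 a1 a2 r = r := h.injQ (by rw [← T.all, hr]; group)
    rcases fC r (k2 _ (by decide +kernel)) (k2 _ (by decide +kernel)) (k2 _ (by decide +kernel)) with
      rfl | rfl | rfl | rfl
    · exact ⟨γ, T, by simpa using hr.symm⟩
    · exact absurd k3 (by decide +kernel)
    · exact absurd k3 (by decide +kernel)
    · have p : ∀ x, γ * ψ tt * ψ x * (γ * ψ tt)⁻¹ = γ * ψ x * γ⁻¹ := fun x => by rw [mul_assoc γ, ← com]; group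
      refine ⟨γ * ψ tt, ⟨(p _).trans T.ts, (p _).trans T.st, (p _).trans T.h0, (p _).trans T.h1, (p _).trans T.h2⟩, ?_⟩
      calc _ = γ * ψ tt * γ⁻¹ * (γ * γ) * ψ tt := by group
        _ = 1 := by rw [T.ts, ← hr, ιp, ← map_mul, ← map_mul, ← mul_assoc, ss2, one_mul, tt2, map_one]
  have r3 : (ψ (evw el [2]) * γ) ^ 3 = ψ (evw el [2, 2, 6, 8, 6, 10, 6, 9, 3]) := by
    obtain ⟨r, hr, p, q⟩ := h.pow3 T [2] (x1 := 480) (x2 := 2016) (y1 := 3987) (y2 := 480) (by decide +kernel) (by decide +kernel)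
    rcases fC' r (p 1 177 219 2628 (by decide +kernel)) (p 2 3673 2694 711 (by decide +kernel)) (p 3 2853 833 2970 (by decide +kernel)) with e | e | e | e
    · rw [← hr, e]; exact congrArg ψ (ιQ_eq _ _ (by decide +kernel))
    · exact absurd e (q 1040 615 (by decide +kernel) (by decide +kernel))
    · exact absurd e (q 1672 1040 (by decide +kernel) (by decide +kernel))
    · exact absurd e (q 615 1672 (by decide +kernel) (by decide +kernel))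
  have hinv := evG_inv ψ g2
  have rl : ∀ v, allLt 16 v = true → allLt 16 (invw C3N.il v) = true → (ψ (evw el cw) * γ) ^ 3 = ψ (evw el v) →
      ∀ w ∈ [[16] ++ [4, 10, 12, 8, 14, 12] ++ [16] ++ invw C3N.il [4, 10, 12, 8, 14, 12],
      [16] ++ [2, 4, 2, 6, 8, 10, 6, 4, 2, 14] ++ [16] ++ invw C3N.il [4, 6, 8, 6, 10, 6, 4, 8, 12, 8, 6, 10, 14, 12, 8, 6, 4, 10],
      [16] ++ [2, 4, 2, 12, 8, 14, 12] ++ [16] ++ invw C3N.il [4, 2, 6, 8, 10, 6, 5],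
      wpow ([2] ++ [16]) 3 ++ invw C3N.il [2, 2, 6, 8, 6, 10, 6, 9, 3], wpow (cw ++ [16]) 3 ++ invw C3N.il v], evw (evG ψ γ) w = 1 :=
    fun v h1 h2 h3 => forall_cons (T.bw g2 j0 _ _ (by decide +kernel)) (forall_cons (T.bw g2 j2 _ _ (by decide +kernel))
      (forall_cons (T.bw g2 j1 _ _ (by decide +kernel)) (forall_cons (evG_3 _ _ _ _ rfl rfl rfl r3)
        (forall_cons (evG_3 _ _ _ _ rfl h1 h2 h3) forall_nil))))
  have hρ : ∀ x < 16, ψ (C3N.el x) = byW (evG ψ γ) C3G.σ x := fun x hx => by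
    have : ∀ x < 16, C3G.σ.getD x [] = [x] := by decide
    simp [byW, -List.getD_eq_getElem?_getD, this x hx, evG, hx]
  obtain ⟨r, hr, p, q⟩ := h.pow3 T cw (x1 := 4572) (x2 := 2016) (y1 := 3987) (y2 := 4572) (by decide +kernel) (by decide +kernel)
  obtain ⟨e, he, rfl⟩ := (fD r (p 4572 2016 3987 4572 (by decide +kernel))).2.2.2 (p 622 4019 2683 622 (by decide +kernel)) (p 156 548 535 156 (by decide +kernel))
  simp only [List.mem_cons, List.not_mem_nil, or_false] at he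
  rcases he with rfl | rfl | rfl | rfl | rfl | rfl | rfl | rfl
  · have := rl [] rfl rfl (hr.symm.trans (congrArg ψ (ιQ_eq _ _ (by decide +kernel))))
    exact ⟨γ, g2, T.st, C3G.goals _ ψ hρ ⊥ (follows_sound _ hinv (n := 4) this (by decide +kernel))
      (C3G.hbp _ ψ hρ (hinv 16 (by decide)) (follows_sound _ hinv (n := 4) this (by decide +kernel)))⟩
  · exact absurd rfl (q 480 3150 (by decide +kernel) (by decide +kernel))
  · exact absurd rfl (q 2016 3987 (by decide +kernel) (by decide +kernel))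
  · have := rl [10, 5, 7, 9, 3, 5, 7, 11, 5, 7, 9, 5, 7, 3, 5, 3] rfl rfl (hr.symm.trans (congrArg ψ (ιQ_eq _ _ (by decide +kernel))))
    obtain ⟨w, -, hw⟩ := C3F.covers _ ψ hρ ψ.range (fun n => ⟨n, rfl⟩) (follows_sound _ hinv (n := 4) this (by decide +kernel))
      (C3F.hbp _ ψ hρ (hinv 16 (by decide)) (follows_sound _ hinv (n := 4) this (by decide +kernel)))
    obtain ⟨i, hi, h1⟩ := hw 1 (one_mem _)
    obtain ⟨j, hj, h2⟩ := hw _ (D.Ctx.t_K _)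
    obtain rfl : i = j := by omega
    obtain ⟨x, hx⟩ := (mul_mem_cancel_right (one_mul (w i)⁻¹ ▸ h1)).1 h2
    have hx' : ψ x = γ := hx
    exact absurd (h.inj (T.ts.symm.trans (hx' ▸ cj1 (com ψ x)))) sst
  · exact absurd rfl (q 3150 3529 (by decide +kernel) (by decide +kernel))
  · exact absurd rfl (q 3529 480 (by decide +kernel) (by decide +kernel))
  · exact absurd rfl (q 3987 4572 (by decide +kernel) (by decide +kernel))
  · exact absurd rfl (q 4572 2016 (by decide +kernel) (by decide +kernel))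
end Cen

end CfH8.C3
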