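import Cfsg.Agent.OD.Pre
import Cfsg.Agent.H8.C3K
import Cfsg.Agent.H3.He1
import Cfsg.Agent.L.J2g
import Cfsg.Agent.L.Cnt
/-! Groups with an involution centraliser `2.Sp₆(2)`: no proper subgroup controls the fusion. -/
set_option autoImplicit false
set_option maxRecDepth 100000
namespace CfH8.C3
open CfH6 CfL CfH8.ON Subgroup CfH9 CfH3.He

variable {G : Type*} [Group G]

structure Fin3 (H : Subgroup G) (f : LG →* G) : Prop where
  fH : ∀ a, f a ∈ H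
  t1 : f tL ≠ 1
  u1 : f uL ≠ 1
  CH : ∀ g, g * f tL = f tL * g → g ∈ H
  inv : ∀ w ∈ H, w * w = 1 → w ≠ 1 → ∃ k ∈ H, k * w * k⁻¹ = f tL ∨ k * w * k⁻¹ = f uL
  invC : ∀ w, w * f tL = f tL * w → w * w = 1 → w ≠ 1 → IsConj (f tL) (w * f tL) → IsConj (f tL) w
  ntu : ¬ IsConj (f tL) (f uL)
  cy : IsConj (f uL) (f yL)
  cuy : IsConj (f uL) (f uL * f yL)
  cut : IsConj (f uL) (f uL * f tL)
  CX : ∀ g, g * f tL = f tL * g → g * f uL = f uL * g → g * f yL = f yL * g → ∃ a, a * tL = tL * a ∧ f a = g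
  good : ∀ v ∈ [tL * yL, xL, xL * yL], ∃ k ∈ H, ∀ g, g * f uL = f uL * g → g * f v = f v * g →
    k * g * k⁻¹ * f uL = f uL * (k * g * k⁻¹) ∧ k * g * k⁻¹ * f yL = f yL * (k * g * k⁻¹)

theorem hcm {K : Type*} [Group K] (f : K →* G) {a b : K} (h : a * b = b * a) : f a * f b = f b * f a := by
  rw [← map_mul, h, map_mul]

theorem ev3_mem {K : Subgroup G} {a b c : G} (ha : a ∈ K) (hb : b ∈ K) (hc : c ∈ K) (w : List ℕ) :
    evw (ev3 a b c) w ∈ K := by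
  induction w with
  | nil => exact one_mem _
  | cons l w ih =>
    refine mul_mem ?_ ih
    rcases l with _ | _ | _ | l
    exacts [ha, hb, hc, one_mem _]

theorem cj_mem {H : Subgroup G} {k g : G} (hk : k ∈ H) (h : k * g * k⁻¹ ∈ H) : g ∈ H :=
  (mul_mem_cancel_left hk).1 ((mul_mem_cancel_right (inv_mem hk)).1 h)

namespace Fin3
variable {H : Subgroup G} {f : LG →* G} (h : Fin3 H f)
include h

omit h in
theorem t2 : f tL * f tL = 1 := by rw [← map_mul, fL6.2.2.2.2, map_one]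
omit h in
theorem u2 : f uL * f uL = 1 := by rw [← map_mul, show uL * uL = 1 by decide +kernel, map_one]

theorem HJ {z : G} (hz : z ∈ H) (c : IsConj (f tL) z) : ∃ k ∈ H, k * z * k⁻¹ = f tL := by
  obtain ⟨k, hk, e | e⟩ := h.inv z hz (sq_of_isConj c t2) (ne_one_of_isConj c h.t1)
  exacts [⟨k, hk, e⟩, (h.ntu (c.trans (isConj_mk k e))).elim]

theorem U {z g : G} (hz : z ∈ H) (c : IsConj (f tL) z) (hg : g * z * g⁻¹ ∈ H) : g ∈ H := by
  obtain ⟨k, hk, e⟩ := h.HJ hz c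
  obtain ⟨l, hl, e'⟩ := h.HJ hg (c.trans (isConj_mk g rfl))
  exact (mul_mem_cancel_left hl).1 ((mul_mem_cancel_right (inv_mem hk)).1 (h.CH _ (cj2 (by
    nth_rewrite 1 [← e]; rw [← e']; group))))

theorem lemA {z z' : G} (c : IsConj (f tL) z) (c' : IsConj (f tL) z') {m : ℕ} (h1 : (z * z') ^ m ≠ 1)
    (h2 : (z * z') ^ m * (z * z') ^ m = 1) : IsConj (f tL) ((z * z') ^ m) := by
  have z2 := sq_of_isConj c t2
  have z2' := sq_of_isConj c' t2
  have h3 := (dih_comm z2 z2' h2).1.eq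
  have h4 : IsConj (f tL) ((z * z') ^ m * z) := (dih_cls z2 z2' m).elim (fun p => c.trans p.2) fun p => c'.trans p.2
  generalize (z * z') ^ m = w at h1 h2 h3 h4
  obtain ⟨k, e⟩ := isConj_iff.1 c.symm
  have c1 : IsConj w (k * w * k⁻¹) := isConj_mk k rfl
  exact (h.invC _ (e ▸ comm_cj k h3) (sq_of_isConj c1 h2) (ne_one_of_isConj c1 h1)
    (h4.trans (isConj_mk k (by rw [← e, conj_mul])))).trans c1.symm

variable [Finite G]

theorem odd {z z' : G} (hz : z ∈ H) (c : IsConj (f tL) z) (c' : IsConj (f tL) z') (n : z' ∉ H) :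
    ∃ j, j * j = 1 ∧ j * z * j⁻¹ = z' ∧ ∀ g, Commute g z → Commute g z' → Commute g j := by
  have z2 := sq_of_isConj c t2
  have z2' := sq_of_isConj c' t2
  by_cases ho : Odd (orderOf (z * z'))
  · obtain ⟨j, p1, -, p2⟩ := dih_odd z2 z2' ho
    exact ⟨j, p1, p2⟩
  · obtain ⟨m, h1, h2⟩ := exists_inv_pow ho
    obtain ⟨h3, h4⟩ := dih_comm z2 z2' h2
    have h5 := h.U hz c ((cj1 h3.eq).symm ▸ hz)
    exact (n (h.U h5 (h.lemA c c' h1 h2) ((cj1 h4.symm.eq).symm ▸ h5))).elim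

theorem CW (x : G) (xu : x * f uL = f uL * x) (xy : x * f yL = f yL * x) : x ∈ H := by
  by_contra n
  have n' : x * f tL * x⁻¹ ∉ H := fun e => n (h.U (h.fH _) (IsConj.refl _) e)
  have key : ∀ a, IsConj tL a → ∃ j, j * j = 1 ∧ j * f a * j⁻¹ = x * f tL * x⁻¹ ∧ x⁻¹ * j ∈ H ∧
      Commute (f uL) j ∧ Commute (f yL) j := fun a c => by
    obtain ⟨j, p1, p2, p3⟩ := h.odd (h.fH a) (f.map_isConj c) (isConj_mk x rfl) n'
    refine ⟨j, p1, p2, h.U (h.fH a) (f.map_isConj c) ?_, p3 _ (hcm f (fL4 a).1).symm ?_, p3 _ (hcm f (fL4 a).2).symm ?_⟩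
    · rw [show x⁻¹ * j * f a * (x⁻¹ * j)⁻¹ = x⁻¹ * (j * f a * j⁻¹) * x by group, p2]
      simpa [mul_assoc] using h.fH tL
    · exact (cj1 xu ▸ comm_cj x (hcm f (fL4 tL).1).symm :)
    · exact (cj1 xy ▸ comm_cj x (hcm f (fL4 tL).2).symm :)
  obtain ⟨j, j1, j2, j3, j4, j5⟩ := key tL (IsConj.refl _)
  have hu : uL ∈ (H ⊓ cj x H).comap f := ⟨h.fH _, mem_cj.2 (by rw [mul_assoc, ← xu, inv_mul_cancel_left]; exact h.fH _)⟩
  have hy : yL ∈ (H ⊓ cj x H).comap f := ⟨h.fH _, mem_cj.2 (by rw [mul_assoc, ← xy, inv_mul_cancel_left]; exact h.fH _)⟩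
  have key2 : ∀ z r, r * z * r⁻¹ = tL → ∃ d ∈ d8, ix LT_g d * r ∈ (H ⊓ cj x H).comap f := fun z r e => by
    obtain ⟨i, i1, i2, i3, i4, i5⟩ := key z (isConj_mk r e).symm
    obtain ⟨a, a1, a2⟩ := h.CX (j * i * (f r)⁻¹) (cj2 (by
        calc _ = j * (i * f (r⁻¹ * tL * r) * i⁻¹) * j⁻¹ := by simp only [map_mul, map_inv]; group
          _ = _ := by
            rw [← e, show r⁻¹ * (r * z * r⁻¹) * r = z by group, i2, e, ← j2, ← mul_assoc, ← mul_assoc, j1, sinv j1]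
            simp [mul_assoc, j1]))
      ((j4.mul_right i4).mul_right (Commute.inv_right (hcm f (fL4 r).1).symm)).symm.eq
      ((j5.mul_right i5).mul_right (Commute.inv_right (hcm f (fL4 r).2).symm)).symm.eq
    obtain ⟨w, hw, d, hd, e'⟩ := (fL1 a a1).2
    refine ⟨d, hd, ?_⟩
    rw [← e', mul_assoc]
    refine mul_mem ?_ ?_
    · simp only [List.mem_cons, List.not_mem_nil, or_false] at hw
      rcases hw with rfl | rfl | rfl | rfl
      exacts [one_mem _, hu, hy, mul_mem hu hy]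
    · rw [mem_comap, map_mul, a2, inv_mul_cancel_right]
      refine ⟨?_, mem_cj.2 ?_⟩
      · have := mul_mem (inv_mem j3) i3
        rwa [mul_inv_rev, inv_inv, sinv j1, mul_assoc, mul_inv_cancel_left] at this
      · have := mul_mem j3 (inv_mem i3)
        rwa [mul_inv_rev, inv_inv, sinv i1, ← mul_assoc, mul_assoc _ j] at this
  obtain ⟨a, ha, pa⟩ := key2 _ _ fL6.1
  obtain ⟨b, hb, pb⟩ := key2 _ _ fL6.2.1
  obtain ⟨w, -, p, hp, e⟩ := fL2 a ha b hb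
  have := ev3_mem pa pb (one_mem _) w
  rw [e] at this
  exact n (inv_mem_iff.1 (h.U this.1 (f.map_isConj (isConj_mk _ (fL3 p hp)).symm) (by simpa using mem_cj.1 this.2)))

theorem sylP {w : G} (wu : w * f uL = f uL * w) (wy : w * f yL = f yL * w) (w2 : w * w = 1) :
    ∃ k, k * f uL = f uL * k ∧ k * f yL = f yL * k ∧ ∃ a, a * tL = tL * a ∧ f a = k * w * k⁻¹ := by
  haveI : Fact (Nat.Prime 2) := ⟨Nat.prime_two⟩
  have e : Cx(tL).map f = (Cx(f uL) ⊓ Cx(f yL)) ⊓ Cx(f tL) := le_antisymm (by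
      rintro _ ⟨a, ha, rfl⟩
      exact ⟨⟨mem_Cx.2 (hcm f (fL4 a).1), mem_Cx.2 (hcm f (fL4 a).2)⟩, mem_Cx.2 (hcm f (mem_Cx.1 ha))⟩)
    fun g hg => (h.CX g (mem_Cx.1 hg.2) (mem_Cx.1 hg.1.1) (mem_Cx.1 hg.1.2)).imp fun a p => ⟨mem_Cx.2 p.1, p.2⟩
  have p : IsPGroup 2 (Cx(tL).map f) := IsPGroup.map (fun a => ⟨2, Subtype.ext (by
    change a.1 ^ (2 * 2) = 1
    rw [pow_mul, pow_two, pow_two]
    rcases (fL1 a.1 (mem_Cx.1 a.2)).1 with e | e <;> rw [e]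
    exacts [mul_one _, fL6.2.2.2.2])⟩) f
  have s : SylIn 2 (Cx(tL).map f) (Cx(f uL) ⊓ Cx(f yL)) := (e ▸ sylIn_self p : SylIn 2 _ (_ ⊓ Cx(f tL))).of_Nm_le
    inf_le_left fun g hg => ⟨hg.1, mem_Cx'.2 (by
      obtain ⟨a, ha, e'⟩ := (mem_normalizer_iff.1 hg.2 _).1 ⟨xL * sL, mem_Cx.2 (by decide +kernel), rfl⟩
      have e2 : g * f tL * g⁻¹ = f (a * a) := by
        rw [map_mul, e', conj_mul, ← map_mul, show xL * sL * (xL * sL) = tL by decide +kernel]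
      rcases (fL1 a (mem_Cx.1 ha)).1 with e3 | e3 <;> rw [e3] at e2
      exacts [absurd (by simpa using e2) h.t1, e2])⟩
  obtain ⟨k, hk, a, ha, e⟩ := s.exists_conj_mem (k := 1) ⟨mem_Cx.2 wu, mem_Cx.2 wy⟩ (by simpa [pow_two] using w2)
  exact ⟨k, mem_Cx.1 hk.1, mem_Cx.1 hk.2, a, mem_Cx.1 ha, e⟩

theorem CU (x : G) (xu : x * f uL = f uL * x) : x ∈ H := by
  by_contra n
  have n' : x * f tL * x⁻¹ ∉ H := fun e => n (h.U (h.fH _) (IsConj.refl _) e)
  have c : IsConj (f tL) (x * f tL * x⁻¹) := isConj_mk x rfl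
  have c2 : IsConj (f uL) (f uL * (x * f tL * x⁻¹)) := h.cut.trans (isConj_mk x (by rw [← conj_mul, cj1 xu]))
  have zu : Commute (f uL) (x * f tL * x⁻¹) := (cj1 xu ▸ comm_cj x (hcm f (fL4 tL).1).symm :)
  generalize x * f tL * x⁻¹ = z at n' c c2 zu
  have z2 := sq_of_isConj c t2
  have y2 := sq_of_isConj h.cy u2
  by_cases ho : Odd (orderOf (z * f yL))
  · obtain ⟨j, -, -, e, -⟩ := dih_odd z2 y2 ho
    exact h.ntu ((c.trans (isConj_mk j e)).trans h.cy.symm)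
  obtain ⟨m, h1, h2⟩ := exists_inv_pow ho
  obtain ⟨h3, h4⟩ := dih_comm z2 y2 h2
  have h5 : Commute (f uL) ((z * f yL) ^ m) := (zu.mul_right (hcm f (fL4 yL).1).symm).pow_right m
  have h6 : (z * f yL) ^ m ≠ f uL := fun e => by
    rcases dih_cls z2 y2 m with ⟨-, p⟩ | ⟨p, -⟩
    · exact h.ntu ((c.trans p).trans (e ▸ c2.symm))
    · have e' : (f yL * z) ^ m = f uL := by
        rw [← sinv u2, ← e, ← inv_pow, mul_inv_rev, sinv z2, sinv y2]
      rcases dih_cls y2 z2 m with ⟨q, -⟩ | ⟨-, q⟩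
      · exact Nat.not_odd_iff_even.2 q p
      · exact h.ntu ((c.trans q).trans (e' ▸ h.cuy.symm))
  generalize (z * f yL) ^ m = w at h1 h2 h3 h4 h5 h6
  obtain ⟨k, k1, k2, a, a1, a2⟩ := h.sylP h5.symm.eq h4.eq h2
  have a3 : f (a * a) = 1 := by rw [map_mul, a2, conj_mul, h2]; simp
  rcases fL5 a a1 ((fL1 a a1).1.resolve_right fun e => h.t1 (e ▸ a3)) with rfl | rfl | ⟨c, -, v, hv, e⟩
  · exact h1 (by simpa using a2.symm)
  · exact h6 (conj_injective (a2.symm.trans (cj1 k1).symm))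
  have l1 : f c * k * f uL * (f c * k)⁻¹ = f uL := cj1 (Commute.mul_left (hcm f (fL4 c).1) k1)
  have gu := l1 ▸ comm_cj (f c * k) zu.symm.eq
  have gv : f c * k * z * (f c * k)⁻¹ * f v = f v * (f c * k * z * (f c * k)⁻¹) := by
    have := comm_cj (f c * k) h3.symm.eq
    rw [show f c * k * w * (f c * k)⁻¹ = f (c * a * c⁻¹) by simp only [map_mul, map_inv, a2]; group] at this
    rcases e with e | e <;> rw [e] at this
    · exact this
    · rw [map_mul, ← mul_assoc, gu, mul_assoc, mul_assoc (f uL)] at this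
      exact mul_left_cancel this
  refine n' (cj_mem (mul_mem (h.fH c) (h.CW k k1 k2)) ?_)
  rcases List.mem_cons.1 hv with rfl | hv
  · exact h.CH _ gv
  rcases List.mem_cons.1 hv with rfl | hv
  · exact h.CW _ gu gv
  obtain ⟨l, hl, p⟩ := h.good v hv
  exact cj_mem hl (h.CW _ (p _ gu gv).1 (p _ gu gv).2)

theorem top : H = ⊤ := eq_top_of_emb t2 u2 h.u1 (h.fH _) (fun _ => h.U (h.fH _) (IsConj.refl _)) (fun w hw w1 w2 g c => by
  obtain ⟨k, hk, e | e⟩ := h.inv w hw w2 w1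
  exacts [cj_mem hk (h.CH _ (e ▸ comm_cj k c.eq)), cj_mem hk (h.CU _ (e ▸ comm_cj k c.eq))]) h.ntu
end Fin3

end CfH8.C3
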