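import Cfsg.Agent.OD.Pre
import Cfsg.Agent.H8.C33
import Cfsg.Agent.H8.C34
import Cfsg.Agent.H6.LeC3
/-! The third Conway group from the centraliser of a central involution. -/
set_option autoImplicit false
set_option maxRecDepth 100000
set_option Elab.async false
namespace CfH8.C3
open CfH6 CfL CfH8.ON Subgroup CfH9

variable {G : Type*} [Group G]

def sig : List (List ℕ) := [[8, 10, 14], [2, 6, 4, 8, 6, 4, 10, 6, 4, 8, 6, 12, 8, 6, 4, 10, 6, 8, 12, 14, 12, 8, 6, 4, 2, 10, 6, 8, 12, 14], [4, 8, 6, 10, 6, 4, 8, 6, 10, 12, 8, 6, 4, 10, 6, 14, 12, 8, 6, 4, 10], [16, 2, 8, 6, 4, 10, 6, 4, 8, 6, 10, 12, 8, 6, 4, 14, 12, 8, 6, 4, 2, 10, 6, 9, 16], [0], [2, 4, 8, 6, 4, 10, 6, 4, 8, 6, 10, 12, 8, 6, 4, 10, 14, 12, 8, 6, 4, 2, 10, 6, 9], [4, 2, 6, 4, 2, 10, 6, 8, 12, 8, 14, 12, 8, 6, 4, 2, 10, 6, 5], [2, 8, 6, 4, 2, 12, 8, 6, 4, 2, 10, 6, 4, 8, 12, 14, 12, 8, 6, 4, 2, 10, 6, 4, 8, 6, 12,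 8, 14, 12]]
def xn : List ℕ := [4, 2, 10, 6, 4, 2, 8, 6, 4, 10, 6, 12, 8, 6, 4, 2, 10, 6, 4, 14, 12, 8, 6, 4, 10]
def sig' : List (List ℕ) := (sig.eraseIdx 3) ++ [xn]
def back : List (List ℕ) := [[3], [3], [7, 6, 1, 2, 1, 5, 6, 7, 6], [7, 6, 1, 2, 1, 5, 6, 7, 6, 3], [0, 2, 0, 1, 7, 4, 1, 5], [0, 2, 0, 1, 7, 4, 1, 5, 3], [0, 1, 4, 0, 7, 2, 0, 4, 5, 4], [0, 1, 4, 0, 7, 2, 0, 4, 5, 4, 3], [5, 6, 0, 5, 7, 0, 6, 2, 5], [5, 6, 0, 5, 7, 0, 6, 2, 5, 3], [0, 7, 0, 7, 4, 6, 1, 2, 5, 6, 4], [0, 7, 0, 7, 4, 6, 1, 2, 5, 6, 4, 3], [1, 2, 1, 5, 7], [1, 2, 1, 5, 7, 3], [7, 4, 6, 1, 2, 1, 5, 7, 6, 4, 7], [7, 4, 6, 1, 2, 1, 5, 7, 6, 4, 7, 3]]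
def LW : List (List ℕ) := [[4, 6, 4, 8, 6, 10, 6, 4, 8, 6, 10], [4, 12, 8, 6, 4, 10, 6, 8, 12, 14, 12, 8, 6, 4, 10, 6, 8, 12, 15], [4, 8, 10, 14], [4, 8, 12, 8, 6, 4, 10, 6, 8, 12, 14, 12, 8, 6, 4, 2, 10, 6, 4, 8, 6, 10, 12, 8, 6, 4, 16], [4, 8, 10, 15], [5, 7, 9, 13, 5, 7, 16, 3, 5, 7, 9, 13, 11, 3, 5, 7, 16, 15, 13, 9, 5, 7, 16, 2, 8, 6, 4, 10, 6, 4, 12, 8, 14, 12, 8, 6, 4, 2, 10, 6, 8, 12, 15, 16, 6, 4, 8, 12, 14, 16, 6, 4, 2, 10, 12, 8, 6, 4, 2, 16, 6, 4, 12, 8, 6, 4]]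
noncomputable def nrl (ws : List (List ℕ)) : List (List ℕ) := (ws.map (cred ilG 4)).filter (allLt 16)
noncomputable def cG (ws : List (List ℕ)) : Bool :=
  ((nrl ws).all fun w => allLt 16 w && cE w []) && follows 17 ilG 4 (C3G.gls ++ nrl ws) ws

theorem cG_ok {ψ : N →* G} {γ : G} (g2 : γ * γ = 1) (hg : ∀ w ∈ C3G.gls, evw (evG ψ γ) w = 1) (ws : List (List ℕ))
    (h : cG ws = true) : ∀ w ∈ ws, evw (evG ψ γ) w = 1 := by
  rw [cG, Bool.and_eq_true] at h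
  refine follows_sound _ (evG_inv ψ g2) (fun w hw => (List.mem_append.1 hw).elim (hg w) fun hw => ?_) h.2
  have := List.all_eq_true.1 h.1 w hw
  rw [Bool.and_eq_true] at this
  rw [evG_w _ _ _ this.1, cE_ok _ _ this.2, evw_nil, map_one]

theorem cG_hom {ψ : N →* G} {γ : G} (g2 : γ * γ = 1) (hg : ∀ w ∈ C3G.gls, evw (evG ψ γ) w = 1) (σ : List (List ℕ))
    (k : ℕ) (il : List ℕ) (rels : List (List ℕ))
    (h : cG ((((List.range k).map fun x => [x, il.getD x 0]) ++ rels).map (subst σ)) = true) :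
    (∀ x < k, byW (evG ψ γ) σ (il.getD x 0) = (byW (evG ψ γ) σ x)⁻¹) ∧ ∀ r ∈ rels, evw (byW (evG ψ γ) σ) r = 1 := by
  have := fun r hr => (evw_subst _ σ r).symm.trans (cG_ok g2 hg _ h _ (List.mem_map_of_mem hr))
  exact ⟨inv_of_rels fun r hr => this r (List.mem_append_left _ hr), fun r hr => this r (List.mem_append_right _ hr)⟩

theorem Cen.main [Finite G] {ψ : N →* G} (h : Cen ψ) (hO : Cfsg.oddCore G = ⊥) (hZ : center G = ⊥) :
    Cfsg.Spor.IsoCo3 G := by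
  obtain ⟨γ, g2, gs, hg⟩ := h.sit hO hZ
  obtain ⟨p1, p2⟩ := cG_hom g2 hg sig 8 C3B.il C3B.rels (by decide +kernel)
  obtain ⟨ρ, hρ⟩ := C3B.hhom _ p1 p2
  obtain ⟨q1, q2⟩ := cG_hom g2 hg LW 6 LTil LTrels (by decide +kernel)
  obtain ⟨f, -, hf⟩ := TB.exists_hom LT_g _ q1 q2
  have gl := cG_ok g2 hg [subst sig [3, 4, 6, 3, 4, 6, 3] ++ invw C3N.il xn, subst sig [2, 0, 3, 2, 4, 3] ++ [4, 6, 4, 2, 8, 6, 4, 2, 10, 6, 4, 2, 8, 6, 10, 12, 14, 12, 8, 6, 4, 2, 10, 6, 8, 12, 14] ++ [16],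
    subst LW [3, 2, 4, 3] ++ sw] (by decide +kernel)
  simp only [List.forall_mem_cons, evw_append, evw_subst] at gl
  obtain ⟨g1, g3, g4, -⟩ := gl
  have m1 : ∀ w, allLt 8 w = true → evw (byW (evG ψ γ) sig) w ∈ ρ.range := fun w hw =>
    evw_mem (K := ρ.range) (fun x hx => ⟨_, hρ x hx⟩) (allLt_sound hw)
  have m2 : ∀ x, ψ x ∈ ρ.range := fun x => (C3N.htop.ge.trans (gensub_le (K := ρ.range.comap ψ) fun l hl => by
    have : ∀ l < 16, cE [l] (subst sig' (back.getD l [])) = true ∧ allLt 8 (back.getD l []) = true := by decide +kernel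
    have e := cE_ok _ _ (this l hl).1
    rw [evw_cons, evw_nil, mul_one, evw_subst] at e
    rw [show C3N.el l = _ from e]
    refine evw_mem (fun k hk => ?_) (allLt_sound (this l hl).2)
    have : ∀ k < 7, allLt 16 (sig'.getD k []) = true ∧ ∃ j < 8, sig'.getD k [] = sig.getD j [] := by decide +kernel
    by_cases c : k < 7
    · obtain ⟨a, j, hj, b⟩ := this k c
      exact ⟨_, (hρ j hj).trans (by rw [byW, byW, ← b, evG_w _ _ _ a])⟩
    · obtain rfl : k = 7 := by omega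
      rw [evG_w _ _ _ rfl, iv_ok _ rfl, map_inv, mul_inv_eq_one] at g1
      exact (g1 ▸ m1 _ rfl :))) (mem_top x)
  have m3 : γ ∈ ρ.range := by
    rw [evG_w _ _ [_, _, _, _, _, _, _, _, _, _, _, _, _, _, _, _, _, _, _, _, _, _, _, _, _, _, _] rfl] at g3
    have := inv_mem (mul_mem (m1 [2, 0, 3, 2, 4, 3] rfl) (m2 (evw el [4, 6, 4, 2, 8, 6, 4, 2, 10, 6, 4, 2, 8, 6, 10, 12, 14, 12, 8, 6, 4, 2, 10, 6, 8, 12, 14])))
    rw [inv_eq_of_mul_eq_one_right g3] at this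
    simpa [evG] using this
  have fN : ∀ (a : LG) (w v : List ℕ), (allLt 6 w && Nat.beq (LT.trL w 0) a.1) = true →
      (allLt 16 (subst LW w) && cE (subst LW w) v) = true → f a = ψ (evw el v) := fun a w v h1 h2 => by
    rw [Bool.and_eq_true] at h2
    rw [hom_word hf w a h1, ← evw_subst, evG_w _ _ _ h2.1, cE_ok _ _ h2.2]
  have ft : f tL = ψ tt := fN _ [2, 4] _ (by decide +kernel) (by decide +kernel)
  have fu : f uL = ψ uu := fN _ [0] _ (by decide +kernel) (by decide +kernel)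
  have fy : f yL = ψ yy := fN _ [1] _ (by decide +kernel) (by decide +kernel)
  have fx : f xL = ψ (evw el [4, 8, 10, 14]) := fN _ [2] _ (by decide +kernel) (by decide +kernel)
  have fs : f sL = ψ ss := by
    rw [hom_word hf [3, 2, 4, 3] sL (by decide +kernel), eq_inv_of_mul_eq_one_left g4, evG_w _ _ _ rfl, ← map_inv]
    exact congrArg ψ (sinv ss2)
  have := C3G.simple
  have inj : Function.Injective ρ := by
    rw [← MonoidHom.ker_eq_bot_iff]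
    refine (inferInstance : ρ.ker.Normal).eq_bot_or_eq_top.resolve_right fun e => h.t1 ?_
    have : ρ (C3B.el 4) = 1 := e.ge (mem_top _)
    rwa [hρ 4 (by decide), byW, evG_w _ _ _ rfl] at this
  have cts : IsConj (ψ tt) (ψ ss) := (isConj_mk _ gs).symm
  have gd : ∀ (v : LG) (k vw : List ℕ), f v = ψ (evw el vw) → (allLt 16 k && [uw, yw].all fun a =>
      [uw, vw, uw ++ vw].any fun b => cE (a ++ k) (k ++ b)) = true → ∃ k ∈ ρ.range, ∀ g, g * f uL = f uL * g →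
      g * f v = f v * g → k * g * k⁻¹ * f uL = f uL * (k * g * k⁻¹) ∧ k * g * k⁻¹ * f yL = f yL * (k * g * k⁻¹) :=
    fun v k vw e c => ⟨_, m2 (evw el k), fun g e1 e2 => by
      rw [Bool.and_eq_true, List.all_eq_true] at c
      have : ∀ a ∈ [uw, yw], ψ (evw el k) * g * (ψ (evw el k))⁻¹ * ψ (evw el a) =
          ψ (evw el a) * (ψ (evw el k) * g * (ψ (evw el k))⁻¹) := fun a ha => by
        obtain ⟨b, hb, p⟩ := List.any_eq_true.1 (c.2 a ha)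
        have p := cE_ok _ _ p
        rw [evw_append, evw_append, ← eq_mul_inv_iff_mul_eq] at p
        rw [p, map_mul, map_mul, map_inv]
        refine comm_cj _ ?_
        rw [fu] at e1
        rw [e] at e2
        simp only [List.mem_cons, List.not_mem_nil, or_false] at hb
        rcases hb with rfl | rfl | rfl
        exacts [e1, e2, by rw [evw_append, map_mul]; exact Commute.mul_right e1 e2]
      rw [fu, fy]
      exact ⟨this uw (by simp), this yw (by simp)⟩⟩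
  have cx : ∀ x, x * ss = ss * x → x * uu = uu * x → x * yy = yy * x → ψ x ∈ Cx(tL).map f := fun x e1 e2 e3 => by
    obtain ⟨r, rfl⟩ := cls.1.ge (mem_Cx.2 e1)
    have iu : ιQ uQ = uu := ιQ_eq _ _ (by decide +kernel)
    have iy : ιQ yQ = yy := ιQ_eq _ _ (by decide +kernel)
    obtain ⟨w, hw, rfl⟩ := fE r (ιQ_inj (by simp only [map_mul, iu, e2])) (ιQ_inj (by simp only [map_mul, iy, e3]))
    rw [map_evw, map_evw]
    refine evw_mem (k := 4) (fun k hk => ?_) (allLt_all (by decide) w hw)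
    interval_cases k
    exacts [⟨uL, mem_Cx.2 (fL4 _).1.symm, fu.trans (congrArg ψ iu.symm)⟩,
      ⟨yL, mem_Cx.2 (fL4 _).2.symm, fy.trans (congrArg ψ iy.symm)⟩, ⟨tL, mem_Cx.2 rfl, ft.trans (congrArg ψ ιt.symm)⟩,
      ⟨sL, mem_Cx.2 fL6.2.2.2.1, fs.trans (congrArg ψ ιs.symm)⟩]
  have F : Fin3 ρ.range f := by
    refine ⟨fun a => ?_, ft ▸ h.t1, fu ▸ fun e => uu1 (h.inj (e.trans (map_one ψ).symm)), fun g e => ?_,
      fun w hw w2 w1 => ?_, fun w c w2 w1 e => ?_, ft ▸ fu ▸ h.ntu, fu ▸ fy ▸ ψ.map_isConj cuy,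
      fu ▸ fy ▸ map_mul ψ _ _ ▸ ψ.map_isConj cuuy, fu ▸ ft ▸ map_mul ψ _ _ ▸ ψ.map_isConj cuut, fun g e1 e2 e3 => ?_,
      forall_cons (gd _ [11] ([0] ++ yw) (by rw [map_mul, ft, fy, evw_append, map_mul]; rfl) (by decide +kernel))
        (forall_cons (gd _ [13, 15, 7, 11, 5, 7, 9, 13, 5, 7, 9, 5, 7] _ fx (by decide +kernel))
          (forall_cons (gd _ [13, 9, 7, 11, 5, 7, 9, 13, 7, 9, 3, 5, 7, 11, 7, 9, 5, 7, 3, 5, 3] ([4, 8, 10, 14] ++ yw) (by rw [map_mul, fx, fy, evw_append, map_mul]; rfl)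
            (by decide +kernel)) forall_nil))⟩
    · rw [← evw_tel_wl LT_g a, hom_evw (fun x hx => hom_tel hf hx) _ (LT_g.w_spec a.2).1, ← evw_subst]
      refine evw_mem (k := 17) (fun k hk => ?_) fun x hx => ?_
      · unfold evG; split_ifs; exacts [m2 _, m3]
      · obtain ⟨l, -, hl⟩ := List.mem_flatMap.1 hx
        exact getD_lt (allLt_all (by decide)) l x hl
    · obtain ⟨x, rfl⟩ := h.sur g (ft ▸ e)
      exact m2 x
    · obtain ⟨k, hk, a, e⟩ := syl_of (φ := ψ.comp ιT) (h.inj.comp ιT_inj) (K := ρ.range) (by rintro _ ⟨a, rfl⟩; exact m2 _)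
        (m := 242073562) ((Nat.card_congr (MonoidHom.ofInjective inj).toEquiv).symm.trans C3G.card) hw (by rw [w2, mul_one])
      have c : IsConj w (k * w * k⁻¹) := isConj_mk k rfl
      rw [ft, fu]
      rcases h.inv (e ▸ com ψ (ιT a)) (sq_of_isConj c w2) (ne_one_of_isConj c w1) with p | ⟨l, p⟩ | ⟨l, p⟩
      · exact ⟨k, hk, Or.inl p⟩
      · exact ⟨γ * (ψ l)⁻¹ * k, mul_mem (mul_mem m3 (inv_mem (m2 l))) hk, Or.inl (by
          rw [← gs, show ψ ss = (ψ l)⁻¹ * (k * w * k⁻¹) * ψ l by rw [← p]; group]; group)⟩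
      · exact ⟨(ψ l)⁻¹ * k, mul_mem (inv_mem (m2 l)) hk, Or.inr (by
          rw [show ψ uu = (ψ l)⁻¹ * (k * w * k⁻¹) * ψ l by rw [← p]; group]; group)⟩
    · rw [ft] at c e ⊢
      rcases h.inv c w2 w1 with rfl | ⟨l, rfl⟩ | ⟨l, rfl⟩
      · exact IsConj.refl _
      · exact cts.trans (isConj_mk _ rfl)
      · exact (h.ntu (e.trans ((ψ.map_isConj cuut).trans (isConj_mk (ψ l) (by
          rw [map_mul, ← conj_mul, cj1 (com ψ l)]))).symm)).elim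
    · obtain ⟨x, rfl⟩ := h.sur g (ft ▸ e1)
      rw [fu, ← map_mul, ← map_mul] at e2
      rw [fy, ← map_mul, ← map_mul] at e3
      replace e2 := h.inj e2
      replace e3 := h.inj e3
      suffices ψ x ∈ Cx(tL).map f from this.imp fun a p => ⟨mem_Cx.1 p.1, p.2⟩
      rcases cls.2 _ (isConj_mk x rfl) (cj1 e2 ▸ comm_cj x (cm_ok sw uw (by decide +kernel)) :)
        (cj1 e3 ▸ comm_cj x (cm_ok sw yw (by decide +kernel)) :) with p | p
      · exact cx x (cj2 p) e2 e3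
      · have := cx (evw el [4, 8, 10, 14] * x) (cj2 (by
            rw [mul_inv_rev, mul_assoc _ x, mul_assoc, ← mul_assoc _ x⁻¹, p, ← mul_assoc]
            exact (congrArg₂ _ (congrArg _ (evw_append ..).symm) rfl).trans (cj_ok _ (sw ++ [0]) _ (by decide +kernel))))
          (Commute.mul_left (cm_ok _ uw (by decide +kernel)) e2) (Commute.mul_left (cm_ok _ yw (by decide +kernel)) e3)
        rwa [map_mul, mul_mem_cancel_left (mem_map.2 ⟨xL, mem_Cx.2 fL6.2.2.1, fx⟩)] at this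
  obtain ⟨e⟩ := Lee.isoCo3
  exact ⟨(MulEquiv.ofBijective ρ ⟨inj, MonoidHom.range_eq_top.1 F.top⟩).symm.trans e⟩

theorem main [Finite G] (hO : Cfsg.oddCore G = ⊥) (hZ : center G = ⊥) (t : G) (ht : orderOf t = 2)
    (hC : Cfsg.IsNonsplitDoubleCover Cx(t) Sp) : Cfsg.Spor.IsoCo3 G := by
  obtain ⟨ψ, p1, p2, p3⟩ := cover_iso hC
  have e : Cx(t).subtype.comp ψ tt = t := by
    rw [tt_eq]
    refine congrArg Subtype.val ((p3 ⟨t, mem_Cx.2 rfl⟩ (mem_center_iff.2 fun g => Subtype.ext (mem_Cx.1 g.2))).resolve_left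
      fun e => ?_).symm
    rw [show t = 1 from congrArg Subtype.val e, orderOf_one] at ht
    omega
  refine Cen.main (ψ := Cx(t).subtype.comp ψ) ⟨Subtype.val_injective.comp p1.1, fun g hg => ?_⟩ hO hZ
  obtain ⟨x, hx⟩ := p1.2 ⟨g, mem_Cx.2 (e ▸ hg)⟩
  exact ⟨x, congrArg Subtype.val hx⟩

end CfH8.C3
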