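import Cfsg.Agent.OD.Pre
import Cfsg.Agent.H8.D2
import Cfsg.Agent.H8.DD
import Cfsg.Agent.H8.DW
/-! The model of `2^(1+8):Sp₆(2)`. -/
set_option autoImplicit false
set_option maxRecDepth 100000
set_option Elab.async false
set_option linter.all false
open CfL hiding Tp Tm Zp Zm hZp hZm cZp cZm es_rels autp autm
open CfH6 CfH6.Co MulAction Subgroup CfH9
namespace CfH8.C2
open CfH8.C3 (Sp A cA A_eq A_gen card_Sp6)
noncomputable def NT : Tab := ⟨nat_lit 512, nat_lit 16, nat_lit 9, nat_lit 511, [tpc0, tpc1, tpc2, tpc3, tpc4, tpc5, tpc6, tpc7, tpc8, rc9, rc10, rc11, rc12, rc13, rc14, rc15], 0, 0, 0, 0, 0⟩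
theorem NT_act : NT.Act DN.il DN.rels := ⟨by decide +kernel, by decide +kernel, by decide +kernel⟩
abbrev N : Type := DN.G
abbrev el : ℕ → N := DN.el
instance : Finite N := DD.fin
noncomputable def RN : Rep NT el := Classical.choice NT_act.rep
noncomputable def lv5 : Lv := (0, (List.range 512).map tp.wl) :: [(6, List.map (Tab.dec 40) [nat_lit 0x0, nat_lit 0xa, nat_lit 0xb, nat_lit 0xc, nat_lit 0xd, nat_lit 0xe, nat_lit 0xf, nat_lit 0x10, nat_lit 0xba, nat_lit 0xca, nat_lit 0xda, nat_lit 0xea, nat_lit 0xfa, nat_lit 0x10a, nat_lit 0xab, nat_lit 0xcb, nat_lit 0xdb, nat_lit 0xeb, nat_lit 0xfb, nat_lit 0x10b, nat_lit 0xbc, nat_lit 0xdc, nat_lit 0xec, nat_lit 0x10c, nat_lit 0xcd, nat_lit 0xfd, nat_lit 0xce, nat_lit 0xfe, nat_lit 0xdf, nat_lit 0xaba, nat_lit 0xcba, nat_lit 0xdba, nat_lit 0xeba, nat_lit 0xfba, nat_lit 0x10ba, nat_lit 0xbca, nat_lit 0xdca, nat_lit 0xeca,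 nat_lit 0xfca, nat_lit 0x10ca, nat_lit 0xcda, nat_lit 0xfda, nat_lit 0xcea, nat_lit 0xfea, nat_lit 0xdfa, nat_lit 0x10fa, nat_lit 0x100a, nat_lit 0xdab, nat_lit 0xeab, nat_lit 0xfab, nat_lit 0xbcb, nat_lit 0xdcb, nat_lit 0xecb, nat_lit 0xfcb, nat_lit 0xcdb, nat_lit 0xceb, nat_lit 0xfeb, nat_lit 0xdfb, nat_lit 0xdbc, nat_lit 0xcdc, nat_lit 0xedc, nat_lit 0xfdc, nat_lit 0x10dc, nat_lit 0xcec, nat_lit 0x10ec, nat_lit 0xbcd, nat_lit 0xecd, nat_lit 0xfcd, nat_lit 0xdfd, nat_lit 0x10fd, nat_lit 0xbce, nat_lit 0xdce, nat_lit 0xfce, nat_lit 0xdfe, nat_lit 0xcdf, nat_lit 0xcaba, nat_lit 0xdaba, nat_lit 0xeaba, nat_lit 0xfaba, nat_lit 0x10aba, nat_lit 0xbcba, nat_lit 0xecba, nat_lit 0xfcba, nat_lit 0x10cba, nat_lit 0xfdba, nat_lit 0xceba, nat_lit 0xfeba, nat_lit 0xdfba, nat_lit 0x10fba, nat_lit 0x100ba, nat_lit 0xdbca, nat_lit 0xebca, nat_lit 0x10bca, nat_lit 0xcdca, nat_lit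 0xedca, nat_lit 0xfdca, nat_lit 0x10dca, nat_lit 0xceca, nat_lit 0x10eca, nat_lit 0x100ca, nat_lit 0xbcda, nat_lit 0xecda, nat_lit 0xfcda, nat_lit 0xdfda, nat_lit 0x10fda, nat_lit 0xbcea, nat_lit 0xdcea, nat_lit 0xfcea, nat_lit 0xdfea, nat_lit 0x10fea, nat_lit 0xcdfa, nat_lit 0x10dfa, nat_lit 0x100fa, nat_lit 0xe00a, nat_lit 0xcdab, nat_lit 0xceab, nat_lit 0xfeab, nat_lit 0xdfab, nat_lit 0xdbcb, nat_lit 0xebcb, nat_lit 0xfdcb, nat_lit 0xcecb, nat_lit 0xdfcb, nat_lit 0xbcdb, nat_lit 0xbceb, nat_lit 0xfceb, nat_lit 0xcdfb, nat_lit 0xecdc, nat_lit 0xcedc, nat_lit 0x10edc, nat_lit 0x10fdc, nat_lit 0x100dc, nat_lit 0xbcec, nat_lit 0xdcec, nat_lit 0xabcd, nat_lit 0xebcd, nat_lit 0xfbcd, nat_lit 0xfecd, nat_lit 0x10fcd, nat_lit 0xcdfd, nat_lit 0x10dfd, nat_lit 0xabce, nat_lit 0xdbce, nat_lit 0xfbce, nat_lit 0xfdce, nat_lit 0xbcdf, nat_lit 0xbcaba, nat_lit 0xecaba, nat_lit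 0xfcaba, nat_lit 0x10caba, nat_lit 0xceaba, nat_lit 0xfeaba, nat_lit 0xdfaba, nat_lit 0x10faba, nat_lit 0xabcba, nat_lit 0xebcba, nat_lit 0x10bcba, nat_lit 0xfecba, nat_lit 0xdfdba, nat_lit 0x10fdba, nat_lit 0xfceba, nat_lit 0xdfeba, nat_lit 0x10feba, nat_lit 0xcdfba, nat_lit 0x10dfba, nat_lit 0x100fba, nat_lit 0xe00ba, nat_lit 0xcdbca, nat_lit 0xedbca, nat_lit 0xfdbca, nat_lit 0x10dbca, nat_lit 0x10ebca, nat_lit 0xbcdca, nat_lit 0xecdca, nat_lit 0xfcdca, nat_lit 0xcedca, nat_lit 0x10edca, nat_lit 0x10fdca, nat_lit 0x100dca, nat_lit 0xbceca, nat_lit 0xdceca, nat_lit 0x100eca, nat_lit 0xe00ca, nat_lit 0xebcda, nat_lit 0xfecda, nat_lit 0x10dfda, nat_lit 0xabcea, nat_lit 0xdbcea, nat_lit 0xfbcea, nat_lit 0xfdcea, nat_lit 0x10fcea, nat_lit 0x100dfa, nat_lit 0xe00fa, nat_lit 0xbcdab, nat_lit 0xbceab, nat_lit 0xfceab, nat_lit 0xcdfab, nat_lit 0xdfdcb, nat_lit 0x10fdcb,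 nat_lit 0xbcecb, nat_lit 0xabcdb, nat_lit 0xabceb, nat_lit 0xfbceb, nat_lit 0xdfceb, nat_lit 0xecdfb, nat_lit 0xcecdc, nat_lit 0xbcedc, nat_lit 0xdcedc, nat_lit 0x10cedc, nat_lit 0x100edc, nat_lit 0x100fdc, nat_lit 0xeabcd, nat_lit 0xcebcd, nat_lit 0xfebcd, nat_lit 0xbcdfd, nat_lit 0x10cdfd, nat_lit 0xfabce, nat_lit 0xabcaba, nat_lit 0xebcaba, nat_lit 0xfbcaba, nat_lit 0xfecaba, nat_lit 0xbceaba, nat_lit 0xfceaba, nat_lit 0x10feaba, nat_lit 0xcdfaba, nat_lit 0x10dfaba, nat_lit 0xfcdbca, nat_lit 0x10cdbca, nat_lit 0x10fdbca, nat_lit 0x100dbca, nat_lit 0xebcdca, nat_lit 0xbcedca, nat_lit 0xdcedca, nat_lit 0x10cedca, nat_lit 0x100fdca, nat_lit 0xdbceca, nat_lit 0xfdceca, nat_lit 0xfabcea, nat_lit 0xfdbcea, nat_lit 0xe00dfa]),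
  (26, List.map (Tab.dec 40) [nat_lit 0x0, nat_lit 0x10ed, nat_lit 0x100cb, nat_lit 0x10fbc, nat_lit 0xfcedb, nat_lit 0xdfebc, nat_lit 0xfecdcba, nat_lit 0xe00fecb, nat_lit 0x100cdfec, nat_lit 0x100fbced, nat_lit 0xabcdfce, nat_lit 0x10dfcdcba, nat_lit 0xdbcedcba, nat_lit 0x100dcecba, nat_lit 0xcdfbcdba, nat_lit 0x10dfcecdb, nat_lit 0x10eabcdfe, nat_lit 0x10bcecdcba, nat_lit 0x10ecdfbcda, nat_lit 0x10bcdfedbc, nat_lit 0x10fcdbcecba, nat_lit 0x100bcdfcdba, nat_lit 0xceabcdfeda, nat_lit 0xecdfbcecab, nat_lit 0xe00abcdfcb, nat_lit 0xcdfdbcecdb, nat_lit 0xebcdfcedbc, nat_lit 0xe00ecdfedc, nat_lit 0xebcdfeabcba, nat_lit 0xdfecdbcecba, nat_lit 0xce00ecdfdba, nat_lit 0xcebcdfbcdca, nat_lit 0x10cdfbcebcab, nat_lit 0xbcdfdcebcab, nat_lit 0x10ceabcdfcab, nat_lit 0xebcdfabcdcb, nat_lit 0xbceabcdfdcb, nat_lit 0x100eabcdfdcb, nat_lit 0xeabcdfbcecd, nat_lit 0x10bcdfceabcba, nat_lit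 0x10dcebcdfcdca, nat_lit 0xdceabcdfbcab, nat_lit 0xcebcdfabcebc, nat_lit 0x10abcdfbcebcd, nat_lit 0x100bceabcdfed, nat_lit 0xbceabcdfcecba, nat_lit 0xbce00ebcdfcba, nat_lit 0x10dceabcdfedba, nat_lit 0xabcdfabcedbcb, nat_lit 0xe00bceabcdfeb, nat_lit 0x10ebcdfbcecdaba, nat_lit 0xfdcebcdfcecdca, nat_lit 0x100fdcebcdfedca, nat_lit 0x100cebcdfbcecab, nat_lit 0xdcebcdfeabcdab, nat_lit 0xfdceabcdfcdbcb, nat_lit 0x10dbceabcdfdbcb, nat_lit 0x10eabcdfabcedcb, nat_lit 0xceabcdfdbcedcb, nat_lit 0xcdbceabcdfeabc, nat_lit 0x10fdceabcdfeabc, nat_lit 0xdbceabcdfdcecd, nat_lit 0xfdbceabcdfdcaba, nat_lit 0x10ceabcdfdcecaba, nat_lit 0xe00cebcdfcedaba, nat_lit 0xfcdbceabcdfedba, nat_lit 0xfdceabcdfedabca, nat_lit 0xe00dcebcdfedbca, nat_lit 0xbce00cebcdfebca, nat_lit 0xce00fdcebcdfbca, nat_lit 0xfdbceabcdfecdab, nat_lit 0x10dceabcdfdcedcb, nat_lit 0xcdbceabcdfbcdbc, nat_lit 0x10fdceabcdfbcdbc,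 nat_lit 0x10ecdbceabcdfebc, nat_lit 0x10fdbceabcdfbcaba, nat_lit 0xdceabcdfdbcecaba, nat_lit 0x100dcebcdfabcdaba, nat_lit 0xfdceabcdfbcebcba, nat_lit 0xecdbceabcdfcdcba, nat_lit 0x100cdbceabcdfbcab, nat_lit 0xbce00eabcdfcebcb, nat_lit 0xecdbceabcdfcecdb, nat_lit 0x100dbceabcdfceabc, nat_lit 0xe00cdbceabcdfcec, nat_lit 0xcdbceabcdfdcebcba, nat_lit 0x10fdceabcdfdcebcba, nat_lit 0x100fdbceabcdfcedba, nat_lit 0x10fdcebcdfdbcecdca, nat_lit 0xfdcebcdfabceabcab, nat_lit 0xfcdbceabcdfdcedcb, nat_lit 0x100fdbceabcdfdcecb, nat_lit 0xbce00fdbceabcdfeb, nat_lit 0xfecdbceabcdfbcebc, nat_lit 0x10fdcebcdfceabcdaba, nat_lit 0x100ecdbceabcdfdbcba, nat_lit 0xabce00dceabcdfceda, nat_lit 0x10fdbceabcdfebcdcab, nat_lit 0x100fcdbceabcdfcdbcb, nat_lit 0xbce00bceabcdfbcecb, nat_lit 0xce00fdceabcdfbcecb, nat_lit 0x100ecdbceabcdfebcdb, nat_lit 0xabce00dbceabcdfebc, nat_lit 0x10fcdbceabcdfdcecdc,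 nat_lit 0xdfcdbceabcdfbcdbcba, nat_lit 0xe00bceabcdfdcecdcba, nat_lit 0xce00dceabcdfcecdcba, nat_lit 0xece00bceabcdfcebcab, nat_lit 0xdfcdbceabcdfbcebcdb, nat_lit 0xfecdbceabcdfecdbcedba, nat_lit 0x10fcdbceabcdfdbceabcab, nat_lit 0xbce00cdbceabcdfbcebcab]),
  (32, List.map (Tab.dec 40) [nat_lit 0x0, nat_lit 0xece00fbcea, nat_lit 0x100fecdabce, nat_lit 0xce00fcdbcaba, nat_lit 0xabce00fabcdc, nat_lit 0xe00fdbcecdabca, nat_lit 0xce00fecdbcedab, nat_lit 0xceabce00fcedab, nat_lit 0xebce00fabcedbc, nat_lit 0xebcdabcebcdbcaba, nat_lit 0x100fdbceabcdabcba, nat_lit 0xbce00fdcebcdbcba, nat_lit 0xcebce00fdabcedba, nat_lit 0xcdbceabce00fecab, nat_lit 0xdceabce00fcecdcb, nat_lit 0xeabce00fcdbceabc, nat_lit 0xdcebce00fbceabcd, nat_lit 0xe00fcebcdabcebcd, nat_lit 0xcebce00fbcecdabcab, nat_lit 0xbce00febcdabcedbcb, nat_lit 0xbceabce00fecdbcebcba, nat_lit 0xeabce00fecdabceabcda,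 nat_lit 0xdbceabce00fcdabcecda, nat_lit 0x10dfcdbceabce00dabcea, nat_lit 0x10fdcebce00cdbcebcdbc, nat_lit 0xabce00fdcebcdabcebcaba, nat_lit 0x10fdbceabce00ecdabcecdc]),
  (2, List.map (Tab.dec 40) [nat_lit 0x0, nat_lit 0xfdcebce00abcdfecdbceabcdfecdbce])]
theorem k5 : NT.lvOk 16 lv5 [] = true := by decide +kernel
def b5 : List ℕ := [2, 32, 26, 6, 0]
theorem bN : ∀ g ∈ RN.Fx b5, g = 1 := lv_base RN lv5 DN.htop k5 (DD.card.trans_le (by decide +kernel))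
noncomputable def cE (u v : List ℕ) : Bool := allLt 16 u && allLt 16 v && NT.same b5 u v
noncomputable def cN (u v : List ℕ) : Bool := allLt 16 u && allLt 16 v && !NT.same b5 u v
theorem cE_ok (u v : List ℕ) (h : cE u v = true := by decide +kernel) : evw el u = evw el v := by
  simp only [cE, Bool.and_eq_true] at h
  exact RN.of_same bN (allLt_sound h.1.1) (allLt_sound h.1.2) h.2
theorem cN_ok (u v : List ℕ) (h : cN u v = true := by decide +kernel) : evw el u ≠ evw el v := fun e => by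
  simp only [cN, Bool.and_eq_true] at h
  have := RN.same_of (bs := b5) (by decide) (allLt_sound h.1.1) (allLt_sound h.1.2) e
  rw [this] at h
  exact absurd h.2 (by decide)
theorem el2 : ∀ x < 16, el x * el x = 1 := fun x hx => by
  simpa using cE_ok [x, x] [] ((by decide +kernel : ∀ x < 16, cE [x, x] [] = true) x hx)
theorem rev {w : List ℕ} (h : allLt 16 w = true) : evw el w.reverse = (evw el w)⁻¹ := evw_rev el2 (allLt_sound h)
noncomputable def cJ (k u v : List ℕ) : Bool := allLt 16 k && cE (k ++ (u ++ k.reverse)) v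
theorem cj_ok (k u v : List ℕ) (h : cJ k u v = true := by decide +kernel) :
    evw el k * evw el u * (evw el k)⁻¹ = evw el v := by
  rw [cJ, Bool.and_eq_true] at h
  rw [← cE_ok _ _ h.2, evw_append, evw_append, rev h.1, mul_assoc]
theorem cm_ok (u v : List ℕ) (h : cE (u ++ v) (v ++ u) = true := by decide +kernel) :
    evw el u * evw el v = evw el v * evw el u := by
  rw [← evw_append, cE_ok _ _ h, evw_append]
theorem rels1 (l : List (List ℕ)) (h : l.all (cE · []) = true := by decide +kernel) : ∀ r ∈ l, evw el r = 1 :=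
  fun r hr => cE_ok r [] (List.all_eq_true.1 h r hr)

theorem exι : ∃ φ : Tp →* N, (∀ a, φ a = evw el (tp.wl a.1)) ∧
    ∀ (x : ℕ) (a : Tp), x < tp.nc → tp.R x 0 = a.1 → φ a = el x :=
  TE.exists_hom tpg el (inv_of_rels (rels1 _)) (rels1 _)
noncomputable def ιN : Tp →* N := exι.choose
theorem ιw (a : Tp) : ιN a = evw el (tp.wl a.1) := exι.choose_spec.1 a
theorem ιx (x : ℕ) (a : Tp) (h : x < 9) (e : tp.R x 0 = a.1) : ιN a = el x := exι.choose_spec.2 x a h e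
theorem ιZ : ιN Zp = el 0 := ιx 0 Zp (by decide) (by decide +kernel)
theorem z1 : el 0 ≠ 1 := by simpa using cN_ok [0] []
theorem ιinj : Function.Injective ιN := inj_es hZp ιN (ιZ ▸ z1)
theorem zcN (n : N) : n * el 0 = el 0 * n := mem_Cx.1 (DN.htop.ge.trans (gensub_le (K := Cx(el 0)) fun x hx => mem_Cx.2 (by
  simpa using cm_ok [x] [0] ((by decide +kernel : ∀ x < 16, cE ([x] ++ [0]) ([0] ++ [x]) = true) x hx))) (mem_top n))

theorem LN : ∀ x < 16, L ιN (el x) (eR x) := fun x hx => by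
  have k : L ιN (el x)⁻¹ (eR x)⁻¹ := fun t => by
    refine TE.top_of (((MulAut.conj (el x)⁻¹).toMonoidHom.comp ιN).eqLocus (ιN.comp (eR x)⁻¹.toMonoidHom))
      (fun y hy a ha => ?_) t
    have m := cj_ok [x] [y] _ ((by decide +kernel : ∀ x < 16, ∀ y < 9, cJ [x] [y] (tp.wl (sR.R x (tp.R y 0))) = true) x hx y hy)
    rw [ha, ← (exA x).choose_spec hx a, ← ιw] at m
    change (el x)⁻¹ * ιN a * (el x)⁻¹⁻¹ = ιN ((eR x)⁻¹ a)
    rw [ιx y a hy ha, inv_inv]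
    simp only [evw_cons, evw_nil, mul_one, inv_eq_of_mul_eq_one_right (el2 x hx)] at m ⊢
    exact m
  simpa using k.inv

theorem exL (n : N) : ∃ s, L ιN n s := by
  let H : Subgroup N := ⟨⟨⟨{g | ∃ s, L ιN g s}, fun ⟨_, a⟩ ⟨_, b⟩ => ⟨_, a.mul b⟩⟩, _, L.one⟩, fun ⟨_, a⟩ => ⟨_, a.inv⟩⟩
  exact DN.htop.ge.trans (gensub_le (K := H) fun x hx => ⟨_, LN x hx⟩) (mem_top n)
instance nmQ : ιN.range.Normal := ⟨by rintro _ ⟨t, rfl⟩ n; obtain ⟨s, a⟩ := exL n; exact ⟨_, (a t).symm⟩⟩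

theorem exθ : ∃ θ : N →* S, ∀ n, L ιN n (θ n) := by
  obtain ⟨θ, e⟩ := exists_theta ιinj ⊤ fun k _ t => nmQ.conj_mem _ ⟨t, rfl⟩ k
  exact ⟨θ.comp (topEquiv (G := N)).symm.toMonoidHom, fun n t => (e ⟨n, trivial⟩ t).symm⟩
noncomputable def θN : N →* S := exθ.choose
theorem Lθ (n : N) : L ιN n (θN n) := exθ.choose_spec n
theorem θx : ∀ x < 16, θN (el x) = eR x := fun x hx => MulEquiv.ext fun t => ιinj ((Lθ _ t).symm.trans (LN x hx t))
noncomputable def RC : Rep sR el := rR.comap θN θx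
theorem cjQ {w : List ℕ} (h : allLt 16 w = true) (t : Tp) :
    (evw el w)⁻¹ * ιN t * evw el w = ιN (mkT (sR.trL w t.1)) := by
  have := (L.evw LN (allLt_sound h)).inv t
  rw [inv_inv] at this
  rw [this, ← wdR (allLt_sound h), mkT_eq]

def σp : List (List ℕ) := [[], [], [], [], [], [], [], [], [], [0], [1], [2], [3], [4], [5], [6]]
theorem exπ : ∃ π : N →* Sp, ∀ x < 16, π (el x) = byW A σp x := by
  have k : ∀ l : List (List ℕ), l.all (fun r => cA (subst σp r) []) = true → ∀ r ∈ l, evw (byW A σp) r = 1 :=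
    fun l h r hr => by rw [← evw_subst]; exact A_eq _ [] (List.all_eq_true.1 h r hr)
  exact DN.hhom _ (inv_of_rels (k _ (by decide +kernel))) (k _ (by decide +kernel))
noncomputable def πN : N →* Sp := exπ.choose
theorem πx : ∀ x < 16, πN (el x) = byW A σp x := exπ.choose_spec
theorem πw {w : List ℕ} (h : allLt 16 w = true) : πN (evw el w) = evw A (subst σp w) := by
  rw [evw_subst]; exact hom_evw πx _ (allLt_sound h)
theorem evw_map {G : Type*} [Group G] (ev : ℕ → G) (f : ℕ → ℕ) (w : List ℕ) : evw ev (w.map f) = evw (fun i => ev (f i)) w := by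
  induction w with
  | nil => rfl
  | cons x w ih => rw [List.map_cons, evw_cons, evw_cons, ih]
theorem exσ : ∃ σ : Sp →* N, ∀ i < 7, σ (A i) = el (i + 9) := homX (fun i => el (i + 9)) fun r hr => by
  rw [← evw_map el (· + 9)]
  exact rels1 ((((List.range 7).map fun x => [x, xil.getD x 0]) ++ xr).map (List.map (· + 9))) (by decide +kernel) _
    (List.mem_map_of_mem hr)
noncomputable def σN : Sp →* N := exσ.choose
theorem σx : ∀ i < 7, σN (A i) = el (i + 9) := exσ.choose_spec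
theorem σw {w : List ℕ} (h : allLt 7 w = true) : σN (evw A w) = evw el (w.map (· + 9)) := by
  rw [evw_map]; exact hom_evw σx _ (allLt_sound h)
theorem πσ (x : Sp) : πN (σN x) = x := (A_gen ((πN.comp σN).eqLocus (MonoidHom.id _)) fun i hi => by
  change πN (σN (A i)) = A i
  rw [σx i hi, πx _ (by omega)]
  interval_cases i <;> exact mul_one _).ge (mem_top x)
theorem πι (t : Tp) : πN (ιN t) = 1 := TE.top_of (πN.comp ιN).ker (fun x hx a ha => by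
  change πN (ιN a) = 1
  change x < 9 at hx
  rw [ιx x a hx ha, πx _ (by omega)]
  interval_cases x <;> rfl) t
theorem nf (n : N) : ∃ t, n = σN (πN n) * ιN t := by
  have : n ∈ ((QuotientGroup.mk' ιN.range).comp (σN.comp πN)).eqLocus (QuotientGroup.mk' ιN.range) :=
    DN.htop.ge.trans (gensub_le fun x hx => by
      change ((σN (πN (el x)) : N) : N ⧸ ιN.range) = (el x : N)
      by_cases h : x < 9
      · have e := ιx x (mkT (tp.R x 0)) h (by revert x; decide +kernel)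
        rw [← e, πι, map_one, eq_comm, QuotientGroup.mk_one, QuotientGroup.eq_one_iff]
        exact ⟨_, rfl⟩
      · obtain ⟨i, rfl⟩ : ∃ i, x = i + 9 := ⟨x - 9, by omega⟩
        rw [← σx i (by omega), πσ]) (mem_top n)
  obtain ⟨t, e⟩ := QuotientGroup.eq.1 this
  exact ⟨t, by rw [e]; simp⟩
theorem kerπ {n : N} : πN n = 1 ↔ n ∈ ιN.range :=
  ⟨fun h => by obtain ⟨t, e⟩ := nf n; exact ⟨t, by rw [e, h]; simp⟩, by rintro ⟨t, rfl⟩; exact πι t⟩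

section
variable {G H : Type*} [Group G] [Group H]
noncomputable def kk (b : ℕ → G) (v : ℕ) : ℕ → G := Nat.rec 1 fun n r => cond (bitN v n) (b n) 1 * r
noncomputable def kw (b : List (List ℕ)) (v : ℕ) : ℕ → List ℕ := Nat.rec [] fun n r => cond (bitN v n) (b.getD n [] ++ r) r
noncomputable def lin (M : List ℕ) (v : ℕ) : ℕ → ℕ := Nat.rec 0 fun n r => cond (bitN v n) (Nat.xor (M.getD n 0) r) r
theorem kk_s (b : ℕ → G) (v n : ℕ) : kk b v (n + 1) = cond (bitN v n) (b n) 1 * kk b v n := rfl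
theorem kk_w (ev : ℕ → G) (b : List (List ℕ)) (v n : ℕ) : evw ev (kw b v n) = kk (byW ev b) v n := by
  induction n with
  | zero => rfl
  | succ n ih =>
    change evw ev (cond _ (_ ++ kw b v n) (kw b v n)) = _
    rw [kk_s, ← ih]
    cases bitN v n
    exacts [(one_mul _).symm, evw_append _ _ _]
theorem kk_hom (φ : G →* H) (b : ℕ → G) (c : ℕ → H) (v n : ℕ) (h : ∀ i < n, φ (b i) = c i) : φ (kk b v n) = kk c v n := by
  induction n with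
  | zero => exact map_one φ
  | succ n ih =>
    rw [kk_s, kk_s, map_mul, ih fun i hi => h i (by omega)]
    cases bitN v n
    exacts [by rw [cond_false, cond_false, map_one], by rw [cond_true, cond_true, h n (by omega)]]
theorem kk_mem {K : Subgroup G} {b : ℕ → G} (v n : ℕ) (h : ∀ i < n, b i ∈ K) : kk b v n ∈ K := by
  induction n with
  | zero => exact one_mem _
  | succ n ih =>
    refine mul_mem ?_ (ih fun i hi => h i (by omega))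
    cases bitN v n
    exacts [one_mem _, h n (by omega)]
theorem kk_xor {b : ℕ → G} (u v n : ℕ) (h : ∀ i < n, b i * b i = 1 ∧ ∀ j < n, b j * b i = b i * b j) :
    kk b (Nat.xor u v) n = kk b u n * kk b v n := by
  induction n with
  | zero => exact (one_mul _).symm
  | succ n ih =>
    have c : kk b u n * b n = b n * kk b u n :=
      mem_Cx.1 (kk_mem (K := Cx(b n)) u n fun i hi => mem_Cx.2 ((h n (by omega)).2 i (by omega)))
    have e : bitN (Nat.xor u v) n = xor (bitN u n) (bitN v n) := by simp only [bitN_eq]; exact Nat.testBit_xor u v n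
    rw [kk_s, kk_s, kk_s, ih fun i hi => ⟨(h i (by omega)).1, fun j hj => (h i (by omega)).2 j (by omega)⟩, e]
    cases bitN u n <;> cases bitN v n <;> simp only [Bool.xor_false, Bool.xor_true, Bool.not_true, Bool.not_false, cond_true, cond_false, one_mul, mul_assoc]
    · rw [← mul_assoc, ← c, mul_assoc]
    · rw [← mul_assoc (kk b u n), c, ← mul_assoc, ← mul_assoc, (h n (by omega)).1, one_mul]
theorem kk_lin {κ : ℕ → G} (k0 : κ 0 = 1) (kx : ∀ u v, κ (Nat.xor u v) = κ u * κ v) (M : List ℕ) (v n : ℕ) :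
    kk (fun i => κ (M.getD i 0)) v n = κ (lin M v n) := by
  induction n with
  | zero => exact k0.symm
  | succ n ih =>
    change _ = κ (cond _ (Nat.xor _ (lin M v n)) (lin M v n))
    rw [kk_s, ih]
    cases bitN v n
    exacts [one_mul _, (kx _ _).symm]
end

def bW : List (List ℕ) := [[0], [12], [5, 0], [1, 3, 5, 7], [1, 5], [3], [9, 10, 9, 13, 14, 12, 11, 10, 9, 13, 11, 10, 15, 14, 12, 11, 10, 9, 13, 11, 10, 12, 11, 13, 14, 12, 15, 14], [9, 10, 9, 14, 12, 11, 10, 9, 13, 11, 10, 15, 14, 12, 11, 10, 9, 13, 11, 10, 12, 11, 14, 12, 15, 14], [9, 10, 9, 13, 14, 12, 11, 10, 13, 11, 12, 14, 15, 14, 12, 11, 10, 9, 13, 11, 10, 12, 14, 15], [9, 10, 13, 14, 12, 11, 10, 13, 11, 12, 14, 15, 14, 12, 11, 10, 9, 13, 11, 12, 14, 15]]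
noncomputable def κw (v : ℕ) : List ℕ := kw bW v 10
noncomputable def κ (v : ℕ) : N := evw el (κw v)
theorem κ0 : κ 0 = 1 := rfl
theorem κx (u v : ℕ) : κ (Nat.xor u v) = κ u * κ v := by
  simp only [κ, κw, kk_w]
  refine kk_xor u v 10 fun i hi => ⟨?_, fun j hj => cm_ok _ _ ((by decide +kernel :
    ∀ i < 10, ∀ j < 10, cE (bW.getD j [] ++ bW.getD i []) (bW.getD i [] ++ bW.getD j []) = true) i hi j hj)⟩
  exact (evw_append _ _ _).symm.trans (cE_ok _ [] ((by decide +kernel :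
    ∀ i < 10, cE (bW.getD i [] ++ bW.getD i []) [] = true) i hi))
theorem κ2 (v : ℕ) : κ v * κ v = 1 := by rw [← κx, ← κ0]; exact congrArg κ (Nat.xor_self v)
theorem κc (u v : ℕ) : κ u * κ v = κ v * κ u := by rw [← κx, ← κx]; exact congrArg κ (Nat.xor_comm u v)
theorem xlt {u v : ℕ} (hu : u < 1024) (hv : v < 1024) : Nat.xor u v < 1024 := Nat.xor_lt_two_pow (n := 10) hu hv
theorem κ1 {v : ℕ} (hv : v < 1024) (e : κ v = 1) : v = 0 := by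
  by_contra h
  exact cN_ok _ [] (((by decide +kernel : ∀ v < 1024, v = 0 ∨ cN (κw v) [] = true) v hv).resolve_left h) e
theorem κi {u v : ℕ} (hu : u < 1024) (hv : v < 1024) (e : κ u = κ v) : u = v :=
  Nat.eq_of_xor_eq_zero (κ1 (xlt hu hv) ((κx u v).trans (by rw [e, κ2])))
/-- a homomorphism acting on `V` through a matrix -/
theorem κlin {G : Type*} [Group G] (φ ψ : N →* G) (M : List ℕ) (h : ∀ i < 10, φ (evw el (bW.getD i [])) = ψ (κ (M.getD i 0)))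
    (v : ℕ) : φ (κ v) = ψ (κ (lin M v 10)) := by
  rw [← kk_lin κ0 κx, kk_hom ψ _ _ v 10 fun _ _ => rfl, κ, κw, kk_w]
  exact kk_hom φ _ _ v 10 h
noncomputable def okM (w M : List ℕ) : Bool := (List.range 10).all fun i => cJ w (bW.getD i []) (κw (M.getD i 0))
theorem cjM (w M : List ℕ) (h : okM w M = true := by decide +kernel) (v : ℕ) :
    evw el w * κ v * (evw el w)⁻¹ = κ (lin M v 10) :=
  κlin (MulAut.conj (evw el w)).toMonoidHom (MonoidHom.id _) M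
    (fun i hi => cj_ok _ _ _ (List.all_eq_true.1 h i (List.mem_range.2 hi))) v
def VV : Subgroup N where
  carrier := κ '' Set.Iio 1024
  one_mem' := ⟨0, by decide, κ0⟩
  mul_mem' := by rintro _ _ ⟨u, hu, rfl⟩ ⟨v, hv, rfl⟩; exact ⟨_, xlt hu hv, κx u v⟩
  inv_mem' := by rintro _ ⟨u, hu, rfl⟩; exact ⟨u, hu, eq_inv_of_mul_eq_one_left (κ2 u)⟩
theorem κm {v : ℕ} (h : v < 1024) : κ v ∈ VV := ⟨v, h, rfl⟩
theorem cV : Nat.card VV = 1024 := by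
  change Nat.card (κ '' Set.Iio 1024) = _
  rw [Nat.card_coe_set_eq, Set.ncard_image_of_injOn (f := κ) (s := Set.Iio 1024) fun u hu v hv => κi hu hv, ← Finset.coe_range, Set.ncard_coe_finset,
    Finset.card_range]
noncomputable def lvC : Lv := [(2, List.map (Tab.dec 40) [nat_lit 0x0, nat_lit 0x3, nat_lit 0xa, nat_lit 0xb, nat_lit 0xc, nat_lit 0xe, nat_lit 0xf, nat_lit 0xa3, nat_lit 0xb3, nat_lit 0xc3, nat_lit 0xe3, nat_lit 0xf3, nat_lit 0xca, nat_lit 0xea, nat_lit 0xfa, nat_lit 0xcb, nat_lit 0xeb, nat_lit 0xfb, nat_lit 0xbc, nat_lit 0xdc, nat_lit 0xec, nat_lit 0xfc, nat_lit 0x10c, nat_lit 0xfe, nat_lit 0xdf, nat_lit 0x10f, nat_lit 0xca3, nat_lit 0xea3, nat_lit 0xfa3, nat_lit 0xcb3, nat_lit 0xeb3, nat_lit 0xfb3, nat_lit 0xbc3, nat_lit 0xdc3, nat_lit 0xec3, nat_lit 0xfc3, nat_lit 0x10c3, nat_lit 0xfe3, nat_lit 0xdf3, nat_lit 0x10f3, nat_lit 0xbca, nat_lit 0xeca, nat_lit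 0xfca, nat_lit 0x10ca, nat_lit 0xfea, nat_lit 0xdfa, nat_lit 0x10fa, nat_lit 0xbcb, nat_lit 0xdcb, nat_lit 0xecb, nat_lit 0x10cb, nat_lit 0xdfb, nat_lit 0xabc, nat_lit 0xebc, nat_lit 0xfbc, nat_lit 0x10bc, nat_lit 0xedc, nat_lit 0xfdc, nat_lit 0x10dc, nat_lit 0xcec, nat_lit 0xfec, nat_lit 0xdfc, nat_lit 0xdfe, nat_lit 0xcdf, nat_lit 0x10df, nat_lit 0xbca3, nat_lit 0xeca3, nat_lit 0xfca3, nat_lit 0x10ca3, nat_lit 0xfea3, nat_lit 0xdfa3, nat_lit 0x10fa3, nat_lit 0xbcb3, nat_lit 0xdcb3, nat_lit 0xecb3, nat_lit 0x10cb3, nat_lit 0xdfb3, nat_lit 0xabc3, nat_lit 0xebc3, nat_lit 0xfbc3, nat_lit 0x10bc3, nat_lit 0xedc3, nat_lit 0xfdc3, nat_lit 0x10dc3, nat_lit 0xcec3, nat_lit 0xfec3, nat_lit 0xdfc3, nat_lit 0xdfe3, nat_lit 0xcdf3, nat_lit 0x10df3, nat_lit 0xebca, nat_lit 0xfbca, nat_lit 0x10bca, nat_lit 0xceca, nat_lit 0xfeca, nat_lit 0xdfca, nat_lit 0x10fca, nat_lit 0x100ca,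 nat_lit 0xdfea, nat_lit 0x10fea, nat_lit 0xcdfa, nat_lit 0x10dfa, nat_lit 0xdbcb, nat_lit 0xedcb, nat_lit 0xfdcb, nat_lit 0x10dcb, nat_lit 0xcdfb, nat_lit 0xeabc, nat_lit 0xcebc, nat_lit 0x10ebc, nat_lit 0xdfbc, nat_lit 0xcedc, nat_lit 0xfedc, nat_lit 0x10edc, nat_lit 0xdfdc, nat_lit 0xdfec, nat_lit 0xcdfc, nat_lit 0xbcdf, nat_lit 0x10cdf, nat_lit 0x100df, nat_lit 0xebca3, nat_lit 0xfbca3, nat_lit 0x10bca3, nat_lit 0xceca3, nat_lit 0xfeca3, nat_lit 0xdfca3, nat_lit 0x10fca3, nat_lit 0x100ca3, nat_lit 0xdfea3, nat_lit 0x10fea3, nat_lit 0xcdfa3, nat_lit 0x10dfa3, nat_lit 0xdbcb3, nat_lit 0xedcb3, nat_lit 0xfdcb3, nat_lit 0x10dcb3, nat_lit 0xcdfb3, nat_lit 0xeabc3, nat_lit 0xcebc3, nat_lit 0x10ebc3, nat_lit 0xdfbc3, nat_lit 0xcedc3, nat_lit 0xfedc3, nat_lit 0x10edc3, nat_lit 0xdfdc3, nat_lit 0xdfec3, nat_lit 0xcdfc3, nat_lit 0xbcdf3, nat_lit 0x10cdf3, nat_lit 0x100df3,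 nat_lit 0xcebca, nat_lit 0xfebca, nat_lit 0x10ebca, nat_lit 0xdfbca, nat_lit 0xfceca, nat_lit 0xdfeca, nat_lit 0x10feca, nat_lit 0xcdfca, nat_lit 0x10dfca, nat_lit 0x10dfea, nat_lit 0xbcdfa, nat_lit 0x10cdfa, nat_lit 0x100dfa, nat_lit 0xfdbcb, nat_lit 0xcedcb, nat_lit 0xfedcb, nat_lit 0xbcdfb, nat_lit 0xdcebc, nat_lit 0xcdfbc, nat_lit 0xbcedc, nat_lit 0xdcedc, nat_lit 0xdfedc, nat_lit 0xcdfdc, nat_lit 0xbcdfc, nat_lit 0xabcdf, nat_lit 0x10bcdf, nat_lit 0x100cdf, nat_lit 0xcebca3, nat_lit 0xfebca3, nat_lit 0x10ebca3, nat_lit 0xdfbca3, nat_lit 0xfceca3, nat_lit 0xdfeca3, nat_lit 0x10feca3, nat_lit 0xcdfca3, nat_lit 0x10dfca3, nat_lit 0x10dfea3, nat_lit 0xbcdfa3, nat_lit 0x10cdfa3, nat_lit 0x100dfa3, nat_lit 0xfdbcb3, nat_lit 0xcedcb3, nat_lit 0xfedcb3, nat_lit 0xbcdfb3, nat_lit 0xdcebc3, nat_lit 0xcdfbc3, nat_lit 0xbcedc3, nat_lit 0xdcedc3, nat_lit 0xdfedc3, nat_lit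 0xcdfdc3, nat_lit 0xbcdfc3, nat_lit 0xabcdf3, nat_lit 0x10bcdf3, nat_lit 0x100cdf3, nat_lit 0xbcebca, nat_lit 0xfcebca, nat_lit 0xdfebca, nat_lit 0xcdfbca, nat_lit 0x10dfeca, nat_lit 0xbcdfca, nat_lit 0x10cdfca, nat_lit 0x100dfea, nat_lit 0xabcdfa, nat_lit 0x10bcdfa, nat_lit 0x100cdfa, nat_lit 0xbcedcb, nat_lit 0xfcedcb, nat_lit 0xabcdfb, nat_lit 0xbcdfbc, nat_lit 0xbcdfdc, nat_lit 0xabcdfc, nat_lit 0x10abcdf, nat_lit 0x100bcdf, nat_lit 0xbcebca3, nat_lit 0xfcebca3, nat_lit 0xdfebca3, nat_lit 0xcdfbca3, nat_lit 0x10dfeca3, nat_lit 0xbcdfca3, nat_lit 0x10cdfca3, nat_lit 0x100dfea3, nat_lit 0xabcdfa3, nat_lit 0x10bcdfa3, nat_lit 0x100cdfa3, nat_lit 0xbcedcb3, nat_lit 0xfcedcb3, nat_lit 0xabcdfb3, nat_lit 0xbcdfbc3, nat_lit 0xbcdfdc3, nat_lit 0xabcdfc3, nat_lit 0x10abcdf3, nat_lit 0x100bcdf3, nat_lit 0xbcdfbca, nat_lit 0xabcdfca, nat_lit 0x10bcdfca, nat_lit 0x10abcdfa,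 nat_lit 0x100bcdfa, nat_lit 0xabcedcb, nat_lit 0xfbcedcb, nat_lit 0xabcdfbc, nat_lit 0xabcdfdc, nat_lit 0x100abcdf, nat_lit 0xbcdfbca3, nat_lit 0xabcdfca3, nat_lit 0x10bcdfca3, nat_lit 0x10abcdfa3, nat_lit 0x100bcdfa3, nat_lit 0xabcedcb3, nat_lit 0xfbcedcb3, nat_lit 0xabcdfbc3, nat_lit 0xabcdfdc3, nat_lit 0x100abcdf3, nat_lit 0xabcdfbca, nat_lit 0x10abcdfca, nat_lit 0x100abcdfa, nat_lit 0xfabcedcb, nat_lit 0xabcdfbca3, nat_lit 0x10abcdfca3, nat_lit 0x100abcdfa3, nat_lit 0xfabcedcb3]),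
  (8, List.map (Tab.dec 40) [nat_lit 0x0, nat_lit 0x5, nat_lit 0x100ebcb, nat_lit 0x100fbcb, nat_lit 0x100ebcb5, nat_lit 0x100fbcb5, nat_lit 0xe00ebcb, nat_lit 0xe00fbcb, nat_lit 0xe00ebcb5, nat_lit 0xe00fbcb5, nat_lit 0xce00fbca, nat_lit 0xce00fbca5, nat_lit 0xbce00fdcb, nat_lit 0xabce00fdc, nat_lit 0xbce00fdcb5, nat_lit 0xabce00fdc5, nat_lit 0xcdfbceabcb, nat_lit 0xcdfbceabcb5, nat_lit 0x100cdfdceabcb, nat_lit 0x100ecdfceabcb, nat_lit 0x100cdfdceabcb5, nat_lit 0x100ecdfceabcb5, nat_lit 0xabcdfabceabcb, nat_lit 0xe00cdfdceabcb, nat_lit 0xe00ecdfceabcb, nat_lit 0xabcdfabceabcb5, nat_lit 0xe00cdfdceabcb5, nat_lit 0xe00ecdfceabcb5]),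
  (32, List.map (Tab.dec 40) [nat_lit 0x0, nat_lit 0x7, nat_lit 0xaba, nat_lit 0xaba7, nat_lit 0xcdabca, nat_lit 0xcdabca7, nat_lit 0xcdabcba, nat_lit 0xcdabcba7, nat_lit 0x10ecdabca, nat_lit 0x10ecdabca7, nat_lit 0x10ecdabcba, nat_lit 0x10ecdabcba7, nat_lit 0xecdabcecdbca, nat_lit 0xecdabcecdbca7, nat_lit 0xecdabcecdbcba, nat_lit 0xecdabcecdbcba7, nat_lit 0xce00ecdfceabca, nat_lit 0xce00ecdfceabca7, nat_lit 0xce00ecdfceabcba, nat_lit 0xce00ecdfceabcba7, nat_lit 0xece00ecdfdceabca, nat_lit 0xece00ecdfdceabca7, nat_lit 0xece00ecdfdceabcba, nat_lit 0xece00ecdfdceabcba7]),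
  (128, List.map (Tab.dec 40) [nat_lit 0x0, nat_lit 0x9, nat_lit 0xcdbceabce00cdfdcebcdabcab, nat_lit 0xcdbceabce00cdfdcebcdabcab9])]
theorem kC : sR.lvOk 16 lvC [] = true := by decide +kernel
theorem cenU {g : N} (h : ∀ v ∈ [21, 32, 5, 56], g * κ v = κ v * g) : g ∈ VV := by
  have e : ∀ i : Tp, i.1 ∈ [128, 32, 8, 2] → ∃ v ∈ [21, 32, 5, 56], κ v = ιN i := fun i hi => by
    obtain ⟨v, a, b⟩ := (by decide +kernel : ∀ i ∈ [128, 32, 8, 2], ∃ v ∈ [21, 32, 5, 56], cE (κw v) (tp.wl i) = true) _ hi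
    exact ⟨v, a, (cE_ok _ _ b).trans (ιw i).symm⟩
  have k : ∀ g : N, (∀ v ∈ [21, 32, 5, 56], g * κ v = κ v * g) → g ∈ RC.Fx [128, 32, 8, 2] := fun g h i hi => by
    obtain ⟨v, a, b⟩ := e i hi
    exact ιinj (((Lθ g i).symm.trans (by rw [← b, h v a]; simp)).trans b)
  have c := lv_fix RC lvC DN.htop kC
  rw [DD.card, show lvN lvC = 725760 by decide +kernel] at c
  exact (eq_of_le_of_card_ge (H := VV) (K := RC.Fx [128, 32, 8, 2]) (by rintro _ ⟨u, -, rfl⟩; exact k _ fun v _ => κc u v)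
    (by rw [cV]; change _ * Nat.card (RC.Fx [128, 32, 8, 2]) ≤ _ at c; omega)).ge (k g h)
end CfH8.C2
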