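import Cfsg.Agent.OD.Pre
import Cfsg.Agent.H8.D4
import Cfsg.Agent.H5.JF
import Cfsg.Agent.H5.S1
import Cfsg.Agent.OD.Helper9x2e930f4fb1
/-! Fusion of the central involution of `2^(1+8):Sp₆(2)`. -/
set_option autoImplicit false
set_option maxRecDepth 100000
set_option Elab.async false
set_option linter.all false
open CfL hiding Tp Tm Zp Zm hZp hZm cZp cZm es_rels autp autm
open CfH6 CfH6.Co MulAction Subgroup CfH9
namespace CfH8.C2
open CfH8.C3 (Sp A cA A_eq A_gen card_Sp6)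

theorem κz : κ 1 = el 0 := mul_one _
theorem ctN {n : N} (h : ∀ t, n * ιN t = ιN t * n) : n = 1 ∨ n = el 0 := by
  obtain ⟨v, hv, rfl⟩ := cenU (g := n) fun v hv => by
    obtain ⟨t, e⟩ := κQ ((by decide +kernel : ∀ v ∈ [21, 32, 5, 56], (κw v).all (Nat.blt · 9) = true) v hv)
    exact e ▸ h t
  have k := (by decide +kernel : ∀ v < 1024, (∀ j < 8, lin (GM.getD (j + 3) []) v 10 < 1024) ∧
    ((∀ j < 8, lin (GM.getD (j + 3) []) v 10 = v) → v = 0 ∨ v = 1)) v hv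
  refine (k.2 fun j hj => κi (k.1 j hj) hv ?_).imp (fun e => by rw [e, κ0]) fun e => by rw [e, κz]
  obtain ⟨t, e⟩ : byW el GW (j + 3) ∈ ιN.range := kerπ.1 ((πw (by revert j; decide +kernel)).trans
    (A_eq _ [] (by revert j; decide +kernel)))
  rw [← cjG _ (by omega), ← e, ← h t, mul_inv_cancel_right]

theorem card_fix {G : Type*} [Group G] {p : ℕ} [Fact p.Prime] {P U : Subgroup G} [Finite U] (hP : IsPGroup p P)
    (hPU : P ≤ Nm(U)) : Nat.card U ≡ Nat.card (U ⊓ Cz(P) : Subgroup G) [MOD p] := by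
  let _ : MulAction P U := MulAction.compHom U (U.normalizerMonoidHom.comp (inclusion hPU))
  exact (hP.card_modEq_card_fixedPoints U).trans (by
    rw [Nat.card_congr (β := (U ⊓ Cz(P) : Subgroup G))
      { toFun := fun x => ⟨x.1.1, x.1.2, fun g hg => mul_inv_eq_iff_eq_mul.1 (congrArg Subtype.val (x.2 ⟨g, hg⟩))⟩
        invFun := fun x => ⟨⟨x.1, x.2.1⟩, fun g => Subtype.ext (mul_inv_eq_iff_eq_mul.2 (x.2.2 g g.2))⟩
        left_inv := fun _ => rfl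
        right_inv := fun _ => rfl }])

structure Ct {G : Type*} [Group G] (ψ : N →* G) : Prop where
  inj : Function.Injective ψ
  sur : ∀ g, g * ψ (κ 1) = ψ (κ 1) * g → ∃ n, ψ n = g

noncomputable def sel (a b c d e : Bool) (l : ℕ) : Bool := Nat.beq l 1 || a && Nat.beq l 64 || b && Nat.beq l 65 ||
  c && Nat.beq l 66 || d && Nat.beq l 67 || e && Nat.beq l 72
theorem nums : ∀ a b c d e : Bool, a ≠ b ∨ c ≠ d → ∃ p ∈ [61, 43, 541, 421, 661, 53, 241, 601, 19, 103],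
    p ∣ ((Finset.range 1024).filter fun v => sel a b c d e (lab v) = true).card := by decide +kernel

theorem prs : ∀ p ∈ [61, 43, 541, 421, 661, 53, 241, 601, 19, 103], p.Prime ∧ ¬ p ∣ 743178240 ∧ ∀ j < 10, ¬ p ∣ 1024 - 2 ^ j := by
  decide +kernel

variable {G : Type*} [Group G] {ψ : N →* G}
theorem zc (ψ : N →* G) (n : N) : ψ n * ψ (κ 1) = ψ (κ 1) * ψ n := by rw [← map_mul, κz, zcN, map_mul]
theorem vc (ψ : N →* G) (u v : ℕ) : ψ (κ u) * ψ (κ v) = ψ (κ v) * ψ (κ u) := by rw [← map_mul, κc, map_mul]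
theorem v2 (ψ : N →* G) (u : ℕ) : ψ (κ u) * ψ (κ u) = 1 := by rw [← map_mul, κ2, map_one]
theorem nv {n : G} (hn : n ∈ Nm(VV.map ψ)) {v : ℕ} (hv : v < 1024) : ∃ u < 1024, n * ψ (κ v) * n⁻¹ = ψ (κ u) := by
  obtain ⟨_, ⟨u, hu, rfl⟩, e⟩ := (mem_normalizer_iff.1 hn _).1 (mem_map_of_mem ψ (κm hv))
  exact ⟨u, hu, e.symm⟩
theorem cmj {a b : G} (g : G) (h : a * (g * b * g⁻¹) = g * b * g⁻¹ * a) : g⁻¹ * a * g * b = b * (g⁻¹ * a * g) := by
  calc _ = g⁻¹ * (a * (g * b * g⁻¹)) * g := by group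
    _ = _ := by rw [h]; group

namespace Ct
variable [Finite G] (h : Ct ψ)
include h
theorem vi {u v : ℕ} (e : ψ (κ u) = ψ (κ v)) (hu : u < 1024 := by decide) (hv : v < 1024 := by decide) : u = v :=
  κi hu hv (h.inj e)
theorem t1 : ψ (κ 1) ≠ 1 := fun e => absurd (h.vi (v := 0) (e.trans (map_one ψ).symm)) (by decide)
theorem s1 (q : Tp) (c : IsConj (ψ (κ 1)) (ψ (ιN q))) : q = Zp := by
  let e : N ≃* Cx(ψ (κ 1)) := MulEquiv.ofBijective (ψ.codRestrict _ fun n => mem_Cx.2 (zc ψ n))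
    ⟨fun a b e => h.inj (congrArg Subtype.val e), fun g => (h.sur g (mem_Cx.1 g.2)).imp fun _ => Subtype.ext⟩
  refine CfH5.Nat.s1 (ι := ψ.comp ιN) (π := πN.comp e.symm.toMonoidHom) (r := fun i => e (el (9 + i)))
    ⟨⟨h.inj.comp ιinj, congrArg ψ (ιZ.trans κz.symm), fun g hg t => ?_, fun g hg => ?_,
      Function.Surjective.comp (g := πN) (fun x => ⟨_, πσ x⟩) e.symm.surjective, fun g => ?_⟩, fun i hi t => ?_, fun i hi => ?_⟩ q c
  · obtain ⟨n, rfl⟩ := h.sur g hg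
    exact ⟨θN n t, by rw [MonoidHom.comp_apply, ← Lθ n t]; simp⟩
  · obtain ⟨n, rfl⟩ := h.sur g (by have := hg Zp; rwa [MonoidHom.comp_apply, ιZ, ← κz] at this)
    exact (ctN fun t => h.inj (by simpa using hg t)).imp (fun e => by rw [e, map_one]) fun e => by rw [e, κz]
  · obtain ⟨n, rfl⟩ := e.surjective g
    change πN (e.symm (e n)) = 1 ↔ _
    rw [e.symm_apply_apply, kerπ]
    exact ⟨fun ⟨t, k⟩ => ⟨t, congrArg ψ k⟩, fun ⟨t, k⟩ => ⟨t, h.inj k⟩⟩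
  · change ψ (el (9 + i)) * ψ (ιN t) * (ψ (el (9 + i)))⁻¹ = ψ (ιN _)
    rw [← LN _ (by omega) t]; simp
  · change πN (e.symm (e _)) = _
    rw [e.symm_apply_apply, add_comm, ← σx i hi, πσ]
theorem n1 : ¬ IsConj (ψ (κ 1)) (ψ (κ 4)) := fun c => by
  obtain ⟨q, e⟩ := κQ (v := 4) (by decide +kernel)
  rw [h.s1 q (e ▸ c), ιZ, ← κz] at e
  exact absurd (κi (by decide) (by decide) e) (by decide)
theorem cV' : Nat.card (VV.map ψ) = 1024 := (card_map_of_injective h.inj).trans cV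
theorem pull {g : G} (hg : ∀ v, ψ (κ v) * (g * ψ (κ 1) * g⁻¹) = g * ψ (κ 1) * g⁻¹ * ψ (κ v)) : ∃ E : Subgroup N,
    (∀ x ∈ E, ∃ v, ψ x = g⁻¹ * ψ (κ v) * g) ∧ (∀ x ∈ E, x * x = 1) ∧ 1024 ≤ Nat.card E ∧
    ∀ k, (∀ x ∈ E, k * x * k⁻¹ ∈ VV) → ψ k * g⁻¹ ∈ Nm(VV.map ψ) := by
  let φ := (MulAut.conj g).toMonoidHom.comp ψ
  have a : VV.map ψ ≤ φ.range := by
    rintro _ ⟨_, ⟨v, -, rfl⟩, rfl⟩
    obtain ⟨n, e⟩ := h.sur _ (cmj g (hg v))
    exact ⟨n, by simp [φ, e, mul_assoc]⟩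
  have b : ∀ x ∈ (VV.map ψ).comap φ, ∃ v, ψ x = g⁻¹ * ψ (κ v) * g := by
    rintro x ⟨_, ⟨v, -, rfl⟩, e⟩
    exact ⟨v, by rw [e]; simp [φ, mul_assoc]⟩
  refine ⟨_, b, fun x hx => h.inj ?_, ?_, fun k hk => mem_normalizer_fintype fun u hu => ?_⟩
  · obtain ⟨v, e⟩ := b x hx
    rw [map_mul, e, map_one]
    simpa using sq_cj g⁻¹ (v2 ψ v)
  · rw [← card_map_of_injective (f := φ) ((MulAut.conj g).injective.comp h.inj), map_comap_eq_self a, h.cV']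
  · obtain ⟨x, rfl⟩ := a hu
    exact ⟨_, hk x hu, by simp [φ, mul_assoc]⟩
theorem ctl {v : ℕ} (c : IsConj (ψ (κ 1)) (ψ (κ v))) : ∃ n ∈ Nm(VV.map ψ), n * ψ (κ 1) * n⁻¹ = ψ (κ v) := by
  obtain ⟨g, e⟩ := isConj_iff.1 c
  obtain ⟨E, -, e2, e3, e4⟩ := h.pull (g := g) fun u => e ▸ vc ψ u v
  obtain ⟨k, hk⟩ := JA e2 e3
  refine ⟨_, inv_mem (e4 k hk), ?_⟩
  rw [← e, mul_inv_rev, inv_inv, mul_assoc g, ← map_inv, zc, map_inv]; group
theorem Wl {n : G} {e : ℕ} (he : e = 2 ∨ e = 3) (hn : n * ψ (κ 1) * n⁻¹ = ψ (κ e)) {v : ℕ}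
    (hv : ∃ q, n * ψ (ιN q) * n⁻¹ = ψ (κ v)) {w : List ℕ} (hw : allLt 3 w = true) :
    Nf (linW w v) ≠ 1 ∧ Nf (linW w v) ≠ Nat.xor e 1 := by
  have hx : ∀ u v, (∃ q, n * ψ (ιN q) * n⁻¹ = ψ (κ u)) → (∃ q, n * ψ (ιN q) * n⁻¹ = ψ (κ v)) →
      ∃ q, n * ψ (ιN q) * n⁻¹ = ψ (κ (Nat.xor u v)) := fun u v ⟨a, ha⟩ ⟨b, hb⟩ =>
    ⟨a * b, by rw [κx, map_mul, map_mul, map_mul, ← ha, ← hb]; group⟩
  have k := Nf_ind hx (fun j hj v ⟨a, ha⟩ => by
    have c := cjG j (by omega) e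
    rw [show lin (GM.getD j []) e 10 = e by clear c; rcases he with rfl | rfl <;> revert j <;> decide +kernel,
      mul_inv_eq_iff_eq_mul] at c
    obtain ⟨m, hm⟩ := h.sur _ (cmj (a := ψ (byW el GW j)) n (by rw [hn, ← map_mul, c, map_mul]))
    refine ⟨θN m a, ?_⟩
    rw [← Lθ m a, ← cjG j (by omega), map_mul, map_mul, map_mul, map_mul, map_inv, map_inv, hm, ← ha]; group) hw hv
  have n1 : ¬ ∃ q, n * ψ (ιN q) * n⁻¹ = ψ (κ 1) := fun ⟨q, hq⟩ => by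
    rw [h.s1 q (isConj_iff.2 ⟨n, hq⟩).symm, ιZ, ← κz, hn] at hq
    rcases he with rfl | rfl <;> exact absurd (h.vi hq) (by decide)
  refine ⟨fun a => n1 (a ▸ k), fun a => n1 ?_⟩
  have := hx _ _ ⟨Zp, by rw [ιZ, ← κz, hn]⟩ (a ▸ k)
  rcases he with rfl | rfl <;> exact this
theorem n2 : ¬ IsConj (ψ (κ 1)) (ψ (κ 3)) := fun c => by
  obtain ⟨n, hn, e⟩ := h.ctl c
  obtain ⟨v, hv, a⟩ := nv hn (v := 4) (by decide)
  obtain ⟨q, b⟩ := κQ (v := 4) (by decide +kernel)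
  rcases W3 v hv (fun w hw => h.Wl (Or.inr rfl) e ⟨q, b ▸ a⟩ (by revert w; decide)) with rfl | rfl
  · rw [κ0, map_one, conj_eq_one_iff] at a
    exact absurd (h.vi (v := 0) (a.trans (map_one ψ).symm)) (by decide)
  · exact absurd (h.vi (conj_injective (a.trans e.symm))) (by decide)
theorem noP {p : ℕ} (hp : p.Prime ∧ ¬ p ∣ 743178240 ∧ ∀ j < 10, ¬ p ∣ 1024 - 2 ^ j) (d : p ∣ Nat.card Nm(VV.map ψ)) : False := by
  have := Fact.mk hp.1
  obtain ⟨x, hx⟩ := exists_prime_orderOf_dvd_card' p d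
  rw [← orderOf_coe] at hx
  have m := card_fix (p := p) (IsPGroup.of_card (n := 1) (by rw [Nat.card_zpowers, hx, pow_one]))
    (zpowers_le.2 x.2)
  have l : VV.map ψ ⊓ Cz(zpowers (x : G)) ≤ _ := inf_le_left
  obtain ⟨j, hj, e⟩ := (Nat.dvd_prime_pow Nat.prime_two (m := 10)).1 ((card_dvd_of_le l).trans (dvd_of_eq h.cV'))
  rw [h.cV', e] at m
  rcases hj.lt_or_eq with hj | rfl
  · exact hp.2.2 j hj ((Nat.modEq_iff_dvd' (Nat.pow_le_pow_right (n := 2) (by decide) hj.le)).1 m.symm)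
  · obtain ⟨n, a⟩ := h.sur x (((eq_of_le_of_card_ge l (by rw [h.cV', e]; rfl)).ge (mem_map_of_mem ψ (κm (v := 1) (by decide)))).2
      x (mem_zpowers _))
    exact hp.2.1 (by rw [← hx, ← a, orderOf_injective ψ h.inj, ← DD.card]; exact orderOf_dvd_natCard n)
theorem num (nd : ¬ IsConj (ψ (κ 1)) (ψ (κ 2))) (k : ¬ (IsConj (ψ (κ 1)) (ψ (κ 64)) ↔ IsConj (ψ (κ 1)) (ψ (κ 65))) ∨
    ¬ (IsConj (ψ (κ 1)) (ψ (κ 66)) ↔ IsConj (ψ (κ 1)) (ψ (κ 67)))) : False := by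
  classical
  obtain ⟨p, hp, d⟩ := nums (decide (IsConj (ψ (κ 1)) (ψ (κ 64)))) (decide (IsConj (ψ (κ 1)) (ψ (κ 65))))
    (decide (IsConj (ψ (κ 1)) (ψ (κ 66)))) (decide (IsConj (ψ (κ 1)) (ψ (κ 67)))) (decide (IsConj (ψ (κ 1)) (ψ (κ 72))))
    (by simpa only [Ne, decide_eq_decide] using k)
  rw [Finset.filter_congr (q := fun v => IsConj (ψ (κ 1)) (ψ (κ v))) fun v hv => by
    have c := ψ.map_isConj (clV (Finset.mem_range.1 hv))
    refine Iff.trans ?_ ⟨fun a => IsConj.trans a c, fun a => a.trans c.symm⟩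
    have := (by decide +kernel : ∀ v < 1024, lab v ∈ [0, 1, 2, 3, 4, 64, 65, 66, 67, 72]) v (Finset.mem_range.1 hv)
    have t1 := h.t1
    generalize lab v = l at this
    simp only [List.mem_cons, List.not_mem_nil, or_false] at this
    rcases this with rfl | rfl | rfl | rfl | rfl | rfl | rfl | rfl | rfl | rfl <;>
      simp only [sel, Nat.reduceBEq, Nat.beq, Bool.and_false, Bool.or_false, Bool.false_or, Bool.and_true, decide_eq_true_eq,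
        IsConj.refl, nd, h.n1, h.n2, κ0, map_one, isConj_one_left, t1, Bool.false_eq_true],
    ← Finset.card_image_of_injOn (f := fun v => ψ (κ v)) fun u hu v hv e =>
      h.vi e (Finset.mem_range.1 (Finset.mem_filter.1 hu).1) (Finset.mem_range.1 (Finset.mem_filter.1 hv).1)] at d
  refine h.noP (p := p) (prs p hp) (d.trans (Dvd.intro _ (CfH5.orb_card (z := ψ (κ 1)) _ _ fun u => ⟨fun a => ?_, ?_⟩).symm))
  · obtain ⟨v, b, rfl⟩ := Finset.mem_image.1 a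
    exact h.ctl (Finset.mem_filter.1 b).2
  · rintro ⟨n, hn, rfl⟩
    obtain ⟨v, hv, e⟩ := nv hn (v := 1) (by decide)
    exact Finset.mem_image.2 ⟨v, Finset.mem_filter.2 ⟨Finset.mem_range.2 hv, isConj_iff.2 ⟨n, e⟩⟩, e.symm⟩
theorem exd {u : G} (c : IsConj (ψ (κ 1)) u) (u1 : u ≠ ψ (κ 1)) (uz : u * ψ (κ 1) = ψ (κ 1) * u) :
    IsConj (ψ (κ 1)) (ψ (κ 2)) := by
  have k : ∀ x, IsConj (ψ (κ 1)) (ψ x) → ∃ r ∈ RP, IsConj (evw el r) x ∧ IsConj (ψ (κ 1)) (ψ (evw el r)) ∧ r ≠ [] ∧ r ≠ wa :=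
    fun x c => by
    obtain ⟨r, a, b⟩ := invN x (h.inj (by rw [map_mul, map_one, sq_of_isConj c (v2 ψ 1)]))
    have d := c.trans (ψ.map_isConj b).symm
    refine ⟨r, a, b, d, ?_, ?_⟩ <;> rintro rfl
    exacts [h.t1 (by simpa using d), h.n1 d]
  obtain ⟨x, rfl⟩ := h.sur u uz
  obtain ⟨r, a, b, d, r1, r2⟩ := k x c
  rcases ktrk r a with e | rfl | e | ⟨p, -, -, p1, p2⟩
  · exact absurd e r1
  · obtain ⟨n, rfl⟩ := isConj_iff.1 b
    exact absurd (by rw [evw_cons, evw_nil, mul_one, zcN, κz]; simp) u1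
  · exact absurd e r2
  have e := cj_ok _ _ _ p2
  rw [evw_append, evw_append, evw_append, rev p1] at e
  obtain ⟨g, hg⟩ := isConj_iff.1 d.symm
  have r2 : evw el r * evw el r = 1 := h.inj (by rw [map_mul, map_one, sq_of_isConj d (v2 ψ 1)])
  generalize evw el p.2.1 = w at e
  have e1 : IsConj (ψ (κ 4)) (g * ψ (w * evw el r * w⁻¹) * g⁻¹ * ψ (κ 1)) :=
    (ψ.map_isConj (isConj_iff.2 ⟨_, e⟩)).trans (isConj_iff.2 ⟨g, by rw [← hg, map_mul]; group⟩)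
  have e2 : IsConj (ψ (κ 1)) (g * ψ (w * evw el r * w⁻¹) * g⁻¹) :=
    (d.trans (ψ.map_isConj (isConj_iff.2 ⟨w, rfl⟩))).trans (isConj_iff.2 ⟨g, rfl⟩)
  obtain ⟨y, hy⟩ := h.sur (g * ψ (w * evw el r * w⁻¹) * g⁻¹) (by
    rw [← inv_eq_of_mul_eq_one_right (sq_of_isConj e1 (v2 ψ 4)), mul_inv_rev, inv_eq_of_mul_eq_one_right (v2 ψ 1),
      inv_eq_of_mul_eq_one_right (sq_of_isConj e2 (v2 ψ 1))])
  rw [← hy] at e1 e2
  obtain ⟨s, a, b, d, r1, r2⟩ := k y e2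
  obtain ⟨n, rfl⟩ := isConj_iff.1 b
  have e3 : IsConj (ψ (κ 4)) (ψ (evw el s * κ 1)) := e1.trans (by
    rw [← map_mul]
    exact ψ.map_isConj (IsConj.symm (isConj_iff.2 ⟨n, by rw [κz, mul_assoc _ n⁻¹, zcN n⁻¹]; group⟩)))
  have e4 : ¬ IsConj (ψ (κ 1)) (ψ (evw el s * κ 1)) := fun c => h.n1 (c.trans e3.symm)
  by_contra nd
  simp only [RP, List.mem_cons, List.not_mem_nil, or_false] at a
  rcases a with rfl | rfl | rfl | rfl | rfl | rfl | rfl | rfl | rfl | rfl | rfl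
  · exact r1 rfl
  · rw [show evw el [0] = κ 1 from rfl, κ2, map_one, isConj_one_left] at e3
    exact absurd (h.vi (v := 0) (e3.trans (map_one ψ).symm)) (by decide)
  · exact r2 rfl
  · exact nd d
  · exact h.n2 d
  · exact h.num nd (Or.inr fun k => e4 ((κx 66 1) ▸ k.1 d))
  · exact h.num nd (Or.inr fun k => e4 ((κx 67 1) ▸ k.2 d))
  · exact h.num nd (Or.inl fun k => e4 ((κx 64 1) ▸ k.1 d))
  · exact h.num nd (Or.inl fun k => e4 ((κx 65 1) ▸ k.2 d))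
  · exact e4 (d.trans (κz ▸ ψ.map_isConj tz2))
  · exact e4 (d.trans (κz ▸ ψ.map_isConj tz3))
end Ct
end CfH8.C2
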