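import Cfsg.Agent.OD.Pre
import Cfsg.Agent.H8.D4
/-! Tables for the extension of `2^(1+8):Sp₆(2)`. -/
set_option autoImplicit false
set_option maxRecDepth 100000
set_option Elab.async false
set_option linter.all false
open CfL hiding Tp Tm Zp Zm hZp hZm cZp cZm es_rels autp autm
open CfH6 CfH6.Co MulAction Subgroup CfH9
namespace CfH8.C2
open CfH8.C3 (Sp A cA A_eq A_gen card_Sp6)
def th : List ℕ := [2, 1, 64, 128, 256, 512, 4, 8, 16, 32]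
def fw : List ℕ := GW.getD 0 []
def NW : List (List ℕ) := [[9, 10, 11, 12, 14, 12, 11, 13], [10, 9, 11, 12, 14, 12, 11, 0, 12], [11, 10, 12, 11, 15, 14, 12, 11, 10, 9, 13, 11, 10, 12, 11, 13, 14, 12, 11, 10, 9, 15, 14, 12, 11, 10, 13, 11, 12, 14, 15, 5, 0]]
def NM : List (List ℕ) := [[1, 2, 60, 4, 8, 16, 960, 64, 128, 256], [1, 2, 4, 32, 8, 60, 64, 512, 128, 960], [1, 2, 4, 13, 21, 37, 64, 898, 578, 322]]
theorem cjN : ∀ j < 3, ∀ v, byW el NW j * κ v * (byW el NW j)⁻¹ = κ (lin (NM.getD j []) v 10) := fun j hj =>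
  cjM _ _ ((by decide +kernel : ∀ j < 3, okM (NW.getD j []) (NM.getD j []) = true) j hj)
noncomputable def aff (p r : List ℕ) : ℕ :=
  List.rec 0 (fun j _ ih => frc ih fun a => Nat.xor (p.getD j 0) (lin (NM.getD j []) a 10)) r
theorem aff_ok (p : List ℕ) {r : List ℕ} (hr : ∀ x ∈ r, x < 3) :
    evw (fun j => κ (p.getD j 0) * byW el NW j) r = κ (aff p r) * evw (byW el NW) r := by
  induction r with
  | nil => rw [evw_nil, evw_nil, mul_one]; exact κ0.symm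
  | cons j r ih =>
    rw [evw_cons, evw_cons, ih fun x hx => hr x (List.mem_cons_of_mem _ hx),
      show aff p (j :: r) = Nat.xor (p.getD j 0) (lin (NM.getD j []) (aff p r) 10) from
        frc_eq (aff p r) fun a => Nat.xor (p.getD j 0) (lin (NM.getD j []) a 10), κx,
      ← cjN j (hr j List.mem_cons_self)]
    group
def RL : List (List ℕ) := [[2, 2], [1, 2, 1, 1, 1, 2], [0, 1, 2, 0, 1, 2, 0, 1, 2, 0, 1, 2, 0, 1, 2]]
def KL : List (ℕ × ℕ × List ℕ × ℕ × ℕ × List ℕ × ℕ × List ℕ) := [(0, 5, [1, 1, 2], 1, 65, [15, 13, 11, 12, 10, 11], 3, [13, 11, 12, 14, 10, 11, 13, 9, 10, 11]), (0, 66, [2], 1, 3, [15, 11, 12, 14, 10, 11, 13, 9, 10, 11], 65, [15, 13, 11, 12, 10, 11, 2]), (0, 71, [2], 1, 3, [15, 11, 12, 14, 10, 11, 13, 9, 10, 11], 65, [15, 13, 11, 12, 10, 11]), (3, 3, [2], 3, 67, [11, 13, 10, 11, 12, 14, 12, 9, 10, 11, 13, 9, 10, 11], 65, [15, 14, 13, 9, 10, 6, 11]),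 (3, 6, [2], 3, 67, [11, 13, 10, 11, 12, 14, 12, 9, 10, 11, 13, 9, 10, 11], 65, [15, 14, 13, 9, 10, 11]), (3, 65, [2], 0, 2, [15, 11, 12, 14, 10, 11, 13, 9, 10, 11], 64, [15, 13, 11, 12, 10, 11, 2]), (3, 68, [2], 0, 2, [15, 11, 12, 14, 10, 11, 13, 9, 10, 11], 64, [15, 13, 11, 12, 10, 11])]
theorem kR : ∀ r ∈ RL, allLt 3 r = true ∧ cE (subst GW r) [] = true ∧ cE (subst NW r) [] = true := by decide +kernel
theorem kS : ∀ w ∈ [0, 3], ∀ v < 1024, (RL.all fun r => frc (aff [0, w, v] r) fun a => Nat.ble 1024 a || Nat.beq a 0) = true →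
    (w = 0 ∧ v = 0) ∨ ∃ k ∈ KL, k.1 = w ∧ k.2.1 = v := by decide +kernel
theorem kK : ∀ k ∈ KL, allLt 3 k.2.2.1 = true ∧ cJ k.2.2.2.2.2.1 (κw k.2.2.2.2.1) (subst GW k.2.2.1 ++ κw k.2.2.2.1) = true ∧
    cJ k.2.2.2.2.2.2.2 (κw k.2.2.2.2.2.2.1) (subst ((List.range 3).map fun j => κw ([0, k.1, k.2.1].getD j 0) ++ NW.getD j []) k.2.2.1 ++
      κw (lin th k.2.2.2.1 10)) = true ∧ (k.2.2.2.2.1 ∈ [2, 65] ∧ k.2.2.2.2.2.2.1 ∈ [3, 64, 66, 67] ∨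
      k.2.2.2.2.2.2.1 ∈ [2, 65] ∧ k.2.2.2.2.1 ∈ [3, 64, 66, 67]) := by decide +kernel
theorem ltG : ∀ j < 3, ∀ v, v < 1024 → lin (GM.getD j []) v 10 < 1024 := by decide +kernel
def BB : Subgroup N := Cx(κ 2) ⊓ Nm(VV)
theorem GB : ∀ j < 3, byW el GW j ∈ BB := fun j hj => ⟨mem_Cx'.2 ((cjG j (by omega) 2).trans (by interval_cases j <;> rfl)),
  mem_normalizer_fintype (by rintro _ ⟨v, hv, rfl⟩; exact ⟨_, ltG j hj v hv, (cjG j (by omega) v).symm⟩)⟩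
theorem κB {v : ℕ} (h : v < 1024) : κ v ∈ BB := ⟨mem_Cx.2 (κc _ _), le_normalizer (κm h)⟩
theorem up {n : N} {c : List ℕ} (hc : allLt 7 c = true) (e : πN n = evw A c) (k : n = σN (πN n) ∨ n = σN (πN n) * el 0) :
    ∃ u ∈ [[], [0]], n = evw el (c.map (· + 9) ++ u) := by
  rw [e, σw hc] at k
  rcases k with k | k
  exacts [⟨[], by simp, by simpa using k⟩, ⟨[0], by simp, by simpa using k⟩]
theorem cenFd {n : N} (h1 : fN * n = n * fN) (h2 : κ 2 * n = n * κ 2) : ∃ i < 5, ∃ w < 4, n = fN ^ i * κ w := by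
  obtain ⟨a, b⟩ := cenF h1
  obtain ⟨c, hc, e⟩ := sF2 a (by rw [← show πN (κ 2) = evw A [3] from πw (w := [12]) rfl, ← map_mul, h2, map_mul])
  obtain ⟨u, hu, rfl⟩ := up ((by decide : ∀ c ∈ cF, allLt 7 c = true) c hc) e b
  obtain ⟨i, hi, w, hw, k⟩ := (by decide +kernel : ∀ c ∈ cF, ∀ u ∈ [[], [0]], ∃ i < 5, ∃ w < 4,
    cE (c.map (· + 9) ++ u) (wpow fw i ++ κw w) = true) c hc u hu
  exact ⟨i, hi, w, hw, by rw [cE_ok _ _ k, evw_append, evw_wpow]; rfl⟩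
theorem f5 : fN ^ 5 = 1 := (evw_wpow el fw 5).symm.trans (cE_ok _ [])
theorem of5 : orderOf fN = 5 := haveI := Fact.mk Nat.prime_five; orderOf_eq_prime f5 (cN_ok fw [])
def PQ : List (List ℕ × List ℕ) := [([0], [11, 12, 11, 13, 11, 12, 14, 12, 11, 13, 15, 14, 12, 11, 13, 0]), ([2, 4], [9, 13, 11, 10, 9, 12, 11, 10, 13, 11, 12, 14, 12, 11, 10, 9, 13, 11, 10, 12, 11, 13, 1, 2, 3, 4, 7, 0]), ([9], [10, 9, 14, 12, 11, 10, 13, 11, 12, 14, 15, 14, 12, 11, 10, 9, 13, 11, 10, 12, 14]), ([10, 11, 10, 12, 11, 10, 14, 12, 11, 10, 15, 14, 12, 11, 10, 5, 7], [15, 14, 12, 11, 10, 13, 11, 12, 14, 15, 5, 7]), ([13, 15], [12, 13, 15]), ([3], [9, 10, 12, 13, 14, 12, 11, 10, 13, 11, 12, 14, 15, 14, 12, 11, 10, 9, 13, 11, 12, 14, 15, 3])]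
def WX : List ℕ := [11, 13, 11, 10, 12, 11, 13, 14, 12, 11, 10, 13, 15, 14, 12, 11, 13]
def Y (i : ℕ) : List ℕ := (PQ.getD i default).2
noncomputable def scan (w : List ℕ) : Bool := [3, 2, 1].any (fun i => cN (Y i ++ w) (w ++ Y i)) ||
  cN (wpow (w ++ Y 4) 3) [] || cN (wpow (w ++ (Y 5 ++ (Y 1 ++ Y 4))) 3) [] || cE w WX
theorem kX : ∀ c ∈ cH, allLt 7 c = true ∧ ∀ q < 512, scan (c.map (· + 9) ++ tp.wl q) = true := by decide +kernel
theorem pin {n : N} (h : ∀ i ∈ [3, 2, 1], evw el (Y i) * n = n * evw el (Y i)) (h4 : (n * evw el (Y 4)) ^ 3 = 1)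
    (h5 : (n * (evw el (Y 5) * (evw el (Y 1) * evw el (Y 4)))) ^ 3 = 1) : n = evw el WX := by
  obtain ⟨c, hc, e⟩ := sH (g := πN n) (fun y hy => by
    obtain ⟨i, a, b, c⟩ := (by decide : ∀ y ∈ yH, ∃ i ∈ [3, 2, 1], allLt 16 (Y i) = true ∧ subst σp (Y i) = y) y hy
    rw [← c, ← πw b, ← map_mul, h i a, map_mul])
    (by rw [← show πN (evw el (Y 4)) = evw A [3, 4, 6] from πw rfl, ← map_mul, ← map_pow, h4, map_one])
  obtain ⟨t, e⟩ := lift (kX c hc).1 e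
  have k := (kX c hc).2 t.1 t.2
  rw [ιw, ← evw_append] at e
  generalize c.map (· + 9) ++ tp.wl t.1 = w at e k
  subst e
  simp only [scan, Bool.or_eq_true, List.any_eq_true] at k
  rcases k with ((⟨i, a, k⟩ | k) | k) | k
  · exact absurd (by rw [evw_append, evw_append, h i a]) (cN_ok _ _ k)
  · exact absurd (by rw [evw_wpow, evw_append, h4]; rfl) (cN_ok _ _ k)
  · exact absurd (by rw [evw_wpow, evw_append, evw_append, evw_append, h5]; rfl) (cN_ok _ _ k)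
  · exact cE_ok _ _ k
end CfH8.C2
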