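import Cfsg.Agent.OD.Pre
import Cfsg.Agent.H8.D5
import Cfsg.Agent.H8.D6
/-! An involution swapping `t` and `d`. -/
set_option autoImplicit false
set_option maxRecDepth 100000
set_option Elab.async false
set_option linter.all false
open CfL hiding Tp Tm Zp Zm hZp hZm cZp cZm es_rels autp autm
open CfH6 CfH6.Co MulAction Subgroup CfH9
namespace CfH8.C2
open CfH8.C3 (Sp A cA A_eq A_gen card_Sp6)

variable {G : Type*} [Group G] {ψ : N →* G} {g : G}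

/-- conjugation by `g` sends `a` to `b` -/
def R (ψ : N →* G) (g : G) (a b : N) : Prop := g * ψ a * g⁻¹ = ψ b
theorem R.one : R ψ g 1 1 := by simp [R]
theorem R.mul {a b c d : N} (h : R ψ g a b) (k : R ψ g c d) : R ψ g (a * c) (b * d) := by
  rw [R, map_mul, map_mul, ← h, ← k]; group
theorem R.inv {a b : N} (h : R ψ g a b) : R ψ g a⁻¹ b⁻¹ := by rw [R, map_inv, map_inv, ← h]; group
theorem R.pow {a b : N} (h : R ψ g a b) (n : ℕ) : R ψ g (a ^ n) (b ^ n) := by rw [R, map_pow, map_pow, ← h, conj_pow]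
theorem R.cj {a b c d : N} (h : R ψ g a b) (k : R ψ g c d) : R ψ g (a * c * a⁻¹) (b * d * b⁻¹) := (h.mul k).mul h.inv
theorem R.sym {a b : N} (g2 : g * g = 1) (h : R ψ g a b) : R ψ g b a := by
  rw [R, ← h, ← mul_assoc, ← mul_assoc, g2, one_mul, mul_assoc, ← mul_inv_rev, g2, inv_one, mul_one]
theorem R.cls {a b : N} (h : R ψ g a b) : IsConj (ψ a) (ψ b) := isConj_iff.2 ⟨g, h⟩
theorem R.lm {a b : N} (h : R ψ g a b) (m : N) : R ψ (ψ m * g) a (m * b * m⁻¹) := by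
  rw [R, map_mul, map_mul, map_inv, ← h]; group
theorem R.evw {a b : ℕ → N} {k : ℕ} (h : ∀ j < k, R ψ g (a j) (b j)) {w : List ℕ} (hw : ∀ x ∈ w, x < k) :
    R ψ g (evw a w) (evw b w) := by
  induction w with
  | nil => exact R.one
  | cons x w ih => exact (h x (hw x List.mem_cons_self)).mul (ih fun y hy => hw y (List.mem_cons_of_mem _ hy))
theorem R.x {u v u' v' : ℕ} (h : R ψ g (κ u) (κ v)) (k : R ψ g (κ u') (κ v')) : R ψ g (κ (Nat.xor u u')) (κ (Nat.xor v v')) := by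
  rw [κx, κx]; exact h.mul k
theorem R.v {u v u' v' : ℕ} (h : R ψ g (κ u) (κ v)) (e : u = u' ∧ v = v' := by decide +kernel) : R ψ g (κ u') (κ v') :=
  e.1 ▸ e.2 ▸ h
theorem R.z : R ψ g (κ 0) (κ 0) := by rw [κ0]; exact R.one
theorem R.fw (f : R ψ g fN fN) (n : ℕ) : ∀ {u v : ℕ}, R ψ g (κ u) (κ v) →
    R ψ g (κ (linW (List.replicate n 0) u)) (κ (linW (List.replicate n 0) v)) := by
  have e : ∀ w v, linW (0 :: w) v = linW w (lin (GM.getD 0 []) v 10) := fun w v => congrArg (linW w) (frc_eq _ id)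
  induction n with
  | zero => exact id
  | succ n ih =>
    intro u v h
    have := f.cj h
    rw [cjG 0 (by decide), cjG 0 (by decide)] at this
    rw [List.replicate_succ, e, e]
    exact ih this
theorem R.nf (f : R ψ g fN fN) {u v : ℕ} (h : R ψ g (κ u) (κ v)) : R ψ g (κ (Nf u)) (κ (Nf v)) := by
  rw [Nf, Nf, frc_eq, frc_eq]
  exact h.x ((f.fw 1 h).x ((f.fw 2 h).x ((f.fw 3 h).x (f.fw 4 h))))

structure Gd (ψ : N →* G) (g : G) : Prop where
  a : R ψ g (κ 1) (κ 2)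
  b : R ψ g (κ 2) (κ 1)
  n : g ∈ Nm(VV.map ψ)
theorem c1 (m : N) : m * κ 1 * m⁻¹ = κ 1 := by rw [κz, zcN]; simp
theorem Gd.lm (k : Gd ψ g) {m : N} (hm : m ∈ BB) : Gd ψ (ψ m * g) :=
  ⟨mem_Cx'.1 hm.1 ▸ k.a.lm m, c1 m ▸ k.b.lm m, mul_mem (le_normalizer_map ψ (mem_map_of_mem ψ hm.2)) k.n⟩
theorem Gd.th4 (k : Gd ψ g) : ∀ w < 4, R ψ g (κ w) (κ (lin th w 10)) := fun w hw => by
  interval_cases w
  exacts [R.z.v, k.a.v, k.b.v, (k.b.x k.a).v]
theorem fκ : ∀ w < 4, fN * κ w = κ w * fN := fun w hw =>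
  mul_inv_eq_iff_eq_mul.1 ((cjG 0 (by decide) w).trans (by interval_cases w <;> rfl))

namespace Ct
variable [Finite G] (h : Ct ψ)
include h
theorem ru {a b c : N} (e : R ψ g a b) (f : R ψ g a c) : b = c := h.inj (e.symm.trans f)
theorem rc {a b c d : N} (e : R ψ g a b) (f : R ψ g c d) (k : a * c = c * a) : b * d = d * b := h.ru (e.mul f) (k ▸ f.mul e)
theorem exR {a b : N} (e : R ψ g b (κ 1)) (k : a * b = b * a) : ∃ n, R ψ g a n :=
  (h.sur (g * ψ a * g⁻¹) (by rw [← e, ← CfH5.Nat.cjm, ← CfH5.Nat.cjm, ← map_mul, k, map_mul])).imp fun _ => Eq.symm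
theorem sw (c : IsConj (ψ (κ 1)) (ψ (κ 2))) : ∃ g, Gd ψ g ∧ g * ψ fN * g⁻¹ ∈ zpowers (ψ fN) := by
  have := Fact.mk Nat.prime_five
  obtain ⟨n, n1, n2, -⟩ := exn (p := 5) (m := 148635648) c (zc ψ fN) (by rw [← map_mul, fκ 2 (by decide), map_mul])
    ((orderOf_injective ψ h.inj _).trans of5) (by
      rw [show Cx(ψ (κ 1)) = ψ.range from Subgroup.ext fun g => ⟨fun a => h.sur g (mem_Cx.1 a), by
        rintro ⟨n, rfl⟩; exact mem_Cx.2 (zc ψ n)⟩, ← Nat.card_congr (ψ.ofInjective h.inj).toEquiv]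
      exact DD.card) (by decide)
  obtain ⟨x, hx⟩ := h.sur _ (cmj n (a := ψ (κ 1)) (n1 ▸ vc ψ 1 2))
  have xf : fN * x = x * fN := h.inj (by
    rw [map_mul, map_mul, hx, cmj n (mem_Cx.1 (zpowers_le.2 (mem_Cx.2 (zc ψ fN)) n2)).symm])
  have xt : IsConj (ψ (κ 1)) (ψ x) := isConj_iff.2 ⟨n⁻¹, by rw [hx, inv_inv]⟩
  obtain ⟨a, b⟩ := cenF xf
  obtain ⟨c, hc, e⟩ := sF1 a (by
    rw [← map_mul, h.inj (show ψ (x * x) = ψ 1 by rw [map_mul, map_one, sq_of_isConj xt (v2 ψ 1)]), map_one])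
  obtain ⟨u, hu, rfl⟩ := up ((by decide : ∀ c ∈ [[], [5, 6, 5], [3], [3, 5, 6, 5, 3]], allLt 7 c = true) c hc) e b
  have k := (by decide +kernel : ∀ c ∈ [[], [5, 6, 5], [3], [3, 5, 6, 5, 3]], ∀ u ∈ [[], [0]], ∀ w ∈ [c.map (· + 9) ++ u],
    w = [] ∨ w = [0] ∨ (∃ m ∈ [[15, 12, 14], [], [15, 14]], cJ m wtd w = true) ∨
    ∃ m ∈ [[], [14, 15, 14, 12], [12, 14, 15, 14]], cJ m w wd = true ∧ cJ m fw fw = true) c hc u hu _ List.mem_cons_self
  generalize c.map (· + 9) ++ u = w at k xt hx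
  rcases k with rfl | rfl | ⟨m, -, k⟩ | ⟨m, -, k1, k2⟩
  · exact absurd (by simpa using xt) h.t1
  · refine absurd (h.vi (u := 1) (v := 2) ?_) (by decide)
    rw [← n1]
    nth_rw 2 [show ψ (κ 1) = _ from hx]
    group
  · exact absurd (xt.trans (ψ.map_isConj (isConj_iff.2 ⟨_, cj_ok _ _ _ k⟩)).symm) h.n2
  have r1 : R ψ (ψ (evw el m) * n⁻¹) (κ 1) (κ 2) := by
    have := R.lm (show R ψ n⁻¹ (κ 1) (evw el w) by rw [R, hx, inv_inv]) (evw el m)
    rwa [cj_ok _ _ _ k1] at this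
  have r2 : R ψ (ψ (evw el m) * n⁻¹) (κ 2) (κ 1) := c1 (evw el m) ▸ R.lm (show R ψ n⁻¹ (κ 2) (κ 1) by rw [R, ← n1]; group) _
  have r3 : ψ (evw el m) * ψ fN * (ψ (evw el m))⁻¹ = ψ fN := by
    rw [← map_inv, ← map_mul, ← map_mul]; exact congrArg ψ (cj_ok _ _ _ k2)
  generalize ψ (evw el m) = y at r1 r2 r3
  have s1 : R ψ (n * y⁻¹) (κ 1) (κ 2) := by rw [R, ← r2]; group
  have s2 : R ψ (n * y⁻¹) (κ 2) (κ 1) := by rw [R, ← r1]; group
  obtain ⟨E, e1, e2, e3, e4⟩ := h.pull (g := n * y⁻¹) fun v => s1 ▸ vc ψ v 2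
  have := JA' e2 e3 fun x hx => h.inj (by
    obtain ⟨v, e⟩ := e1 x hx
    rw [map_mul, map_mul, e]
    exact cmj _ (s2 ▸ vc ψ v 1))
  refine ⟨_, ⟨s1, s2, ?_⟩, ?_⟩
  · simpa only [map_one, one_mul, inv_mem_iff] using e4 1 fun x hx => by simpa using this hx
  · rw [← r3] at n2 ⊢
    convert n2 using 1
    rw [r3]
    nth_rw 1 [← r3]
    group
theorem sw2 (c : IsConj (ψ (κ 1)) (ψ (κ 2))) : ∃ g, Gd ψ g ∧ R ψ g fN fN ∧ g * g = 1 := by
  obtain ⟨g, k, e⟩ := h.sw c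
  obtain ⟨j, e⟩ := mem_powers_iff_mem_zpowers.2 e
  have r : R ψ g fN (fN ^ (j % 5)) := by rw [← of5, pow_mod_orderOf, R, map_pow]; exact e.symm
  rcases (by decide +kernel : ∀ j < 5, j = 0 ∨ ∃ i < 4, cJ (wpow (GW.getD 1 []) i) (wpow fw j) fw = true) _
    (Nat.mod_lt j (by decide)) with a | ⟨i, -, a⟩
  · rw [a, pow_zero] at r
    exact absurd (h.inj ((conj_eq_one_iff.1 (r.trans (map_one ψ))).trans (map_one ψ).symm)) (cN_ok fw [])
  have b := cj_ok _ _ _ a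
  rw [evw_wpow, evw_wpow] at b
  replace k := k.lm (pow_mem (GB 1 (by decide)) i)
  replace r : R ψ _ fN fN := b ▸ r.lm (kN ^ i)
  generalize ψ (kN ^ i) * g = g at k r
  have q : ∀ {a b c : N}, R ψ g a b → R ψ g b c → g * g * ψ a = ψ c * (g * g) := fun {a b c} e f => by rw [← f, ← e]; group
  obtain ⟨n, hn⟩ := h.sur _ (q k.a k.b)
  obtain ⟨i, -, w, hw, rfl⟩ := cenFd (n := n) (h.inj (by rw [map_mul, map_mul, hn, q r r]))
    (h.inj (by rw [map_mul, map_mul, hn, q k.b k.a]))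
  have e := mul_left_cancel (h.ru ((r.pow i).mul (k.th4 w hw)) (show R ψ g _ (fN ^ i * κ w) by rw [R, hn]; group))
  have kw := (by decide +kernel : ∀ w < 4, lin th w 10 < 1024 ∧ (lin th w 10 = w → ∃ u < 2,
    Nat.xor u (Nat.xor (lin th u 10) w) = 0)) w hw
  obtain ⟨u, u1, u2⟩ := kw.2 (κi kw.1 (by omega) e)
  have c : ∀ (n : ℕ), ∀ w < 4, κ w * fN ^ n = fN ^ n * κ w := fun n w hw => (Commute.pow_left (fκ w hw) n).symm
  refine ⟨_, k.lm (mul_mem (pow_mem (GB 0 (by decide)) (2 * i)) (κB (v := u) (by omega))), ?_, ?_⟩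
  · have := r.lm (fN ^ (2 * i) * κ u)
    rwa [mul_assoc _ (κ u), ← fκ u (by omega), ← mul_assoc, ← pow_succ, pow_succ', mul_assoc fN, mul_inv_cancel_right] at this
  · have := (r.pow (2 * i)).mul (k.th4 u (by omega))
    rw [R, mul_inv_eq_iff_eq_mul] at this
    rw [mul_assoc, ← mul_assoc g, this, mul_assoc, ← hn, ← map_mul, ← map_mul, ← map_one ψ, mul_assoc, ← mul_assoc (κ u),
      ← mul_assoc (κ u), c _ u (by omega), mul_assoc, mul_assoc, ← mul_assoc (κ (lin th u 10)), c _ _ (by interval_cases u <;> decide +kernel),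
      mul_assoc, ← mul_assoc (κ u), c _ u (by omega), mul_assoc, ← κx, ← κx, u2, κ0, mul_one, ← pow_add, ← pow_add,
      show 2 * i + (2 * i + i) = 5 * i by omega, pow_mul, f5, one_pow]
variable (k : Gd ψ g) (f : R ψ g fN fN) (g2 : g * g = 1)
include k f g2
theorem kk : ∃ w ∈ [0, 3], R ψ g kN (κ w * byW el NW 1) := by
  have k2 : kN * κ 2 = κ 2 * kN := mem_Cx.1 (GB 1 (by decide)).1
  have kf : kN * fN * kN⁻¹ = fN ^ 3 := (cj_ok _ fw (wpow fw 3)).trans (evw_wpow _ _ _)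
  obtain ⟨n, r⟩ := h.exR k.b k2
  obtain ⟨i, hi, w, hw, e⟩ := cenFd (n := kN⁻¹ * n) (by
    have := h.ru (r.cj f) (kf ▸ f.pow 3)
    calc _ = kN⁻¹ * (kN * fN * kN⁻¹) * n := by group
      _ = _ := by rw [← this]; group) (by
    rw [mul_assoc, h.rc r k.a (zc (MonoidHom.id _) kN), ← mul_assoc, ← mul_assoc, (Commute.inv_left k2).eq])
  rw [inv_mul_eq_iff_eq_mul] at e
  subst e
  have := h.ru (r.mul ((f.pow i).mul (k.th4 w hw))) (r.sym g2)
  rw [mul_assoc, mul_eq_left] at this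
  rcases (by decide +kernel : ∀ i < 5, ∀ w < 4, cN ((wpow fw i ++ κw w) ++ (wpow fw i ++ κw (lin th w 10))) [] = true ∨
    ∃ v ∈ [0, 3], cE (GW.getD 1 [] ++ (wpow fw i ++ κw w)) (κw v ++ NW.getD 1 []) = true) i hi w hw with a | ⟨v, a, b⟩
  · exact absurd (by simp only [evw_append, evw_wpow]; exact this) (cN_ok _ _ a)
  · have := cE_ok _ _ b
    simp only [evw_append, evw_wpow] at this
    exact ⟨v, a, this ▸ r⟩
theorem thV (v : ℕ) : R ψ g (κ v) (κ (lin th v 10)) := by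
  obtain ⟨u, hu, r⟩ := nv k.n (v := 4) (by decide)
  obtain ⟨w, -, e⟩ := h.kk k f g2
  obtain ⟨q, b⟩ := κQ (v := 4) (by decide +kernel)
  have l := h.Wl (Or.inl rfl) k.a ⟨q, b ▸ r⟩ (w := [0, 2]) rfl
  have e1 := e.cj r
  rw [cjG 1 (by decide)] at e1
  replace e1 := h.ru e1 (R.v (v' := u) r ⟨by decide +kernel, rfl⟩)
  rw [mul_assoc (κ w), mul_inv_rev, ← mul_assoc, mul_assoc (κ w), cjN 1 (by decide), κc, mul_inv_cancel_right] at e1
  have r4 : R ψ g (κ 4) (κ 64) := by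
    rcases W2 u hu ⟨(frc_eq _ id).trans (κi (ltG 1 (by decide) u hu) hu e1), κ1 (Nf_ind (P := (· < 1024)) (fun _ _ => xlt) ltG
      (w := []) rfl hu) (h.ru (R.v (u' := 0) (f.nf r) ⟨by decide +kernel, rfl⟩) R.z), l⟩ with rfl | rfl
    · exact absurd (κ1 (v := 4) (by decide) (h.ru (R.sym g2 r) R.z)) (by decide)
    · exact r
  have r5 := r4.sym g2
  refine κlin ((MulAut.conj g).toMonoidHom.comp ψ) ψ th (fun i hi => ?_) v
  rw [← (by decide +kernel : ∀ i < 10, κw (2 ^ i) = bW.getD i []) i hi]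
  change R ψ g (κ (2 ^ i)) _
  interval_cases i
  exacts [k.a.v, k.b.v, r4.v, (f.fw 4 r4).v, (f.fw 3 r4).v, (f.fw 2 r4).v, r5.v, (f.fw 4 r5).v, (f.fw 3 r5).v, (f.fw 2 r5).v]
theorem cls (c : IsConj (ψ (κ 1)) (ψ (κ 2))) : ∀ a ∈ [2, 65], ∀ b ∈ [3, 64, 66, 67], ¬ IsConj (ψ (κ a)) (ψ (κ b)) := by
  have q : ∀ v x y, v < 1024 ∧ lin th v 10 < 1024 ∧ lab v = x ∧ lab (lin th v 10) = y → IsConj (ψ (κ x)) (ψ (κ y)) :=
    fun v x y ⟨a, b, c, d⟩ => c ▸ d ▸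
      ((ψ.map_isConj (clV a)).trans (h.thV k f g2 v).cls).trans (ψ.map_isConj (clV b)).symm
  have a : ∀ a ∈ [2, 65], IsConj (ψ (κ 1)) (ψ (κ a)) :=
    forall_cons c (forall_cons (c.trans (q 6 _ _ (by decide +kernel))) forall_nil)
  have b : ∀ b ∈ [3, 64, 66, 67], ¬ IsConj (ψ (κ 1)) (ψ (κ b)) := forall_cons h.n2
    (forall_cons (fun e => h.n1 (e.trans (q 4 _ _ (by decide +kernel)).symm))
    (forall_cons (fun e => h.n1 (e.trans (q 5 _ _ (by decide +kernel)).symm))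
    (forall_cons (fun e => h.n2 (e.trans (q 7 _ _ (by decide +kernel)).symm)) forall_nil)))
  exact fun x hx y hy e => b y hy ((a x hx).trans e)
theorem all3 (c : IsConj (ψ (κ 1)) (ψ (κ 2))) : ∀ j < 3, R ψ g (byW el GW j) (byW el NW j) := by
  obtain ⟨w, hw, e⟩ := h.kk k f g2
  obtain ⟨n, r⟩ := h.exR k.b (mem_Cx.1 (GB 2 (by decide)).1)
  have T := h.thV k f g2
  obtain ⟨v, hv, e2⟩ := cenU (g := n * (byW el NW 2)⁻¹) fun u hu => by
    obtain ⟨a, b⟩ := (by decide +kernel : ∀ u ∈ [21, 32, 5, 56], ∀ v ∈ [lin (NM.getD 2 []) u 10], lin (NM.getD 2 []) v 10 = u ∧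
      lin th (lin (GM.getD 2 []) (lin th v 10) 10) 10 = u) u hu _ List.mem_cons_self
    have p := r.cj ((T (lin (NM.getD 2 []) u 10)).sym g2)
    rw [cjG 2 (by decide)] at p
    replace p := h.ru p (T _)
    have q := cjN 2 (by decide) (lin (NM.getD 2 []) u 10)
    rw [b] at p
    rw [a] at q
    nth_rw 1 [← q]
    rw [← p]; group
  rw [eq_mul_inv_iff_mul_eq] at e2
  have all : ∀ j < 3, R ψ g (byW el GW j) (κ ([0, w, v].getD j 0) * byW el NW j) := fun j hj => by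
    interval_cases j
    exacts [show R ψ g fN (κ 0 * fN) by rw [κ0, one_mul]; exact f, e, show R ψ g _ (κ v * _) from e2 ▸ r]
  rcases kS w hw v hv (List.all_eq_true.2 fun s hs => by
    obtain ⟨a, b, c⟩ := kR s hs
    have := R.evw all (allLt_sound a)
    rw [aff_ok _ (allLt_sound a), ← evw_subst, ← evw_subst, cE_ok _ _ b, cE_ok _ _ c, evw_nil, mul_one] at this
    rw [frc_eq, Bool.or_eq_true, Nat.ble_eq, Nat.beq_eq]
    exact (le_or_gt _ _).imp id fun l => κ1 l (h.ru this R.one)) with ⟨rfl, rfl⟩ | ⟨p, hp, rfl, rfl⟩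
  · intro j hj
    have := all j hj
    rwa [show [0, 0, 0].getD j 0 = 0 by interval_cases j <;> rfl, κ0, one_mul] at this
  obtain ⟨a, b, d, e⟩ := kK p hp
  have x := cj_ok _ _ _ b
  have y := cj_ok _ _ _ d
  rw [evw_append, evw_subst] at x y
  rw [evw_congr (ev' := fun j => κ ([0, p.1, p.2.1].getD j 0) * byW el NW j) (fun j hj => by
    interval_cases j <;> exact evw_append _ _ _) (allLt_sound a)] at y
  have z := ((ψ.map_isConj (isConj_iff.2 ⟨_, x⟩)).trans ((R.evw all (allLt_sound a)).mul (T _)).cls).trans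
    (ψ.map_isConj (isConj_iff.2 ⟨_, y⟩)).symm
  exact (e.elim (fun e => h.cls k f g2 c _ e.1 _ e.2 z) fun e => h.cls k f g2 c _ e.1 _ e.2 z.symm).elim
end Ct
end CfH8.C2
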