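import Cfsg.Agent.OD.Pre
import Cfsg.Agent.H8.D7
import Cfsg.Agent.H8.DQ
import Cfsg.Agent.H9.C2f
import Cfsg.Agent.H5.ExN
import Cfsg.Agent.H5.ExS
import Cfsg.Agent.H1.Cls3
import Cfsg.Agent.OD.Helper3x2a47a6fbf7
/-! The second Conway group from its involution centraliser. -/
set_option autoImplicit false
set_option maxRecDepth 100000
set_option Elab.async false
set_option linter.all false
open CfL hiding Tp Tm Zp Zm hZp hZm cZp cZm es_rels autp autm
open CfH6 CfH6.Co MulAction Subgroup CfH9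
namespace CfH8.C2
open CfH8.C3 (Sp A cA A_eq A_gen card_Sp6)

variable {G : Type*} [Group G] {ψ : N →* G} {g : G}

noncomputable def ev (ψ : N →* G) (g : G) : ℕ → G := upd (fun x => ψ (el x)) 16 g
theorem ev16 : ev ψ g 16 = g := by simp [ev, upd]
theorem evx : ∀ x < 16, ψ (el x) = ev ψ g x := fun x hx => (if_neg hx.ne).symm
theorem evl {w : List ℕ} (h : allLt 16 w = true) : evw (ev ψ g) w = ψ (evw el w) := (hom_evw evx w (allLt_sound h)).symm
theorem bw (g2 : g * g = 1) {u v : List ℕ} (r : R ψ g (evw el v) (evw el u)) (h : (allLt 16 u && allLt 16 v) = true := by decide) :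
    evw (ev ψ g) (u ++ 16 :: (v.reverse ++ [16])) = 1 := by
  rw [Bool.and_eq_true] at h
  rw [evw_append, evw_cons, evw_append, evw_cons, evw_nil, ev16, evl h.1, evl (by simpa [allLt] using h.2), rev h.2, ← r, map_inv,
    mul_one, mul_assoc _ g⁻¹, inv_mul_cancel_left, mul_assoc, mul_inv_cancel_left, g2]
theorem rot {e : ℕ → G} {w : List ℕ} (h : evw e w = 1) (k : ℕ) : evw e (w.drop k ++ w.take k) = 1 := by
  rw [← List.take_append_drop k w, evw_append] at h
  rw [evw_append, mul_eq_one_comm.1 h]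
def RX0 : List ℕ := [16, 2, 16] ++ ([11, 14] ++ ([16, 2, 16] ++ WX))
noncomputable def TT (v : ℕ) : ℕ := frc v fun v => lin th (lin [1, 43, 52, 9, 41, 24, 69, 148, 256, 1021] v 10) 10

namespace Ct
variable [Finite G] (h : Ct ψ) (k : Gd ψ g) (f : R ψ g fN fN) (g2 : g * g = 1)
include h k f g2
theorem o11 : (g * ψ (evw el [4, 9])) ^ 11 = 1 := by
  have a : ∀ v, R ψ (g * ψ (evw el [4, 9])) (κ v) (κ (TT v)) := fun v => by
    rw [R, TT, frc_eq, ← h.thV k f g2, ← cjM [4, 9] [1, 43, 52, 9, 41, 24, 69, 148, 256, 1021], map_mul, map_mul, map_inv]; group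
  generalize g * ψ (evw el [4, 9]) = c at a
  have b : ∀ n v, R ψ (c ^ n) (κ v) (κ (TT^[n] v)) := fun n v => by
    induction n with
    | zero => simp [R]
    | succ n ih => rw [R, Function.iterate_succ_apply', ← a, ← ih, pow_succ']; group
  have d : ∀ v ∈ [1, 21, 32, 5, 56], c ^ 11 * ψ (κ v) = ψ (κ v) * c ^ 11 := fun v hv =>
    mul_inv_eq_iff_eq_mul.1 ((b 11 v).trans (by rw [(by decide +kernel : ∀ v ∈ [1, 21, 32, 5, 56], TT^[11] v = v) v hv]))
  obtain ⟨n, e⟩ := h.sur _ (d 1 List.mem_cons_self)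
  obtain ⟨v, hv, rfl⟩ := cenU (g := n) fun v hv => h.inj (by rw [map_mul, map_mul, e, d v (List.mem_cons_of_mem _ hv)])
  have q := (by decide +kernel : ∀ v < 1024, TT v < 1024 ∧ (TT v = v → v = 0)) v hv
  rw [← e, q.2 (h.vi ((a v).symm.trans (by rw [e]; group)) q.1 hv), κ0, map_one]
variable (c : IsConj (ψ (κ 1)) (ψ (κ 2)))
include c
theorem hb : ∀ w ∈ DF.bws, evw (ev ψ g) w = 1 := by
  have a := h.all3 k f g2 c
  have T := fun v => (h.thV k f g2 v).sym g2
  rw [(by decide +kernel : DF.bws = [(fw, fw), (GW.getD 1 [], [10, 9, 11, 12, 14, 12, 11, 0, 12]), (GW.getD 2 [], NW.getD 2 []),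
    (κw 4, κw 64), (κw 64, κw 4), (κw 2, κw 1), (κw 1, κw 2)].map fun p => p.1 ++ 16 :: (p.2.reverse ++ [16]))]
  exact forall_cons (bw g2 f) (forall_cons (bw g2 ((a 1 (by decide)).sym g2)) (forall_cons (bw g2 ((a 2 (by decide)).sym g2))
    (forall_cons (bw g2 (R.v (u' := 64) (v' := 4) (T 4)) (by decide +kernel))
    (forall_cons (bw g2 (R.v (u' := 4) (v' := 64) (T 64)) (by decide +kernel))
    (forall_cons (bw g2 k.a (by decide +kernel)) (forall_cons (bw g2 k.b (by decide +kernel)) forall_nil))))))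
theorem hg : ∀ w ∈ DF.gws, evw (ev ψ g) w = 1 := by
  have y2 : evw (ev ψ g) [16, 16] = 1 := by simpa [ev16] using g2
  have y11 : evw (ev ψ g) (wpow [16, 4, 9] 11) = 1 := by
    rw [evw_wpow, evw_cons, ev16, evl rfl]; exact h.o11 k f g2
  have hρ : ∀ x < 16, ψ (el x) = byW (ev ψ g) DQ.σ x := fun x hx => by
    rw [byW, show DQ.σ.getD x [] = [x] by interval_cases x <;> rfl, evw_cons, evw_nil, mul_one, evx x hx]
  have q := DQ.goals (ev ψ g) ψ hρ ⊤ (by
    rw [(by decide +kernel : DQ.gws = [[16, 16], wpow [16, 4, 9] 11])]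
    exact forall_cons y2 (forall_cons y11 forall_nil))
    (DQ.hbp (ev ψ g) ψ hρ (by rw [ev16]; exact eq_inv_of_mul_eq_one_left g2) (h.hb k f g2 c))
  have H2 : evw (ev ψ g) [16, 2, 16] * evw (ev ψ g) [16, 2, 16] = 1 := by
    simp only [evw_cons, evw_nil, mul_one, ev16, ← evx 2 (by decide)]
    rw [mul_assoc, mul_assoc, ← mul_assoc g g, g2, one_mul, ← mul_assoc (ψ _), ← map_mul, el2 2 (by decide), map_one, one_mul, g2]
  have r : ∀ i < 6, R ψ (evw (ev ψ g) [16, 2, 16]) (evw el (PQ.getD i default).1) (evw el (Y i)) := fun i hi => by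
    obtain ⟨a, b, d⟩ := (by decide +kernel : ∀ i < 6, allLt 16 (PQ.getD i default).1 = true ∧ allLt 16 (Y i) = true ∧
      [16, 2, 16] ++ ((PQ.getD i default).1 ++ ([16, 2, 16] ++ (Y i).reverse)) ∈ DQ.gls) i hi
    have := q _ d
    rw [evw_append, evw_append, evw_append, evl a, evl (w := (Y i).reverse) (by simpa [allLt] using b), rev b, map_inv, ← mul_assoc,
      ← mul_assoc, mul_inv_eq_one] at this
    rw [R, inv_eq_of_mul_eq_one_right H2, this]
  obtain ⟨n, e⟩ := h.exR (a := evw el [11, 14]) ((r 0 (by decide)).sym H2) (cm_ok _ _)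
  have := pin (n := n) (fun i hi => h.rc (r i (by revert i; decide)) e (cm_ok _ _ (by revert i; decide +kernel)))
    (h.ru ((e.mul (r 4 (by decide))).pow 3) (by
      rw [← evw_append, ← evw_wpow, cE_ok _ []]; exact R.one))
    (h.ru ((e.mul ((r 5 (by decide)).mul ((r 1 (by decide)).mul (r 4 (by decide))))).pow 3) (by
      rw [← evw_append, ← evw_append, ← evw_append, ← evw_wpow, cE_ok _ []]; exact R.one))
  subst this
  have x : evw (ev ψ g) RX0 = 1 := by
    rw [R, inv_eq_of_mul_eq_one_right H2] at e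
    rw [RX0, evw_append, evw_append, evw_append, evl (w := [11, 14]) rfl, evl (w := WX) rfl, ← mul_assoc, ← mul_assoc, e, ← map_mul,
      ← evw_append, cE_ok _ [], evw_nil, map_one]
  rw [(by decide +kernel : DF.gws = [[16, 16], RX0, RX0.drop 2 ++ RX0.take 2, RX0.drop 5 ++ RX0.take 5,
    RX0.drop 7 ++ RX0.take 7, wpow [16, 4, 9] 11])]
  exact forall_cons y2 (forall_cons x (forall_cons (rot x 2) (forall_cons (rot x 5) (forall_cons (rot x 7)
    (forall_cons y11 forall_nil)))))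
end Ct

theorem main [Finite G] (hO : Cfsg.oddCore G = ⊥) (hZ : center G = ⊥) (t : G) (ht : orderOf t = 2)
    (hx : (∃ ι π, Sx t Zp ι π) ∨ (∃ ι π, Sx t Zm ι π)) : Nonempty (G ≃* Cfsg.Spor.Co2) := by
  obtain ⟨u, c, u1, uz⟩ := CfH5.Nat.exU hO hZ ht
  rcases hx with ⟨ι, π, s⟩ | ⟨ι, π, s⟩
  swap
  · exact (CfH5.Nat.natM s (CfH1.Cls.clsM s) c u1 uz).elim
  rcases CfH1.Cls.clsP s with n | ⟨ι, r, s⟩
  · exact (CfH5.Nat.natP s n c u1 uz).elim
  obtain ⟨ψ, i, rfl, j⟩ := CfH5.Nat.exN s (CfH5.Nat.s1 s) CfH5.SpI.invSp c u1 uz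
  have h : Ct ψ := ⟨i, κz ▸ j⟩
  have d := h.exd (u := u) (by rw [κz]; exact c) (by rw [κz]; exact u1) (by rw [κz]; exact uz)
  obtain ⟨g, k, f, g2⟩ := h.sw2 d
  have e : ev ψ g 0 = ψ (κ 1) := by rw [κz, evx 0 (by decide)]
  refine CfH9.C2f.fin6 invN cosS (ev ψ g) ψ evx i (e ▸ h.sur) (h.hb k f g2 d) (h.hg k f g2 d) ?_ ?_
  · rw [e, evl rfl]; exact h.n1
  · rw [e, evl rfl]; exact h.n2
end CfH8.C2
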