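import Cfsg.Agent.H8.FiL
import Cfsg.Agent.H6.F22G

/-! The transposition action of `Fi22`: context. -/

set_option autoImplicit false
set_option maxRecDepth 100000
set_option Elab.async false

namespace CfH8.Fi.F22
open CfH6 CfH9 MulAction Subgroup
attribute [local instance] F22A.act

abbrev F := F22B.G
noncomputable abbrev el := F22B.el
noncomputable abbrev nets := F22A.nets0
noncomputable abbrev U := F22A.U
def bs : List ℕ := [0, 1, 2, 3, 4, 5, 6]
def gp : List ℕ := [0, 160, 2975, 2, 20, 105, 126, 26, 104]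
noncomputable abbrev z : F := el 0

instance finF : Finite F := F22O.finG.1

theorem one {w : List ℕ} (h : chkFx nets 4096 9 bs w = true) : evw el w = 1 :=
  F22G.base _ (Lvl.fx F22A.L0 h)

theorem sq : ∀ x < 9, el x * el x = 1 := fun x hx => by
  have h := F22B.hinv x hx
  rw [show F22B.il.getD x 0 = x by interval_cases x <;> rfl] at h
  exact mul_eq_one_iff_eq_inv.2 h

theorem z2 : z * z = 1 := sq 0 (by decide)

theorem hH : F22A.H ≤ Cx(z) := by
  refine gensub_le fun y hy => ?_
  have h0 : allN (fun y => allLt 9 (F22A.ws1.getD y []) && chkFx nets 4096 9 bs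
    (F22A.ws1.getD y [] ++ 0 :: (F22A.ws1.getD y []).reverse ++ [0])) 9 = true := by decide +kernel
  have h1 := allN_sound h0 y hy
  rw [Bool.and_eq_true] at h1
  have h := one h1.2
  simp only [evw_cons, evw_append, evw_reverse sq (allLt_sound h1.1), evw_nil, mul_one] at h
  rw [mem_Cx']
  exact ((mul_assoc _ _ _).trans (eq_inv_of_mul_eq_one_left h)).trans (inv_of_sq z2)

theorem cz : Cx(z) = stabilizer F 0 := by
  rw [← F22G.stab.1]
  refine (F22A.hmax F22G.stab.1 F22G.stab.2 _ hH).resolve_right fun e => ?_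
  have h : el 1 * z = z * el 1 := mem_Cx.1 (e ▸ mem_top _)
  refine Lvl.mv F22A.L0 (w := [1, 0, 1, 0]) (b := 0) (by decide +kernel) ?_
  simp only [evw_cons, evw_nil, mul_one]
  rw [h, ← mul_assoc z, z2, one_mul, sq 1 (by decide), one_smul]

theorem orb : orbit F 0 = bitSet U := by
  rw [← orbit_top]
  exact (orbit_sub_of_card F22G.stab.1 F22G.stab.2 (by decide) F22A.subU F22A.cU).antisymm F22A.subU

def gu : List (List ℕ) := [[], [0, 1], [1, 2, 0, 1], [2, 3, 1, 2, 0, 1], [3, 4, 2, 3, 1, 2, 0, 1],
  [4, 5, 3, 4, 2, 3, 1, 2, 0, 1], [5, 6, 4, 5, 3, 4, 2, 3, 1, 2, 0, 1], [3, 7, 2, 3, 1, 2, 0, 1],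
  [7, 8, 3, 7, 2, 3, 1, 2, 0, 1]]

theorem gch : (List.range 9).all (fun x => chkPt nets 4096 9 (lget gu [] x) 0 (lget gp 0 x) &&
    chkFx nets 4096 9 bs (x :: lget gu [] x ++ [0] ++ (lget gu [] x).reverse)) = true := by decide +kernel

theorem ctx : Ctx 4096 12 nets 9 el z U bs gp := by
  refine ⟨F22A.L0, by decide, sq, cz, orb, fun p hp => ?_, F22G.base, z2, fun x hx => ?_⟩
  · have : U >>> 4096 = 0 := by decide +kernel
    by_contra hc
    have h2 := congrArg (fun y => Nat.testBit y (p - 4096)) this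
    simp only [Nat.testBit_shiftRight, Nat.zero_testBit] at h2
    rw [show 4096 + (p - 4096) = p by omega, hp] at h2
    exact absurd h2 (by decide)
  · have h := List.all_eq_true.1 gch x (List.mem_range.2 hx)
    rw [Bool.and_eq_true] at h
    have e := Lvl.pt F22A.L0 h.1
    have h1 := one h.2
    have hu : ∀ y ∈ lget gu [] x, y < 9 := by
      have := h.1
      simp only [chkPt, Bool.and_eq_true] at this
      exact allLt_sound this.1.1
    constructor
    · have : lget gp 0 x ∈ bitSet U := orb ▸ ⟨_, e⟩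
      exact this
    · rw [← e, tp_zero' cz]
      simp only [List.cons_append, evw_cons, evw_append, evw_reverse sq hu, evw_nil, mul_one] at h1
      rw [← inv_of_sq (sq x hx)]
      exact (eq_inv_of_mul_eq_one_right h1).symm

theorem hH' : F22A.H = Cx(z) := F22G.stab.1.trans cz.symm

end CfH8.Fi.F22
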