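import Cfsg.Agent.H8.F22S
import Cfsg.Agent.H6.U6DO
import Cfsg.Agent.H6.U6G
import Cfsg.Agent.OD.Helper8x294a8d0e59

/-! A perfect double cover of `U₆(2)` is the transposition centraliser of `Fi22`. -/

set_option autoImplicit false
set_option maxRecDepth 100000
set_option Elab.async false

namespace CfH8.Fi
open CfH6 CfH9 MulAction Subgroup

theorem Ix2.conj {F : Type*} [Group F] {Kp M : Subgroup F} (h : Ix2 Kp M) {g x : F} (hg : g ∈ Kp) (hx : x ∈ Kp)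
    (h1 : x ∈ M) : g * x * g⁻¹ ∈ M := by
  by_cases h2 : g ∈ M
  · exact mul_mem (mul_mem h2 h1) (inv_mem h2)
  · exact h _ (mul_mem hg hx) _ (inv_mem hg) (fun e => h2 ((M.mul_mem_cancel_right h1).1 e))
      fun e => h2 (M.inv_mem_iff.1 e)

namespace F22
attribute [local instance] F22A.act

theorem z1 : z ≠ 1 := pat.z1

theorem mem1 {q : ℕ} (h : M1.testBit q = true) : q ≠ 0 ∧ ∃ g ∈ Cx(z), g • 2975 = q :=
  ⟨by simpa using ((ctx.cand (forall_cons (okX 0 (by decide)) forall_nil) forall_nil q).1 h).2.2.2,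
    ctx.fixer0 ▸ o1.one h⟩

theorem noIdx2 (M : Subgroup F) (h : Ix2 (fixer F [2975, 0]) M) (hz : z ∈ M) (hc : tp z 2975 ∈ M) :
    fixer F [2975, 0] ≤ M := by
  have ok : ∀ t ∈ [xn XS 0, xn XS 1], okT nets 4096 9 gp t = true :=
    forall_cons (okX 0 (by decide)) (forall_cons (okX 1 (by decide)) forall_nil)
  have hK : tp z 20 ∈ fixer F [2975, 0] :=
    (ctx.okT (okX 2 (by decide))).2.1 ▸ Lvl.fx F22A.L0 (w := wT (xn XS 2)) (by decide +kernel)
  have h20 : tp z 20 ∈ M := by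
    by_contra h1
    have := (h.word (ev := tp z) (w := [20, 26, 2984, 2986, 121]) fun x hx => by
      obtain ⟨g, hg, rfl⟩ := o2.one (q := x) (by revert x; decide +kernel)
      rw [ctx.tp_smul u20]
      have h2 := mul_mem (mul_mem hg hK) (inv_mem hg)
      exact ⟨h2, fun e => h1 (by simpa [mul_assoc] using h.conj (inv_mem hg) h2 e)⟩).2
    have e := ctx.evw_wP (ts := [xn XS 2, xn XS 3, xn XS 5, xn XS 6, xn XS 12]) (by decide +kernel)
    rw [ctx.eqW (y := [0, 2]) (by decide +kernel), evw_cons, evw_cons, evw_nil, mul_one,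
      (ctx.gen 2 (by decide)).2] at e
    exact absurd (this.1 (e ▸ mul_mem hz hc)) (by decide)
  refine gen2 fun q hq => ?_
  by_cases h1 : q ∈ [2975, 0]
  · simp only [List.mem_cons, List.not_mem_nil, or_false] at h1
    rcases h1 with rfl | rfl
    exacts [hc, ctx.tp0.symm ▸ hz]
  · have := (ctx.cand ok forall_nil q).1 hq
    obtain ⟨g, hg, rfl⟩ := o2.one ((ctx.cand ok forall_nil q).2 ⟨this.1, this.2.1, forall_nil, h1⟩)
    rw [ctx.tp_smul u20]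
    exact h.conj hg hK h20

def R0 : List (List ℕ) := (U6DB.rels.drop 8).take 29
def r2 : List ℕ := wpow [2, 3, 4, 8, 7, 6] 5
def r3 : List ℕ := wpow [1, 2, 3, 4, 5, 6, 7] 9
def r4 : List ℕ := wpow [8, 4, 2, 3, 5, 6] 5
def r5 : List ℕ := wpow [6, 7, 3, 8, 2, 1] 5
def fr : List ℕ := [9, 10, 11, 12, 13, 14]

theorem exρ : ∃ ρ : U6DB.G →* F, Function.Injective ρ ∧ ρ.range = Cx(z) ∧ ∀ x < 9, ρ (U6DB.el x) = F22A.el1 x := by
  obtain ⟨ρ, hρ⟩ := U6DB.hhom F22A.el1 (fun x hx => by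
      rw [show U6DB.il.getD x 0 = x by interval_cases x <;> rfl, inv_of_sq]
      have := one (allN_sound (by decide +kernel :
        allN (fun x => chkFx nets 4096 9 bs (subst F22A.ws1 [x, x])) 9 = true) x hx)
      simpa only [evw_subst, evw_cons, evw_nil, mul_one] using this)
    fun r hr => (evw_subst _ _ _).symm.trans (one (List.all_eq_true.1 (by decide +kernel :
      U6DB.rels.all (fun r => chkFx nets 4096 9 bs (subst F22A.ws1 r)) = true) r hr))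
  exact ⟨ρ, equiv_of_card hρ U6DB.htop U6DO.finG (by rw [← cardH, ← hH']), (range_hom hρ U6DB.htop).trans hH', hρ⟩

theorem el10 : F22A.el1 0 = z := by simp [F22A.el1, byW, F22A.ws1]

/-- a tuple with the relations of the double cover generates it -/
theorem core {C : Type*} [Group C] [Finite C] {d : C} {σ : C →* U6B.G} (h : Ext σ d) (hp : commutator C = ⊤)
    (hc : Nat.card C = 18393661440) {ev : ℕ → C} (h1 : ∀ x < 9, ev x * ev x = 1) (h2 : ∀ r ∈ R0, evw ev r = 1)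
    (h3 : evw ev r2 = 1) (h4 : σ (evw ev r3) = 1) (h5 : evw ev r4 = 1) (h6 : σ (evw ev r5) = 1)
    (h7 : σ (ev 1) ≠ 1) : ∃ τ : U6DB.G →* C, Function.Bijective τ ∧ τ (U6DB.el 0) = d := by
  have k : ∀ s, σ s = 1 → (∀ g, g * s = s * g) ∧ s * s = 1 := fun s hs => by
    rcases h.ker s hs with rfl | rfl
    exacts [by simp, ⟨h.cen, h.t2⟩]
  obtain ⟨s1, s2⟩ := k _ h4
  set s := evw ev r3 with hs
  have tw : ∀ w : List ℕ, evw (fun x => ev x * s) w = evw ev w * s ^ (w.length % 2) := fun w => by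
    rw [evw_twist ev w fun x _ => s1 _, ← Nat.div_add_mod w.length 2, pow_add, pow_mul, pow_two, s2, one_pow,
      one_mul, Nat.div_add_mod]
  obtain ⟨v1, v2⟩ := k _ h6
  let e : ℕ → C := fun x => if x = 0 then evw ev r5 else ev x * s
  have e1 : ∀ w : List ℕ, w.all (fun x => !Nat.beq x 0) = true → evw e w = evw ev w * s ^ (w.length % 2) :=
    fun w hw => by
      rw [← tw, evw, evw, List.map_congr_left fun x hx => if_neg fun e0 => by
        have := List.all_eq_true.1 hw x hx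
        simp [e0] at this]
  have e2 : ∀ x < 9, e x * e x = 1 := fun x hx => by
    by_cases h0 : x = 0
    · simp only [e, h0, if_true, v2]
    · simp only [e, h0, if_false]; rw [mul_assoc, ← mul_assoc s, ← s1, mul_assoc, s2, mul_one, h1 x hx]
  have e5 : evw e r5 = evw ev r5 := by
    rw [e1 r5 (by decide +kernel), show r5.length % 2 = 0 by decide +kernel, pow_zero, mul_one]
  have hi : ∀ x < 9, e (U6DB.il.getD x 0) = (e x)⁻¹ := fun x hx => by
    rw [show U6DB.il.getD x 0 = x by interval_cases x <;> rfl, inv_of_sq (e2 x hx)]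
  have hr : ∀ r ∈ U6DB.rels, evw e r = 1 := by
    rw [show U6DB.rels = (List.range 8).map (fun x => [0, x + 1, 0, x + 1]) ++ (R0 ++ [r2, r3, r4, 0 :: r5]) by
      decide +kernel]
    refine forall_app (fun r hr => ?_) (forall_app (fun r hr => ?_) (forall_cons ?_ (forall_cons ?_ (forall_cons ?_
      (forall_cons ?_ forall_nil)))))
    · obtain ⟨x, hx, rfl⟩ := List.mem_map.1 hr
      simp only [evw_cons, evw_nil, mul_one]
      change evw ev r5 * (e (x + 1) * (evw ev r5 * e (x + 1))) = 1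
      rw [← v1 (e (x + 1)), ← mul_assoc (e (x + 1)), e2 _ (by simp at hx; omega), one_mul, v2]
    · have := List.all_eq_true.1 (by decide +kernel : R0.all (fun w => w.all (fun x => !Nat.beq x 0) &&
        Nat.beq (w.length % 2) 0) = true) r hr
      rw [Bool.and_eq_true, Nat.beq_eq] at this
      rw [e1 r this.1, this.2, h2 r hr, pow_zero, mul_one]
    · rw [e1 r2 (by decide +kernel), h3, show r2.length % 2 = 0 by decide +kernel, pow_zero, mul_one]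
    · rw [e1 r3 (by decide +kernel), show r3.length % 2 = 1 by decide +kernel, pow_one, s2]
    · rw [e1 r4 (by decide +kernel), h5, show r4.length % 2 = 0 by decide +kernel, pow_zero, mul_one]
    · rw [evw_cons, e5]; exact v2
  obtain ⟨τ, hτ⟩ := U6DB.hhom e hi hr
  have hi' : ∀ x < 9, σ (e (U6DB.il.getD x 0)) = (σ (e x))⁻¹ := fun x hx => by rw [hi x hx, map_inv]
  have hr' : ∀ r ∈ r5 :: U6DB.rels, evw (fun x => σ (e x)) r = 1 :=
    forall_cons (by rw [← map_evw, e5, h6]) fun r hr' => by rw [← map_evw, hr r hr', map_one]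
  obtain ⟨θ, hθ⟩ := U6B.hhom (byW (fun x => σ (e x)) [[1], [2], [3], [4], [5], [6], [7], [8]])
    (byW_inv _ (n := 4) hi' hr' (by decide +kernel)) (byW_rels _ (n := 4) hi' hr' (by decide +kernel))
  have := U6G.simple
  have := U6O.finG.1
  have := U6DO.finG.1
  have sθ := Finite.injective_iff_surjective.1 (inj_of_simple θ (g := U6B.el 0) (by
    rw [hθ 0 (by decide)]
    simpa [byW, e, h4] using h7))
  have top : τ.range = ⊤ := top_of_perfect hp h.cen fun g => by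
    have : σ g ∈ (σ.comp τ).range := by
      refine (range_hom hθ U6B.htop).trans_le (gensub_le (K := (σ.comp τ).range) fun x hx =>
        ⟨U6DB.el (x + 1), ?_⟩) (sθ (σ g))
      rw [MonoidHom.comp_apply, hτ _ (by omega)]
      interval_cases x <;> simp [byW]
    obtain ⟨p, e⟩ := this
    exact (h.eq e).imp (fun e => ⟨p, e⟩) fun e => ⟨p, e⟩
  have b := Function.Surjective.bijective_of_nat_card_le (MonoidHom.range_eq_top.1 top) (hc ▸ U6DO.finG.2)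
  refine ⟨τ, b, (h.ker _ (by rw [hτ 0 (by decide)]; exact h6)).resolve_left fun e => z1 ?_⟩
  obtain ⟨ρ, -, -, r3⟩ := exρ
  rw [← el10, ← r3 0 (by decide), b.1 (e.trans τ.map_one.symm), map_one]

noncomputable def inZ (w : List ℕ) : Bool := chkFx nets 4096 9 bs w || chkFx nets 4096 9 bs (0 :: w)

theorem inZ_sound {w : List ℕ} (h : inZ w = true) : evw el w = 1 ∨ evw el w = z :=
  (Bool.or_eq_true _ _ ▸ h).imp one fun h => (eq_inv_of_mul_eq_one_right (one h)).trans (inv_of_sq z2)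

noncomputable def okO (TG : List NP) : Bool := forceG M1 fun S => TG.all fun t => okT nets 4096 9 gp t && S.testBit t.1

noncomputable def chkTup (TG : List NP) (ce : List (List (ℕ × ℕ))) : Bool :=
  okO TG && Nat.beq TG.length 15 && Nat.beq ce.length 31 &&
    chkDel nets 4096 12 TG ((R0 ++ [r2 ++ (r2 ++ r2), fr ++ r4]).zip ce) &&
    [r2, r3, r4, r5].all fun r => inZ (subst (TG.map wT) r)

def TG0 : List NP := [(126, [], 6),
  (126, [], 6),
  (29, [6, 5], 4),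
  (2976, [3], 2),
  (2975, [], 2),
  (3, [4], 3),
  (2986, [1, 2, 3, 7, 4, 3, 2, 1], 0),
  (104, [], 8),
  (2980, [7, 4, 3], 2),
  (20, [], 4),
  (26, [], 7),
  (121, [5, 4, 3, 7, 2, 3, 4, 1, 2, 3, 7, 5, 4, 3, 2, 1], 0),
  (2975, [], 2),
  (2984, [3, 7, 4, 3], 2),
  (2986, [1, 2, 3, 7, 4, 3, 2, 1], 0)]
def ce0 : List (List (ℕ × ℕ)) := [[(0, 2), (1, 0), (0, 0)],
  [(0, 1), (0, 0)],
  [(0, 1), (0, 0)],
  [(0, 1), (0, 0)],
  [(0, 1), (0, 0)],
  [(0, 1), (0, 0)],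
  [(0, 1), (0, 0)],
  [(0, 2), (1, 0), (0, 0)],
  [(0, 1), (0, 0)],
  [(0, 1), (0, 0)],
  [(0, 2), (1, 0), (0, 0)],
  [(0, 1), (0, 0)],
  [(0, 1), (0, 0)],
  [(0, 2), (1, 0), (0, 0)],
  [(0, 1), (0, 0)],
  [(0, 1), (0, 0)],
  [(0, 1), (0, 0)],
  [(0, 1), (0, 0)],
  [(0, 2), (1, 0), (0, 0)],
  [(0, 1), (0, 0)],
  [(0, 1), (0, 0)],
  [(0, 2), (1, 0), (0, 0)],
  [(0, 1), (0, 0)],
  [(0, 1), (0, 0)],
  [(0, 1), (0, 0)],
  [(0, 2), (1, 0), (0, 0)],
  [(0, 1), (0, 0)],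
  [(0, 2), (1, 0), (0, 0)],
  [(0, 14), (13, 0), (12, 0), (11, 0), (10, 0), (9, 0), (8, 0), (7, 0), (6, 0), (5, 0), (4, 0), (3, 0), (2, 0), (1, 0), (0, 0)],
  [(0, 14), (9, 8), (17, 14), (13, 6), (24, 8), (9, 9), (30, 14), (26, 6), (37, 8), (22, 9), (15, 8), (5, 11), (18, 11), (37, 14), (33, 6), (26, 8), (31, 5), (18, 8), (38, 8), (24, 12), (8, 13), (4, 5), (13, 14), (11, 12), (10, 17), (9, 0), (8, 2), (6, 4), (18, 4), (15, 2), (16, 0), (14, 3), (13, 6), (3, 8), (3, 9), (8, 7), (4, 3), (5, 2), (1, 3), (2, 2), (1, 3), (3, 1), (2, 1), (0, 1), (0, 0)],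
  [(5, 29), (4, 11), (3, 6), (2, 11), (1, 4), (0, 21), (8, 3), (6, 3), (7, 2), (1, 4), (4, 2), (3, 2), (4, 2), (1, 2), (2, 2), (0, 2), (0, 1), (0, 0)]]
theorem cT0 : chkTup TG0 ce0 = true := by decide +kernel
def TG1 : List NP := [(2976, [3], 2),
  (2976, [3], 2),
  (2975, [], 2),
  (3, [4], 3),
  (105, [], 5),
  (126, [], 6),
  (30, [7], 3),
  (104, [], 8),
  (121, [5, 4, 3, 7, 2, 3, 4, 1, 2, 3, 7, 5, 4, 3, 2, 1], 0),
  (121, [5, 4, 3, 7, 2, 3, 4, 1, 2, 3, 7, 5, 4, 3, 2, 1], 0),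
  (126, [], 6),
  (2975, [], 2),
  (2984, [3, 7, 4, 3], 2),
  (3017, [5, 4, 1, 2, 3, 7, 6, 5, 4, 3, 2, 1], 0),
  (3076, [3, 7, 4, 5, 3, 4, 1, 2, 3, 7, 6, 5, 4, 3, 2, 1], 0)]
def ce1 : List (List (ℕ × ℕ)) := [[(0, 2), (1, 0), (0, 0)],
  [(0, 1), (0, 0)],
  [(0, 1), (0, 0)],
  [(0, 1), (0, 0)],
  [(0, 1), (0, 0)],
  [(0, 1), (0, 0)],
  [(0, 1), (0, 0)],
  [(0, 2), (1, 0), (0, 0)],
  [(0, 1), (0, 0)],
  [(0, 1), (0, 0)],
  [(0, 2), (1, 0), (0, 0)],
  [(0, 1), (0, 0)],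
  [(0, 1), (0, 0)],
  [(0, 2), (1, 0), (0, 0)],
  [(0, 1), (0, 0)],
  [(0, 1), (0, 0)],
  [(0, 1), (0, 0)],
  [(0, 1), (0, 0)],
  [(0, 2), (1, 0), (0, 0)],
  [(0, 1), (0, 0)],
  [(0, 1), (0, 0)],
  [(0, 2), (1, 0), (0, 0)],
  [(0, 1), (0, 0)],
  [(0, 1), (0, 0)],
  [(0, 1), (0, 0)],
  [(0, 2), (1, 0), (0, 0)],
  [(0, 1), (0, 0)],
  [(0, 2), (1, 0), (0, 0)],
  [(0, 14), (13, 0), (12, 0), (11, 0), (10, 0), (9, 0), (8, 0), (7, 0), (6, 0), (5, 0), (4, 0), (3, 0), (2, 0), (1, 0), (0, 0)],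
  [(0, 14), (9, 8), (17, 14), (13, 6), (24, 8), (9, 9), (30, 14), (26, 6), (37, 8), (22, 9), (15, 8), (5, 11), (18, 11), (37, 14), (33, 6), (26, 8), (31, 5), (18, 8), (38, 8), (24, 12), (8, 13), (4, 5), (13, 14), (11, 12), (10, 17), (9, 0), (8, 2), (6, 4), (18, 4), (15, 2), (16, 0), (14, 3), (13, 6), (3, 8), (3, 9), (8, 7), (4, 3), (5, 2), (1, 3), (2, 2), (1, 3), (3, 1), (2, 1), (0, 1), (0, 0)],
  [(5, 15), (4, 9), (3, 24), (2, 2), (1, 24), (0, 0), (19, 3), (6, 6), (3, 3), (8, 3), (3, 4), (5, 2), (2, 2), (3, 2), (3, 1), (0, 2), (1, 0), (0, 0)]]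
theorem cT1 : chkTup TG1 ce1 = true := by decide +kernel
def TG2 : List NP := [(2975, [], 2),
  (2975, [], 2),
  (2, [], 3),
  (20, [], 4),
  (105, [], 5),
  (126, [], 6),
  (26, [], 7),
  (104, [], 8),
  (2986, [1, 2, 3, 7, 4, 3, 2, 1], 0),
  (20, [], 4),
  (26, [], 7),
  (126, [], 6),
  (2986, [1, 2, 3, 7, 4, 3, 2, 1], 0),
  (3017, [5, 4, 1, 2, 3, 7, 6, 5, 4, 3, 2, 1], 0),
  (3076, [3, 7, 4, 5, 3, 4, 1, 2, 3, 7, 6, 5, 4, 3, 2, 1], 0)]
def ce2 : List (List (ℕ × ℕ)) := [[(0, 2), (1, 0), (0, 0)],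
  [(0, 1), (0, 0)],
  [(0, 1), (0, 0)],
  [(0, 1), (0, 0)],
  [(0, 1), (0, 0)],
  [(0, 1), (0, 0)],
  [(0, 1), (0, 0)],
  [(0, 2), (1, 0), (0, 0)],
  [(0, 1), (0, 0)],
  [(0, 1), (0, 0)],
  [(0, 2), (1, 0), (0, 0)],
  [(0, 1), (0, 0)],
  [(0, 1), (0, 0)],
  [(0, 2), (1, 0), (0, 0)],
  [(0, 1), (0, 0)],
  [(0, 1), (0, 0)],
  [(0, 1), (0, 0)],
  [(0, 1), (0, 0)],
  [(0, 2), (1, 0), (0, 0)],
  [(0, 1), (0, 0)],
  [(0, 1), (0, 0)],
  [(0, 2), (1, 0), (0, 0)],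
  [(0, 1), (0, 0)],
  [(0, 1), (0, 0)],
  [(0, 1), (0, 0)],
  [(0, 2), (1, 0), (0, 0)],
  [(0, 1), (0, 0)],
  [(0, 2), (1, 0), (0, 0)],
  [(0, 14), (13, 0), (12, 0), (11, 0), (10, 0), (9, 0), (8, 0), (7, 0), (6, 0), (5, 0), (4, 0), (3, 0), (2, 0), (1, 0), (0, 0)],
  [(0, 14), (9, 8), (17, 14), (13, 6), (24, 8), (9, 9), (30, 14), (26, 6), (37, 8), (22, 9), (15, 8), (5, 11), (18, 11), (37, 14), (33, 6), (26, 8), (31, 5), (18, 8), (38, 8), (24, 12), (8, 13), (4, 5), (13, 14), (11, 12), (10, 17), (9, 0), (8, 2), (6, 4), (18, 4), (15, 2), (16, 0), (14, 3), (13, 6), (3, 8), (3, 9), (8, 7), (4, 3), (5, 2), (1, 3), (2, 2), (1, 3), (3, 1), (2, 1), (0, 1), (0, 0)],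
  [(5, 13), (4, 13), (3, 0), (2, 25), (1, 25), (0, 24), (8, 3), (8, 2), (8, 1), (8, 0), (6, 1), (6, 0), (2, 3), (2, 2), (2, 1), (2, 0), (0, 1), (0, 0)]]
theorem cT2 : chkTup TG2 ce2 = true := by decide +kernel
def TZ : List NP := [(20, [], 4),
  (26, [], 7),
  (121, [5, 4, 3, 7, 2, 3, 4, 1, 2, 3, 7, 5, 4, 3, 2, 1], 0),
  (126, [], 6),
  (2975, [], 2),
  (2984, [3, 7, 4, 3], 2),
  (2986, [1, 2, 3, 7, 4, 3, 2, 1], 0),
  (3017, [5, 4, 1, 2, 3, 7, 6, 5, 4, 3, 2, 1], 0),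
  (3076, [3, 7, 4, 5, 3, 4, 1, 2, 3, 7, 6, 5, 4, 3, 2, 1], 0)]
def wZ : List ℕ × List (ℕ × ℕ) := ([0, 1, 2, 4, 5, 6, 2, 3, 4, 5, 7, 8, 0, 1, 3, 6, 7, 8], [(2, 3), (2, 3), (2, 2), (3, 4), (0, 4), (0, 3), (0, 2), (0, 1), (0, 0)])
def L5 : List NP := [(2975, [], 2),
  (26, [], 7),
  (40, [3, 4, 5, 2, 3, 4, 1, 2, 3, 7, 6, 5, 4, 3, 2, 1], 0),
  (3076, [3, 7, 4, 5, 3, 4, 1, 2, 3, 7, 6, 5, 4, 3, 2, 1], 0),
  (3125, [1, 2, 3, 7, 4, 5, 3, 4, 2, 3, 7, 6, 5, 4, 3, 2], 1)]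
theorem cZ : (okO TZ && chkDel nets 4096 12 TZ [wZ]) = true := by decide +kernel

section
variable {E C : Type*} [Group E] [Group C] {π : E →* F} {t a : E} {κ : E →* C} {σ : C →* U6B.G} {d : C}

theorem okO_sound (hr : π.range = Cx(z)) {TG : List NP} (h : okO TG = true) :
    ∀ t ∈ TG, (okT nets 4096 9 gp t = true ∧ InO π 2975 t.1) ∧ t.1 ≠ 0 := fun t ht => by
  simp only [okO, forceG_eq, List.all_eq_true, Bool.and_eq_true] at h
  obtain ⟨h0, g, hg, e⟩ := mem1 (h t ht).2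
  obtain ⟨g, rfl⟩ := hr.ge hg
  exact ⟨⟨(h t ht).1, g, e⟩, h0⟩

theorem tup [Finite C] (L : Lift z U π t 2975 a) (a2 : a * a = 1) (hr : π.range = Cx(z)) (h : Ext σ d)
    (hκ : ∀ e, σ (κ e) = 1 ↔ π e = 1 ∨ π e = z) {TG : List NP} {ce : List (List (ℕ × ℕ))}
    (hT : chkTup TG ce = true) : σ (κ (evw (lam π 2975 a) (fr.map (xp TG)))) = 1 ∧
      (κ (evw (lam π 2975 a) (fr.map (xp TG))) = 1 → commutator C = ⊤ → Nat.card C = 18393661440 →
        ∃ τ : U6DB.G →* C, Function.Bijective τ ∧ τ (U6DB.el 0) = d) := by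
  simp only [chkTup, Bool.and_eq_true, Nat.beq_eq] at hT
  obtain ⟨⟨⟨⟨h1, h2⟩, h3⟩, h4⟩, h5⟩ := hT
  have O := okO_sound hr h1
  have O' : ∀ x < 15, InO π 2975 (xp TG x) ∧ xp TG x ≠ 0 := fun x hx =>
    let h := O _ (lget_mem (0, [], 0) (h2 ▸ hx)); ⟨h.1.2, h.2⟩
  have D := L.del ctx a2 (fun t ht => (O t ht).1) h4
  rw [List.map_fst_zip (by rw [h3]; decide +kernel)] at D
  set ev := fun x => lam π 2975 a (xp TG x) with hev
  have pw : ∀ w : List ℕ, allLt 15 w = true → π (evw ev w) = evw el (subst (TG.map wT) w) := fun w hw => by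
    rw [evw_subst, map_evw]
    exact evw_congr (fun x hx => by rw [hev, L.map ctx (O' x hx).1, ctx.byW (fun t ht => (O t ht).1.1) (h2 ▸ hx)])
      (allLt_sound hw)
  have Z : ∀ r ∈ [r2, r3, r4, r5], σ (evw (fun x => κ (ev x)) r) = 1 := fun r hr => by
    rw [← map_evw, hκ, pw r (by revert r; decide +kernel)]
    exact inZ_sound (List.all_eq_true.1 h5 r hr)
  have e4 := D (fr ++ r4) (by simp)
  rw [evw_append, show evw ev fr = evw (lam π 2975 a) (fr.map (xp TG)) by simp [evw, hev, Function.comp_def]] at e4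
  have e5 : κ (evw (lam π 2975 a) (fr.map (xp TG))) = (evw (fun x => κ (ev x)) r4)⁻¹ := by
    rw [← map_evw, ← map_inv, eq_inv_of_mul_eq_one_left e4]
  refine ⟨by rw [e5, map_inv, Z r4 (by simp), inv_one], fun h6 hp hc => core h hp hc (ev := fun x => κ (ev x))
    (fun x hx => by rw [← map_mul, L.sq ctx (O' x (by omega)).1, a2, map_one])
    (fun r hr => by rw [← map_evw, D r (List.mem_append_left _ hr), map_one]) ?_ (Z r3 (by simp))
    (inv_eq_one.1 (e5.symm.trans h6)) (Z r5 (by simp)) ?_⟩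
  · have := congrArg κ (D (r2 ++ (r2 ++ r2)) (by simp))
    rw [map_evw, evw_append, evw_append, map_one] at this
    rcases h.ker _ (Z r2 (by simp)) with e | e
    · exact e
    · rw [e, h.t2, mul_one] at this
      exact e.trans this
  · have hU := L.inU ctx (O' 1 (by decide)).1
    rw [Ne, hκ, L.map ctx (O' 1 (by decide)).1]
    rintro (e | e)
    · exact z1 (isConj_one_left.1 (e ▸ ctx.isConj hU))
    · exact (O' 1 (by decide)).2 (ctx.tp_inj hU ctx.u0 (e.trans ctx.tp0.symm))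

theorem lifted [Finite C] (hE : Ext π t) (hr : π.range = Cx(z)) {y : E} (y1 : π y = z) (y2 : y * y = 1)
    (y3 : ∀ g, g * y = y * g) (h : Ext σ d) (hκ : ∀ e, σ (κ e) = 1 ↔ π e = 1 ∨ π e = z) (hp : commutator C = ⊤)
    (hc : Nat.card C = 18393661440) : ∃ τ : U6DB.G →* C, Function.Bijective τ ∧ τ (U6DB.el 0) = d := by
  obtain ⟨a, ha⟩ : tp z 2975 ∈ π.range := hr.ge (ι2 ▸ ιH 2)
  have L : Lift z U π t 2975 a := ⟨hE, u2975, ha, hE.cent
    (fun g hg => ha ▸ (ctx.comm_iff u2975 _).2 hg) fun M h1 h2 => by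
      rw [show π.range ⊓ stabilizer F 2975 = fixer F [2975, 0] by
        ext g; rw [hr, cz]; simp [mem_fixer, and_comm]] at h1 ⊢
      exact noIdx2 M h1 (h2 ⟨y, mem_Cx.2 (y3 a).symm, y1⟩) (h2 ⟨a, mem_Cx.2 rfl, ha⟩)⟩
  have h5 := okO_sound hr (TG := L5) (by decide +kernel)
  have a2 : a * a = 1 := L.a2 ctx (ps := L5.map Prod.fst) (fun p hp => by
      obtain ⟨t, ht, rfl⟩ := List.mem_map.1 hp
      exact (h5 t ht).1.2)
    (fun p hp q hq => by
      obtain ⟨t, ht, rfl⟩ := List.mem_map.1 hp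
      rw [← (ctx.okT (h5 t ht).1.1).2.1]
      exact Lvl.fx F22A.L0 (List.all_eq_true.1 (by decide +kernel : L5.all (fun t =>
        chkFx nets 4096 9 (L5.map Prod.fst) (wT t)) = true) t ht) q hq)
    (by decide) y2 (by
      rw [← ctx.evw_wP fun t ht => (h5 t ht).1.1, y1]
      exact (ctx.eqW (y := [0]) (by decide +kernel)).trans (mul_one _))
  obtain ⟨v0, w0⟩ := tup L a2 hr h hκ cT0
  obtain ⟨v1, w1⟩ := tup L a2 hr h hκ cT1
  obtain ⟨v2, w2⟩ := tup L a2 hr h hκ cT2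
  have hZ := cZ
  rw [Bool.and_eq_true] at hZ
  have e := congrArg κ (L.del ctx a2 (fun t ht => (okO_sound hr hZ.1 t ht).1) hZ.2 wZ.1 (by simp))
  rw [show evw (fun x => lam π 2975 a (xp TZ x)) wZ.1 = evw (lam π 2975 a) (wZ.1.map (xp TZ)) by
    simp [evw, Function.comp_def], show wZ.1.map (xp TZ) = fr.map (xp TG0) ++ (fr.map (xp TG1) ++ fr.map (xp TG2)) by
    decide +kernel, evw_append, evw_append, map_mul, map_mul, map_one] at e
  rcases h.ker _ v0 with e0 | e0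
  · exact w0 e0 hp hc
  rcases h.ker _ v1 with e1 | e1
  · exact w1 e1 hp hc
  rcases h.ker _ v2 with e2 | e2
  · exact w2 e2 hp hc
  rw [e0, e1, e2, h.t2, mul_one] at e
  exact w0 (e0.trans e) hp hc

end

theorem emb {G : Type*} [Group G] [Finite G] {d : G} (hp : commutator Cx(d) = ⊤) {σ : Cx(d) →* U6B.G}
    (h : Ext σ ⟨d, mem_Cx.2 rfl⟩) (hs : Function.Surjective σ) (hc : Nat.card Cx(d) = 18393661440) :
    ∃ φ : Cx(z) →* G, Emb z d φ := by
  obtain ⟨ρ, r1, r2, r3⟩ := exρ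
  obtain ⟨ψ, hψ⟩ := U6DB.hhom (byW U6B.el [[], [0], [1], [2], [3], [4], [5], [6], [7]])
    (byW_inv U6B.el (n := 4) U6B.hinv U6B.hrel (by decide +kernel))
    (byW_rels U6B.el (n := 4) U6B.hinv U6B.hrel (by decide +kernel))
  have sψ : Function.Surjective ψ := surj_of_gens hψ U6DB.htop (top_le_iff.mp (U6B.htop.ge.trans
    ((gensub_id U6B.el (σ := [[0], [1], [2], [3], [4], [5], [6], [7]]) (by decide)).ge.trans
      (gensub_le_of_subsIn U6B.el (by decide)))))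
  have := U6DO.finG.1
  have r0 : ρ (U6DB.el 0) = z := (r3 0 (by decide)).trans el10
  have p0 : ψ (U6DB.el 0) = 1 := hψ 0 (by decide)
  have kψ : ∀ p, ψ p = 1 ↔ ρ p = 1 ∨ ρ p = z := fun p => by
    refine ⟨fun e => ?_, fun e => e.elim (fun e => by rw [r1 (e.trans ρ.map_one.symm), map_one])
      fun e => by rw [r1 (e.trans r0.symm), p0]⟩
    have c : Nat.card ψ.ker = 2 := by
      have := ψ.ker.card_mul_index
      rw [index_ker, MonoidHom.range_eq_top.2 sψ, card_top, U6G.card,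
        Nat.card_congr (MonoidHom.ofInjective r1).toEquiv, r2, cardH] at this
      omega
    obtain ⟨u, -, hu⟩ := (Nat.card_eq_two_iff' (1 : ψ.ker)).1 c
    by_cases h1 : p = 1
    · exact Or.inl (by rw [h1, map_one])
    · have e1 := hu ⟨p, e⟩ fun hc => h1 (congrArg Subtype.val hc)
      have e2 := hu ⟨_, p0⟩ fun hc => z1 (by rw [← r0, show U6DB.el 0 = 1 from congrArg Subtype.val hc, map_one])
      exact Or.inr (by rw [show p = U6DB.el 0 from congrArg Subtype.val (e1.trans e2.symm), r0])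
  let E := (σ.comp (MonoidHom.fst Cx(d) U6DB.G)).eqLocus (ψ.comp (MonoidHom.snd Cx(d) U6DB.G))
  have mE : ∀ {g p}, σ g = ψ p → (g, p) ∈ E := fun e => e
  obtain ⟨τ, b, e⟩ := lifted (E := E) (π := (ρ.comp (MonoidHom.snd _ _)).comp E.subtype)
    (κ := (MonoidHom.fst _ _).comp E.subtype) (t := ⟨(⟨d, mem_Cx.2 rfl⟩, 1), mE (h.pt.trans ψ.map_one.symm)⟩)
    (y := ⟨(1, U6DB.el 0), mE (σ.map_one.trans p0.symm)⟩)
    ⟨fun g => Subtype.ext (Prod.ext (h.cen _) (by simp)), Subtype.ext (Prod.ext h.t2 (mul_one _)), fun g hg => by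
      have h1 : g.1.2 = 1 := r1 (hg.trans ρ.map_one.symm)
      have h2 : σ g.1.1 = ψ g.1.2 := g.2
      rw [h1, map_one] at h2
      exact (h.ker _ h2).imp (fun e => Subtype.ext (Prod.ext e h1)) fun e => Subtype.ext (Prod.ext e h1),
      ρ.map_one⟩
    (by
      rw [← r2]
      ext g
      refine ⟨fun ⟨x, e⟩ => ⟨_, e⟩, fun ⟨p, e⟩ => ?_⟩
      obtain ⟨c, hc⟩ := hs (ψ p)
      exact ⟨⟨(c, p), mE hc⟩, e⟩) r0
    (Subtype.ext (Prod.ext (mul_one _) (r1 (by simp [r0, z2]))))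
    (fun g => Subtype.ext (Prod.ext (by simp) (r1 (by
      have : ρ g.1.2 ∈ Cx(z) := r2 ▸ ⟨_, rfl⟩
      simpa [r0] using mem_Cx.1 this)))) h
    (fun e => by rw [show σ (((MonoidHom.fst _ _).comp E.subtype) e) = ψ e.1.2 from e.2]; exact kψ _) hp hc
  obtain ⟨φ, hφ, -⟩ := emb_of (d := d) (τ := (Subgroup.subtype _).comp τ) r1 r2 (Subtype.val_injective.comp b.1)
    (by rw [MonoidHom.range_comp, MonoidHom.range_eq_top.2 b.2, ← MonoidHom.range_eq_map, range_subtype]) r0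
    (congrArg Subtype.val e)
  exact ⟨φ, hφ⟩

end F22

end CfH8.Fi
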