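import Cfsg.Agent.H8.F22L
import Cfsg.Agent.H8.F22T

/-! Rigidity of a tuple of transpositions in `Fi22`, and a second presentation. -/

set_option autoImplicit false
set_option maxRecDepth 100000
set_option Elab.async false

namespace CfH8.Fi.F22
open CfH6 CfH9 MulAction Subgroup
attribute [local instance] F22A.act

def SRC : List NP := [(0, [], 0),
  (126, [], 6),
  (2, [], 3),
  (26, [], 7),
  (104, [], 8),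
  (20, [], 4),
  (40, [3, 4, 5, 2, 3, 4, 1, 2, 3, 7, 6, 5, 4, 3, 2, 1], 0),
  (2975, [], 2),
  (121, [5, 4, 3, 7, 2, 3, 4, 1, 2, 3, 7, 5, 4, 3, 2, 1], 0)]
def PAT : ℕ := 0x1effdfaff6b7f5c5fffff
def Rels : List (List ℕ) := [[1, 4, 5, 3, 6, 8, 4, 5, 3, 6, 8, 4, 5, 3, 6, 8], [2, 6, 2, 4, 3, 4, 2, 6, 2, 4, 3, 4, 2, 6, 2, 4, 3, 4], [1, 2, 4, 6, 5, 3, 2, 4, 6, 5, 3, 2, 4, 6, 5, 3, 2, 4, 6, 5, 3, 2, 4, 6, 5, 3], [0, 7, 3, 4, 2, 6, 7, 3, 4, 2, 6, 7, 3, 4, 2, 6, 7, 3, 4, 2, 6, 7, 3, 4, 2, 6]]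
def FN : List (List NP) := [[(126, [], 6),
  (0, [], 0),
  (2, [], 3),
  (26, [], 7),
  (104, [], 8),
  (2975, [], 2),
  (3076, [3, 7, 4, 5, 3, 4, 1, 2, 3, 7, 6, 5, 4, 3, 2, 1], 0),
  (3540, [3, 7, 8, 2, 3, 7, 1, 2, 3, 4, 0, 1, 2, 3, 7, 8, 3, 4, 5, 2, 3, 4, 1, 2, 3, 7, 6, 5, 4, 3, 2, 1], 0),
  (3125, [1, 2, 3, 7, 4, 5, 3, 4, 2, 3, 7, 6, 5, 4, 3, 2], 1),
  (105, [], 5)],
  [(126, [], 6),
  (0, [], 0),
  (2, [], 3),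
  (26, [], 7),
  (104, [], 8),
  (2975, [], 2),
  (40, [3, 4, 5, 2, 3, 4, 1, 2, 3, 7, 6, 5, 4, 3, 2, 1], 0),
  (20, [], 4),
  (3125, [1, 2, 3, 7, 4, 5, 3, 4, 2, 3, 7, 6, 5, 4, 3, 2], 1),
  (105, [], 5)]]
def FIN : List (List ℕ) := FN.map fun L => (L.map Prod.fst).take 9
def tree : BT := (.node [[4], [7], [8], [2], [3], [5, 4, 1, 2, 3, 7, 6, 5, 4, 3, 2, 1, 0, 1, 2, 3, 4, 5, 6, 7, 3, 2, 1, 4, 5]] 181
 (.cons (2, [], 3) (.node [[8], [7, 3, 2, 3, 7], [1, 2, 3, 7, 4, 3, 2, 1, 0, 1, 2, 3, 4, 7, 3, 2, 1], [5, 4, 3, 7, 6, 5, 4, 3, 2, 3, 4, 5, 6, 7, 3, 4, 5], [5, 2, 3, 4, 1, 2, 3, 7, 6, 5, 4, 3, 2, 1, 0, 1, 2, 3, 4, 5, 6, 7, 3, 2, 1, 4, 3, 2, 5]] 129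
  (.cons (26, [], 7) (.node [[8, 7, 4, 3, 4, 7, 8], [8, 7, 3, 2, 3, 7, 8], [3, 8, 7, 5, 4, 1, 2, 3, 7, 6, 5, 4, 3, 2, 1, 0, 1, 2, 3, 4, 5, 6, 7, 3, 2, 1, 4, 5, 8, 7, 3, 5, 4, 1, 2, 3, 7, 6, 5, 4, 3, 2, 1, 0, 1, 2, 3, 4, 5, 6, 7, 3, 2, 1, 4, 5, 8, 7]] 40
   (.cons (104, [], 8) (.node [[4, 3, 2, 3, 4, 7, 3, 2, 3, 4, 3, 4, 7, 3, 8, 7, 3, 2, 3, 4, 3, 4, 7, 8], [4, 3, 7, 8, 1, 2, 3, 7, 4, 3, 2, 1, 0, 1, 2, 3, 4, 7, 3, 2, 1, 8, 7, 3, 4], [2, 3, 7, 8, 5, 4, 3, 7, 6, 5, 4, 3, 2, 3, 4, 5, 6, 7, 3, 4, 5, 8, 7, 3, 2]] 9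
    (.cons (2975, [], 2) (.node [] 12
     (.cons (40, [3, 4, 5, 2, 3, 4, 1, 2, 3, 7, 6, 5, 4, 3, 2, 1], 0) (.node [] 4
      (.cons (20, [], 4) (.node [] 5
       (.cons (3125, [1, 2, 3, 7, 4, 5, 3, 4, 2, 3, 7, 6, 5, 4, 3, 2], 1) .ok
       (.cons (2986, [1, 2, 3, 7, 4, 3, 2, 1], 0) (.no 0 1)
       (.cons (3012, [5, 4, 3, 7, 6, 5, 4, 3], 2) (.no 0 1)
       (.cons (121, [5, 4, 3, 7, 2, 3, 4, 1, 2, 3, 7, 5, 4, 3, 2, 1], 0) (.no 0 1)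
       .nil)))))
      (.cons (3540, [3, 7, 8, 2, 3, 7, 1, 2, 3, 4, 0, 1, 2, 3, 7, 8, 3, 4, 5, 2, 3, 4, 1, 2, 3, 7, 6, 5, 4, 3, 2, 1], 0) (.no 3 1)
      (.cons (3541, [3, 7, 8, 4, 3, 7, 1, 2, 3, 4, 0, 1, 2, 3, 7, 8, 3, 4, 5, 2, 3, 4, 1, 2, 3, 7, 6, 5, 4, 3, 2, 1], 0) (.no 3 1)
      .nil))))
     (.cons (2984, [3, 7, 4, 3], 2) (.no 1 1)
     (.cons (3017, [5, 4, 1, 2, 3, 7, 6, 5, 4, 3, 2, 1], 0) (.no 2 4)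
     (.cons (3076, [3, 7, 4, 5, 3, 4, 1, 2, 3, 7, 6, 5, 4, 3, 2, 1], 0) (.node [] 4
      (.cons (20, [], 4) (.no 3 1)
      (.cons (3540, [3, 7, 8, 2, 3, 7, 1, 2, 3, 4, 0, 1, 2, 3, 7, 8, 3, 4, 5, 2, 3, 4, 1, 2, 3, 7, 6, 5, 4, 3, 2, 1], 0) (.node [] 5
       (.cons (2986, [1, 2, 3, 7, 4, 3, 2, 1], 0) (.no 0 1)
       (.cons (3012, [5, 4, 3, 7, 6, 5, 4, 3], 2) (.no 0 1)
       (.cons (3125, [1, 2, 3, 7, 4, 5, 3, 4, 2, 3, 7, 6, 5, 4, 3, 2], 1) .ok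
       (.cons (121, [5, 4, 3, 7, 2, 3, 4, 1, 2, 3, 7, 5, 4, 3, 2, 1], 0) (.no 0 1)
       .nil)))))
      (.cons (3541, [3, 7, 8, 4, 3, 7, 1, 2, 3, 4, 0, 1, 2, 3, 7, 8, 3, 4, 5, 2, 3, 4, 1, 2, 3, 7, 6, 5, 4, 3, 2, 1], 0) (.no 3 1)
      .nil))))
     (.cons (36, [3, 7, 5, 2, 3, 4, 1, 2, 3, 7, 6, 5, 4, 3, 2, 1], 0) (.no 2 4)
     (.cons (3232, [8, 7, 3, 4, 2, 3, 7, 8, 5, 4, 1, 2, 3, 7, 6, 5, 4, 3, 2, 1], 0) (.no 2 4)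
     (.cons (3393, [8, 7, 3, 4, 2, 3, 7, 8, 3, 7, 4, 5, 3, 4, 1, 2, 3, 7, 6, 5, 4, 3, 2, 1], 0) (.no 2 4)
     (.cons (3372, [8, 7, 3, 4, 2, 3, 7, 8, 3, 4, 5, 2, 3, 4, 1, 2, 3, 7, 6, 5, 4, 3, 2, 1], 0) (.no 2 1)
     (.cons (3380, [8, 7, 3, 4, 2, 3, 7, 8, 3, 7, 5, 2, 3, 4, 1, 2, 3, 7, 6, 5, 4, 3, 2, 1], 0) (.no 2 1)
     (.cons (3510, [8, 7, 1, 2, 3, 4, 0, 1, 2, 3, 7, 8, 3, 7, 5, 2, 3, 4, 1, 2, 3, 7, 6, 5, 4, 3, 2, 1], 0) (.no 1 1)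
     (.cons (3498, [8, 7, 1, 2, 3, 4, 0, 1, 2, 3, 7, 8, 3, 4, 5, 2, 3, 4, 1, 2, 3, 7, 6, 5, 4, 3, 2, 1], 0) (.no 1 1)
     .nil))))))))))))
    .nil))
   (.cons (2977, [4, 3], 2) (.node [] 1
    .nil)
   .nil)))
  .nil))
 .nil))
theorem cPQ : chkPQ nets 4096 9 bs gp 9 PAT Rels SRC = true := by decide +kernel
theorem cBT : (okT nets 4096 9 gp (xn SRC 1) && okT nets 4096 9 gp (xn SRC 0) && !tree.lst &&
    chkBT nets 4096 12 9 U gp 9 PAT Rels FIN tree [xn SRC 1, xn SRC 0]) = true := by decide +kernel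
def GT : List NP := [(0, [], 0),
  (160, [], 1),
  (2975, [], 2),
  (2, [], 3),
  (20, [], 4),
  (105, [], 5),
  (126, [], 6),
  (26, [], 7),
  (104, [], 8),
  (121, [5, 4, 3, 7, 2, 3, 4, 1, 2, 3, 7, 5, 4, 3, 2, 1], 0)]
def tr : List ℕ := [0, 9, 7, 2, 5, 0, 1, 3, 4, 8]
def wX : List ℕ := [3, 2, 6, 4, 3, 2, 6, 3]
def wW : List ℕ := [2, 3, 4, 3, 2, 6, 5, 2, 3, 4, 6, 3, 4, 1, 2, 5, 2, 3]
def nW : List ℕ := [5, 4, 6, 5, 3, 4, 7, 3, 8, 7]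
noncomputable def chkF (L : List NP) : Bool :=
  L.all (okT nets 4096 9 gp) && Nat.beq L.length 10 && Nat.beq (xp L 0) 126 && Nat.beq (xp L 1) 0 &&
    Nat.beq (xp L 2) 2 && Nat.beq (xp L 9) 105 &&
    G22T.rels.all (fun r => !memN 1 r || memN 5 r || chkFx nets 4096 9 bs (subst (L.map wT) (r.map (lget tr 0)))) &&
    chkFx nets 4096 9 bs (subst (L.map wT) (wX ++ 9 :: wX.reverse ++ [9])) && allLt 9 (subst (L.map wT) wW) &&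
    subM (Nat.land (fixW nets 4096 12 U (subst (L.map wT) wW)) (cd [xn XS 0] [xn XS 4] [])) (cd [(2, [], 3)] [] [])
theorem cF : FN.all chkF = true := by decide +kernel

theorem okG : ∀ t ∈ GT, okT nets 4096 9 gp t = true := List.all_eq_true.1 (by decide +kernel)

theorem relG : ∀ r ∈ G22T.rels, evw (fun x => tp z (xp GT x)) r = 1 := fun r hr => by
  have := List.all_eq_true.1 (by decide +kernel : G22T.rels.all (fun r => allLt 10 r &&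
    chkFx nets 4096 9 bs (subst (GT.map wT) r)) = true) r hr
  rw [Bool.and_eq_true] at this
  rw [← one this.2, evw_subst]
  exact (evw_congr (fun x hx => ctx.byW okG hx) (allLt_sound this.1)).symm

theorem ginv {Γ : Type*} [Group Γ] {ev : ℕ → Γ} (h : ∀ x < 10, ev x * ev x = 1) :
    ∀ x < 10, ev (G22T.il.getD x 0) = (ev x)⁻¹ := fun x hx => by
  rw [show G22T.il.getD x 0 = x by interval_cases x <;> rfl, inv_of_sq (h x hx)]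

theorem elG : ∀ x < 9, el x = tp z (xp GT x) := fun x hx =>
  (ctx.gen x hx).2.trans (by congr 1; interval_cases x <;> rfl)

theorem hom2 {Γ : Type*} [Group Γ] (ev : ℕ → Γ) (h1 : ∀ x < 10, ev x * ev x = 1)
    (h2 : ∀ r ∈ G22T.rels, evw ev r = 1) : ∃ ψ : F →* Γ, ∀ x < 10, ψ (tp z (xp GT x)) = ev x := by
  obtain ⟨τ, hτ⟩ := wp_hom 10 G22T.il G22T.rels (by decide +kernel) ev (ginv h1) h2
  obtain ⟨ρ, hρ⟩ := wp_hom 10 G22T.il G22T.rels (by decide +kernel) (fun x => tp z (xp GT x))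
    (ginv fun x hx => ctx.tp_sq (ctx.okT (okG _ (lget_mem _ hx))).1) relG
  have hi := wp_inv 10 G22T.il G22T.rels
  have hr := wp_rel 10 G22T.il G22T.rels
  obtain ⟨θ, hθ⟩ := U6DB.hhom (byW (wel 10 G22T.il G22T.rels) G22T.subs)
    (byW_inv _ (n := 4) hi hr (by decide +kernel)) (byW_rels _ (n := 4) hi hr (by decide +kernel))
  have := U6DO.finG.1
  have c := (G22T.covers _ θ.range hi hr fun s hs => by
    obtain ⟨x, hx, rfl⟩ := exists_lget [] hs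
    exact ⟨_, (hθ x hx).trans (by rw [CfH6.byW, lget_eq])⟩).card_le (m := 18393661440)
    ⟨Finite.of_surjective _ θ.rangeRestrict_surjective, (Nat.card_le_card_of_surjective _ θ.rangeRestrict_surjective).trans U6DO.finG.2⟩
  rw [wp_top] at c
  have top : gensub (fun x => tp z (xp GT x)) 10 = ⊤ := top_le_iff.1 (F22B.htop.ge.trans
    (gensub_le fun x hx => by
      rw [show F22B.el x = _ from elG x hx]; exact mem_gensub (el := fun x => tp z (xp GT x)) (by omega)))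
  let e := MulEquiv.ofBijective ρ ⟨equiv_of_card hρ (wp_top _ _ _) (fin_top c) (by rw [top, card_top, F22G.card]),
    surj_of_gens hρ (wp_top _ _ _) top⟩
  exact ⟨τ.comp e.symm.toMonoidHom, fun x hx => by
    rw [← hτ x hx, ← hρ x hx]; exact congrArg τ (e.symm_apply_apply _)⟩

end CfH8.Fi.F22
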