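import Cfsg.Agent.H8.F22R
import Cfsg.Agent.OD.Helper8xa2aded2138

/-! Recognition of `Fi22` from the centraliser of a transposition. -/

set_option autoImplicit false
set_option maxRecDepth 100000
set_option Elab.async false

namespace CfH8.Fi
open CfH6 CfH9 MulAction Subgroup

universe u

theorem agree2 {F G : Type*} [Group F] [Group G] {K : Subgroup F} {φ : K →* G} {ψ : F →* G} {ev : ℕ → F} {n : ℕ}
    (hK : gensub ev n = K) (h : ∀ x < n, ψ (ev x) = ext φ (ev x)) : ∀ y ∈ K, ψ y = ext φ y := by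
  intro y hy
  have : K ≤ (φ.eqLocus (ψ.comp K.subtype)).map K.subtype := hK.ge.trans (gensub_le fun x hx =>
    ⟨⟨ev x, hK.le (mem_gensub hx)⟩, ((h x hx).trans (ext_mem φ _)).symm, rfl⟩)
  obtain ⟨x, hx, rfl⟩ := this hy
  exact (show φ x = ψ x from hx).symm.trans (ext_mem φ x.2).symm

theorem evw_rev {G : Type*} [Group G] {el : ℕ → G} {k : ℕ} (h : ∀ x < k, el x * el x = 1) {w : List ℕ}
    (hw : ∀ x ∈ w, x < k) : evw el w.reverse = (evw el w)⁻¹ := by
  induction w with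
  | nil => simp
  | cons a w ih =>
    rw [List.reverse_cons, evw_append, ih fun x hx => hw x (List.mem_cons_of_mem _ hx), evw_cons, evw_cons,
      evw_nil, mul_one, mul_inv_rev, inv_of_sq (h a (hw a List.mem_cons_self))]

namespace F22
attribute [local instance] F22A.act
variable {G : Type u} [Group G] [Finite G] {d : G} {φ : Cx(z) →* G}

theorem cH : tp z 2975 ∈ Cx(z) := ι2 ▸ ιH 2

theorem ho (q : ℕ) (hq : U.testBit q = true) (h : tp z q ∈ Cx(z)) (h0 : q ≠ 0) : ∃ g ∈ Cx(z), g • 2975 = q :=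
  ctx.fixer0 ▸ o1.one ((ctx.cand (forall_cons (okX 0 (by decide)) forall_nil) forall_nil q).2
    ⟨hq, forall_cons (fx0 hq (mem_Cx.1 h)) forall_nil, forall_nil, by simpa using h0⟩)

theorem dc (h : Emb z d φ) : DC z U d φ := by
  have e := classify h.inj (h.zd.symm ▸ h.rng)
  rw [h.zd] at e
  intro g hg hc
  obtain ⟨y, hy, rfl⟩ := (mem_range_ext φ).1 (h.rng.ge hg)
  obtain ⟨q, h3, rfl⟩ := ctx.of_conj (y := y) ((e y hy hc).elim (fun e => e ▸ IsConj.refl _)
    fun e => (ctx.isConj u2975).trans e.isConj)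
  exact ⟨q, h3, hy, rfl⟩

theorem fused (h : Emb z d φ) (hn : ∃ g : G, g * d * g⁻¹ ∈ Cx(d) ∧ g * d * g⁻¹ ≠ d) (q : ℕ)
    (hq : U.testBit q = true) (hz : tp z q ∈ Cx(z)) : IsConj d (ext φ (tp z q)) := by
  by_cases h0 : q = 0
  · rw [h0, ctx.tp0, h.zd]
  obtain ⟨x, h1, h2⟩ := hn
  obtain ⟨p, p1, p2, p3⟩ := dc h _ h1 (isConj_iff.2 ⟨x, rfl⟩)
  obtain ⟨k, hk, rfl⟩ := ho p p1 p2 fun e => h2 (by rw [← p3, e, ctx.tp0, h.zd])
  obtain ⟨k', hk', rfl⟩ := ho q hq hz h0
  rw [ctx.tp_smul u2975, ext_conj φ hk cH] at p3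
  rw [ctx.tp_smul u2975, ext_conj φ hk' cH]
  exact ((isConj_iff.2 ⟨x, p3.symm⟩).trans (isConj_iff.2 ⟨_, rfl⟩).symm).trans (isConj_iff.2 ⟨_, rfl⟩)

theorem gH : ∀ x < 10, x ≠ 1 → tp z (xp GT x) ∈ Cx(z) := fun x hx h1 => by
  have := allN_sound (by decide +kernel : allN (fun x => Nat.beq x 1 || chkFx nets 4096 9 [0] (wT (xn GT x))) 10 =
    true) x hx
  rw [Bool.or_eq_true, Nat.beq_eq] at this
  exact ctx.fixer0 ▸ (ctx.okT (okG _ (lget_mem (0, [], 0) hx))).2.1 ▸ Lvl.fx F22A.L0 (this.resolve_left h1)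

theorem exists_b (h : Emb z d φ) (hn : ∃ g : G, g * d * g⁻¹ ∈ Cx(d) ∧ g * d * g⁻¹ ≠ d) :
    ∃ b : G, b * b = 1 ∧ ∀ r ∈ G22T.rels, evw (fun x => if x = 1 then b else ext φ (tp z (xp GT x))) r = 1 := by
  have hD := dc h
  have P := ctx.pq cPQ
  have okS : ∀ t ∈ SRC, okT nets 4096 9 gp t = true := List.all_eq_true.1 (by decide +kernel)
  have zK : z ∈ Cx(z) := mem_Cx.2 rfl
  have u126 : U.testBit 126 = true := P.u 1 (by decide)
  have u105 : U.testBit 105 = true := by decide +kernel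
  have aH : tp z 126 ∈ Cx(z) := gH 6 (by decide) (by decide)
  have fH : tp z 105 ∈ Cx(z) := gH 5 (by decide) (by decide)
  have hp : ∀ i < 9, tp z (xp SRC i) ∈ Cx(z) ∧ tp z (xp SRC i) ∈ Cx(tp z 126) := fun i hi => by
    have := allN_sound (by decide +kernel : allN (fun i => PAT.testBit (0 * 9 + i) && PAT.testBit (1 * 9 + i)) 9 =
      true) i hi
    rw [Bool.and_eq_true, ← P.pat 0 (by decide) i hi, ← P.pat 1 (by decide) i hi, ← ctx.comm_iff (P.u i hi),
      ← ctx.comm_iff (P.u i hi)] at this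
    have t1 := this.1
    rw [show xp SRC 0 = 0 from rfl, ctx.tp0] at t1
    exact ⟨mem_Cx.2 t1.symm, mem_Cx.2 this.2.symm⟩
  obtain ⟨s, fl, hfl, hs⟩ := swap_tuple ctx h hD u126 aH (by decide) (fused h hn _ u126 aH) (fun q h1 h2 h3 => by
    obtain ⟨k, hk, e⟩ := ho 126 u126 aH (by decide)
    obtain ⟨k', hk', e'⟩ := ho q h1 h2 h3
    exact ⟨k' * k⁻¹, mul_mem hk' (inv_mem hk), by rw [← e, mul_smul, inv_smul_smul, e']⟩)
    P (by decide) rfl rfl hp rfl rfl cBT
  obtain ⟨L, hL, rfl⟩ := List.mem_map.1 hfl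
  have c := List.all_eq_true.1 cF L hL
  simp only [chkF, Bool.and_eq_true, Nat.beq_eq, List.all_eq_true, Bool.or_eq_true, Bool.not_eq_true'] at c
  obtain ⟨⟨⟨⟨⟨⟨⟨⟨⟨c0, c1⟩, c2⟩, c3⟩, c4⟩, c5⟩, c6⟩, c7⟩, c8⟩, c9⟩ := c
  have eL : ∀ i < 9, lget ((L.map Prod.fst).take 9) 0 i = xp L i := fun i hi => by
    rw [xp, xn, lget_eq, lget_eq, List.getD_eq_getElem _ _ (by simp; omega), List.getD_eq_getElem _ _ (by omega)]
    simp
  set b := s⁻¹ * ext φ (tp z 105) * s with hb
  let gv : ℕ → G := fun i => if i = 9 then b else ext φ (tp z (xp SRC i))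
  have key : ∀ i < 10, tp z (xp L i) ∈ Cx(z) ∧ s * gv i * s⁻¹ = ext φ (tp z (xp L i)) := fun i hi => by
    by_cases h9 : i = 9
    · rw [h9, c5]; exact ⟨fH, by simp only [gv, if_true, hb]; group⟩
    · simp only [gv, h9, if_false]; exact eL i (by omega) ▸ hs i (by omega)
  have word : ∀ w : List ℕ, (∀ x ∈ w, x < 10) → evw el (subst (L.map wT) w) ∈ Cx(z) ∧
      s * evw gv w * s⁻¹ = ext φ (evw el (subst (L.map wT) w)) := fun w hw => by
    rw [evw_subst, evw_congr (fun x hx => ctx.byW c0 (c1 ▸ hx)) hw, ← evw_conj, evw_congr (fun x hx => (key x hx).2) hw]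
    exact (ext_evw φ fun x hx => (key x (hw x hx)).1).imp_right Eq.symm
  have one' : ∀ w : List ℕ, (∀ x ∈ w, x < 10) → chkFx nets 4096 9 bs (subst (L.map wT) w) = true → evw gv w = 1 :=
    fun w hw e => by
      have := (word w hw).2
      rwa [one e, ext_one, mul_inv_eq_one, mul_eq_left] at this
  have src : ∀ w : List ℕ, allLt 9 w = true → evw el (subst (SRC.map wT) w) ∈ Cx(z) ∧
      evw gv w = ext φ (evw el (subst (SRC.map wT) w)) := fun w hw => by
    have hw := allLt_sound hw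
    rw [evw_subst, evw_congr (fun x hx => ctx.byW okS hx) hw,
      evw_congr (ev' := fun x => ext φ (tp z (xp SRC x))) (fun x hx => if_neg (by omega)) hw]
    exact (ext_evw φ fun x hx => (hp x (hw x hx)).1).imp_right Eq.symm
  have cj : ∀ {a b : G} (s : G), s * a * s⁻¹ * (s * b * s⁻¹) = s * b * s⁻¹ * (s * a * s⁻¹) ↔ a * b = b * a :=
    fun {a b} s => by rw [conj_mul, conj_mul, mul_left_inj, mul_right_inj]
  have g9 : s * b * s⁻¹ = ext φ (tp z 105) := c5 ▸ (key 9 (by decide)).2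
  have g0 : s * d * s⁻¹ = ext φ (tp z 126) := by
    have := (key 0 (by decide)).2
    rwa [c2, show gv 0 = ext φ (tp z 0) from rfl, ctx.tp0, h.zd] at this
  have g1 : s * ext φ (tp z 126) * s⁻¹ = d := by
    have := (key 1 (by decide)).2
    rwa [c3, ctx.tp0, h.zd] at this
  have g2 : s * ext φ (tp z 2) * s⁻¹ = ext φ (tp z 2) := by
    have := (key 2 (by decide)).2
    rwa [c4] at this
  have b2 : b * b = 1 := by
    rw [← mul_left_cancel_iff (a := s), ← mul_right_cancel_iff (a := s⁻¹), ← conj_mul, g9, ← ext_mul φ fH fH,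
      ctx.tp_sq u105, ext_one]; simp
  have v2 : ∀ x < 10, gv x * gv x = 1 := fun x hx => by
    by_cases h9 : x = 9
    · simp only [gv, h9, if_true, b2]
    · simp only [gv, h9, if_false]
      rw [← ext_mul φ (hp x (by omega)).1 (hp x (by omega)).1, ctx.tp_sq (P.u x (by omega)), ext_one]
  have rel : ∀ r ∈ G22T.rels, memN 1 r = true → memN 5 r = false → evw gv (r.map (lget tr 0)) = 1 :=
    fun r hr h1 h5 => one' _ (by revert r; decide +kernel) (by simpa [h1, h5] using c6 r hr)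
  -- `b` commutes with `f`
  have bf : b * ext φ (tp z 105) = ext φ (tp z 105) * b := by
    have nH : evw el nW ∈ Cx(z) := ctx.fixer0 ▸ Lvl.fx F22A.L0 (by decide +kernel)
    have iH : tp z 104 ∈ Cx(z) := gH 8 (by decide) (by decide)
    have dH : tp z 2 ∈ Cx(z) := gH 3 (by decide) (by decide)
    have bi : ext φ (tp z 104) * b = b * ext φ (tp z 104) := by
      have := rel [1, 8, 1, 8] (by decide +kernel) (by decide +kernel) (by decide +kernel)
      have h4 := v2 4 (by decide)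
      change ext φ (tp z 104) * ext φ (tp z 104) = 1 at h4
      change b * (ext φ (tp z 104) * (b * (ext φ (tp z 104) * 1))) = 1 at this
      rw [mul_one, ← mul_assoc, mul_eq_one_iff_eq_inv, mul_inv_rev, inv_of_sq b2, inv_of_sq h4] at this
      exact this.symm
    have bx : evw gv wX * b = b * evw gv wX := by
      have := one' _ (by decide +kernel) c7
      rw [evw_append, evw_append, evw_cons, evw_cons, evw_nil, mul_one, evw_rev v2 (w := wX) (by decide +kernel)] at this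
      change evw gv wX * (b * (evw gv wX)⁻¹) * b = 1 at this
      rw [mul_eq_one_iff_eq_inv, inv_of_sq b2, ← mul_assoc] at this
      exact mul_inv_eq_iff_eq_mul.1 this
    set n := ext φ (evw el nW) with hn'
    have n1 : n * ext φ (tp z 104) * n⁻¹ = ext φ (tp z 126) := by
      rw [← ext_conj φ nH iH, ← ctx.tp_smul (p := 104) (P.u 4 (by decide)), Lvl.pt F22A.L0 (c := 126) (by decide +kernel)]
    have n2 : n * ext φ (tp z 105) * n⁻¹ = ext φ (tp z 2) := by
      rw [← ext_conj φ nH fH, ← ctx.tp_smul u105, Lvl.pt F22A.L0 (c := 2) (by decide +kernel)]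
    have n3 : n * evw gv wX * n⁻¹ = evw gv wW := by
      rw [(src wX (by decide +kernel)).2, (src wW (by decide +kernel)).2, ← ext_conj φ nH (src wX (by decide +kernel)).1,
        ctx.conjW (y := subst (SRC.map wT) wW) (by decide +kernel)]
    have n4 : n * d * n⁻¹ = d := mem_Cx'.1 (h.rng.le (ext_range φ nH))
    obtain ⟨q, q1, q2, q3⟩ := hD (s * (n * b * n⁻¹) * s⁻¹) (by rw [mem_Cx, ← g1, cj, ← n1, cj, bi])
      ((((fused h hn _ u105 fH).trans (isConj_iff.2 ⟨s, g9⟩).symm).trans (isConj_iff.2 ⟨n, rfl⟩)).trans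
        (isConj_iff.2 ⟨s, rfl⟩))
    have w1 := word wW (by decide +kernel)
    have := subM_sound c9 ((testBit_land _ _ q).2 ⟨(ctx.fixW (allLt_sound c8) q).2 ⟨q1, by
      rw [← ctx.comm_iff q1, ← ext_comm h.inj w1.1 q2, q3, ← w1.2, cj, ← n3, cj, bx]⟩,
      (ctx.cand (forall_cons (okX 0 (by decide)) forall_nil) (forall_cons (okX 4 (by decide)) forall_nil) q).2
        ⟨q1, forall_cons (fx0 q1 (mem_Cx.1 q2)) forall_nil, forall_cons (fun e => by
          rw [← ctx.comm_iff q1, show (xn XS 4).1 = 126 from rfl, ← ext_comm h.inj aH q2, q3, ← g0, cj, ← n4, cj,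
            ← cj s, g0, g9, ext_comm h.inj aH fH, ctx.comm_iff u105] at e
          refine Lvl.mv F22A.L0 (w := [6]) (b := 105) (by decide +kernel) ?_
          rw [evw_cons, evw_nil, mul_one]; exact (congrArg (· • 105) (elG 6 (by decide))).trans e) forall_nil,
          by simp⟩⟩)
    have e := ((ctx.cand (forall_cons (by decide +kernel) forall_nil) forall_nil q).1 this).2.1 _ List.mem_cons_self
    rwa [← ctx.comm_iff q1, ← ext_comm h.inj dH q2, q3, ← g2, cj, ← n2, cj, eq_comm] at e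
  refine ⟨b, b2, fun r hr => ?_⟩
  cases h1 : memN 1 r
  · have lt : ∀ x ∈ r, x < 10 ∧ x ≠ 1 := fun x hx => ⟨allLt_sound (List.all_eq_true.1
      (by decide +kernel : G22T.rels.all (allLt 10) = true) r hr) x hx, fun e => by
        rw [memN_iff.2 (e ▸ hx)] at h1; exact absurd h1 (by decide)⟩
    rw [← ext_one φ, ← relG r hr, (ext_evw φ fun x hx => gH x (lt x hx).1 (lt x hx).2).2, evw, evw,
      List.map_congr_left fun x hx => if_neg (lt x hx).2]
  cases h5 : memN 5 r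
  · rw [← rel r hr h1 h5, evw, evw, List.map_map]
    refine congrArg _ (List.map_congr_left fun x hx => ?_)
    have h6 : x < 10 := allLt_sound (List.all_eq_true.1 (by decide +kernel : G22T.rels.all (allLt 10) = true) r hr) x hx
    have h7 : x ≠ 5 := fun e => by rw [memN_iff.2 (e ▸ hx)] at h5; exact absurd h5 (by decide)
    interval_cases x <;> first | rfl | exact absurd rfl h7
  · rw [leqb_sound _ _ (show leqb r [1, 5, 1, 5] = true by revert r; decide +kernel)]
    change b * (ext φ (tp z 105) * (b * (ext φ (tp z 105) * 1))) = 1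
    rw [mul_one, bf, ← mul_assoc (ext φ _), ← ext_mul φ fH fH, ctx.tp_sq u105, ext_one, one_mul, b2]

theorem main (h : Emb z d φ) (hn : ∃ g : G, g * d * g⁻¹ ∈ Cx(d) ∧ g * d * g⁻¹ ≠ d) : Nonempty (G ≃* F) := by
  have hD := dc h
  obtain ⟨b, b2, hr⟩ := exists_b h hn
  obtain ⟨ψ, hψ⟩ := hom2 _ (fun x hx => by
    by_cases h1 : x = 1
    · simp only [h1, if_true, b2]
    · simp only [h1, if_false]
      rw [← ext_mul φ (gH x hx h1) (gH x hx h1), ctx.tp_sq (p := xp GT x) (ctx.okT (okG _ (lget_mem _ hx))).1,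
        ext_one]) hr
  have ag := agree2 (φ := φ) (ψ := ψ) hH' fun x hx => by
    have := allN_sound (by decide +kernel : allN (fun x => chkFx nets 4096 9 bs (F22A.ws1.getD x [] ++
      (wT (xn GT (lget [0, 2, 3, 4, 5, 6, 7, 8, 9] 0 x))).reverse)) 9 = true) x hx
    have h1 : lget [0, 2, 3, 4, 5, 6, 7, 8, 9] 0 x < 10 ∧ lget [0, 2, 3, 4, 5, 6, 7, 8, 9] 0 x ≠ 1 := by
      interval_cases x <;> decide
    rw [show F22A.el1 x = _ from (ctx.eqW this).trans (ctx.okT (okG _ (lget_mem _ h1.1))).2.1]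
    exact (hψ _ h1.1).trans (if_neg h1.2)
  have zK : z ∈ Cx(z) := mem_Cx.2 rfl
  have zd : ψ z = d := (ag z zK).trans h.zd
  have := F22G.simple
  have hi := inj_of_simple ψ (g := z) fun e => z1 (ext_inj h.inj zK (one_mem _) (by rw [← ag z zK, e, ext_one]))
  have nc : ∀ a, ¬ IsConj z (ι a) → ¬ IsConj (ψ z) (ψ (ι a)) := fun a h1 h2 => by
    rw [zd, ag _ (ιH a)] at h2
    obtain ⟨q, q1, q2, q3⟩ := hD _ (h.rng.le (ext_range φ (ιH a))) h2
    exact h1 (ext_inj h.inj q2 (ιH a) q3 ▸ ctx.isConj q1)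
  have hs := surj_of_pat pat locF (ι1 ▸ actx.ia_mem 1) (actx.ia_mem 3) (actx.ia_mem 7) ψ hi (fun x hx => by
    obtain ⟨y, hy, rfl⟩ := (mem_range_ext φ).1 (h.rng.ge (zd ▸ hx))
    exact ⟨y, ag y hy⟩) (nc 3 pat.nzu) (nc 7 pat.nzv)
  exact ⟨(MulEquiv.ofBijective ψ ⟨hi, hs⟩).symm⟩

end F22

end CfH8.Fi
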