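import Cfsg.Agent.H8.F22X
import Cfsg.Agent.H6.Iso
import Cfsg.Agent.OD.Helper8x5a3dee30fc

/-! The Sylow 2-subgroups and the involution pattern of `Fi22`. -/

set_option autoImplicit false
set_option maxRecDepth 100000
set_option Elab.async false

namespace CfH8.Fi.F22
open CfH6 CfH9 MulAction Subgroup
attribute [local instance] F22A.act

noncomputable abbrev T : Subgroup F := TL F XS 22 gh
noncomputable abbrev A : Subgroup F := fA F XS
noncomputable abbrev ι : ℕ → F := ia z XS 10
def t0 : List ℕ := [5, 6, 5, 4, 5, 6]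
def certF : List (ℕ × List ℕ) := [(877951192564700632162350674380832, [1, 0]),
  (877777922378781078532760585570336, [1, 0, 3]),
  (877509203442261270038716021606432, [2, 3, 0, 1, 2, 0]),
  (877697606204332807538093557254176, [0, 1, 0, 1, 3, 2, 3, 0]),
  (877467075873049321581651660572704, [1, 0, 1]),
  (877416639536217820043275967989792, [2, 1, 2, 0, 1, 2, 1, 0]),
  (877339762652031228100531978864672, [1, 0, 1, 3, 1]),
  (877661668027199008449735596181536, [0, 1, 2, 1, 2, 0, 1, 0]),
  (877584637608220672491545388615712, [0, 1, 2, 3, 1, 0, 3, 0]),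
  (877900775677688459668648284817440, [1, 0, 1, 3]),
  (877632101356716356535472615852064, [1, 0, 3, 1]),
  (877864350823572402756380461959200, [0, 2, 1, 2, 0, 1, 0]),
  (877749143547058296997397626652704, [0, 1, 0, 3, 1, 0, 3]),
  (877818811986549430467742476306464, [0, 1, 0, 3, 1, 0]),
  (877549938380715811647658077292576, [2, 3, 0, 3, 2, 1, 0]),
  (838609801837091475370719148347424, []),
  (838246590715192593773509793484832, [2, 3]),
  (838685236084250958806353185247264, [2]),
  (838177330271310616181769761034272, [2, 3, 2]),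
  (165483627454898329574460477526048, [2, 1, 0, 1, 3, 2]),
  (165134017174319276471292700053536, [2, 1, 0, 1, 3]),
  (165566479058399970657862373822496, [2, 1, 2, 0, 1]),
  (165044960335468818649738808250400, [2, 1, 2, 0, 1, 2]),
  (86965956765005016207556270740512, [2, 1, 0, 2, 1]),
  (86456823924604617487993520182304, [2, 1, 0, 1, 2]),
  (86896707177622942063836036289568, [2, 1, 0, 1]),
  (86532247299252928022786133316640, [2, 1, 0, 2, 1, 2]),
  (838569812987688868161901335513089, [1, 3, 0, 3, 2, 0]),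
  (838250719286835844298248349419521, [1, 0, 3, 0, 3, 2, 0]),
  (838687297424808904521535860312065, [2, 0, 3, 2, 1, 0]),
  (838216831923607918695462889424897, [2, 0, 3, 2, 1, 0, 2]),
  (877593665114274765903245542002689, [2, 0, 1, 2, 3, 0, 3, 2]),
  (877535519254401076447900963770369, [2, 0, 1, 2, 3, 0, 3]),
  (877980740946380133838174802120705, [2, 0, 1, 2, 3, 0]),
  (877431133614790825013143188901889, [2, 0, 1, 2, 3, 0, 2])]
def certH : List (ℕ × List ℕ) := [(877951192564700632162350674380832, [1, 0]),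
  (877777922378781078532760585570336, [2, 0, 1, 2, 1, 0, 2, 1, 0, 1]),
  (877509203442261270038716021606432, [1, 2, 1, 0, 1, 2, 0]),
  (877697606204332807538093557254176, [0, 2, 1, 0, 2, 0, 1, 0, 1, 2, 1, 2, 0]),
  (877467075873049321581651660572704, [1, 0, 1]),
  (877416639536217820043275967989792, [2, 1, 2, 0, 1, 2, 1, 0]),
  (877339762652031228100531978864672, [2, 1, 0, 1, 2, 1, 2, 0]),
  (877661668027199008449735596181536, [0, 1, 2, 1, 2, 0, 1, 0]),
  (877584637608220672491545388615712, [0, 1, 0, 1, 2, 1, 0, 1, 2, 0]),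
  (877900775677688459668648284817440, [2, 1, 0, 1, 2, 1, 2, 0, 1]),
  (877632101356716356535472615852064, [2, 0, 1, 2, 1, 0, 2, 1, 0]),
  (877864350823572402756380461959200, [0, 2, 1, 2, 0, 1, 0]),
  (877749143547058296997397626652704, [1, 2, 1, 0, 2, 1, 0, 1, 2, 1, 0]),
  (877818811986549430467742476306464, [1, 2, 1, 0, 1, 2, 0, 1]),
  (877549938380715811647658077292576, [2, 1, 2, 0, 1, 2, 1, 0, 1]),
  (838609801837091475370719148347424, []),
  (838246590715192593773509793484832, [1, 2, 1]),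
  (838685236084250958806353185247264, [2]),
  (838177330271310616181769761034272, [1, 2, 1, 2]),
  (165483627454898329574460477526048, [2, 1, 0, 2, 0, 1, 2]),
  (165134017174319276471292700053536, [2, 1, 0, 2, 0, 1]),
  (165566479058399970657862373822496, [2, 1, 2, 0, 1]),
  (165044960335468818649738808250400, [2, 1, 2, 0, 1, 2]),
  (86965956765005016207556270740512, [2, 1, 0, 2, 1]),
  (86456823924604617487993520182304, [2, 1, 0, 1, 2]),
  (86896707177622942063836036289568, [2, 1, 0, 1]),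
  (86532247299252928022786133316640, [2, 1, 0, 2, 1, 2])]
def cs : List (ℕ × List ℕ × ℕ) := [(0, [5, 6], 20),
  (1, [5, 6], 21),
  (8, [5, 6], 28),
  (9, [5, 6], 29)]
theorem cUF : chkU V 22 10 gs = true := by decide +kernel
theorem cUH : chkU V 22 10 gh = true := by decide +kernel
theorem cIF : chkI V 22 10 gs NL 838609801837091475370719148347424 certF (cs.map Prod.fst) = true := by decide +kernel
theorem cIH : chkI V 22 10 gh NH 838609801837091475370719148347424 certH (cs.map Prod.fst) = true := by decide +kernel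
theorem cR : cs.all (chkR nets 4096 9 bs XS 10 [0] t0) = true := by decide +kernel
theorem TH : T ≤ Cx(z) := hctx.TL_le rfl (by decide) (by decide +kernel)
theorem cardH : Nat.card Cx(z) = 18393661440 := by
  rw [cz, ← F22G.stab.1]; exact card_of_index F22G.card F22G.stab.2 (by decide)
theorem t2 : evw el t0 * evw el t0 = 1 := by rw [← evw_append]; exact ctx.one (by decide +kernel)
theorem locH : Loc Cx(z) T A 10 ι :=
  hctx.loc (hctx.sylIn TH (c := 280665) cardH (by decide)) cUH
    (hctx.inv (hctx.AT.trans TH) rH (Lvl.acts F22A.L0 (w := t0) (by decide +kernel)) t2 cIH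
      (ctx.fixer0 ▸ actx.reps (List.all_eq_true.1 cR)))
theorem locF : Loc ⊤ (TL F XS 22 gs) A 10 ι :=
  sctx.loc (sctx.sylIn le_top (c := 492567075) (card_top.trans F22G.card) (by decide)) cUF
    (sctx.inv le_top (real_top rN) (Lvl.acts F22A.L0 (w := t0) (by decide +kernel)) t2 cIF fun ρ hρ =>
      let ⟨a, h, e⟩ := actx.reps (List.all_eq_true.1 cR) ρ hρ; ⟨a, h, e.mono le_top⟩)
theorem ι1 : ι 1 = z := actx.ia_one rfl (by decide)
theorem wz : WZ T A z := ι1 ▸ hctx.wz (Ls := gh) (by decide) (by decide +kernel)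
theorem nw3 : T ≤ Cx(ι 3) ∧ ¬ WZ T A (ι 3) := hctx.nwz (a := 20) (by decide +kernel)
theorem cCl : chkCl 10 OH [2] [3] = true := by decide +kernel
theorem ιH (a : ℕ) : ι a ∈ Cx(z) := TH (hctx.AT (actx.ia_mem a))
theorem xv (i : ℕ) (hi : i < 22) : tp z (xp XS i) = ι (lget V 0 i) := actx.xv i hi
theorem ι2 : ι 2 = tp z 2975 := (xv 1 (by decide)).symm
theorem ι4 : ι 4 = tp z 20 := (xv 2 (by decide)).symm
theorem ι8 : ι 8 = tp z 26 := (xv 3 (by decide)).symm

theorem classify {G : Type*} [Group G] [Finite G] {φ : Cx(z) →* G} (hφ : Function.Injective φ)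
    (hr : φ.range = Cx(ext φ z)) : ∀ y ∈ Cx(z), IsConj (ext φ z) (ext φ y) → y = z ∨ C0 Cx(z) (tp z 2975) y := by
  obtain ⟨m, hm, e⟩ := classify_ext hφ hr locH ι1 oH wz (forall_cons ⟨nw3.1, ιH 3, nw3.2⟩ forall_nil) cCl
  rwa [List.mem_singleton.1 hm, ι2] at e

theorem da {a : ℕ} (ha : a < 2 ^ 10) (hc : IsConj z (ι a)) : ∃ i < 22, a = lget V 0 i :=
  sctx.da (Cs := XS.take 4) (by decide +kernel) ha hc

theorem ιx (a b : ℕ) : ι (a ^^^ b) = ι a * ι b := actx.ia_xor a b
theorem ι3 : ι 3 = z * tp z 2975 := by rw [← ι2, ← ι1, ← ιx]; rfl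
theorem ι7 : ι 7 = z * tp z 2975 * tp z 20 := by rw [← ι3, ← ι4, ← ιx]; rfl
theorem oN1 {a : ℕ} (h : (lget ON (0, 0) 0).2.testBit a = true) : C0 ⊤ z (ι a) :=
  ι1 ▸ oN (lget ON (0, 0) 0) (lget_mem _ (by decide)) a h
theorem oN3 {a : ℕ} (h : (lget ON (0, 0) 1).2.testBit a = true) : C0 ⊤ (ι 3) (ι a) :=
  oN (lget ON (0, 0) 1) (lget_mem _ (by decide)) a h
theorem oN7 {a : ℕ} (h : (lget ON (0, 0) 2).2.testBit a = true) : C0 ⊤ (ι 7) (ι a) :=
  oN (lget ON (0, 0) 2) (lget_mem _ (by decide)) a h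
theorem u2975 : U.testBit 2975 = true := by decide +kernel
theorem u20 : U.testBit 20 = true := by decide +kernel
theorem u26 : U.testBit 26 = true := by decide +kernel
theorem okX (i : ℕ) (hi : i < 22) : okT nets 4096 9 gp (xn XS i) = true := actx.ok i hi
theorem fx0 {q : ℕ} (hq : U.testBit q = true) (h : tp z q * z = z * tp z q) : tp z 0 • q = q := by
  rw [ctx.tp0]; exact (ctx.comm_iff hq _).1 h.symm

def hv : Fin 7 → ℕ := ![0, 1, 2, 3, 5, 6, 12]

theorem tr3 {d e : F} (hd : IsConj z d) (he : IsConj z e) : d * e = e * d ∨ d * e * d = e * d * e := by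
  have h1 : okT nets 4096 9 gp (1, [1], 0) = true := by decide +kernel
  refine ctx.tr3 (orbS_of hH0 F22A.o1) (okX 0 (by decide)) rfl (by decide +kernel) (ctx.okT h1).1 ?_ hd he
  rw [← (ctx.okT h1).2.1, show z = evw el [0] from (mul_one _).symm, ← evw_append, ← evw_append, ← evw_append,
    ← evw_append]
  exact ctx.eqW (by decide +kernel)

theorem pat : Pat ⊤ z (ι 3) (ι 7) (ι 17) fun i => ι (lget V 0 (hv i)) := by
  have nz : ∀ a < 2 ^ 10, (allN (fun i => !Nat.beq a (lget V 0 i)) 22 = true) → ¬ IsConj z (ι a) :=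
    fun a ha h hc => by
      obtain ⟨i, hi, e⟩ := da ha hc
      have := allN_sound h i hi
      rw [← e, Nat.beq_refl] at this
      exact absurd this (by decide)
  refine ⟨le_top, z2, fun y _ h2 h1 => ?_, nz 3 (by decide) (by decide +kernel), nz 7 (by decide) (by decide +kernel),
    fun hc => ?_, fun d e hd he => tr3 hd.isConj he.isConj, ι1, by rw [← ι1, ← ιx]; rfl, fun e => ?_, fun i => ?_,
    fun i j => actx.ia_comm _ _, ?_, fun d hd c1 c2 c3 c4 => ?_, fun d hd c1 c2 => ?_, trivial, actx.ia_sq _,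
    oN3 (by decide +kernel), actx.ia_comm _ _, ιx 17 7 ▸ oN7 (by decide +kernel), fun d hd c1 c2 => ?_⟩
  · obtain ⟨a, ha, e⟩ := locF.inv' (mem_top y) h2
    rcases cover_of (orbs := ON) (by decide +kernel) ha (fun h => h1 (by
      obtain ⟨g, -, e⟩ := e.symm
      rw [← e, h, locF.zero]; simp)) with rfl | ⟨o, ho, h3⟩
    · exact Or.inl (ι1 ▸ e.symm)
    · have := (oN o ho a h3).trans e.symm
      simp only [ON, List.mem_cons, List.not_mem_nil, or_false] at ho
      rcases ho with rfl | rfl | rfl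
      exacts [Or.inl (ι1 ▸ this), Or.inr (Or.inl this), Or.inr (Or.inr this)]
  · obtain ⟨n, hn, e⟩ := locF.ctrl locF.syl (actx.ia_mem 3) (actx.ia_mem 7) hc
    obtain ⟨a, ha, ea⟩ := (locF.mem _).1 (conj_mem_of_mem_normalizer hn (actx.ia_mem 1))
    obtain ⟨b, hb, eb⟩ := (locF.mem _).1 (conj_mem_of_mem_normalizer hn (actx.ia_mem 2))
    obtain ⟨i, hi, rfl⟩ := da ha (isConj_iff.2 ⟨n, by rw [ea]; exact congrArg (n * · * n⁻¹) ι1.symm⟩)
    obtain ⟨j, hj, rfl⟩ := da hb ((ι2 ▸ ctx.isConj u2975).trans (isConj_iff.2 ⟨n, eb.symm⟩))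
    have h7 := locF.inj' (Nat.xor_lt_two_pow ha hb) (by decide : 7 < 2 ^ 10) (by
      rw [ιx, ea, eb, conj_mul, ← ιx]; exact e)
    have := allN_sound (allN_sound (by decide +kernel : allN (fun i => allN (fun j =>
      !Nat.beq (lget V 0 i ^^^ lget V 0 j) 7) 22) 22 = true) i hi) j hj
    rw [h7] at this
    exact absurd this (by decide)
  · exact absurd (locF.inj' (by decide : 2 < 2 ^ 10) (by decide : 1 < 2 ^ 10) (e.trans ι1.symm)) (by decide)
  · have : hv i < 22 := by revert i; decide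
    exact c0_top (xv _ this ▸ ctx.isConj (actx.xU this))
  · simp only [← ιx]; exact locF.zero
  · obtain ⟨q, hq, rfl⟩ := ctx.of_conj hd.isConj
    have := ctx.std (Cs := [xn XS 0, xn XS 1]) (by decide +kernel) o2 u20 hq
      (forall_cons (fx0 hq c1) (forall_cons ((ctx.comm_iff hq _).1 (ι2 ▸ c2.symm)) forall_nil))
      (by simp only [List.mem_cons, List.not_mem_nil, or_false, not_or]
          exact ⟨fun e => c4 (by rw [e]; exact ι2.symm), fun e => c3 (by rw [e, ctx.tp0])⟩) (w := ι 3)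
      fun g hg => by
        rw [ι3, ← conj_mul, ctx.fix_tp u2975 (hg _ (by simp)), ← ctx.tp0, ctx.fix_tp ctx.u0 (hg _ (by simp))]
    rw [← ι4, ← ιx] at this
    exact this.mono le_top
  · obtain ⟨q, hq, rfl⟩ := ctx.of_conj hd.isConj
    have := ctx.std (Cs := [xn XS 0]) (by decide +kernel) o1 u2975 hq (forall_cons (fx0 hq c1) forall_nil)
      (by simp only [List.mem_singleton]; exact fun e => c2 (by rw [e, ctx.tp0])) (w := z)
      fun g hg => mem_Cx'.1 (ctx.fixer0 ▸ hg)
    rw [← ι2, ← ι1, ← ιx, ι1] at this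
    exact this.mono le_top
  · obtain ⟨q, hq, rfl⟩ := ctx.of_conj hd.isConj
    have h1 := subM_sound (by decide +kernel : subM (fixW nets 4096 12 U (aW XS 10 7))
      (Nat.lor (mskL [0, 2975, 20, 126, 3540, 3541]) M3) = true) ((ctx.fixW (allLt_sound (by decide +kernel)) q).2
        ⟨hq, by rw [actx.aW]; exact (ctx.comm_iff hq _).1 c1.symm⟩)
    rcases (testBit_lor _ _ _).1 h1 with h1 | h1
    · simp only [testBit_mskL, List.mem_cons, List.not_mem_nil, or_false] at h1
      have e : ∀ i < 22, tp z (xp XS i) * ι 17 = ι (lget V 0 i ^^^ 17) := fun i hi => by rw [xv i hi, ιx]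
      have e' : ∀ i < 22, tp z (xp XS i) * ι 17 * ι 7 = ι (lget V 0 i ^^^ 17 ^^^ 7) := fun i hi => by
        rw [e i hi, ← ιx]
      right
      rcases h1 with rfl | rfl | rfl | rfl | rfl | rfl
      exacts [Or.inl (Or.inl (e 0 (by decide) ▸ oN1 (by decide +kernel))),
        Or.inr (Or.inr (e' 1 (by decide) ▸ oN3 (by decide +kernel))),
        Or.inr (Or.inr (e' 2 (by decide) ▸ oN3 (by decide +kernel))),
        Or.inl (Or.inl (e 4 (by decide) ▸ oN1 (by decide +kernel))),
        Or.inr (Or.inr (e' 20 (by decide) ▸ oN3 (by decide +kernel))),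
        Or.inr (Or.inr (e' 21 (by decide) ▸ oN3 (by decide +kernel)))]
    · left
      obtain ⟨g, hg, rfl⟩ := o3.one h1
      refine (oN7 (a := 15) (by decide +kernel)).trans ⟨g, trivial, ?_⟩
      rw [ctx.tp_smul u26, show (15 : ℕ) = 8 ^^^ 7 from rfl, ιx, ι8, ← conj_mul, ι7, ← conj_mul, ← conj_mul,
        ctx.fix_tp u2975 (hg _ (by simp)), ctx.fix_tp u20 (hg _ (by simp)), ← ctx.tp0,
        ctx.fix_tp ctx.u0 (hg _ (by simp))]

end CfH8.Fi.F22
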