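import Cfsg.Agent.H8.FiPt
import Cfsg.Agent.H6.F23G
import Cfsg.Agent.OD.Helper8x7e2ac18471

/-! The transposition action of `Fi23`: context. -/

set_option autoImplicit false
set_option maxRecDepth 100000
set_option Elab.async false

namespace CfH8.Fi.F23
open CfH6 CfH9 MulAction Subgroup
attribute [local instance] F23A.act

abbrev F := F23B.G
noncomputable abbrev el := F23B.el
noncomputable abbrev nets := F23A.nets0
noncomputable abbrev U := F23A.U
def bs : List ℕ := [0, 1, 2, 3, 4, 5, 6, 7]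
def gp : List ℕ := [179, 378, 368, 367, 369, 379, 30038, 6561, 116, 242]
def zw : List ℕ := wpow [1, 2, 3, 4, 5, 6, 8] 9
noncomputable def z : F := evw el zw

instance finF : Finite F := F23O.finG.1

theorem one {w : List ℕ} (h : chkFx nets 32768 10 bs w = true) : evw el w = 1 :=
  F23G.base _ (Lvl.fx F23A.L0 h)

theorem sq : ∀ x < 10, el x * el x = 1 := fun x hx => by
  have h := F23B.hinv x hx
  rw [show F23B.il.getD x 0 = x by interval_cases x <;> rfl] at h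
  exact mul_eq_one_iff_eq_inv.2 h

theorem zlt : ∀ x ∈ zw, x < 10 := allLt_sound (by decide +kernel)

theorem z2 : z * z = 1 := by
  rw [z, ← evw_append]; exact one (by decide +kernel)

theorem zc : ∀ x ∈ [0, 1, 2, 3, 4, 5, 6, 8, 9], evw el (x :: zw ++ x :: zw) = 1 := by
  have : [0, 1, 2, 3, 4, 5, 6, 8, 9].all (fun x => chkFx nets 32768 10 bs (x :: zw ++ x :: zw)) = true := by
    decide +kernel
  exact fun x hx => one (List.all_eq_true.1 this x hx)

theorem hH : F23A.H ≤ Cx(z) := by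
  refine gensub_le fun y hy => ?_
  have : ∀ x ∈ [0, 1, 2, 3, 4, 5, 6, 8, 9], el x ∈ Cx(z) := fun x hx => by
    have h := zc x hx
    simp only [List.cons_append, evw_cons, evw_append] at h
    have hx' : x < 10 := by simp at hx; omega
    rw [mem_Cx, ← inv_of_sq (sq x hx'), ← inv_of_sq z2, ← mul_inv_rev, inv_eq_iff_mul_eq_one,
      inv_of_sq (sq x hx'), inv_of_sq z2, mul_assoc, ← mul_assoc (el x), mul_eq_one_comm, mul_assoc, mul_assoc]
    exact h
  interval_cases y <;> simpa [F23A.el1, byW, F23A.ws1] using this _ (by decide)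

theorem cz : Cx(z) = stabilizer F 0 := by
  rw [← F23G.stab.1]
  refine (F23A.hmax F23G.stab.1 F23G.stab.2 _ hH).resolve_right fun e => ?_
  have h : el 7 * z = z * el 7 := mem_Cx.1 (e ▸ mem_top _)
  refine Lvl.mv F23A.L0 (w := 7 :: zw ++ 7 :: zw) (b := 0) (by decide +kernel) ?_
  simp only [List.cons_append, evw_cons, evw_append]
  change (el 7 * (z * (el 7 * z))) • 0 = 0
  rw [h, ← mul_assoc z, z2, one_mul, sq 7 (by decide), one_smul]

theorem orb : orbit F 0 = bitSet U := by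
  rw [← orbit_top]
  exact (orbit_sub_of_card F23G.stab.1 F23G.stab.2 (by decide) F23A.subU F23A.cU).antisymm F23A.subU

def gu : List (List ℕ) := [[1, 2, 3, 8, 4, 5, 3, 4, 2, 3, 8, 6, 7, 5, 6, 4, 5, 3, 4, 2, 3, 8, 0, 1, 2, 3, 4, 5, 6, 7],
  [2, 3, 8, 4, 5, 3, 4, 2, 3, 8, 6, 7, 5, 6, 4, 5, 3, 4, 2, 3, 8, 1, 2, 3, 4, 5, 6, 7],
  [3, 8, 4, 5, 3, 4, 1, 2, 3, 8, 6, 7, 5, 6, 4, 5, 3, 4, 2, 3, 8, 1, 2, 3, 4, 5, 6, 7],
  [8, 4, 5, 2, 3, 4, 1, 2, 3, 8, 6, 7, 5, 6, 4, 5, 3, 4, 2, 3, 8, 1, 2, 3, 4, 5, 6, 7],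
  [3, 8, 5, 2, 3, 4, 1, 2, 3, 8, 6, 7, 5, 6, 4, 5, 3, 4, 2, 3, 8, 1, 2, 3, 4, 5, 6, 7],
  [4, 3, 8, 2, 3, 4, 1, 2, 3, 8, 6, 7, 5, 6, 4, 5, 3, 4, 2, 3, 8, 1, 2, 3, 4, 5, 6, 7],
  [5, 4, 3, 8, 2, 3, 4, 1, 2, 3, 8, 7, 5, 6, 4, 5, 3, 4, 2, 3, 8, 1, 2, 3, 4, 5, 6, 7],
  [6, 5, 4, 3, 8, 2, 3, 4, 1, 2, 3, 8, 5, 6, 4, 5, 3, 4, 2, 3, 8, 1, 2, 3, 4, 5, 6, 7],
  [3, 4, 5, 2, 3, 4, 1, 2, 3, 8, 6, 7, 5, 6, 4, 5, 3, 4, 2, 3, 8, 1, 2, 3, 4, 5, 6, 7],
  [8, 3, 4, 2, 3, 8, 5, 6, 4, 5, 3, 4, 2, 3, 8, 9, 7, 6, 5, 4, 3, 8, 2, 3, 4, 5, 6, 7]]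

theorem gch : (List.range 10).all (fun x => chkPt nets 32768 10 (lget gu [] x) 0 (lget gp 0 x) &&
    chkFx nets 32768 10 bs (x :: lget gu [] x ++ zw ++ (lget gu [] x).reverse)) = true := by decide +kernel

theorem ctx : Ctx 32768 15 nets 10 el z U bs gp := by
  refine ⟨F23A.L0, by decide, sq, cz, orb, fun p hp => ?_, F23G.base, z2, fun x hx => ?_⟩
  · have : U >>> 32768 = 0 := by decide +kernel
    by_contra hc
    have h2 := congrArg (fun y => Nat.testBit y (p - 32768)) this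
    simp only [Nat.testBit_shiftRight, Nat.zero_testBit] at h2
    rw [show 32768 + (p - 32768) = p by omega, hp] at h2
    exact absurd h2 (by decide)
  · have h := List.all_eq_true.1 gch x (List.mem_range.2 hx)
    rw [Bool.and_eq_true] at h
    have e := Lvl.pt F23A.L0 h.1
    have h1 := one h.2
    have hu : ∀ y ∈ lget gu [] x, y < 10 := by
      have := h.1
      simp only [chkPt, Bool.and_eq_true] at this
      exact allLt_sound this.1.1
    constructor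
    · have : lget gp 0 x ∈ bitSet U := orb ▸ ⟨_, e⟩
      exact this
    · rw [← e, tp_zero' cz]
      simp only [List.cons_append, evw_cons, evw_append, evw_reverse sq hu] at h1
      rw [← inv_of_sq (sq x hx)]
      exact (eq_inv_of_mul_eq_one_right h1).symm

end CfH8.Fi.F23
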