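import Cfsg.Agent.H8.F23X
import Cfsg.Agent.H6.Iso
import Cfsg.Agent.OD.Helper8x0daf18d343

/-! The Sylow 2-subgroup and the involution pattern of `Fi23`. -/

set_option autoImplicit false
set_option maxRecDepth 100000
set_option Elab.async false

namespace CfH8.Fi.F23
open CfH6 CfH9 MulAction Subgroup
attribute [local instance] F23A.act

noncomputable abbrev T : Subgroup F := TL F XS 23 gs
noncomputable abbrev A : Subgroup F := fA F XS
noncomputable abbrev ι : ℕ → F := ia z XS 11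
def t0 : List ℕ := [1, 2, 1, 0, 1, 2]
def cert : List (ℕ × List ℕ) := [(29418823644129278626908135596754976, [3, 1, 0, 2]),
  (29420132259144283785002850734802976, [3, 0, 1, 0]),
  (29413553770901395551195410956159008, [3, 0, 2, 3, 1, 2, 0, 3, 1]),
  (29434383230020172586409471481415712, [3, 1, 0]),
  (29423733109876311576622931598772256, [3, 1, 0, 2, 3]),
  (29425039099175424068323852304091168, [3, 0, 1, 0, 3]),
  (29417231608215937703402253480200224, [3, 0, 1, 0, 2, 3, 1, 2]),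
  (29422772510932817217929092884891680, [3, 0, 1, 0, 2]),
  (29426662420460054208067827170478112, [3, 0, 1, 0, 3, 2]),
  (29427888731899099165755000821811232, [3, 1, 0, 2, 3, 1]),
  (29421639832781302789029526631680032, [3, 0, 1, 0, 2, 3]),
  (29428908820171993080142915984492576, [3, 0, 2, 3, 1, 2, 0, 3]),
  (29431569649687008826440825348556832, [3, 0, 1, 0, 2, 3, 1]),
  (29430339738176739632484869101619232, [3, 0, 1, 0, 2, 3, 2]),
  (29432693239705402224823001967724576, [3, 0, 2, 3, 1, 2, 0]),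
  (28175501186554610539076078765442112, []),
  (28168835699058466742694871948428352, [0, 3, 0]),
  (28167965764373577844152930369209408, [0, 3, 0, 2]),
  (28177677092994855564089596922266688, [0, 3, 0, 2, 0, 3, 0]),
  (28175461235179543809304145006004256, [3, 1, 2, 3]),
  (28170102448976882164597326077102112, [0, 1, 3, 2, 0, 3]),
  (28166699014478014047047724261869600, [0, 1, 3, 2, 0, 3, 1]),
  (28177637366487003135050535476365344, [3, 2, 0, 3, 0, 1, 3]),
  (29435266001134652459049119611192384, [0, 2, 0, 3, 1, 2, 0, 1, 3, 1, 0, 3]),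
  (29413672650620579575403471942845504, [0, 2, 0, 3, 1, 2, 0, 3, 1, 0, 3, 1]),
  (29429265384381295444980956030108736, [0, 2, 0, 3, 1, 2, 0, 3, 1, 0, 3]),
  (29432574359988507830665496076190784, [0, 2, 3, 0, 2, 0, 3, 0, 1, 0, 2, 0]),
  (6675750787173882088663600321693728, [3, 0, 1, 2, 3, 0, 1, 3, 0]),
  (6671144149621743157403917200361504, [3, 0, 2, 3, 0, 1, 0]),
  (6666948605656789518409836608456736, [3, 0, 1, 2, 3, 0, 1, 0]),
  (6678639803185945793986033721149472, [3, 0, 2, 3, 0, 1, 3, 0]),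
  (5420853172016677116613028064167968, [3, 0, 2, 3, 0, 1, 3, 0, 1]),
  (5409716948394801295936711236749344, [3, 0, 2, 3, 1, 0]),
  (5413159299839903723250984394262560, [3, 0, 1, 2, 3, 1, 0]),
  (5418716343681364157523745707526176, [3, 0, 2, 3, 0, 1, 3, 2, 0])]
def cs : List (ℕ × List ℕ × ℕ) := [(0, [1, 2], 6),
  (8, [1, 2], 14),
  (16, [1, 2], 22),
  (32, [1, 2], 38),
  (24, [1, 2], 30),
  (40, [1, 2], 46),
  (48, [1, 2], 54),
  (56, [1, 2], 62)]
theorem cU : chkU V 23 11 gs = true := by decide +kernel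
theorem cI : chkI V 23 11 gs NH 28175501186554610539076078765442112 cert (cs.map Prod.fst) = true := by decide +kernel
theorem cR : cs.all (chkR nets 32768 10 bs XS 11 [0] t0) = true := by decide +kernel
theorem TH : T ≤ Cx(z) := sctx.TL_le rfl (by decide) (by decide +kernel)
theorem cardH : Nat.card Cx(z) = 129123503308800 := by
  rw [cz, ← F23G.stab.1]; exact card_of_index F23G.card F23G.stab.2 (by decide)
theorem invT : ∀ y ∈ T, y * y = 1 → ∃ a < 2 ^ 11, C0 Cx(z) y (ι a) :=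
  sctx.inv (sctx.AT.trans TH) rH (Lvl.acts F23A.L0 (w := t0) (by decide +kernel))
    (by rw [← evw_append]; exact ctx.one (by decide +kernel)) cI
    (ctx.fixer0 ▸ actx.reps (List.all_eq_true.1 cR))
theorem locH : Loc Cx(z) T A 11 ι :=
  sctx.loc (sctx.sylIn TH (c := 492567075) cardH (by decide)) cU invT
theorem locF : Loc ⊤ T A 11 ι :=
  sctx.loc (sctx.sylIn le_top (c := 15600091832325) (card_top.trans F23G.card) (by decide)) cU
    fun y hy h2 => let ⟨a, h, e⟩ := invT y hy h2; ⟨a, h, e.mono le_top⟩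
theorem ι1 : ι 1 = z := actx.ia_one rfl (by decide)
theorem wz : WZ T A z := ι1 ▸ sctx.wz (Ls := gs) (by decide) (by decide +kernel)
theorem nw6 : T ≤ Cx(ι 6) ∧ ¬ WZ T A (ι 6) := sctx.nwz (a := 2) (by decide +kernel)
theorem nw7 : T ≤ Cx(ι 7) ∧ ¬ WZ T A (ι 7) := sctx.nwz (a := 48) (by decide +kernel)
theorem cCl : chkCl 11 OH [2, 3] [6, 7] = true := by decide +kernel
theorem ιH (a : ℕ) : ι a ∈ Cx(z) := TH (sctx.AT (actx.ia_mem a))

theorem classify {G : Type*} [Group G] [Finite G] {φ : Cx(z) →* G} (hφ : Function.Injective φ)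
    (hr : φ.range = Cx(ext φ z)) :
    ∃ m ∈ [2, 3], ∀ y ∈ Cx(z), IsConj (ext φ z) (ext φ y) → y = z ∨ C0 Cx(z) (ι m) y :=
  classify_ext hφ hr locH ι1 oH wz (forall_cons ⟨nw6.1, ιH 6, nw6.2⟩ (forall_cons ⟨nw7.1, ιH 7, nw7.2⟩ forall_nil)) cCl

theorem da {a : ℕ} (ha : a < 2 ^ 11) (hc : IsConj z (ι a)) : ∃ i < 23, a = lget V 0 i :=
  sctx.da (Cs := XS.take 7) (by decide +kernel) ha hc

theorem xv (i : ℕ) (hi : i < 23) : tp z (xp XS i) = ι (lget V 0 i) := actx.xv i hi
theorem ι2 : ι 2 = tp z 179 := (xv 1 (by decide)).symm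
theorem ι4 : ι 4 = tp z 368 := (xv 2 (by decide)).symm
theorem ι8 : ι 8 = tp z 116 := (xv 3 (by decide)).symm
theorem el0 : el 0 = tp z 179 := (ctx.gen 0 (by decide)).2
theorem ιx (a b : ℕ) : ι (a ^^^ b) = ι a * ι b := actx.ia_xor a b
theorem ιW (a : ℕ) : ι a = evw el (aW XS 11 a) := (actx.aW a).symm
theorem ι3 : ι 3 = z * tp z 179 := by rw [← ι2, ← ι1, ← ιx]; rfl
theorem ι7 : ι 7 = z * tp z 179 * tp z 368 := by rw [← ι3, ← ι4, ← ιx]; rfl
theorem oN3 {a : ℕ} (h : (lget ON (0, 0) 1).2.testBit a = true) : C0 ⊤ (ι 3) (ι a) :=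
  oN (lget ON (0, 0) 1) (lget_mem _ (by decide)) a h
theorem oN7 {a : ℕ} (h : (lget ON (0, 0) 2).2.testBit a = true) : C0 ⊤ (ι 7) (ι a) :=
  oN (lget ON (0, 0) 2) (lget_mem _ (by decide)) a h
theorem u179 : U.testBit 179 = true := by decide +kernel
theorem u368 : U.testBit 368 = true := by decide +kernel
theorem u116 : U.testBit 116 = true := by decide +kernel
theorem okX (i : ℕ) (hi : i < 23) : okT nets 32768 10 gp (xn XS i) = true := actx.ok i hi
theorem fx0 {q : ℕ} (hq : U.testBit q = true) (h : tp z q * z = z * tp z q) : tp z 0 • q = q := by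
  rw [ctx.tp0]; exact (ctx.comm_iff hq _).1 h.symm

def hv : Fin 7 → ℕ := ![0, 1, 2, 3, 12, 13, 15]
def u' : List ℕ := [1, 0, 2, 1]

theorem tr3 {d e : F} (hd : IsConj z d) (he : IsConj z e) : d * e = e * d ∨ d * e * d = e * d * e := by
  have h1 : okT nets 32768 10 gp (1, [6, 5, 4, 3, 8, 2, 3, 4, 1, 2, 3, 8, 5, 6, 4, 5, 3, 4, 2, 3, 8, 7, 6, 5, 4, 3, 2], 1) = true := by decide +kernel
  refine ctx.tr3 (orbS_of hH0 F23A.o1) (okX 0 (by decide)) rfl (by decide +kernel) (ctx.okT h1).1 ?_ hd he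
  rw [← (ctx.okT h1).2.1, z, ← evw_append, ← evw_append, ← evw_append, ← evw_append]
  exact ctx.eqW (by decide +kernel)

theorem pat : Pat ⊤ z (ι 3) (ι 7) (evw el u') fun i => ι (lget V 0 (hv i)) := by
  have nz : ∀ a < 2 ^ 11, (allN (fun i => !Nat.beq a (lget V 0 i)) 23 = true) → ¬ IsConj z (ι a) :=
    fun a ha h hc => by
      obtain ⟨i, hi, e⟩ := da ha hc
      have := allN_sound h i hi
      rw [← e, Nat.beq_refl] at this
      exact absurd this (by decide)
  have gu : evw el [1] * ι 6 * (evw el [1])⁻¹ = evw el u' := by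
    rw [ιW]; exact ctx.conjW (by decide +kernel)
  have g6 : evw el [2, 1, 2] * ι 6 * (evw el [2, 1, 2])⁻¹ = z * evw el u' * ι 7 := by
    rw [← ι1, ιW, ιW, ιW, ctx.conjW (y := aW XS 11 1 ++ u' ++ aW XS 11 7) (by decide +kernel), evw_append,
      evw_append]
  refine ⟨le_top, z2, fun y _ h2 h1 => ?_, nz 3 (by decide) (by decide +kernel), nz 7 (by decide) (by decide +kernel),
    fun hc => ?_, fun d e hd he => tr3 hd.isConj he.isConj, ι1, by rw [← ι1, ← ιx]; rfl, fun e => ?_, fun i => ?_,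
    fun i j => actx.ia_comm _ _, ?_, fun d hd c1 c2 c3 c4 => ?_, fun d hd c1 c2 => ?_, trivial, actx.ia_sq _,
    (oN3 (a := 6) (by decide +kernel)).trans ⟨_, trivial, gu⟩, ?_, ?_, fun d hd c1 c2 => ?_⟩
  · obtain ⟨a, ha, e⟩ := locF.inv' (mem_top y) h2
    rcases cover_of (orbs := ON) (by decide +kernel) ha (fun h => h1 (by
      obtain ⟨g, -, e⟩ := e.symm
      rw [← e, h, locF.zero]; simp)) with rfl | ⟨o, ho, h3⟩
    · exact Or.inl (ι1 ▸ e.symm)
    · have := (oN o ho a h3).trans e.symm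
      simp only [ON, List.mem_cons, List.not_mem_nil, or_false] at ho
      rcases ho with rfl | rfl | rfl
      exacts [Or.inl (ι1 ▸ this), Or.inr (Or.inl this), Or.inr (Or.inr this)]
  · obtain ⟨n, hn, e⟩ := locF.ctrl locF.syl (actx.ia_mem 3) (actx.ia_mem 7) hc
    obtain ⟨a, ha, ea⟩ := (locF.mem _).1 (conj_mem_of_mem_normalizer hn (actx.ia_mem 1))
    obtain ⟨b, hb, eb⟩ := (locF.mem _).1 (conj_mem_of_mem_normalizer hn (actx.ia_mem 2))
    obtain ⟨i, hi, rfl⟩ := da ha (isConj_iff.2 ⟨n, by rw [ea]; exact congrArg (n * · * n⁻¹) ι1.symm⟩)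
    obtain ⟨j, hj, rfl⟩ := da hb ((ι2 ▸ ctx.isConj u179).trans (isConj_iff.2 ⟨n, eb.symm⟩))
    have h7 := locF.inj' (Nat.xor_lt_two_pow ha hb) (by decide : 7 < 2 ^ 11) (by
      rw [ιx, ea, eb, conj_mul, ← ιx]; exact e)
    have := allN_sound (allN_sound (by decide +kernel : allN (fun i => allN (fun j =>
      !Nat.beq (lget V 0 i ^^^ lget V 0 j) 7) 23) 23 = true) i hi) j hj
    rw [h7] at this
    exact absurd this (by decide)
  · exact absurd (locF.inj' (by decide : 2 < 2 ^ 11) (by decide : 1 < 2 ^ 11) (e.trans ι1.symm)) (by decide)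
  · have : hv i < 23 := by revert i; decide
    exact c0_top (xv _ this ▸ ctx.isConj (actx.xU this))
  · simp only [← ιx]; exact locF.zero
  · obtain ⟨q, hq, rfl⟩ := ctx.of_conj hd.isConj
    have := ctx.std (Cs := [xn XS 0, xn XS 1]) (by decide +kernel) o2 u368 hq
      (forall_cons (fx0 hq c1) (forall_cons ((ctx.comm_iff hq _).1 (ι2 ▸ c2.symm)) forall_nil))
      (by simp only [List.mem_cons, List.not_mem_nil, or_false, not_or]
          exact ⟨fun e => c4 (by rw [e]; exact ι2.symm), fun e => c3 (by rw [e, ctx.tp0])⟩) (w := ι 3)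
      fun g hg => by
        rw [ι3, ← conj_mul, ctx.fix_tp u179 (hg _ (by simp)), ← ctx.tp0, ctx.fix_tp ctx.u0 (hg _ (by simp))]
    rw [← ι4, ← ιx] at this
    exact this.mono le_top
  · obtain ⟨q, hq, rfl⟩ := ctx.of_conj hd.isConj
    have := ctx.std (Cs := [xn XS 0]) (by decide +kernel) o1 u179 hq (forall_cons (fx0 hq c1) forall_nil)
      (by simp only [List.mem_singleton]; exact fun e => c2 (by rw [e, ctx.tp0])) (w := z)
      fun g hg => mem_Cx'.1 (ctx.fixer0 ▸ hg)
    rw [← ι2, ← ι1, ← ιx, ι1] at this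
    exact this.mono le_top
  · rw [ιW, ← evw_append, ← evw_append]; exact ctx.eqW (by decide +kernel)
  · refine ⟨evw el [2, 1, 2], trivial, ?_⟩
    rw [ιW, ctx.conjW (y := u' ++ aW XS 11 7) (by decide +kernel), evw_append]
  · obtain ⟨q, hq, rfl⟩ := ctx.of_conj hd.isConj
    have h1 := subM_sound (by decide +kernel : subM (fixW nets 32768 15 U (aW XS 11 7))
      (Nat.lor (mskL [0, 179, 368]) M3) = true) ((ctx.fixW (allLt_sound (by decide +kernel)) q).2
        ⟨hq, by rw [actx.aW]; exact (ctx.comm_iff hq _).1 c1.symm⟩)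
    have h2 := (ctx.comm_iff hq _).1 c2.symm
    rcases (testBit_lor _ _ _).1 h1 with h1 | h1
    · simp only [testBit_mskL, List.mem_cons, List.not_mem_nil, or_false] at h1
      rcases h1 with rfl | rfl | rfl
      · rw [ctx.tp0]
        exact Or.inr (Or.inr (Or.inr ((oN3 (a := 6) (by decide +kernel)).trans ⟨_, trivial, g6⟩)))
      · exact absurd h2 (Lvl.mv F23A.L0 (by decide +kernel))
      · exact absurd h2 (Lvl.mv F23A.L0 (by decide +kernel))
    · left
      obtain ⟨g, hg, rfl⟩ := o3.one h1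
      refine (oN7 (a := 15) (by decide +kernel)).trans ⟨g, trivial, ?_⟩
      rw [ctx.tp_smul u116, show (15 : ℕ) = 8 ^^^ 7 from rfl, ιx, ι8, ← conj_mul, ι7, ← conj_mul, ← conj_mul,
        ctx.fix_tp u179 (hg _ (by simp)), ctx.fix_tp u368 (hg _ (by simp)), ← ctx.tp0,
        ctx.fix_tp ctx.u0 (hg _ (by simp))]

end CfH8.Fi.F23
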