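import Cfsg.Agent.H8.FiLoc
import Cfsg.Agent.H6.Top2
import Cfsg.Agent.OD.Helper8xa869c01c94
import Cfsg.Agent.OD.Helper8xf01cd08010

/-! Transpositions as points of a permutation action given by swap networks. -/

set_option autoImplicit false

namespace CfH8.Fi

open Subgroup CfH9 CfH6 MulAction

noncomputable def bt (S i : ℕ) : ℕ := Nat.land (Nat.shiftRight S i) 1

theorem bt_eq (S i : ℕ) : bt S i = if S.testBit i then 1 else 0 := by
  change (S >>> i) &&& 1 = _
  rw [and_one_eq, Nat.testBit_shiftRight, add_zero]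

theorem rec_bt {α : Type} (S i : ℕ) (a b : α) :
    (Nat.rec a (fun _ _ => b) (bt S i) : α) = if S.testBit i then b else a := by
  rw [bt_eq]; split_ifs <;> rfl

noncomputable def ptS (ν : Net) : ℕ → ℕ :=
  List.rec (fun i => i) (fun p _ ih i => force (ih i) fun j =>
    Nat.rec (Nat.rec j (fun _ _ => Nat.sub j p.2) (bt (Nat.shiftLeft p.1 p.2) j))
      (fun _ _ => Nat.add j p.2) (bt p.1 j)) ν

noncomputable def ptW (nets : List Net) (w : List ℕ) : ℕ → ℕ :=
  List.rec (fun x => x) (fun a _ ih x => force (ih x) (ptS (lget nets [] a))) w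

theorem ptS_eq {n : ℕ} {ν : Net} (h : okNet n ν = true) (i : ℕ) : ptS ν i = netPerm ν i := by
  induction ν with
  | nil => rfl
  | cons p ν ih =>
    obtain ⟨h1, _, h3⟩ := okNet_cons h
    have e : ptS (p :: ν) i = force (ptS ν i) fun j =>
      Nat.rec (Nat.rec j (fun _ _ => j - p.2) (bt (p.1 <<< p.2) j)) (fun _ _ => j + p.2) (bt p.1 j) := rfl
    rw [e, force_eq, ih h3, rec_bt, rec_bt, netPerm_cons, stPerm, dif_pos h1, Nat.testBit_shiftLeft]
    simp only [Equiv.Perm.mul_apply, Function.Involutive.coe_toPerm, swp, Bool.and_eq_true, decide_eq_true_eq]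

theorem ptW_eq {n : ℕ} {nets : List Net} (h : okNets n nets = true) (w : List ℕ) (i : ℕ) :
    ptW nets w i = evw (lp nets) w i := by
  induction w with
  | nil => rfl
  | cons a w ih =>
    have e : ptW nets (a :: w) i = force (ptW nets w i) (ptS (lget nets [] a)) := rfl
    rw [e, force_eq, ih, ptS_eq (okNets_get h a), evw_cons]; rfl

/-! breadth first search -/

noncomputable def bstep {α : Type} (f : α → ℕ → ℕ) (gs : List α) (p : ℕ) (k : List ℕ → ℕ → ℕ) :
    List ℕ → ℕ → ℕ :=
  List.rec k (fun g _ ih st S => force (f g p) fun q =>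
    Nat.rec (force (Nat.lor S (Nat.shiftLeft 1 q)) (ih (q :: st))) (fun _ _ => ih st S) (bt S q)) gs

noncomputable def bfs {α : Type} (f : α → ℕ → ℕ) (gs : List α) (fuel : ℕ) : List ℕ → ℕ → ℕ :=
  Nat.rec (fun _ S => S) (fun _ ih st S => List.rec S (fun p st' _ => bstep f gs p ih st' S) st) fuel

def BI (Q : ℕ → Prop) (st : List ℕ) (S : ℕ) : Prop := (∀ p ∈ st, Q p) ∧ ∀ p, S.testBit p = true → Q p

theorem bstep_sound {α : Type} {f : α → ℕ → ℕ} {gs : List α} {p : ℕ} {k : List ℕ → ℕ → ℕ} {Q : ℕ → Prop}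
    (hg : ∀ g ∈ gs, Q (f g p)) (hk : ∀ st S, BI Q st S → ∀ q, (k st S).testBit q = true → Q q) :
    ∀ st S, BI Q st S → ∀ q, (bstep f gs p k st S).testBit q = true → Q q := by
  induction gs with
  | nil => exact hk
  | cons g gs ih =>
    intro st S hI
    have e : bstep f (g :: gs) p k st S = force (f g p) fun q =>
      Nat.rec (force (S ||| (1 <<< q)) (bstep f gs p k (q :: st))) (fun _ _ => bstep f gs p k st S) (bt S q) := rfl
    have ih' := ih fun g' h => hg g' (List.mem_cons_of_mem _ h)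
    have h0 := hg g List.mem_cons_self
    rw [e, force_eq, rec_bt, force_eq]
    split_ifs
    · exact ih' st S hI
    · refine ih' _ _ ⟨List.forall_mem_cons.2 ⟨h0, hI.1⟩, fun q hq => ?_⟩
      rw [Nat.testBit_or, Bool.or_eq_true] at hq
      exact hq.elim (hI.2 q) fun h => bit_one h ▸ h0

theorem bfs_sound {α : Type} {f : α → ℕ → ℕ} {gs : List α} {Q : ℕ → Prop}
    (hg : ∀ g ∈ gs, ∀ p, Q p → Q (f g p)) (fuel : ℕ) :
    ∀ st S, BI Q st S → ∀ q, (bfs f gs fuel st S).testBit q = true → Q q := by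
  induction fuel with
  | zero => exact fun st S h => h.2
  | succ n ih =>
    intro st S hI
    cases st with
    | nil => exact hI.2
    | cons p st =>
      exact bstep_sound (fun g h => hg g h p (hI.1 p List.mem_cons_self)) ih st S
        ⟨fun q h => hI.1 q (List.mem_cons_of_mem _ h), hI.2⟩

/-- the mask of a list of points -/
noncomputable def mskL (l : List ℕ) : ℕ := List.rec 0 (fun p _ ih => Nat.lor (Nat.shiftLeft 1 p) ih) l

theorem testBit_mskL (l : List ℕ) (q : ℕ) : (mskL l).testBit q = true ↔ q ∈ l := by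
  induction l with
  | nil => simp [mskL]
  | cons p l ih =>
    change ((1 <<< p) ||| mskL l).testBit q = true ↔ _
    rw [Nat.testBit_or, Bool.or_eq_true, ih, Nat.one_shiftLeft, Nat.testBit_two_pow, List.mem_cons,
      decide_eq_true_eq, eq_comm]

noncomputable def bfs0 {α : Type} (f : α → ℕ → ℕ) (gs : List α) (fuel : ℕ) (st : List ℕ) : ℕ :=
  force (mskL st) (bfs f gs fuel st)

theorem bfs0_sound {α : Type} {f : α → ℕ → ℕ} {gs : List α} {Q : ℕ → Prop}
    (hg : ∀ g ∈ gs, ∀ p, Q p → Q (f g p)) (fuel : ℕ) {st : List ℕ} (hs : ∀ p ∈ st, Q p) :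
    ∀ q, (bfs0 f gs fuel st).testBit q = true → Q q := by
  rw [bfs0, force_eq]
  exact bfs_sound hg fuel st _ ⟨hs, fun p hp => hs p ((testBit_mskL _ _).1 hp)⟩

noncomputable def subM (S S' : ℕ) : Bool := Nat.beq (Nat.land S S') S

theorem subM_sound {S S' : ℕ} (h : subM S S' = true) {q : ℕ} (hq : S.testBit q = true) : S'.testBit q = true := by
  rw [← Nat.eq_of_beq_eq_true h] at hq
  change (S &&& S').testBit q = true at hq
  rw [Nat.testBit_and, Bool.and_eq_true] at hq
  exact hq.2

/-- difference of masks -/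
noncomputable def dif (S S' : ℕ) : ℕ := Nat.xor S (Nat.land S S')

theorem testBit_dif (S S' q : ℕ) : (dif S S').testBit q = true ↔ S.testBit q = true ∧ ¬ S'.testBit q = true := by
  change (S ^^^ (S &&& S')).testBit q = true ↔ _
  rw [Nat.testBit_xor, Nat.testBit_and]
  cases S.testBit q <;> cases S'.testBit q <;> simp

theorem testBit_land (S S' q : ℕ) :
    (Nat.land S S').testBit q = true ↔ S.testBit q = true ∧ S'.testBit q = true := by
  change (S &&& S').testBit q = true ↔ _
  rw [Nat.testBit_and, Bool.and_eq_true]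

theorem testBit_lor (S S' q : ℕ) :
    (Nat.lor S S').testBit q = true ↔ S.testBit q = true ∨ S'.testBit q = true := by
  change (S ||| S').testBit q = true ↔ _
  rw [Nat.testBit_or, Bool.or_eq_true]

/-! bit planes of a word -/

noncomputable def forceG {β : Type} (x : ℕ) (k : ℕ → β) : β := Nat.rec (k 0) (fun y _ => k (Nat.succ y)) x

theorem forceG_eq {β : Type} (x : ℕ) (k : ℕ → β) : forceG x k = k x := by cases x <;> rfl

noncomputable def forceL {β : Type} (l : List ℕ) : (List ℕ → β) → β :=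
  List.rec (fun k => k []) (fun x _ ih k => forceG x fun y => ih fun l' => k (y :: l')) l

theorem forceL_eq {β : Type} (l : List ℕ) (k : List ℕ → β) : forceL l k = k l := by
  induction l generalizing k with
  | nil => rfl
  | cons x l ih =>
    have e : forceL (x :: l) k = forceG x fun y => forceL l fun l' => k (y :: l') := rfl
    rw [e, forceG_eq, ih]

noncomputable def forceLL {β : Type} (l : List (List ℕ)) : (List (List ℕ) → β) → β :=
  List.rec (fun k => k []) (fun x _ ih k => forceL x fun y => ih fun l' => k (y :: l')) l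

theorem forceLL_eq {β : Type} (l : List (List ℕ)) (k : List (List ℕ) → β) : forceLL l k = k l := by
  induction l generalizing k with
  | nil => rfl
  | cons x l ih =>
    have e : forceLL (x :: l) k = forceL x fun y => forceLL l fun l' => k (y :: l') := rfl
    rw [e, forceL_eq, ih]

noncomputable def pls (f : ℕ → ℕ) (c : ℕ) : ℕ → List ℕ :=
  Nat.rec (fun _ => []) (fun _ ih j => f j :: ih (Nat.succ j)) c

noncomputable def imgP (Ps : List ℕ) (i : ℕ) : ℕ :=
  List.rec 0 (fun P _ ih => Nat.add (bt P i) (Nat.mul 2 ih)) Ps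

theorem imgP_pls {f : ℕ → ℕ} {i v : ℕ} (h : ∀ j, (f j).testBit i = v.testBit j) (c j : ℕ) :
    imgP (pls f c j) i = (v >>> j) % 2 ^ c := by
  induction c generalizing j with
  | zero => simp [pls, imgP, Nat.mod_one]
  | succ c ih =>
    have e : imgP (pls f (c + 1) j) i = bt (f j) i + 2 * imgP (pls f c (j + 1)) i := rfl
    rw [e, ih, bt_eq, h, pow_succ', Nat.mod_mul, Nat.shiftRight_succ]
    congr 1
    rw [Nat.testBit, Nat.one_and_eq_mod_two]
    rcases Nat.mod_two_eq_zero_or_one (v >>> j) with h | h <;> simp [h]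

noncomputable def plW (nets : List Net) (m K : ℕ) (w : List ℕ) : List ℕ :=
  pls (fun j => appW nets w (plane m K j)) K 0

theorem testBit_plane' {n K : ℕ} (h : n ≤ 2 ^ K) (j i : ℕ) (hi : i < n) :
    (plane n K j).testBit i = i.testBit j := testBit_plane h j i hi

theorem imgP_plW {m K : ℕ} {nets : List Net} (h : okNets m nets = true) (hK : m ≤ 2 ^ K) (w : List ℕ) {i : ℕ}
    (hi : i < m) : imgP (plW nets m K w) i = evw (lp nets) w i := by
  have hb := (evw_bound h w i).1 hi
  rw [plW, imgP_pls (v := evw (lp nets) w i) fun j => by rw [testBit_appW h, testBit_plane hK j _ hb]]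
  exact Nat.mod_eq_of_lt (lt_of_lt_of_le hb hK)

noncomputable def fixW (nets : List Net) (m K U : ℕ) (w : List ℕ) : ℕ :=
  dif U (loop1 (fun j => force (plane m K j) fun P => Nat.xor (appW nets w P) P) 0 K)

theorem testBit_loop1 (p : ℕ → ℕ) (n q : ℕ) : (loop1 p 0 n).testBit q = true ↔ ∃ j < n, (p j).testBit q = true := by
  induction n with
  | zero => simp [loop1]
  | succ n ih =>
    have e : loop1 p 0 (n + 1) = Nat.lor (p (0 + n)) (loop1 p 0 n) := rfl
    rw [e, testBit_lor, ih, zero_add]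
    constructor
    · rintro (h | ⟨j, h1, h2⟩)
      exacts [⟨n, by omega, h⟩, ⟨j, by omega, h2⟩]
    · rintro ⟨j, h1, h2⟩
      rcases Nat.lt_succ_iff_lt_or_eq.1 h1 with h | rfl
      exacts [Or.inr ⟨j, h, h2⟩, Or.inl h2]

/-- named point: the point, a conjugating word and a letter -/
abbrev NP := ℕ × List ℕ × ℕ

def wT (t : NP) : List ℕ := t.2.1 ++ t.2.2 :: t.2.1.reverse

/-- product of named transpositions -/
def wP (ts : List NP) : List ℕ := ts.flatMap wT

section
variable {F : Type*} [Group F] [MulAction F ℕ]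

open Classical in
/-- the transposition at a point -/
noncomputable def tp (z : F) (p : ℕ) : F := if h : ∃ g : F, g • 0 = p then h.choose * z * h.choose⁻¹ else 1

structure Ctx (m K : ℕ) (nets : List Net) (k : ℕ) (el : ℕ → F) (z : F) (U : ℕ) (bs gp : List ℕ) : Prop where
  L : Lvl m nets k el
  mK : m ≤ 2 ^ K
  sq : ∀ x < k, el x * el x = 1
  cz : Cx(z) = stabilizer F 0
  orb : orbit F 0 = bitSet U
  Um : ∀ p, U.testBit p = true → p < m
  base : ∀ g : F, (∀ b ∈ bs, g • b = b) → g = 1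
  z2 : z * z = 1
  gen : ∀ x < k, U.testBit (lget gp 0 x) = true ∧ el x = tp z (lget gp 0 x)

theorem tp_zero' {z : F} (h : Cx(z) = stabilizer F 0) (g : F) : tp z (g • 0) = g * z * g⁻¹ := by
  have ex : ∃ g' : F, g' • 0 = g • 0 := ⟨g, rfl⟩
  rw [tp, dif_pos ex]
  have : g⁻¹ * ex.choose ∈ Cx(z) := by rw [h, mem_stabilizer_iff, mul_smul, ex.choose_spec, inv_smul_smul]
  rw [← mul_left_cancel_iff (a := g⁻¹), ← mul_right_cancel_iff (a := g)]
  convert mem_Cx'.1 this using 1 <;> group

theorem evw_reverse {el : ℕ → F} {k : ℕ} (h : ∀ x < k, el x * el x = 1) {w : List ℕ} (hw : ∀ x ∈ w, x < k) :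
    evw el w.reverse = (evw el w)⁻¹ := by
  induction w with
  | nil => simp
  | cons a w ih =>
    rw [List.reverse_cons, evw_append, ih fun x hx => hw x (List.mem_cons_of_mem _ hx), evw_cons, evw_cons,
      evw_nil, mul_one, mul_inv_rev, inv_of_sq (h a (hw a List.mem_cons_self))]

theorem mem_fixer {bs : List ℕ} {g : F} : g ∈ fixer F bs ↔ ∀ b ∈ bs, g • b = b := Iff.rfl

noncomputable def chkPt (nets : List Net) (m k : ℕ) (w : List ℕ) (b c : ℕ) : Bool :=
  allLt k w && Nat.blt b m && Nat.beq (ptW nets w b) c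

noncomputable def chkMv (nets : List Net) (m k : ℕ) (w : List ℕ) (b : ℕ) : Bool :=
  allLt k w && Nat.blt b m && !Nat.beq (ptW nets w b) b

noncomputable def chkFx (nets : List Net) (m k : ℕ) (bs : List ℕ) (w : List ℕ) : Bool :=
  allLt k w && bs.all fun b => Nat.blt b m && Nat.beq (ptW nets w b) b

variable {m K : ℕ} {nets : List Net} {k : ℕ} {el : ℕ → F} {z : F} {U : ℕ} {bs gp : List ℕ}

theorem Lvl.pt (L : Lvl m nets k el) {w : List ℕ} {b c : ℕ} (h : chkPt nets m k w b c = true) :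
    evw el w • b = c := by
  simp only [chkPt, Bool.and_eq_true, Nat.blt_eq, Nat.beq_eq] at h
  rw [L.word (allLt_sound h.1.1) h.1.2, ← ptW_eq L.ok, h.2]

theorem Lvl.mv (L : Lvl m nets k el) {w : List ℕ} {b : ℕ} (h : chkMv nets m k w b = true) :
    evw el w • b ≠ b := by
  simp only [chkMv, Bool.and_eq_true, Nat.blt_eq, Bool.not_eq_true'] at h
  rw [L.word (allLt_sound h.1.1) h.1.2, ← ptW_eq L.ok]
  exact Nat.ne_of_beq_eq_false h.2

theorem Lvl.fx (L : Lvl m nets k el) {bs : List ℕ} {w : List ℕ} (h : chkFx nets m k bs w = true) :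
    evw el w ∈ fixer F bs := by
  simp only [chkFx, Bool.and_eq_true, List.all_eq_true, Nat.blt_eq, Nat.beq_eq] at h
  intro b hb
  rw [L.word (allLt_sound h.1) (h.2 b hb).1, ← ptW_eq L.ok, (h.2 b hb).2]

noncomputable def okT (nets : List Net) (m k : ℕ) (gp : List ℕ) (t : NP) : Bool :=
  Nat.blt t.2.2 k && chkPt nets m k t.2.1 (lget gp 0 t.2.2) t.1

noncomputable def fxT (nets : List Net) (m K U : ℕ) (t : NP) : ℕ :=
  force (fixW nets m K U [t.2.2]) (appW nets t.2.1.reverse)

/-- the points of `S` are images of start points under the pointwise stabiliser of `fp` -/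
def OrbS (F : Type*) [Group F] [MulAction F ℕ] (fp st : List ℕ) (S : ℕ) : Prop :=
  ∀ q, S.testBit q = true → ∃ g ∈ fixer F fp, ∃ p ∈ st, g • p = q

noncomputable def chkOrb (nets : List Net) (m K k : ℕ) (ws : List (List ℕ)) (fp st : List ℕ) (fuel S : ℕ) : Bool :=
  ws.all (allLt k) && fp.all (fun b => Nat.blt b m) && st.all (fun b => Nat.blt b m) &&
    forceLL (ws.map (plW nets m K)) fun Pss => Pss.all (fun Ps => fp.all fun b => Nat.beq (imgP Ps b) b) &&
      subM S (bfs0 imgP Pss fuel st)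

theorem OrbS.mono {fp st : List ℕ} {S S' : ℕ} (h : OrbS F fp st S) (hS : subM S' S = true) : OrbS F fp st S' :=
  fun q hq => h q (subM_sound hS hq)

theorem OrbS.move {fp : List ℕ} {p p' S : ℕ} (h : OrbS F fp [p] S) (hp : S.testBit p' = true) :
    OrbS F fp [p'] S := by
  intro q hq
  obtain ⟨g, hg, _, h1, e⟩ := h q hq
  obtain ⟨g', hg', _, h2, e'⟩ := h p' hp
  rw [List.mem_singleton.1 h1] at e
  rw [List.mem_singleton.1 h2] at e'
  exact ⟨g * g'⁻¹, mul_mem hg (inv_mem hg'), p', List.mem_singleton_self _, by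
    rw [← e', mul_smul, inv_smul_smul, e]⟩

theorem OrbS.one {fp : List ℕ} {p S : ℕ} (h : OrbS F fp [p] S) {q : ℕ} (hq : S.testBit q = true) :
    ∃ g ∈ fixer F fp, g • p = q := by
  obtain ⟨g, hg, _, h1, e⟩ := h q hq
  exact ⟨g, hg, List.mem_singleton.1 h1 ▸ e⟩

theorem OrbS.card [Finite F] {fp : List ℕ} {p S c : ℕ} (h : OrbS F fp [p] S) (hc : (bitSet S).ncard = c) :
    c * Nat.card (fixer F (p :: fp)) ≤ Nat.card (fixer F fp) := by
  have e : fixer F (p :: fp) = fixer F fp ⊓ stabilizer F p := by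
    ext g; simp only [mem_fixer, List.forall_mem_cons, mem_inf, mem_stabilizer_iff, and_comm]
  rw [e, card_eq_orbit_mul (fixer F fp) p, ← hc]
  refine Nat.mul_le_mul_right _ (Set.ncard_le_ncard (fun q hq => ?_) (Set.finite_range _))
  obtain ⟨g, hg, e⟩ := h.one hq
  exact ⟨⟨g, hg⟩, e⟩

namespace Ctx
variable (C : Ctx m K nets k el z U bs gp)
include C

theorem ex {p : ℕ} (hp : U.testBit p = true) : ∃ g : F, g • 0 = p := by
  have : p ∈ orbit F 0 := C.orb ▸ hp
  exact this

theorem u0 : U.testBit 0 = true := by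
  have : 0 ∈ bitSet U := C.orb ▸ mem_orbit_self 0
  exact this

theorem smul_mem {p : ℕ} (hp : U.testBit p = true) (g : F) : U.testBit (g • p) = true := by
  obtain ⟨h, rfl⟩ := C.ex hp
  have : g • h • 0 ∈ bitSet U := C.orb ▸ ⟨g * h, mul_smul g h 0⟩
  exact this

theorem tp0 : tp z 0 = z := by simpa using tp_zero' C.cz 1

theorem tp_smul {p : ℕ} (hp : U.testBit p = true) (g : F) : tp z (g • p) = g * tp z p * g⁻¹ := by
  obtain ⟨h, rfl⟩ := C.ex hp
  rw [← mul_smul, tp_zero' C.cz, tp_zero' C.cz]; group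

theorem comm_iff {p : ℕ} (hp : U.testBit p = true) (g : F) : g * tp z p = tp z p * g ↔ g • p = p := by
  obtain ⟨h, rfl⟩ := C.ex hp
  rw [tp_zero' C.cz, ← mem_Cx, ← cj_Cx, mem_cj, C.cz, mem_stabilizer_iff, mul_smul, mul_smul, inv_smul_eq_iff]

theorem tp_inj {p q : ℕ} (hp : U.testBit p = true) (hq : U.testBit q = true) (e : tp z p = tp z q) : p = q := by
  obtain ⟨h, rfl⟩ := C.ex hp
  obtain ⟨g, rfl⟩ := C.ex hq
  rw [tp_zero' C.cz, tp_zero' C.cz] at e
  have : g⁻¹ * h ∈ Cx(z) := mem_Cx'.2 (by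
    rw [← mul_left_cancel_iff (a := g), ← mul_right_cancel_iff (a := g⁻¹)]
    convert e using 1; group)
  rw [C.cz, mem_stabilizer_iff, mul_smul, inv_smul_eq_iff] at this
  exact this

theorem isConj {p : ℕ} (hp : U.testBit p = true) : IsConj z (tp z p) := by
  obtain ⟨h, rfl⟩ := C.ex hp
  exact isConj_iff.2 ⟨h, (tp_zero' C.cz h).symm⟩

theorem of_conj {y : F} (h : IsConj z y) : ∃ p, U.testBit p = true ∧ tp z p = y := by
  obtain ⟨g, rfl⟩ := isConj_iff.1 h
  exact ⟨_, C.smul_mem C.u0 g, tp_zero' C.cz g⟩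

theorem tp_sq {p : ℕ} (hp : U.testBit p = true) : tp z p * tp z p = 1 := by
  obtain ⟨g, e⟩ := isConj_iff.1 (C.isConj hp)
  rw [← e, conj_mul, C.z2, mul_one, mul_inv_cancel]

theorem tp_self {p : ℕ} (hp : U.testBit p = true) : tp z p • p = p := (C.comm_iff hp _).1 rfl

theorem fix_symm {p q : ℕ} (hp : U.testBit p = true) (hq : U.testBit q = true) :
    tp z p • q = q ↔ tp z q • p = p := by
  rw [← C.comm_iff hq, ← C.comm_iff hp, eq_comm]

theorem fixer0 : fixer F [0] = Cx(z) := by
  ext g; rw [C.cz, mem_fixer, mem_stabilizer_iff]; simp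

theorem one {w : List ℕ} (h : chkFx nets m k bs w = true) : evw el w = 1 := C.base _ (Lvl.fx C.L h)

theorem ones {ws : List (List ℕ)} (h : ws.all (chkFx nets m k bs) = true) : ∀ w ∈ ws, evw el w = 1 :=
  fun w hw => C.one (List.all_eq_true.1 h w hw)

theorem okT {t : NP} (h : okT nets m k gp t = true) :
    U.testBit t.1 = true ∧ evw el (wT t) = tp z t.1 ∧ ∀ x ∈ wT t, x < k := by
  have h' := h
  simp only [Fi.okT, chkPt, Bool.and_eq_true, Nat.blt_eq] at h'
  have e := Lvl.pt C.L (show chkPt nets m k t.2.1 (lget gp 0 t.2.2) t.1 = true by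
    simp only [Fi.okT, Bool.and_eq_true] at h; exact h.2)
  have hu := allLt_sound h'.2.1.1
  obtain ⟨g1, g2⟩ := C.gen _ h'.1
  refine ⟨e ▸ C.smul_mem g1 _, ?_, fun x hx => ?_⟩
  · rw [← e, C.tp_smul g1, wT, evw_append, evw_cons, evw_reverse C.sq hu, g2, mul_assoc]
  · simp only [wT, List.mem_append, List.mem_cons, List.mem_reverse] at hx
    rcases hx with hx | rfl | hx
    exacts [hu x hx, h'.1, hu x hx]

theorem fixW {w : List ℕ} (hw : ∀ x ∈ w, x < k) (q : ℕ) :
    (fixW nets m K U w).testBit q = true ↔ U.testBit q = true ∧ evw el w • q = q := by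
  rw [Fi.fixW, testBit_dif, testBit_loop1]
  refine and_congr_right fun hq => ?_
  have hm := C.Um q hq
  have hb := (evw_bound C.L.ok w q).1 hm
  rw [C.L.word hw hm]
  have : ∀ j, (force (plane m K j) fun P => Nat.xor (appW nets w P) P).testBit q =
      ((plane m K j).testBit (evw (lp nets) w q) ^^ (plane m K j).testBit q) := fun j => by
    rw [force_eq, ← testBit_appW C.L.ok]; exact Nat.testBit_xor _ _ _
  simp only [this]
  constructor
  · intro h
    refine eq_of_planes C.mK hb hm fun j hj => ?_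
    by_contra hc
    exact h ⟨j, hj, by simpa using hc⟩
  · rintro e ⟨j, -, h⟩
    rw [e] at h
    simp at h

theorem fxT {t : NP} (h : Fi.okT nets m k gp t = true) (q : ℕ) :
    (fxT nets m K U t).testBit q = true ↔ U.testBit q = true ∧ tp z t.1 • q = q := by
  have h' := h
  simp only [Fi.okT, chkPt, Bool.and_eq_true, Nat.blt_eq] at h'
  have hu := allLt_sound h'.2.1.1
  have hr : ∀ x ∈ t.2.1.reverse, x < k := fun x hx => hu x (List.mem_reverse.1 hx)
  rw [Fi.fxT, force_eq, testBit_appW C.L.ok, C.fixW (by simpa using h'.1), ← (C.okT h).2.1, wT, evw_append,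
    evw_cons, evw_cons, evw_nil, mul_one, mul_smul, mul_smul]
  by_cases hm : q < m
  · rw [← C.L.word hr hm, evw_reverse C.sq hu]
    refine and_congr ⟨fun h1 => ?_, fun h1 => C.smul_mem h1 _⟩ eq_inv_smul_iff
    simpa using C.smul_mem h1 (evw el t.2.1)
  · rw [(evw_bound C.L.ok _ q).2 (by omega)]
    exact ⟨fun h1 => absurd (C.Um q h1.1) hm, fun h1 => absurd (C.Um q h1.1) hm⟩

theorem orbS {ws : List (List ℕ)} {fp st : List ℕ} {fuel S : ℕ} (h : chkOrb nets m K k ws fp st fuel S = true) :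
    OrbS F fp st S := by
  simp only [chkOrb, forceLL_eq, Bool.and_eq_true, List.all_eq_true, Nat.blt_eq, Nat.beq_eq, List.mem_map,
    forall_exists_index, and_imp, forall_apply_eq_imp_iff₂] at h
  obtain ⟨⟨⟨h1, h2⟩, h3⟩, h4, h5⟩ := h
  have e : ∀ w ∈ ws, ∀ i < m, imgP (plW nets m K w) i = evw el w • i := fun w hw i hi => by
    rw [imgP_plW C.L.ok C.mK w hi, C.L.word (allLt_sound (h1 w hw)) hi]
  intro q hq
  refine (bfs0_sound (Q := fun q => q < m ∧ ∃ g ∈ fixer F fp, ∃ p ∈ st, g • p = q) ?_ fuel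
    (fun p hp => ⟨h3 p hp, 1, one_mem _, p, hp, one_smul _ _⟩) q (subM_sound h5 hq)).2
  intro Ps hP q ⟨hq, g, hg, p, hp, e'⟩
  obtain ⟨w, hw, rfl⟩ := List.mem_map.1 hP
  refine ⟨by rw [imgP_plW C.L.ok C.mK w hq]; exact (evw_bound C.L.ok w q).1 hq, evw el w * g,
    mul_mem (fun b hb => by rw [← e w hw b (h2 b hb), h4 w hw b hb]) hg, p, hp, ?_⟩
  rw [e w hw q hq, mul_smul, e']

end Ctx

/-- points of `U` fixed by the transpositions `Cs`, moved by `Ns`, different from `Ex` -/
noncomputable def cand (nets : List Net) (m K U : ℕ) (Cs Ns : List NP) (Ex : List ℕ) : ℕ :=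
  dif (List.rec (List.rec U (fun t _ ih => Nat.land (fxT nets m K U t) ih) Cs)
    (fun t _ ih => force ih fun S => dif S (fxT nets m K U t)) Ns) (mskL Ex)

theorem Ctx.cand (C : Ctx m K nets k el z U bs gp) {Cs Ns : List NP} {Ex : List ℕ}
    (h1 : ∀ t ∈ Cs, Fi.okT nets m k gp t = true) (h2 : ∀ t ∈ Ns, Fi.okT nets m k gp t = true) (q : ℕ) :
    (cand nets m K U Cs Ns Ex).testBit q = true ↔
      U.testBit q = true ∧ (∀ t ∈ Cs, tp z t.1 • q = q) ∧ (∀ t ∈ Ns, tp z t.1 • q ≠ q) ∧ q ∉ Ex := by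
  rw [Fi.cand, testBit_dif, testBit_mskL, ← and_assoc, ← and_assoc]
  refine and_congr_left fun _ => ?_
  induction Ns with
  | nil =>
    simp only [List.not_mem_nil, false_imp_iff, implies_true, and_true]
    induction Cs with
    | nil => simp
    | cons t Cs ih =>
      dsimp only
      rw [testBit_land, ih fun t h => h1 t (List.mem_cons_of_mem _ h), C.fxT (h1 t List.mem_cons_self),
        List.forall_mem_cons]
      tauto
  | cons t Ns ih =>
    dsimp only
    rw [force_eq, testBit_dif, ih fun t h => h2 t (List.mem_cons_of_mem _ h), C.fxT (h2 t List.mem_cons_self),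
      List.forall_mem_cons]
    tauto

end

end CfH8.Fi
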