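import Cfsg.Agent.H8.F22C
import Cfsg.Agent.H8.F23S
import Cfsg.Agent.H6.D22O
import Cfsg.Agent.OD.Helper8x294a8d0e59
import Cfsg.Agent.OD.Helper8xc533fa89b6

/-! A perfect double cover of `Fi22` is the transposition centraliser of `Fi23`. -/

set_option autoImplicit false
set_option maxRecDepth 100000
set_option Elab.async false

namespace CfH8.Fi
open CfH6 CfH9 MulAction Subgroup

namespace F22
attribute [local instance] F22A.act

theorem noIdx (M : Subgroup F) (h : Ix2 Cx(z) M) (hz : z ∈ M) : Cx(z) ≤ M := by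
  have hK : ∀ x < 9, F22A.el1 x ∈ Cx(z) := fun x hx => hH (mem_gensub hx)
  have l : ∀ x < 9, ∀ y < 9, chkFx nets 4096 9 bs (subst F22A.ws1 [x, y, x, y, x, y]) = true →
      (F22A.el1 x ∈ M ↔ F22A.el1 y ∈ M) := fun x hx y hy e => by
    have := one e
    simp only [evw_subst, evw_cons, evw_nil, mul_one] at this
    refine ⟨h.link (hK x hx) (hK y hy) (by simpa only [mul_assoc] using this), h.link (hK y hy) (hK x hx) ?_⟩
    rw [mul_eq_one_comm] at this
    simpa only [mul_assoc] using this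
  have l12 := l 1 (by decide) 2 (by decide) (by decide +kernel)
  have l23 := l 2 (by decide) 3 (by decide) (by decide +kernel)
  have l34 := l 3 (by decide) 4 (by decide) (by decide +kernel)
  have l45 := l 4 (by decide) 5 (by decide) (by decide +kernel)
  have l26 := l 2 (by decide) 6 (by decide) (by decide +kernel)
  have l67 := l 6 (by decide) 7 (by decide) (by decide +kernel)
  have l48 := l 4 (by decide) 8 (by decide) (by decide +kernel)
  have al : ∀ x, 1 ≤ x → x < 9 → (F22A.el1 1 ∈ M ↔ F22A.el1 x ∈ M) := fun x h1 h2 => by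
    interval_cases x
    exacts [Iff.rfl, l12, l12.trans l23, (l12.trans l23).trans l34, ((l12.trans l23).trans l34).trans l45,
      l12.trans l26, (l12.trans l26).trans l67, ((l12.trans l23).trans l34).trans l48]
  have h1 : F22A.el1 1 ∈ M := by
    by_contra h1
    have := (h.word (ev := F22A.el1) (w := wpow [1, 2, 3, 4, 5, 6, 7] 9) fun x hx => by
      have : 1 ≤ x ∧ x < 9 := by revert x; decide +kernel
      exact ⟨hK _ this.2, fun e => h1 ((al x this.1 this.2).2 e)⟩).2
    rw [← evw_subst, one (by decide +kernel)] at this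
    exact absurd (this.1 M.one_mem) (by decide +kernel)
  rw [← hH']
  refine gensub_le fun x hx => ?_
  rcases Nat.eq_zero_or_pos x with rfl | h0
  · simpa [F22A.el1, byW, F22A.ws1] using hz
  · exact (al x h0 hx).1 h1

def TG : List NP := [(0, [], 0), (160, [], 1), (2975, [], 2), (2, [], 3), (20, [], 4), (105, [], 5), (126, [], 6),
  (26, [], 7), (104, [], 8)]
def H7 : List NP := [(0, [], 0), (2975, [], 2), (20, [], 4), (26, [], 7), (2984, [3, 7, 4, 3], 2),
  (2986, [1, 2, 3, 7, 4, 3, 2, 1], 0), (121, [5, 4, 3, 7, 2, 3, 4, 1, 2, 3, 7, 5, 4, 3, 2, 1], 0)]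
def sp : NP := (494, [5, 4, 2, 3, 7, 8, 3, 4, 2, 3, 7, 5, 4, 3, 2], 1)

theorem evw_wP {ts : List NP} (h : ts.all (okT nets 4096 9 gp) = true) :
    evw el (wP ts) = evw (tp z) (ts.map Prod.fst) := by
  induction ts with
  | nil => rfl
  | cons t ts ih =>
    simp only [List.all_cons, Bool.and_eq_true] at h
    rw [wP, List.flatMap_cons, evw_append, (ctx.okT h.1).2.1, List.map_cons, evw_cons, ← ih h.2, wP]

/-- lifts of the generators to a double cover -/
theorem lift {E : Type*} [Group E] {π : E →* F} {t : E} (h : Ext π t) (hs : Function.Surjective π) :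
    ∃ ev : ℕ → E, (∀ x < 9, π (ev x) = el x) ∧ (∀ x < 9, ev x * ev x = 1) ∧ ∀ r ∈ D22B.rels, evw ev r = 1 := by
  obtain ⟨a, ha⟩ := hs z
  have L : Lift z U π t 0 a := ⟨h, ctx.u0, ha.trans ctx.tp0.symm, h.cent
    (fun g hg => ha ▸ mem_Cx.1 (cz ▸ hg)) fun M h1 h2 => by
      rw [MonoidHom.range_eq_top.2 hs, top_inf_eq, ← cz] at h1 ⊢
      exact noIdx M h1 (h2 ⟨a, mem_Cx.2 rfl, ha⟩)⟩
  have O : ∀ t : NP, okT nets 4096 9 gp t = true → InO π 0 t.1 := fun t ht => by
    obtain ⟨g, e⟩ := ctx.ex (ctx.okT ht).1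
    obtain ⟨g, rfl⟩ := hs g
    exact ⟨g, e⟩
  have h7 : H7.all (okT nets 4096 9 gp) = true := by decide +kernel
  have a2 : a * a = 1 := L.a2 ctx (ps := H7.map Prod.fst) (y := 1) (fun p hp => by
      obtain ⟨t, ht, rfl⟩ := List.mem_map.1 hp
      exact O t (List.all_eq_true.1 h7 t ht))
    (fun p hp q hq => by
      obtain ⟨t, ht, rfl⟩ := List.mem_map.1 hp
      rw [← (ctx.okT (List.all_eq_true.1 h7 t ht)).2.1]
      exact Lvl.fx F22A.L0 (List.all_eq_true.1 (by decide +kernel : H7.all (fun t =>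
        chkFx nets 4096 9 (H7.map Prod.fst) (wT t)) = true) t ht) q hq)
    (by decide) (mul_one 1) (by rw [← evw_wP h7, map_one]; exact one (by decide +kernel))
  have hT : TG.all (okT nets 4096 9 gp) = true := by decide +kernel
  let ev := fun x => lam π 0 a (xp TG x)
  have hO : ∀ x < 9, InO π 0 (xp TG x) := fun x hx => O _ (List.all_eq_true.1 hT _ (lget_mem _ hx))
  have h1 : ∀ x < 9, π (ev x) = el x := fun x hx => by
    rw [L.map ctx (hO x hx), (ctx.gen x hx).2]; congr 1; interval_cases x <;> rfl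
  have h2 : ∀ x < 9, ev x * ev x = 1 := fun x hx => (L.sq ctx (hO x hx)).trans a2
  have h3 := L.cox ctx a2 (TG := TG) (fun t ht => ⟨List.all_eq_true.1 hT t ht, O t (List.all_eq_true.1 hT t ht)⟩)
    (rs := D22B.rels.take 36) (by decide +kernel)
  have pw : ∀ w : List ℕ, allLt 9 w = true → π (evw ev w) = evw el w := fun w hw => hom_evw h1 w (allLt_sound hw)
  have h4 : evw ev (wpow [3, 2, 1, 3, 4, 5, 3, 7, 8] 5 ++ wpow [3, 2, 1, 3, 4, 5, 3, 7, 8] 5) = 1 := by
    have hp : okT nets 4096 9 gp sp = true := by decide +kernel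
    rw [evw_append, h.sq (y := lam π 0 a sp.1) (by
      rw [pw _ (by decide +kernel), L.map ctx (O _ hp), ← (ctx.okT hp).2.1]
      exact ctx.eqW (by decide +kernel)), L.sq ctx (O _ hp), a2]
  have e : D22B.rels = D22B.rels.take 36 ++ [wpow [3, 2, 1, 3, 4, 5, 3, 7, 8] 5 ++
    wpow [3, 2, 1, 3, 4, 5, 3, 7, 8] 5, wpow [0, 1, 2, 3, 4, 5, 7] 9] := by decide +kernel
  rcases h.ker (evw ev (wpow [0, 1, 2, 3, 4, 5, 7] 9)) (by
    rw [pw _ (by decide +kernel)]; exact one (by decide +kernel)) with h5 | h5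
  · exact ⟨ev, h1, h2, e ▸ forall_app h3 (forall_cons h4 (forall_cons h5 forall_nil))⟩
  · have tw : ∀ w : List ℕ, evw (fun x => ev x * t) w = evw ev w * t ^ (w.length % 2) := fun w => by
      rw [evw_twist ev w fun x _ => h.cen _, ← Nat.div_add_mod w.length 2, pow_add, pow_mul, pow_two, h.t2, one_pow,
        one_mul, Nat.div_add_mod]
    refine ⟨fun x => ev x * t, fun x hx => by rw [map_mul, h1 x hx, h.pt, mul_one],
      fun x hx => (h.sq (by rw [map_mul, h.pt, mul_one])).trans (h2 x hx),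
      e ▸ forall_app (fun r hr => ?_) (forall_cons ?_ (forall_cons ?_ forall_nil))⟩
    · rw [tw, h3 r hr, Nat.eq_of_beq_eq_true (List.all_eq_true.1 (by decide +kernel :
        (D22B.rels.take 36).all (fun r => Nat.beq (r.length % 2) 0) = true) r hr), pow_zero, mul_one]
    · rw [tw, h4, show (wpow [3, 2, 1, 3, 4, 5, 3, 7, 8] 5 ++ wpow [3, 2, 1, 3, 4, 5, 3, 7, 8] 5).length % 2 = 0 by
        decide +kernel, pow_zero, mul_one]
    · rw [tw, h5, show (wpow [0, 1, 2, 3, 4, 5, 7] 9).length % 2 = 1 by decide +kernel, pow_one, h.t2]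

end F22

namespace F23
attribute [local instance] F23A.act

theorem dinv {Γ : Type*} [Group Γ] {ev : ℕ → Γ} (h : ∀ x < 9, ev x * ev x = 1) :
    ∀ x < 9, ev (D22B.il.getD x 0) = (ev x)⁻¹ := fun x hx => by
  rw [show D22B.il.getD x 0 = x by interval_cases x <;> rfl, inv_of_sq (h x hx)]

theorem hH' : F23A.H = Cx(z) := F23G.stab.1.trans cz.symm

def zP : List ℕ := wpow [1, 2, 3, 4, 5, 6, 7] 9

theorem exρ : ∃ ρ : D22B.G →* F, Function.Injective ρ ∧ ρ.range = Cx(z) ∧ (∀ x < 9, ρ (D22B.el x) = F23A.el1 x) ∧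
    ρ (evw D22B.el zP) = z := by
  obtain ⟨ρ, hρ⟩ := D22B.hhom (byW F23B.el F23A.ws1)
    (byW_inv F23B.el (n := 4) F23B.hinv F23B.hrel (by decide +kernel))
    (byW_rels F23B.el (n := 4) F23B.hinv F23B.hrel (by decide +kernel))
  refine ⟨ρ, equiv_of_card hρ D22B.htop D22O.finG (by rw [← cardH, ← hH']), (range_hom hρ D22B.htop).trans hH',
    hρ, ?_⟩
  rw [hom_evw hρ _ (allLt_sound (by decide +kernel)), ← evw_subst]
  exact congrArg _ (by decide +kernel)

theorem z1 : z ≠ 1 := pat.z1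

theorem emb {G : Type*} [Group G] [Finite G] {d : G} (hp : commutator Cx(d) = ⊤) {π : Cx(d) →* F22.F}
    (h : Ext π ⟨d, mem_Cx.2 rfl⟩) (hs : Function.Surjective π) (hc : Nat.card Cx(d) = 129123503308800) :
    ∃ φ : Cx(z) →* G, Emb z d φ := by
  obtain ⟨ev, h1, h2, h3⟩ := F22.lift h hs
  obtain ⟨τ, hτ⟩ := D22B.hhom ev (dinv h2) h3
  obtain ⟨ρ, r1, r2, r3, r4⟩ := exρ
  have := D22O.finG.1
  have s := surj_of_gens (ψ := π.comp τ) (fun x hx => by rw [MonoidHom.comp_apply, hτ x hx, h1 x hx])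
    D22B.htop F22B.htop
  have top : τ.range = ⊤ := top_of_perfect hp h.cen fun g => by
    obtain ⟨p, e⟩ := s (π g)
    exact (h.eq e).imp (fun e => ⟨p, e⟩) fun e => ⟨p, e⟩
  have i : Function.Injective τ :=
    (Function.Surjective.bijective_of_nat_card_le (MonoidHom.range_eq_top.1 top) (hc ▸ D22O.finG.2)).1
  obtain ⟨φ, hφ, -⟩ := emb_of (d := d) (τ := (Subgroup.subtype _).comp τ) r1 r2 (Subtype.val_injective.comp i)
    (by rw [MonoidHom.range_comp, top, ← MonoidHom.range_eq_map, range_subtype]) r4 (by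
      rcases h.ker (τ (evw D22B.el zP)) (by
        rw [hom_evw hτ _ (allLt_sound (by decide +kernel)), hom_evw h1 _ (allLt_sound (by decide +kernel))]
        exact F22.one (by decide +kernel)) with e | e
      · exact absurd (by rw [← r4, i (e.trans τ.map_one.symm), map_one]) z1
      · exact congrArg Subtype.val e)
  exact ⟨φ, hφ⟩

/-- the outer automorphism -/
theorem twist {G : Type*} [Group G] {d : G} {φ : Cx(z) →* G} (h : Emb z d φ) :
    ∃ φ' : Cx(z) →* G, Emb z d φ' ∧ ext φ' (el 0) = ext φ (el 6 * z) := by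
  obtain ⟨ρ, r1, r2, r3, r4⟩ := exρ
  have := D22O.finG.1
  let σ : List (List ℕ) := [[6], [5], [4], [3], [2], [1], [0], [8], [9]]
  have hm : ∀ x, byW el σ x ∈ Cx(z) := fun x => by
    by_cases hx : x < 9
    · rw [← ctx.fixer0]
      exact Lvl.fx F23A.L0 (allN_sound (by decide +kernel :
        allN (fun x => chkFx nets 32768 10 [0] (σ.getD x [])) 9 = true) x hx)
    · rw [byW, List.getD_eq_default _ _ (by simpa [σ] using hx)]; exact one_mem _
  have tw : ∀ w : List ℕ, evw (fun x => byW el σ x * z) w = evw el (subst σ w ++ wpow zw (w.length % 2)) :=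
    fun w => by
      rw [evw_twist _ w fun x _ => mem_Cx.1 (hm x), evw_append, evw_subst, evw_wpow,
        ← Nat.div_add_mod w.length 2, pow_add, pow_mul, pow_two, z2, one_pow, one_mul, Nat.div_add_mod]
      rfl
  obtain ⟨θ, hθ⟩ := D22B.hhom (fun x => byW el σ x * z) (dinv fun x hx => by
      have := tw [x, x]
      simp only [evw_cons, evw_nil, mul_one] at this
      exact this.trans (one (allN_sound (by decide +kernel : allN (fun x => chkFx nets 32768 10 bs
        (subst σ [x, x] ++ wpow zw ([x, x].length % 2))) 9 = true) x hx)))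
    fun r hr => (tw r).trans (one (List.all_eq_true.1 (by decide +kernel : D22B.rels.all (fun w =>
      chkFx nets 32768 10 bs (subst σ w ++ wpow zw (w.length % 2))) = true) r hr))
  have tz : θ (evw D22B.el zP) = z := by
    rw [hom_evw hθ _ (allLt_sound (by decide +kernel)), tw]
    exact ctx.eqW (by decide +kernel)
  have zK : z ∈ Cx(z) := mem_Cx.2 rfl
  have rg : θ.range = Cx(z) := by
    refine le_antisymm ((range_hom hθ D22B.htop).trans_le (gensub_le fun x _ => mul_mem (hm x) zK)) ?_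
    have : ∀ x < 9, byW el σ x ∈ θ.range := fun x hx =>
      (θ.range.mul_mem_cancel_right ⟨_, tz⟩).1 ⟨_, hθ x hx⟩
    rw [← hH']
    refine gensub_le fun x hx => ?_
    interval_cases x
    exacts [this 6 (by decide), this 5 (by decide), this 4 (by decide), this 3 (by decide), this 2 (by decide),
      this 1 (by decide), this 0 (by decide), this 7 (by decide), this 8 (by decide)]
  have ti := equiv_of_card hθ D22B.htop D22O.finG (by rw [← range_hom hθ D22B.htop, rg, cardH])
  let τ := φ.comp (θ.codRestrict Cx(z) fun p => rg ▸ ⟨p, rfl⟩)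
  have hτ : ∀ p, τ p = ext φ (θ p) := fun p => (ext_mem φ _).symm
  obtain ⟨φ', hφ, e⟩ := emb_of (d := d) (τ := τ) r1 r2
    (h.inj.comp fun a b e => ti (congrArg Subtype.val e)) (by
      rw [← h.rng]
      ext g
      refine ⟨fun ⟨p, e⟩ => ⟨_, e⟩, fun ⟨y, e⟩ => ?_⟩
      obtain ⟨p, hp⟩ : (y : F) ∈ θ.range := rg.ge y.2
      exact ⟨p, by rw [hτ, hp, ext_mem φ y.2, e]⟩) r4 (by rw [hτ, tz, h.zd])
  refine ⟨φ', hφ, ?_⟩
  have := e (D22B.el 0)
  rw [r3 0 (by decide), hτ, hθ 0 (by decide)] at this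
  simpa [F23A.el1, byW, F23A.ws1, σ] using this

end F23

end CfH8.Fi
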