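import Cfsg.Agent.H8.F23R
import Cfsg.Agent.OD.Helper8xb673d4f143

/-! Recognition of `Fi23` from the centraliser of a transposition. -/

set_option autoImplicit false
set_option maxRecDepth 100000
set_option Elab.async false

namespace CfH8.Fi
open CfH6 CfH9 MulAction Subgroup

universe u

section
variable {F G : Type*} [Group F] [Group G] {K : Subgroup F}

/-- elements whose image commutes with `j` -/
def cmS (φ : K →* G) (j : G) : Subgroup F := (Cx(j).comap φ).map K.subtype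

theorem mem_cmS {φ : K →* G} {j : G} {y : F} : y ∈ cmS φ j ↔ y ∈ K ∧ ext φ y * j = j * ext φ y :=
  ⟨by rintro ⟨x, hx, rfl⟩; exact ⟨x.2, by rw [coe_subtype, ext_mem φ x.2]; exact mem_Cx.1 hx⟩,
    fun ⟨h1, h2⟩ => ⟨⟨y, h1⟩, mem_Cx.2 (by rwa [ext_mem φ h1] at h2), rfl⟩⟩

theorem cmS_conj {φ : K →* G} {j : G} {y n : F} (hn : n ∈ K) (h : y ∈ cmS φ j) :
    n * y * n⁻¹ ∈ cmS φ (ext φ n * j * (ext φ n)⁻¹) := by
  rw [mem_cmS] at h ⊢
  exact ⟨mul_mem (mul_mem hn h.1) (inv_mem hn), by rw [ext_conj φ hn h.1, conj_mul, conj_mul, h.2]⟩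

theorem hom_univ {P : Type} [Group P] {el : ℕ → P} {n : ℕ} {il : List ℕ} {rels : List (List ℕ)}
    (hh : ∀ {Γ : Type} [Group Γ] (ev : ℕ → Γ), (∀ x < n, ev (il.getD x 0) = (ev x)⁻¹) →
      (∀ r ∈ rels, evw ev r = 1) → ∃ ρ : P →* Γ, ∀ x < n, ρ (el x) = ev x) [Finite G] (ev : ℕ → G)
    (h1 : ∀ x < n, ev (il.getD x 0) = (ev x)⁻¹) (h2 : ∀ r ∈ rels, evw ev r = 1) :
    ∃ ρ : P →* G, ∀ x < n, ρ (el x) = ev x := by
  let e : Shrink.{0} G ≃* G := Shrink.mulEquiv
  obtain ⟨ρ, hρ⟩ := hh (fun x => e.symm (ev x)) (fun x hx => by rw [h1 x hx, map_inv])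
    fun r hr => (map_evw e.symm.toMonoidHom ev r).symm.trans (by rw [h2 r hr, map_one])
  exact ⟨e.toMonoidHom.comp ρ, fun x hx => by simp [hρ x hx]⟩

theorem agree {φ : K →* G} {ψ : F →* G} {ev : ℕ → F} {n : ℕ} (hK : gensub ev n = K)
    (h : ∀ x < n, ψ (ev x) = ext φ (ev x)) : ∀ y ∈ K, ψ y = ext φ y := by
  intro y hy
  have : K ≤ (φ.eqLocus (ψ.comp K.subtype)).map K.subtype := hK.ge.trans (gensub_le fun x hx =>
    ⟨⟨ev x, hK.le (mem_gensub hx)⟩, ((h x hx).trans (ext_mem φ _)).symm, rfl⟩)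
  obtain ⟨x, hx, rfl⟩ := this hy
  exact (show φ x = ψ x from hx).symm.trans (ext_mem φ x.2).symm
end

namespace F23
attribute [local instance] F23A.act
variable {G : Type u} [Group G] [Finite G] {d : G} {φ : Cx(z) →* G}

theorem a0 : tp z 179 ≠ z := fun e => absurd (ctx.tp_inj u179 ctx.u0 (e.trans ctx.tp0.symm)) (by decide)
theorem aH : tp z 179 ∈ Cx(z) := ι2 ▸ ιH 2

theorem ho (q : ℕ) (hq : U.testBit q = true) (h : tp z q ∈ Cx(z)) (h0 : q ≠ 0) : ∃ g ∈ Cx(z), g • 179 = q :=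
  ctx.fixer0 ▸ o1.one ((ctx.cand (forall_cons (okX 0 (by decide)) forall_nil) forall_nil q).2
    ⟨hq, forall_cons (fx0 hq (mem_Cx.1 h)) forall_nil, forall_nil, by simpa using h0⟩)

theorem dc (h : Emb z d φ) (ha : IsConj d (ext φ (tp z 179))) : DC z U d φ := by
  obtain ⟨m, hm, e⟩ := classify h.inj (h.zd.symm ▸ h.rng)
  rw [h.zd] at e
  have c := (e _ aH ha).resolve_left a0
  have h2 : IsConj z (ι m) := (ctx.isConj u179).trans c.isConj.symm
  intro g hg hc
  obtain ⟨y, hy, rfl⟩ := (mem_range_ext φ).1 (h.rng.ge hg)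
  obtain ⟨q, h3, rfl⟩ := ctx.of_conj (y := y) ((e y hy hc).elim (fun e => e ▸ IsConj.refl _)
    fun e => h2.trans e.isConj)
  exact ⟨q, h3, hy, rfl⟩

theorem elH {x : ℕ} (hx : x < 10) (h7 : x ≠ 7) : el x ∈ Cx(z) := by
  have : ∀ y < 9, F23A.el1 y ∈ Cx(z) := fun y hy => hH (mem_gensub hy)
  interval_cases x
  all_goals first | exact absurd rfl h7 | skip
  exacts [by simpa [F23A.el1, byW, F23A.ws1] using this 0 (by decide),
    by simpa [F23A.el1, byW, F23A.ws1] using this 1 (by decide),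
    by simpa [F23A.el1, byW, F23A.ws1] using this 2 (by decide),
    by simpa [F23A.el1, byW, F23A.ws1] using this 3 (by decide),
    by simpa [F23A.el1, byW, F23A.ws1] using this 4 (by decide),
    by simpa [F23A.el1, byW, F23A.ws1] using this 5 (by decide),
    by simpa [F23A.el1, byW, F23A.ws1] using this 6 (by decide),
    by simpa [F23A.el1, byW, F23A.ws1] using this 7 (by decide),
    by simpa [F23A.el1, byW, F23A.ws1] using this 8 (by decide)]

theorem g (x : ℕ) (hx : x < 10) : el x = tp z (lget gp 0 x) := (ctx.gen x hx).2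
theorem gU (x : ℕ) (hx : x < 10) : U.testBit (lget gp 0 x) = true := (ctx.gen x hx).1

theorem exists_dc (h : Emb z d φ) (hn : ∃ g : G, g * d * g⁻¹ ∈ Cx(d) ∧ g * d * g⁻¹ ≠ d) :
    ∃ φ : Cx(z) →* G, Emb z d φ ∧ IsConj d (ext φ (tp z 179)) := by
  obtain ⟨m, hm, e⟩ := classify h.inj (h.zd.symm ▸ h.rng)
  rw [h.zd] at e
  obtain ⟨x, h1, h2⟩ := hn
  obtain ⟨y, hy, e1⟩ := (mem_range_ext φ).1 (h.rng.ge h1)
  have c : IsConj d (ext φ y) := isConj_iff.2 ⟨x, e1.symm⟩
  have c2 := c.trans (((e y hy c).resolve_left fun e2 => h2 (by rw [← e1, e2, h.zd])).ext φ (ιH m)).isConj.symm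
  simp only [List.mem_cons, List.not_mem_nil, or_false] at hm
  rcases hm with rfl | rfl
  · exact ⟨φ, h, ι2 ▸ c2⟩
  · obtain ⟨φ', h', e'⟩ := twist h
    refine ⟨φ', h', ?_⟩
    rw [← el0, e']
    obtain ⟨k, hk, e3⟩ := ho _ (gU 6 (by decide)) (g 6 (by decide) ▸ elH (by decide) (by decide)) (by decide)
    refine c2.trans (C0.isConj (C0.ext φ ⟨k, hk, ?_⟩ (ιH 3)))
    rw [g 6 (by decide), ← e3, ctx.tp_smul u179, ι3, ← mem_Cx.1 aH, ← conj_mul, mem_Cx'.1 hk]

def nW : List ℕ := [0, 1, 0, 2, 1, 0, 3, 2, 1, 0, 4, 3, 2, 1, 0, 5, 4, 3, 2, 1, 0]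

theorem exists_j (h : Emb z d φ) (hD : DC z U d φ) (ha : IsConj d (ext φ (tp z 179))) :
    ∃ j : G, j * j = 1 ∧ (∀ x ∈ [0, 1, 2, 3, 4, 5, 8, 9], el x ∈ cmS φ j) ∧
      ext φ (el 6) * j * ext φ (el 6) = j * ext φ (el 6) * j := by
  have P := ctx.pq cPQ
  have zK : z ∈ Cx(z) := mem_Cx.2 rfl
  have hp : ∀ i < 10, tp z (xp SRC i) ∈ Cx(z) ∧ tp z (xp SRC i) ∈ Cx(tp z 179) := fun i hi => by
    have := allN_sound (by decide +kernel : allN (fun i => PAT.testBit (0 * 10 + i) && PAT.testBit (1 * 10 + i)) 10 =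
      true) i hi
    rw [Bool.and_eq_true, ← P.pat 0 (by decide) i hi, ← P.pat 1 (by decide) i hi, ← ctx.comm_iff (P.u i hi),
      ← ctx.comm_iff (P.u i hi)] at this
    have t1 := this.1
    rw [show xp SRC 0 = 0 from rfl, ctx.tp0] at t1
    exact ⟨mem_Cx.2 t1.symm, mem_Cx.2 this.2.symm⟩
  obtain ⟨s, fl, hfl, hs⟩ := swap_tuple ctx h hD u179 aH (by decide) ha ho P (by decide) rfl rfl hp rfl rfl cBT
  have bU : U.testBit 378 = true := gU 1 (by decide)
  have g1 : el 1 = tp z 378 := g 1 (by decide)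
  have bH : tp z 378 ∈ Cx(z) := g 1 (by decide) ▸ elH (by decide) (by decide)
  have hb : ∀ i < 10, 1 ≤ i → el 1 • lget fl 0 i = lget fl 0 i := fun i hi h1 => by
    have := Lvl.fx F23A.L0 (w := [1]) (bs := fl.tail) (List.all_eq_true.1 (by decide +kernel :
      FIN.all (fun fl => chkFx nets 32768 10 fl.tail [1]) = true) fl hfl)
    rw [evw_cons, evw_nil, mul_one] at this
    refine this _ ?_
    obtain ⟨i, rfl⟩ := Nat.exists_eq_add_of_le' h1
    simp only [FIN, List.mem_cons, List.not_mem_nil, or_false] at hfl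
    rcases hfl with rfl | rfl <;> exact lget_mem (l := List.tail _) 0 (show i < 9 by omega)
  have fU : ∀ i < 10, U.testBit (lget fl 0 i) = true := fun i hi =>
    allN_sound (List.all_eq_true.1 (by decide +kernel :
      FIN.all (fun fl => allN (fun i => U.testBit (lget fl 0 i)) 10) = true) fl hfl) i hi
  have f0 : lget fl 0 0 = 179 ∧ lget fl 0 1 = 0 ∧ lget fl 0 3 = 379 ∧ lget fl 0 4 = 369 ∧ lget fl 0 5 = 367 ∧
      lget fl 0 6 = 91 ∧ lget fl 0 9 = 242 ∧ (lget fl 0 8 = 28661 ∨ lget fl 0 8 = 116) := by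
    simp only [FIN, List.mem_cons, List.not_mem_nil, or_false] at hfl
    rcases hfl with rfl | rfl <;> decide
  obtain ⟨f0, f1, f3, f4, f5, f6, f9, f8⟩ := f0
  set j := s⁻¹ * ext φ (tp z 378) * s with hj
  have sj : s * j * s⁻¹ = ext φ (tp z 378) := by rw [hj]; group
  have s0 : s * d * s⁻¹ = ext φ (tp z 179) := by
    have := (hs 0 (by decide)).2
    rwa [f0, show xp SRC 0 = 0 from rfl, ctx.tp0, h.zd] at this
  have s1 : s * ext φ (tp z 179) * s⁻¹ = d := by
    have := (hs 1 (by decide)).2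
    rwa [f1, ctx.tp0, h.zd] at this
  have cj : ∀ {a b : G}, s * a * s⁻¹ * (s * b * s⁻¹) = s * b * s⁻¹ * (s * a * s⁻¹) ↔ a * b = b * a := fun {a b} => by
    rw [conj_mul, conj_mul, mul_left_inj, mul_right_inj]
  have J : ∀ i < 10, 1 ≤ i → tp z (xp SRC i) ∈ cmS φ j := fun i hi h1 => mem_cmS.2 ⟨(hp i hi).1, by
    rw [← cj, sj, (hs i hi).2, ext_comm h.inj (hs i hi).1 bH, eq_comm, ctx.comm_iff (fU i hi)]
    exact g 1 (by decide) ▸ hb i hi h1⟩
  have jd : j * d ≠ d * j := fun e => by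
    rw [← cj, sj, s0, ext_comm h.inj bH aH, ctx.comm_iff u179] at e
    refine Lvl.mv F23A.L0 (w := [1]) (b := 179) (by decide +kernel) ?_
    rw [evw_cons, evw_nil, mul_one]; exact (congrArg (· • 179) g1).trans e
  have dj : IsConj d j := by
    obtain ⟨k, hk, e⟩ := ho 378 bU bH (by decide)
    refine (ha.trans ?_).trans (isConj_iff.2 ⟨s⁻¹, by rw [inv_inv]⟩)
    rw [← e, ctx.tp_smul u179, ext_conj φ hk aH]
    exact isConj_iff.2 ⟨_, rfl⟩
  have j2 : j * j = 1 := by
    rw [← mul_left_cancel_iff (a := s), ← mul_right_cancel_iff (a := s⁻¹), ← conj_mul, sj, ← ext_mul φ bH bH,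
      ctx.tp_sq bU, ext_one]; simp
  have J0 : el 0 ∈ cmS φ j := el0 ▸ J 1 (by decide) (by decide)
  have J2 : el 2 ∈ cmS φ j := g 2 (by decide) ▸ J 2 (by decide) (by decide)
  have J3 : el 3 ∈ cmS φ j := g 3 (by decide) ▸ J 3 (by decide) (by decide)
  have J4 : el 4 ∈ cmS φ j := g 4 (by decide) ▸ J 4 (by decide) (by decide)
  have J5 : el 5 ∈ cmS φ j := g 5 (by decide) ▸ J 5 (by decide) (by decide)
  have J8 : el 8 ∈ cmS φ j := g 8 (by decide) ▸ J 6 (by decide) (by decide)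
  have J9 : el 9 ∈ cmS φ j := g 9 (by decide) ▸ J 9 (by decide) (by decide)
  -- `j` commutes with `b`
  have J1 : el 1 ∈ cmS φ j := by
    have nH : evw el nW ∈ Cx(z) := ctx.fixer0 ▸ Lvl.fx F23A.L0 (by decide +kernel)
    set j' := ext φ (evw el nW) * j * (ext φ (evw el nW))⁻¹ with hj'
    have mv : ∀ (w : List ℕ) (i q : ℕ), i < 10 → 1 ≤ i → (∀ x ∈ w, el x ∈ cmS φ j) →
        chkPt nets 32768 10 (nW ++ w) (xp SRC i) q = true → tp z q ∈ cmS φ j' := fun w i q hi h1 hw e => by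
      rw [← Lvl.pt F23A.L0 e, evw_append, mul_smul, ctx.tp_smul (ctx.smul_mem (P.u i hi) _), ctx.tp_smul (P.u i hi)]
      have : evw el w ∈ cmS φ j := Subgroup.list_prod_mem _ fun y hy => by
        obtain ⟨x, hx, rfl⟩ := List.mem_map.1 hy
        exact hw x hx
      exact cmS_conj nH (mul_mem (mul_mem this (J i hi h1)) (inv_mem this))
    have m1 := mv [] 5 179 (by decide) (by decide) forall_nil (by decide +kernel)
    have m2 := mv [] 4 378 (by decide) (by decide) forall_nil (by decide +kernel)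
    have m3 := mv [] 9 242 (by decide) (by decide) forall_nil (by decide +kernel)
    have m4 := mv [] 2 367 (by decide) (by decide) forall_nil (by decide +kernel)
    have m5 := mv [2, 3, 4, 5] 8 116 (by decide) (by decide)
      (forall_cons J2 (forall_cons J3 (forall_cons J4 (forall_cons J5 forall_nil)))) (by decide +kernel)
    have m6 := mv [3] 6 258 (by decide) (by decide) (forall_cons J3 forall_nil) (by decide +kernel)
    obtain ⟨q, q1, q2, q3⟩ := hD (s * j' * s⁻¹) (by rw [mem_Cx, ← s1, cj]; exact (mem_cmS.1 m1).2.symm)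
      ((dj.trans (isConj_iff.2 ⟨_, rfl⟩)).trans (isConj_iff.2 ⟨s, rfl⟩))
    have fx : ∀ {p p' : ℕ}, tp z p ∈ cmS φ j' → tp z p' ∈ Cx(z) → s * ext φ (tp z p) * s⁻¹ = ext φ (tp z p') →
        tp z p' • q = q := fun {p p'} h1 h2 h3 => by
      rw [← ctx.comm_iff q1, ← ext_comm h.inj h2 q2, q3, ← h3, cj]; exact (mem_cmS.1 h1).2
    have x3 := fx m3 (hs 9 (by decide)).1 (hs 9 (by decide)).2
    have x4 := fx m4 (hs 3 (by decide)).1 (hs 3 (by decide)).2
    have x5 := fx m5 (hs 6 (by decide)).1 (hs 6 (by decide)).2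
    have x6 : tp z (evw el [5, 4, 3] • lget fl 0 8) • q = q := by
      have a3 := hs 3 (by decide)
      have a4 := hs 4 (by decide)
      have a5 := hs 5 (by decide)
      have a8 := hs 8 (by decide)
      have e1 : evw el [5, 4, 3] = tp z (lget fl 0 3) * (tp z (lget fl 0 4) * tp z (lget fl 0 5)) := by
        rw [f3, f4, f5, evw_cons, evw_cons, evw_cons, evw_nil, mul_one, g 5 (by decide), g 4 (by decide),
          g 3 (by decide)]; rfl
      have e2 : evw el [3, 4, 5] = tp z (xp SRC 3) * (tp z (xp SRC 4) * tp z (xp SRC 5)) := by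
        rw [evw_cons, evw_cons, evw_cons, evw_nil, mul_one, g 5 (by decide), g 4 (by decide), g 3 (by decide)]; rfl
      have k1 : evw el [5, 4, 3] ∈ Cx(z) := e1 ▸ mul_mem a3.1 (mul_mem a4.1 a5.1)
      have k2 : evw el [3, 4, 5] ∈ Cx(z) := ctx.fixer0 ▸ Lvl.fx F23A.L0 (by decide +kernel)
      refine fx m6 (by rw [ctx.tp_smul (fU 8 (by decide))]; exact mul_mem (mul_mem k1 a8.1) (inv_mem k1)) ?_
      rw [← Lvl.pt F23A.L0 (w := [3, 4, 5]) (b := xp SRC 8) (c := 258) (by decide +kernel),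
        ctx.tp_smul (P.u 8 (by decide)), ctx.tp_smul (fU 8 (by decide)), ext_conj φ k1 a8.1,
        ext_conj φ k2 (hp 8 (by decide)).1, ← a8.2, e1, e2, ext_mul φ a3.1 (mul_mem a4.1 a5.1), ext_mul φ a4.1 a5.1,
        ext_mul φ (hp 3 (by decide)).1 (mul_mem (hp 4 (by decide)).1 (hp 5 (by decide)).1),
        ext_mul φ (hp 4 (by decide)).1 (hp 5 (by decide)).1, ← a3.2, ← a4.2, ← a5.2]
      group
    have x0 : tp z 179 • q ≠ q := fun e => by
      rw [← ctx.comm_iff q1, ← ext_comm h.inj aH q2, q3, ← s0, cj, hj', ← mem_Cx'.1 (h.rng.le (ext_range φ nH)),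
        conj_mul, conj_mul, mul_left_inj, mul_right_inj] at e
      exact jd e.symm
    rw [f9] at x3
    rw [f3] at x4
    rw [f6] at x5
    have ok : ∀ i < 10, okT nets 32768 10 gp (xn SRC i) = true := allN_sound (by decide +kernel)
    have key : ∀ t : NP, okT nets 32768 10 gp t = true → tp z t.1 • q = q →
        subM (cand nets 32768 15 U [xn SRC 0, xn SRC 9, xn SRC 7, xn SRC 5, t] [xn SRC 1] []) (mskL [192, 378]) =
          true → q = 192 ∨ q = 378 := fun t h1 h2 h3 => by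
      simpa [testBit_mskL] using subM_sound h3 ((ctx.cand (forall_cons (ok 0 (by decide)) (forall_cons
        (ok 9 (by decide)) (forall_cons (ok 7 (by decide)) (forall_cons (ok 5 (by decide)) (forall_cons h1
        forall_nil))))) (forall_cons (ok 1 (by decide)) forall_nil) q).2 ⟨q1, forall_cons (fx0 q1 (mem_Cx.1 q2))
        (forall_cons x3 (forall_cons x5 (forall_cons x4 (forall_cons h2 forall_nil)))), forall_cons x0 forall_nil,
        by simp⟩)
    have hq : q = 192 ∨ q = 378 := by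
      rcases f8 with f8 | f8 <;> rw [f8] at x6
      · rw [Lvl.pt F23A.L0 (c := 28723) (by decide +kernel)] at x6
        exact key tJ1 (by decide +kernel) x6 cJ1
      · rw [Lvl.pt F23A.L0 (c := 107) (by decide +kernel)] at x6
        exact key tJ2 (by decide +kernel) x6 cJ2
    rw [g1, mem_cmS]
    have c := (mem_cmS.1 m2).2
    refine ⟨bH, ?_⟩
    rcases hq with rfl | rfl
    · have e : evw el [0] • 378 = 192 := Lvl.pt F23A.L0 (by decide +kernel)
      rw [evw_cons, evw_nil, mul_one, el0] at e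
      rw [← e, ctx.tp_smul bU, ext_conj φ aH bH, ← s0, ← sj] at q3
      have q4 : d * j * d⁻¹ = j' := by
        rw [← mul_left_cancel_iff (a := s), ← mul_right_cancel_iff (a := s⁻¹), ← q3]; group
      have q5 : ext φ (tp z 378) * d = d * ext φ (tp z 378) := mem_Cx.1 (h.rng.le (ext_range φ bH))
      rw [← q4] at c
      rw [← mul_left_cancel_iff (a := d), ← mul_right_cancel_iff (a := d⁻¹)]
      calc _ = d * ext φ (tp z 378) * j * d⁻¹ := by group
        _ = ext φ (tp z 378) * (d * j * d⁻¹) := by rw [← q5]; group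
        _ = d * j * (d⁻¹ * ext φ (tp z 378) * d) * d⁻¹ := by rw [c]; group
        _ = _ := by rw [mul_assoc d⁻¹, q5]; group
    · rw [← sj, mul_left_inj, mul_right_inj] at q3
      exact q3 ▸ c
  have JJ : ∀ x ∈ [0, 1, 2, 3, 4, 5, 8, 9], el x ∈ cmS φ j := forall_cons J0 (forall_cons J1 (forall_cons J2
    (forall_cons J3 (forall_cons J4 (forall_cons J5 (forall_cons J8 (forall_cons J9 forall_nil)))))))
  refine ⟨j, j2, JJ, ?_⟩
  have gH : el 6 ∈ Cx(z) := elH (by decide) (by decide)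
  obtain ⟨q, q1, q2, q3⟩ := hD (s * ext φ (el 6) * s⁻¹) (by
    rw [mem_Cx, ← s1, cj, ext_comm h.inj gH aH, ctx.comm_iff u179]
    simpa using Lvl.pt F23A.L0 (w := [6]) (b := 179) (c := 179) (by decide +kernel)) (by
    obtain ⟨k, hk, e⟩ := ho _ (gU 6 (by decide)) (g 6 (by decide) ▸ gH) (by decide)
    refine (ha.trans ?_).trans (isConj_iff.2 ⟨s, rfl⟩)
    rw [g 6 (by decide), ← e, ctx.tp_smul u179, ext_conj φ hk aH]
    exact isConj_iff.2 ⟨_, rfl⟩)
  rcases tr3 (ctx.isConj q1) (ctx.isConj bU) with e | e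
  · exfalso
    rw [← ext_comm h.inj q2 bH, q3, ← sj, cj] at e
    have : Cx(z) ≤ cmS φ j := hH'.ge.trans (gensub_le fun x hx => by
      have J6 : el 6 ∈ cmS φ j := mem_cmS.2 ⟨gH, e⟩
      interval_cases x <;> simpa [F23A.el1, byW, F23A.ws1])
    exact jd (h.zd ▸ (mem_cmS.1 (this zK)).2.symm)
  · have := congrArg (ext φ) e
    rwa [ext_mul φ (mul_mem q2 bH) q2, ext_mul φ (mul_mem bH q2) bH, ext_mul φ q2 bH, ext_mul φ bH q2, q3, ← sj,
      conj_mul, conj_mul, conj_mul, conj_mul, mul_left_inj, mul_right_inj] at this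

theorem main (h : Emb z d φ) (hn : ∃ g : G, g * d * g⁻¹ ∈ Cx(d) ∧ g * d * g⁻¹ ≠ d) : Nonempty (G ≃* F) := by
  obtain ⟨φ, h, ha⟩ := exists_dc h hn
  have hD := dc h ha
  obtain ⟨j, j2, J, jb⟩ := exists_j h hD ha
  let ev : ℕ → G := fun x => if x = 7 then j else ext φ (el x)
  have e2 : ∀ x < 10, ev x * ev x = 1 := fun x hx => by
    by_cases h7 : x = 7
    · simp only [ev, h7, if_true, j2]
    · simp only [ev, h7, if_false]; rw [← ext_mul φ (elH hx h7) (elH hx h7), sq x hx, ext_one]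
  have c : ∀ x ∈ [0, 1, 2, 3, 4, 5, 8, 9], ev x * j = j * ev x ∧ ev x * ev x = 1 := fun x hx => by
    have : x < 10 ∧ x ≠ 7 := by revert x; decide
    exact ⟨by simpa only [ev, this.2, if_false] using (mem_cmS.1 (J x hx)).2, e2 x this.1⟩
  obtain ⟨ψ, hψ⟩ := hom_univ (el := el) (fun ev => F23B.hhom ev) ev (fun x hx => by
    rw [show F23B.il.getD x 0 = x by interval_cases x <;> rfl, inv_of_sq (e2 x hx)]) fun r hr => by
      have := List.all_eq_true.1 (by decide +kernel : F23B.rels.all (fun r =>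
        r.all (fun x => Nat.blt x 10 && !Nat.beq x 7) || leqb r [6, 7, 6, 7, 6, 7] ||
        [0, 1, 2, 3, 4, 5, 8, 9].any fun x => leqb r [x, 7, x, 7] || leqb r [7, x, 7, x]) = true) r hr
      simp only [Bool.or_eq_true, List.all_eq_true, List.any_eq_true, Bool.and_eq_true, Nat.blt_eq,
        Bool.not_eq_true'] at this
      rcases this with (h1 | h1) | ⟨x, hx, h1 | h1⟩
      · have h2 : ∀ x ∈ r, x < 10 ∧ x ≠ 7 := fun x hx => ⟨(h1 x hx).1, Nat.ne_of_beq_eq_false (h1 x hx).2⟩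
        rw [← ext_one φ, ← F23B.hrel r hr, (ext_evw φ fun x hx => elH (h2 x hx).1 (h2 x hx).2).2, evw, evw,
          List.map_congr_left fun x hx => if_neg (h2 x hx).2]
      · have := e2 6 (by decide)
        rw [leqb_sound _ _ h1]
        simp only [evw_cons, evw_nil, mul_one]
        change ext φ (el 6) * ext φ (el 6) = 1 at this
        change ext φ (el 6) * (j * (ext φ (el 6) * (j * (ext φ (el 6) * j)))) = 1
        rw [← mul_assoc, ← mul_assoc, jb, mul_assoc, ← mul_assoc j j, j2, one_mul, mul_assoc,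
          ← mul_assoc (ext φ (el 6)), this, one_mul, j2]
      · rw [leqb_sound _ _ h1]
        simp only [evw_cons, evw_nil, mul_one]
        change ev x * (j * (ev x * j)) = 1
        rw [(c x hx).1, ← mul_assoc j, j2, one_mul, (c x hx).2]
      · rw [leqb_sound _ _ h1]
        simp only [evw_cons, evw_nil, mul_one]
        change j * (ev x * (j * ev x)) = 1
        rw [← (c x hx).1, ← mul_assoc (ev x), (c x hx).2, one_mul, j2]
  have ag := agree (φ := φ) (ψ := ψ) hH' fun x hx => by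
    have := fun x hx (h7 : x ≠ 7) => (hψ x hx).trans (if_neg h7)
    interval_cases x <;> simp only [F23A.el1, byW, F23A.ws1, List.getD_cons_succ, List.getD_cons_zero, evw_cons,
      evw_nil, mul_one] <;> exact this _ (by decide) (by decide)
  have zK : z ∈ Cx(z) := mem_Cx.2 rfl
  have zd : ψ z = d := (ag z zK).trans h.zd
  have := F23G.simple
  have hi := inj_of_simple ψ (g := z) fun e => z1 (ext_inj h.inj zK (one_mem _) (by rw [← ag z zK, e, ext_one]))
  have nc : ∀ a, ¬ IsConj z (ι a) → ¬ IsConj (ψ z) (ψ (ι a)) := fun a h1 h2 => by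
    rw [zd, ag _ (ιH a)] at h2
    obtain ⟨q, q1, q2, q3⟩ := hD _ (h.rng.le (ext_range φ (ιH a))) h2
    exact h1 (ext_inj h.inj q2 (ιH a) q3 ▸ ctx.isConj q1)
  have hs := surj_of_pat pat locF (ι1 ▸ actx.ia_mem 1) (actx.ia_mem 3) (actx.ia_mem 7) ψ hi (fun x hx => by
    obtain ⟨y, hy, rfl⟩ := (mem_range_ext φ).1 (h.rng.ge (zd ▸ hx))
    exact ⟨y, ag y hy⟩) (nc 3 pat.nzu) (nc 7 pat.nzv)
  exact ⟨(MulEquiv.ofBijective ψ ⟨hi, hs⟩).symm⟩

end F23

end CfH8.Fi
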