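import Cfsg.Agent.H8.FiPt

/-! The elementary abelian subgroup generated by a base of commuting transpositions. -/

set_option autoImplicit false

namespace CfH8.Fi

open Subgroup CfH9 CfH6 MulAction

/-! permutations of at most 32 points as numbers in base 32 -/

noncomputable def pg (l i : ℕ) : ℕ := Nat.land (Nat.shiftRight l (Nat.mul 5 i)) 31

noncomputable def mkc (f : ℕ → ℕ) (n : ℕ) : ℕ :=
  Nat.rec 0 (fun i ih => Nat.add ih (Nat.shiftLeft (f i) (Nat.mul 5 i))) n

theorem pg_eq (l i : ℕ) : pg l i = l / 32 ^ i % 32 := by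
  change (l >>> (5 * i)) &&& (2 ^ 5 - 1) = _
  rw [Nat.and_two_pow_sub_one_eq_mod, Nat.shiftRight_eq_div_pow, pow_mul]; rfl

theorem mkc_succ (f : ℕ → ℕ) (n : ℕ) : mkc f (n + 1) = mkc f n + f n * 32 ^ n := by
  change mkc f n + f n <<< (5 * n) = _
  rw [Nat.shiftLeft_eq, pow_mul]; rfl

theorem mkc_spec {f : ℕ → ℕ} {n : ℕ} (h : ∀ i < n, f i < 32) :
    mkc f n < 32 ^ n ∧ ∀ i < n, pg (mkc f n) i = f i := by
  induction n with
  | zero => exact ⟨by simp [mkc], by simp⟩
  | succ n ih =>
    obtain ⟨h1, h2⟩ := ih fun i hi => h i (by omega)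
    have h3 := h n (by omega)
    rw [mkc_succ]
    refine ⟨by rw [pow_succ]; nlinarith, fun i hi => ?_⟩
    rcases Nat.lt_succ_iff_lt_or_eq.1 hi with hi | rfl
    · rw [← h2 i hi, pg_eq, pg_eq]
      obtain ⟨d, rfl⟩ := Nat.exists_eq_add_of_lt hi
      rw [show f (i + d + 1) * 32 ^ (i + d + 1) = (f (i + d + 1) * 32 ^ d * 32) * 32 ^ i by ring,
        Nat.add_mul_div_right _ _ (by positivity), Nat.add_mul_mod_self_right]
    · rw [pg_eq, Nat.add_mul_div_right _ _ (by positivity), Nat.div_eq_of_lt h1, zero_add, Nat.mod_eq_of_lt h3]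

theorem mkc_congr {f g : ℕ → ℕ} {n : ℕ} (h : ∀ i < n, f i = g i) : mkc f n = mkc g n := by
  induction n with
  | zero => rfl
  | succ n ih => rw [mkc_succ, mkc_succ, ih fun i hi => h i (by omega), h n (by omega)]

theorem pg_lt (l i : ℕ) : pg l i < 32 := by rw [pg_eq]; exact Nat.mod_lt _ (by decide)

noncomputable def cmp (n l l' : ℕ) : ℕ := forceG l fun l => forceG l' fun l' => mkc (fun i => pg l (pg l' i)) n

noncomputable def idc (n : ℕ) : ℕ := mkc (fun i => i) n

theorem pg_cmp {n l l' i : ℕ} (hi : i < n) : pg (cmp n l l') i = pg l (pg l' i) := by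
  rw [cmp, forceG_eq, forceG_eq]; exact (mkc_spec fun _ _ => pg_lt _ _).2 i hi

theorem pg_idc {n i : ℕ} (hn : n ≤ 32) (hi : i < n) : pg (idc n) i = i :=
  (mkc_spec fun _ hj => lt_of_lt_of_le hj hn).2 i hi

theorem cmp_congr {n a b c d : ℕ} (h : ∀ i < n, pg a (pg b i) = pg c (pg d i)) : cmp n a b = cmp n c d := by
  simp only [cmp, forceG_eq]; exact mkc_congr h

noncomputable def allN (p : ℕ → Bool) (n : ℕ) : Bool := Nat.rec true (fun i ih => Bool.rec false ih (p i)) n

theorem allN_sound {p : ℕ → Bool} {n : ℕ} (h : allN p n = true) : ∀ i < n, p i = true := by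
  induction n with
  | zero => simp
  | succ n ih =>
    have e : allN p (n + 1) = Bool.rec false (allN p n) (p n) := rfl
    rw [e] at h
    cases hp : p n with
    | false => rw [hp] at h; exact absurd h (by simp)
    | true =>
      rw [hp] at h
      intro i hi
      rcases Nat.lt_succ_iff_lt_or_eq.1 hi with hi | rfl
      exacts [ih h i hi, hp]

noncomputable def memN (x : ℕ) (l : List ℕ) : Bool :=
  forceG x fun x => List.rec false (fun y _ ih => Bool.rec ih true (Nat.beq x y)) l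

theorem memN_iff {x : ℕ} {l : List ℕ} : memN x l = true ↔ x ∈ l := by
  rw [memN, forceG_eq]
  induction l with
  | nil => simp
  | cons y l ih =>
    dsimp only
    cases h : Nat.beq x y with
    | false => simp [ih, Nat.ne_of_beq_eq_false h]
    | true => simp [Nat.eq_of_beq_eq_true h]

noncomputable def ndN (l : List ℕ) : Bool := List.rec true (fun y t ih => Bool.rec ih false (memN y t)) l

theorem ndN_sound {l : List ℕ} (h : ndN l = true) : l.Nodup := by
  induction l with
  | nil => simp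
  | cons y l ih =>
    have e : ndN (y :: l) = Bool.rec (ndN l) false (memN y l) := rfl
    rw [e] at h
    cases hp : memN y l with
    | true => rw [hp] at h; exact absurd h (by simp)
    | false =>
      rw [hp] at h
      exact List.nodup_cons.2 ⟨fun hm => by rw [memN_iff.2 hm] at hp; exact absurd hp (by simp), ih h⟩

theorem lget_mem {α : Type} {l : List α} (d : α) {i : ℕ} (hi : i < l.length) : lget l d i ∈ l := by
  induction l generalizing i with
  | nil => simp at hi
  | cons a l ih =>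
    cases i with
    | zero => exact List.mem_cons_self
    | succ i => exact List.mem_cons_of_mem _ (ih (by simpa using hi))

theorem lget_eq {α : Type} (l : List α) (d : α) (i : ℕ) : lget l d i = l.getD i d := by
  induction l generalizing i with
  | nil => rfl
  | cons a l ih =>
    cases i with
    | zero => rfl
    | succ i => exact ih i

theorem exists_lget {α : Type} {l : List α} (d : α) {a : α} (h : a ∈ l) : ∃ i < l.length, lget l d i = a := by
  obtain ⟨i, hi, rfl⟩ := List.getElem_of_mem h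
  exact ⟨i, hi, by rw [lget_eq, List.getD_eq_getElem _ _ hi]⟩

/-! products over the bits of a number -/

section
variable {F : Type*} [Group F]

noncomputable def io (f : ℕ → F) (r a : ℕ) : F :=
  Nat.rec 1 (fun j ih => ih * if a.testBit j then f j else 1) r

theorem io_succ (f : ℕ → F) (r a : ℕ) : io f (r + 1) a = io f r a * if a.testBit r then f r else 1 := rfl

theorem io_mem {f : ℕ → F} {r : ℕ} {K : Subgroup F} (h : ∀ j < r, f j ∈ K) (a : ℕ) : io f r a ∈ K := by
  induction r with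
  | zero => exact K.one_mem
  | succ r ih =>
    rw [io_succ]
    refine K.mul_mem (ih fun j hj => h j (by omega)) ?_
    split_ifs
    exacts [h r (by omega), K.one_mem]

theorem io_xor {f : ℕ → F} {r : ℕ} (h2 : ∀ j < r, f j * f j = 1) (hc : ∀ i < r, ∀ j < r, f i * f j = f j * f i)
    (a b : ℕ) : io f r (a ^^^ b) = io f r a * io f r b := by
  induction r with
  | zero => exact (mul_one _).symm
  | succ r ih =>
    have c : io f r b * f r = f r * io f r b :=
      mem_Cx.1 (io_mem (fun j hj => mem_Cx.2 (hc j (by omega) r (by omega))) b)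
    rw [io_succ, io_succ, io_succ, ih (fun j hj => h2 j (by omega)) fun i hi j hj => hc i (by omega) j (by omega),
      Nat.testBit_xor]
    have := h2 r (by omega)
    cases a.testBit r <;> cases b.testBit r <;> simp only [Bool.xor_false, Bool.xor_true, Bool.not_true,
      Bool.not_false, if_true, Bool.false_eq_true, if_false, mul_one, mul_assoc, one_mul, c]
    rw [← mul_assoc (f r), this, one_mul]

theorem io_zero (f : ℕ → F) (r : ℕ) : io f r 0 = 1 := by
  induction r with
  | zero => rfl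
  | succ r ih => rw [io_succ, ih]; simp

theorem io_pow (f : ℕ → F) (r i : ℕ) : io f r (2 ^ i) = if i < r then f i else 1 := by
  induction r with
  | zero => rfl
  | succ r ih =>
    rw [io_succ, ih, Nat.testBit_two_pow]
    rcases lt_trichotomy i r with h | rfl | h
    · simp [h, h.ne, Nat.lt_succ_of_lt h]
    · simp
    · simp [h.ne', not_lt_of_gt h, show ¬ i < r + 1 by omega]

noncomputable def linF (c : ℕ → ℕ) (r a : ℕ) : ℕ :=
  Nat.rec 0 (fun j ih => Nat.rec ih (fun _ _ => Nat.xor ih (c j)) (bt a j)) r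

theorem linF_succ (c : ℕ → ℕ) (r a : ℕ) :
    linF c (r + 1) a = if a.testBit r then linF c r a ^^^ c r else linF c r a := rec_bt _ _ _ _

theorem linF_lt {c : ℕ → ℕ} {r R : ℕ} (h : ∀ j < r, c j < 2 ^ R) (a : ℕ) : linF c r a < 2 ^ R := by
  induction r with
  | zero => exact Nat.two_pow_pos R
  | succ r ih =>
    rw [linF_succ]
    have := ih fun j hj => h j (by omega)
    split_ifs
    exacts [Nat.xor_lt_two_pow this (h r (by omega)), this]

theorem conj_io {f : ℕ → F} {R : ℕ} (h2 : ∀ j < R, f j * f j = 1) (hc : ∀ i < R, ∀ j < R, f i * f j = f j * f i)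
    {g : F} {c : ℕ → ℕ} {r : ℕ} (h : ∀ j < r, g * f j * g⁻¹ = io f R (c j)) (a : ℕ) :
    g * io f r a * g⁻¹ = io f R (linF c r a) := by
  induction r with
  | zero => exact (show g * 1 * g⁻¹ = 1 by simp).trans (io_zero f R).symm
  | succ r ih =>
    rw [io_succ, linF_succ, ← conj_mul, ih fun j hj => h j (by omega)]
    split_ifs
    · rw [io_xor h2 hc, h r (by omega)]
    · simp

noncomputable def ioW (ws : ℕ → List ℕ) (r a : ℕ) : List ℕ :=
  Nat.rec [] (fun j ih => Nat.rec ih (fun _ _ => ih ++ ws j) (bt a j)) r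

theorem evw_ioW (el : ℕ → F) (ws : ℕ → List ℕ) (r a : ℕ) :
    evw el (ioW ws r a) = io (fun j => evw el (ws j)) r a := by
  induction r with
  | zero => rfl
  | succ r ih =>
    have e : ioW ws (r + 1) a = if a.testBit r then ioW ws r a ++ ws r else ioW ws r a := rec_bt _ _ _ _
    rw [e, io_succ, ← ih]
    split_ifs <;> simp

theorem io_congr {f f' : ℕ → F} {r : ℕ} (h : ∀ j < r, f j = f' j) (a : ℕ) : io f r a = io f' r a := by
  induction r with
  | zero => rfl
  | succ r ih => rw [io_succ, io_succ, ih fun j hj => h j (by omega), h r (by omega)]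

end

/-! the base of transpositions -/

noncomputable def xn (XS : List NP) (i : ℕ) : NP := lget XS (0, [], 0) i

noncomputable def xp (XS : List NP) (i : ℕ) : ℕ := (xn XS i).1

noncomputable def lin (V : List ℕ) (r l a : ℕ) : ℕ := linF (fun j => lget V 0 (pg l j)) r a

noncomputable def aW (XS : List NP) (r a : ℕ) : List ℕ := ioW (fun j => wT (xn XS j)) r a

noncomputable def chkA (nets : List Net) (m k : ℕ) (bs gp : List ℕ) (XS : List NP) (n r : ℕ) (V : List ℕ) : Bool :=
  XS.all (okT nets m k gp) && Nat.beq XS.length n && Nat.ble n 32 && Nat.ble r n && ndN (XS.map Prod.fst) &&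
    allN (fun i => Nat.blt (lget V 0 i) (2 ^ r)) n && allN (fun i => Nat.beq (lget V 0 i) (2 ^ i)) r &&
    allN (fun i => allN (fun j => chkPt nets m k (wT (xn XS i)) (xp XS j) (xp XS j)) i) r

noncomputable def chkV (nets : List Net) (m k : ℕ) (bs : List ℕ) (XS : List NP) (r : ℕ) (V : List ℕ) (i : ℕ) :
    Bool := chkFx nets m k bs (wT (xn XS i) ++ aW XS r (lget V 0 i))

noncomputable def chkActs (nets : List Net) (m k : ℕ) (XS : List NP) (n : ℕ) (w : List ℕ) (l : ℕ) : Bool :=
  allN (fun i => Nat.blt (pg l i) n && chkPt nets m k w (xp XS i) (xp XS (pg l i))) n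

section
variable {F : Type*} [Group F] [MulAction F ℕ]

noncomputable def ia (z : F) (XS : List NP) (r : ℕ) : ℕ → F := io (fun j => tp z (xp XS j)) r

def Acts (XS : List NP) (n : ℕ) (g : F) (l : ℕ) : Prop :=
  ∀ i < n, pg l i < n ∧ g • xp XS i = xp XS (pg l i)

structure ACtx (m K : ℕ) (nets : List Net) (k : ℕ) (el : ℕ → F) (z : F) (U : ℕ) (bs gp : List ℕ)
    (XS : List NP) (n r : ℕ) (V : List ℕ) : Prop extends Ctx m K nets k el z U bs gp where
  ok : ∀ i < n, okT nets m k gp (xn XS i) = true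
  len : XS.length = n
  n32 : n ≤ 32
  rn : r ≤ n
  xinj : ∀ i < n, ∀ j < n, xp XS i = xp XS j → i = j
  vlt : ∀ i < n, lget V 0 i < 2 ^ r
  xv : ∀ i < n, tp z (xp XS i) = ia z XS r (lget V 0 i)
  bc : ∀ i < r, ∀ j < r, tp z (xp XS i) * tp z (xp XS j) = tp z (xp XS j) * tp z (xp XS i)

variable {m K : ℕ} {nets : List Net} {k : ℕ} {el : ℕ → F} {z : F} {U : ℕ} {bs gp : List ℕ}
  {XS : List NP} {n r : ℕ} {V : List ℕ}

theorem Ctx.evw_aW (C : Ctx m K nets k el z U bs gp) (h : ∀ i < r, Fi.okT nets m k gp (xn XS i) = true) (a : ℕ) :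
    evw el (aW XS r a) = ia z XS r a := by
  rw [aW, evw_ioW]
  exact io_congr (fun j hj => (C.okT (h j hj)).2.1) a

theorem Ctx.actx (C : Ctx m K nets k el z U bs gp) (h : chkA nets m k bs gp XS n r V = true)
    (hV : ∀ i, r ≤ i → i < n → chkV nets m k bs XS r V i = true) : ACtx m K nets k el z U bs gp XS n r V := by
  simp only [chkA, Bool.and_eq_true, Nat.beq_eq, Nat.ble_eq, List.all_eq_true] at h
  obtain ⟨⟨⟨⟨⟨⟨⟨h1, h2⟩, h3⟩, h4⟩, h5⟩, h6⟩, h7⟩, h8⟩ := h
  have ok : ∀ i < n, Fi.okT nets m k gp (xn XS i) = true := fun i hi => h1 _ (lget_mem _ (h2 ▸ hi))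
  have hc : ∀ i < r, ∀ j < i, tp z (xp XS i) * tp z (xp XS j) = tp z (xp XS j) * tp z (xp XS i) := by
    intro i hi j hj
    have := Lvl.pt C.L (allN_sound (allN_sound h8 i hi) j hj)
    rw [(C.okT (ok i (by omega))).2.1] at this
    exact (C.comm_iff (C.okT (ok j (by omega))).1 _).2 this
  refine ⟨C, ok, h2, h3, h4, fun i hi j hj e => ?_, fun i hi => by simpa [Nat.blt_eq] using allN_sound h6 i hi,
    fun i hi => ?_, fun i hi j hj => ?_⟩
  · have e1 : ∀ i < n, ∀ h : i < (XS.map Prod.fst).length, (XS.map Prod.fst)[i] = xp XS i := fun i hi _ => by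
      rw [List.getElem_map, xp, xn, lget_eq, List.getD_eq_getElem _ _ (h2 ▸ hi)]
    exact (List.Nodup.getElem_inj_iff (ndN_sound h5) (hi := by simpa [h2] using hi)
      (hj := by simpa [h2] using hj)).1 (by rw [e1 i hi, e1 j hj, e])
  · by_cases hr : i < r
    · rw [Nat.eq_of_beq_eq_true (allN_sound h7 i hr), ia, io_pow, if_pos hr]
    · have := C.one (hV i (by omega) hi)
      rw [evw_append, (C.okT (ok i hi)).2.1, C.evw_aW fun j hj => ok j (by omega)] at this
      exact (inv_of_sq (C.tp_sq (C.okT (ok i hi)).1)).symm.trans (eq_inv_of_mul_eq_one_right this).symm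
  · rcases lt_trichotomy i j with h | rfl | h
    exacts [(hc j hj i h).symm, rfl, hc i hi j h]

theorem Acts.mul {g g' : F} {l l' : ℕ} (h : Acts XS n g l) (h' : Acts XS n g' l') :
    Acts XS n (g * g') (cmp n l l') := fun i hi => by
  rw [pg_cmp hi, mul_smul, (h' i hi).2]
  exact h _ (h' i hi).1

theorem Acts.fix {g g' : F} {l : ℕ} (h : Acts XS n g l) (h' : Acts XS n g' l) {i : ℕ} (hi : i < n) :
    (g⁻¹ * g') • xp XS i = xp XS i := by
  rw [mul_smul, (h' i hi).2, ← (h i hi).2, inv_smul_smul]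

theorem Acts.congr {g g' h : F} {l l' l'' : ℕ} (h1 : Acts XS n g l) (h2 : Acts XS n g' l) (h3 : Acts XS n h l')
    (h4 : Acts XS n (g * h) l'') : Acts XS n (g' * h) l'' := fun i hi => by
  refine ⟨(h4 i hi).1, ?_⟩
  rw [← (h4 i hi).2, mul_smul, mul_smul, (h3 i hi).2, (h1 _ (h3 i hi).1).2, (h2 _ (h3 i hi).1).2]

theorem Lvl.acts (L : Lvl m nets k el) {w : List ℕ} {l : ℕ} (h : chkActs nets m k XS n w l = true) :
    Acts XS n (evw el w) l := fun i hi => by
  have := allN_sound h i hi
  simp only [Bool.and_eq_true, Nat.blt_eq] at this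
  exact ⟨this.1, Lvl.pt L this.2⟩

/-- the pointwise stabiliser of the base -/
noncomputable abbrev fA (F : Type*) [Group F] [MulAction F ℕ] (XS : List NP) : Subgroup F :=
  fixer F (XS.map Prod.fst)

namespace ACtx
variable (C : ACtx m K nets k el z U bs gp XS n r V)
include C

theorem xU {i : ℕ} (hi : i < n) : U.testBit (xp XS i) = true := (C.okT (C.ok i hi)).1

theorem b2 : ∀ j < r, tp z (xp XS j) * tp z (xp XS j) = 1 := fun _ hj => C.tp_sq (C.xU (hj.trans_le C.rn))

theorem ia_xor (a b : ℕ) : ia z XS r (a ^^^ b) = ia z XS r a * ia z XS r b := io_xor C.b2 C.bc a b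

theorem ia_sq (a : ℕ) : ia z XS r a * ia z XS r a = 1 := by rw [← C.ia_xor, Nat.xor_self]; exact io_zero _ _

theorem ia_comm (a b : ℕ) : ia z XS r a * ia z XS r b = ia z XS r b * ia z XS r a := by
  rw [← C.ia_xor, ← C.ia_xor, Nat.xor_comm]

theorem aW (a : ℕ) : evw el (aW XS r a) = ia z XS r a := C.evw_aW (fun i hi => C.ok i (hi.trans_le C.rn)) a

theorem mem_fA {g : F} : g ∈ fA F XS ↔ ∀ i < n, g • xp XS i = xp XS i := by
  rw [mem_fixer, ← C.len]
  constructor
  · exact fun h i hi => h _ (List.mem_map_of_mem (lget_mem _ hi))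
  · intro h b hb
    obtain ⟨t, ht, rfl⟩ := List.mem_map.1 hb
    obtain ⟨i, hi, rfl⟩ := exists_lget (0, [], 0) ht
    exact h i hi

theorem ia_mem (a : ℕ) : ia z XS r a ∈ fA F XS :=
  C.mem_fA.2 fun i hi => (C.comm_iff (C.xU hi) _).1 (by rw [C.xv i hi, C.ia_comm])

theorem acts_id {g : F} : Acts XS n g (idc n) ↔ g ∈ fA F XS := by
  rw [C.mem_fA]
  refine forall₂_congr fun i hi => ?_
  rw [pg_idc C.n32 hi]; simp [hi]

theorem acts_eq {g : F} {l l' : ℕ} (h : Acts XS n g l) (h' : Acts XS n g l') {i : ℕ} (hi : i < n) :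
    pg l i = pg l' i := C.xinj _ (h i hi).1 _ (h' i hi).1 ((h i hi).2.symm.trans (h' i hi).2)

theorem conj {g : F} {l : ℕ} (h : Acts XS n g l) (a : ℕ) :
    g * ia z XS r a * g⁻¹ = ia z XS r (lin V r l a) :=
  conj_io C.b2 C.bc (fun j hj => by
    have hj' := hj.trans_le C.rn
    rw [← C.tp_smul (C.xU hj'), (h j hj').2, C.xv _ (h j hj').1]; rfl) a

theorem lin_lt {g : F} {l : ℕ} (h : Acts XS n g l) (a : ℕ) : lin V r l a < 2 ^ r :=
  linF_lt (fun j hj => C.vlt _ (h j (hj.trans_le C.rn)).1) a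

end ACtx

/-- orbits on the elementary abelian group -/
noncomputable def chkO (V : List ℕ) (r : ℕ) (NL : List ℕ) (fuel : ℕ) (orbs : List (ℕ × ℕ)) : Bool :=
  orbs.all fun o => Nat.blt o.1 (2 ^ r) && subM o.2 (bfs0 (lin V r) NL fuel [o.1])

theorem ACtx.orbs (C : ACtx m K nets k el z U bs gp XS n r V) {KK : Subgroup F} {NL : List ℕ}
    (hN : ∀ l ∈ NL, ∃ g ∈ KK, Acts XS n g l) {fuel : ℕ} {orbs : List (ℕ × ℕ)}
    (h : chkO V r NL fuel orbs = true) :
    ∀ o ∈ orbs, ∀ a, o.2.testBit a = true → C0 KK (ia z XS r o.1) (ia z XS r a) := by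
  intro o ho a ha
  have := List.all_eq_true.1 h o ho
  rw [Bool.and_eq_true] at this
  refine bfs0_sound (Q := fun a => C0 KK (ia z XS r o.1) (ia z XS r a)) (fun l hl p hp => ?_) fuel
    (fun p hp => by rw [List.mem_singleton.1 hp]; exact C0.refl _ _) a (subM_sound this.2 ha)
  obtain ⟨g, hg, e⟩ := hN l hl
  exact hp.trans ⟨g, hg, C.conj e p⟩

theorem cover_of {r : ℕ} {orbs : List (ℕ × ℕ)} (h : Nat.beq (mkB orbs ||| 1) (2 ^ 2 ^ r - 1) = true) {a : ℕ}
    (ha : a < 2 ^ r) (h0 : a ≠ 0) : a = 1 ∨ ∃ o ∈ orbs, o.2.testBit a = true := by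
  have := congrArg (fun x => Nat.testBit x a) (Nat.eq_of_beq_eq_true h)
  simp only [Nat.testBit_or, Nat.testBit_two_pow_sub_one, ha, decide_true, Bool.or_eq_true, testBit_mkB] at this
  exact this.resolve_right fun h1 => h0 (Nat.testBit_one_eq_true_iff_self_eq_zero.1 h1)

/-- the enumeration is a bijection onto the pointwise stabiliser -/
theorem ACtx.surj [Finite F] (C : ACtx m K nets k el z U bs gp XS n r V)
    (hi : ∀ a < 2 ^ r, ia z XS r a = 1 → a = 0) (hc : Nat.card (fA F XS) ≤ 2 ^ r) (g : F) :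
    g ∈ fA F XS ↔ ∃ a < 2 ^ r, ia z XS r a = g := by
  refine ⟨fun hg => ?_, by rintro ⟨a, -, rfl⟩; exact C.ia_mem a⟩
  have : Function.Bijective fun i : Fin (2 ^ r) => (⟨ia z XS r i, C.ia_mem i⟩ : fA F XS) := by
    refine Function.Injective.bijective_of_nat_card_le (fun i j e => ?_) (by simpa using hc)
    have e' : ia z XS r i = ia z XS r j := congrArg Subtype.val e
    exact Fin.ext (Nat.xor_eq_zero_iff.1 (hi _ (Nat.xor_lt_two_pow i.2 j.2) (by rw [C.ia_xor, e', C.ia_sq])))
  obtain ⟨a, e⟩ := this.2 ⟨g, hg⟩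
  exact ⟨a, a.2, congrArg Subtype.val e⟩

end

end CfH8.Fi
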