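import Cfsg.Agent.H8.FiL

/-! Backtrack search for tuples of transpositions with a given diagram. -/

set_option autoImplicit false

namespace CfH8.Fi

open Subgroup CfH9 CfH6 MulAction

inductive BT
  | ok
  | no (r b : ℕ)
  | node (ws : List (List ℕ)) (fuel : ℕ) (ch : BT)
  | nil
  | cons (t : NP) (sub rest : BT)

noncomputable def BT.st (T : BT) : List ℕ :=
  BT.rec [] (fun _ _ => []) (fun _ _ _ _ => []) [] (fun t _ _ _ ih => t.1 :: ih) T

noncomputable def BT.lst (T : BT) : Bool :=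
  BT.rec false (fun _ _ => false) (fun _ _ _ _ => false) true (fun _ _ _ _ ih => ih) T

def BT.adm (T : BT) (p : ℕ) : Prop := T.lst = true → p ∈ T.st

noncomputable def candK (nets : List Net) (m K U N PAT : ℕ) (TG : List NP) : ℕ :=
  cand nets m K U (((List.range TG.length).filter fun i => PAT.testBit (i * N + TG.length)).map (xn TG))
    (((List.range TG.length).filter fun i => !PAT.testBit (i * N + TG.length)).map (xn TG)) (TG.map Prod.fst)

noncomputable def chkBT (nets : List Net) (m K k U : ℕ) (gp : List ℕ) (N PAT : ℕ) (Rels FIN : List (List ℕ))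
    (T : BT) : List NP → Bool :=
  BT.rec (fun TG => Nat.beq TG.length N && FIN.any (leqb (TG.map Prod.fst)))
    (fun r b TG => Nat.blt r Rels.length && allLt TG.length (lget Rels [] r) &&
      chkMv nets m k (subst (TG.map wT) (lget Rels [] r)) b)
    (fun ws fuel ch ih TG => Nat.blt TG.length N && ch.lst &&
      chkOrb nets m K k ws (TG.map Prod.fst) ch.st fuel (candK nets m K U N PAT TG) && ih TG)
    (fun _ => true)
    (fun t sub rest ih1 ih2 TG => okT nets m k gp t && !sub.lst && rest.lst && ih1 (TG ++ [t]) && ih2 TG) T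

section
variable {F : Type*} [Group F] [MulAction F ℕ]

structure PQ (z : F) (U N PAT : ℕ) (Rels : List (List ℕ)) (q : ℕ → ℕ) : Prop where
  u : ∀ i < N, U.testBit (q i) = true
  inj : ∀ i < N, ∀ j < N, q i = q j → i = j
  pat : ∀ i < N, ∀ j < N, tp z (q i) • q j = q j ↔ PAT.testBit (i * N + j) = true
  lt : ∀ R ∈ Rels, ∀ x ∈ R, x < N
  rel : ∀ R ∈ Rels, evw (fun i => tp z (q i)) R = 1

variable {m K : ℕ} {nets : List Net} {k : ℕ} {el : ℕ → F} {z : F} {U : ℕ} {bs gp : List ℕ}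
  {N PAT : ℕ} {Rels FIN : List (List ℕ)}

theorem evw_conj {G : Type*} [Group G] (ev : ℕ → G) (g : G) (w : List ℕ) :
    evw (fun x => g * ev x * g⁻¹) w = g * evw ev w * g⁻¹ :=
  (map_evw (MulAut.conj g).toMonoidHom ev w).symm

theorem PQ.smul (C : Ctx m K nets k el z U bs gp) {q : ℕ → ℕ} (h : PQ z U N PAT Rels q) (g : F) :
    PQ z U N PAT Rels fun i => g • q i := by
  refine ⟨fun i hi => C.smul_mem (h.u i hi) g, fun i hi j hj e => h.inj i hi j hj (MulAction.injective g e),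
    fun i hi j hj => ?_, h.lt, fun R hR => ?_⟩
  · rw [← h.pat i hi j hj, C.tp_smul (h.u i hi), mul_smul, mul_smul, inv_smul_smul, smul_left_cancel_iff]
  · rw [evw_congr (fun x hx => C.tp_smul (h.u x hx) g) (h.lt R hR), evw_conj, h.rel R hR, mul_one, mul_inv_cancel]

theorem xn_append {TG : List NP} (t : NP) {i : ℕ} (hi : i < TG.length) : xn (TG ++ [t]) i = xn TG i := by
  rw [xn, xn, lget_eq, lget_eq, List.getD_append _ _ _ _ hi]

theorem xn_last (TG : List NP) (t : NP) : xn (TG ++ [t]) TG.length = t := by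
  rw [xn, lget_eq, List.getD_append_right _ _ _ _ le_rfl]; simp

theorem Ctx.byW (C : Ctx m K nets k el z U bs gp) {TG : List NP} (hT : ∀ t ∈ TG, Fi.okT nets m k gp t = true) {x : ℕ}
    (hx : x < TG.length) : byW el (TG.map wT) x = tp z (xp TG x) := by
  rw [CfH6.byW, List.getD_eq_getElem _ _ (by simpa using hx), List.getElem_map, xp, xn, lget_eq,
    List.getD_eq_getElem _ _ hx]
  exact (C.okT (hT _ (List.getElem_mem hx))).2.1

theorem mem_fixer_TG {TG : List NP} {g : F} :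
    g ∈ fixer F (TG.map Prod.fst) ↔ ∀ i < TG.length, g • xp TG i = xp TG i := by
  rw [mem_fixer]
  constructor
  · exact fun h i hi => h _ (List.mem_map_of_mem (lget_mem _ hi))
  · intro h b hb
    obtain ⟨t, ht, rfl⟩ := List.mem_map.1 hb
    obtain ⟨i, hi, rfl⟩ := exists_lget (0, [], 0) ht
    exact h i hi

theorem Ctx.bt (C : Ctx m K nets k el z U bs gp) (T : BT) : ∀ TG : List NP,
    chkBT nets m K k U gp N PAT Rels FIN T TG = true → (∀ t ∈ TG, Fi.okT nets m k gp t = true) →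
    ∀ q, PQ z U N PAT Rels q → (∀ i < TG.length, q i = xp TG i) → T.adm (q TG.length) →
    ∃ g ∈ fixer F (TG.map Prod.fst), ∃ fl ∈ FIN, ∀ i < N, g • q i = lget fl 0 i := by
  induction T with
  | ok =>
    intro TG h hT q hq hp _
    simp only [chkBT, Bool.and_eq_true, Nat.beq_eq, List.any_eq_true] at h
    obtain ⟨h1, fl, h2, h3⟩ := h
    refine ⟨1, one_mem _, fl, h2, fun i hi => ?_⟩
    rw [one_smul, hp i (h1 ▸ hi), ← leqb_sound _ _ h3, xp, xn, lget_eq, lget_eq,
      List.getD_eq_getElem _ _ (h1 ▸ hi), List.getD_eq_getElem _ _ (by simpa [h1] using hi), List.getElem_map]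
  | no r b =>
    intro TG h hT q hq hp _
    simp only [chkBT, Bool.and_eq_true, Nat.blt_eq] at h
    refine absurd ?_ (Lvl.mv C.L h.2)
    rw [evw_subst, evw_congr (ev' := fun i => tp z (q i)) (fun x hx => by rw [C.byW hT hx, hp x hx])
      (allLt_sound h.1.2), hq.rel _ (lget_mem _ h.1.1), one_smul]
  | node ws fuel ch ih =>
    intro TG h hT q hq hp _
    have e : chkBT nets m K k U gp N PAT Rels FIN (.node ws fuel ch) TG = (Nat.blt TG.length N && ch.lst &&
      chkOrb nets m K k ws (TG.map Prod.fst) ch.st fuel (candK nets m K U N PAT TG) &&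
        chkBT nets m K k U gp N PAT Rels FIN ch TG) := rfl
    simp only [e, Bool.and_eq_true, Nat.blt_eq] at h
    obtain ⟨⟨⟨h1, -⟩, h3⟩, h4⟩ := h
    have ok : ∀ (p : ℕ → Bool), ∀ t ∈ ((List.range TG.length).filter p).map (xn TG), Fi.okT nets m k gp t = true :=
      fun p t ht => by
        obtain ⟨i, hi, rfl⟩ := List.mem_map.1 ht
        exact hT _ (lget_mem _ (List.mem_range.1 (List.mem_filter.1 hi).1))
    obtain ⟨g, hg, p, h5, h6⟩ := C.orbS h3 (q TG.length) ((C.cand (ok _) (ok _) _).2 ⟨hq.u _ h1, fun t ht => by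
      obtain ⟨i, hi, rfl⟩ := List.mem_map.1 ht
      have hi' := List.mem_range.1 (List.mem_filter.1 hi).1
      have := (hq.pat i (by omega) _ h1).2 (List.mem_filter.1 hi).2
      rwa [hp i hi'] at this, fun t ht => by
      obtain ⟨i, hi, rfl⟩ := List.mem_map.1 ht
      have hi' := List.mem_range.1 (List.mem_filter.1 hi).1
      have := (hq.pat i (by omega) _ h1).not.2 (by simpa using (List.mem_filter.1 hi).2)
      rwa [hp i hi'] at this, fun hm => by
      obtain ⟨t, ht, e⟩ := List.mem_map.1 hm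
      obtain ⟨i, hi, rfl⟩ := exists_lget (0, [], 0) ht
      have := hq.inj i (by omega) _ h1 ((hp i hi).trans e)
      omega⟩)
    obtain ⟨g', hg', fl, h7, h8⟩ := ih TG h4 hT _ (hq.smul C g⁻¹)
      (fun i hi => by rw [hp i hi]; exact mem_fixer_TG.1 (inv_mem hg) i hi)
      (fun _ => by rw [← h6, inv_smul_smul]; exact h5)
    exact ⟨g' * g⁻¹, mul_mem hg' (inv_mem hg), fl, h7, fun i hi => by rw [mul_smul]; exact h8 i hi⟩
  | nil =>
    intro TG _ _ q _ _ ha
    exact absurd (ha rfl) List.not_mem_nil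
  | cons t sub rest ih1 ih2 =>
    intro TG h hT q hq hp ha
    have e : chkBT nets m K k U gp N PAT Rels FIN (.cons t sub rest) TG = (Fi.okT nets m k gp t && !sub.lst &&
      rest.lst && chkBT nets m K k U gp N PAT Rels FIN sub (TG ++ [t]) &&
        chkBT nets m K k U gp N PAT Rels FIN rest TG) := rfl
    simp only [e, Bool.and_eq_true, Bool.not_eq_true'] at h
    obtain ⟨⟨⟨⟨h1, h2⟩, h3⟩, h4⟩, h5⟩ := h
    rcases List.mem_cons.1 (ha h3) with h6 | h6
    · obtain ⟨g, hg, h7⟩ := ih1 (TG ++ [t]) h4 (forall_app hT (forall_cons h1 forall_nil)) q hq (fun i hi => by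
        rw [List.length_append, List.length_singleton] at hi
        rcases Nat.lt_succ_iff_lt_or_eq.1 hi with hi | rfl
        · rw [xp, xn_append t hi]; exact hp i hi
        · rw [xp, xn_last]; exact h6) fun hl => absurd (h2 ▸ hl) (by simp)
      exact ⟨g, fun b hb => hg b (by rw [List.map_append]; exact List.mem_append_left _ hb), h7⟩
    · exact ih2 TG h5 hT q hq hp fun _ => h6

noncomputable def chkPQ (nets : List Net) (m k : ℕ) (bs gp : List ℕ) (N PAT : ℕ) (Rels : List (List ℕ))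
    (SRC : List NP) : Bool :=
  SRC.all (okT nets m k gp) && Nat.beq SRC.length N && ndN (SRC.map Prod.fst) &&
    allN (fun i => allN (fun j => Bool.rec (chkMv nets m k (wT (xn SRC i)) (xp SRC j))
      (chkPt nets m k (wT (xn SRC i)) (xp SRC j) (xp SRC j)) (PAT.testBit (i * N + j))) N) N &&
    Rels.all fun R => allLt N R && chkFx nets m k bs (subst (SRC.map wT) R)

theorem Ctx.pq (C : Ctx m K nets k el z U bs gp) {SRC : List NP} (h : chkPQ nets m k bs gp N PAT Rels SRC = true) :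
    PQ z U N PAT Rels (xp SRC) := by
  simp only [chkPQ, Bool.and_eq_true, Nat.beq_eq, List.all_eq_true] at h
  obtain ⟨⟨⟨⟨h1, h2⟩, h5⟩, h3⟩, h4⟩ := h
  have ok : ∀ i < N, Fi.okT nets m k gp (xn SRC i) = true := fun i hi => h1 _ (lget_mem _ (h2 ▸ hi))
  refine ⟨fun i hi => (C.okT (ok i hi)).1, fun i hi j hj e => ?_, fun i hi j hj => ?_,
    fun R hR => allLt_sound (h4 R hR).1, fun R hR => ?_⟩
  · have e1 : ∀ i < N, ∀ h : i < (SRC.map Prod.fst).length, (SRC.map Prod.fst)[i] = xp SRC i := fun i hi _ => by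
      rw [List.getElem_map, xp, xn, lget_eq, List.getD_eq_getElem _ _ (h2 ▸ hi)]
    exact (List.Nodup.getElem_inj_iff (ndN_sound h5) (hi := by simpa [h2] using hi)
      (hj := by simpa [h2] using hj)).1 (by rw [e1 i hi, e1 j hj, e])
  · have := allN_sound (allN_sound h3 i hi) j hj
    rw [xp, ← (C.okT (ok i hi)).2.1]
    cases hb : PAT.testBit (i * N + j) <;> rw [hb] at this
    · exact iff_of_false (Lvl.mv C.L this) (by simp)
    · exact iff_of_true (Lvl.pt C.L this) rfl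
  · rw [← C.one (h4 R hR).2, evw_subst]
    exact (evw_congr (fun x hx => C.byW h1 (h2 ▸ hx)) (allLt_sound (h4 R hR).1)).symm

theorem ext_evw {G : Type*} [Group G] {KK : Subgroup F} (φ : KK →* G) {ev : ℕ → F} {w : List ℕ}
    (h : ∀ x ∈ w, ev x ∈ KK) : evw ev w ∈ KK ∧ ext φ (evw ev w) = evw (fun x => ext φ (ev x)) w := by
  induction w with
  | nil => exact ⟨one_mem _, ext_one φ⟩
  | cons a w ih =>
    obtain ⟨h1, h2⟩ := ih fun x hx => h x (List.mem_cons_of_mem _ hx)
    have := h a List.mem_cons_self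
    rw [evw_cons, evw_cons, ext_mul φ this h1, h2]
    exact ⟨mul_mem this h1, rfl⟩

/-- conjugation in the big group carries a tuple to a tuple with the same diagram -/
theorem PQ.trans {G : Type*} [Group G] (C : Ctx m K nets k el z U bs gp) {φ : Cx(z) →* G}
    (hφ : Function.Injective φ) {p q : ℕ → ℕ} (h : PQ z U N PAT Rels p) {s : G}
    (hp : ∀ i < N, tp z (p i) ∈ Cx(z)) (hq : ∀ i < N, U.testBit (q i) = true ∧ tp z (q i) ∈ Cx(z))
    (e : ∀ i < N, s * ext φ (tp z (p i)) * s⁻¹ = ext φ (tp z (q i))) : PQ z U N PAT Rels q := by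
  refine ⟨fun i hi => (hq i hi).1, fun i hi j hj e' => h.inj i hi j hj (C.tp_inj (h.u i hi) (h.u j hj)
    (ext_inj hφ (hp i hi) (hp j hj) ?_)), fun i hi j hj => ?_, h.lt, fun R hR => ?_⟩
  · have := e i hi
    rwa [e', ← e j hj, mul_left_inj, mul_right_inj] at this
  · rw [← h.pat i hi j hj, ← C.comm_iff (hq j hj).1, ← C.comm_iff (h.u j hj), ← ext_comm hφ (hq i hi).2 (hq j hj).2,
      ← ext_comm hφ (hp i hi) (hp j hj), ← e i hi, ← e j hj, conj_mul, conj_mul, mul_left_inj, mul_right_inj]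
  · obtain ⟨h1, h2⟩ := ext_evw φ (ev := fun i => tp z (q i)) fun x hx => (hq x (h.lt R hR x hx)).2
    refine ext_inj hφ h1 (one_mem _) ?_
    rw [h2, ext_one, evw_congr (fun x hx => (e x hx).symm) (h.lt R hR), evw_conj,
      ← (ext_evw φ (ev := fun i => tp z (p i)) fun x hx => hp x (h.lt R hR x hx)).2, h.rel R hR, ext_one, mul_one,
      mul_inv_cancel]

/-- the conjugates of `d` in its centraliser are the images of the transpositions -/
def DC {G : Type*} [Group G] (z : F) (U : ℕ) (d : G) (φ : Cx(z) →* G) : Prop :=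
  ∀ g ∈ Cx(d), IsConj d g → ∃ q, U.testBit q = true ∧ tp z q ∈ Cx(z) ∧ ext φ (tp z q) = g

/-- an element swapping `d` and a commuting conjugate, normalised on a tuple -/
theorem swap_tuple {G : Type*} [Group G] (C : Ctx m K nets k el z U bs gp) {d : G} {φ : Cx(z) →* G}
    (h : Emb z d φ) (hD : DC z U d φ) {a : ℕ} (ha : U.testBit a = true) (haz : tp z a ∈ Cx(z)) (a0 : a ≠ 0)
    (hda : IsConj d (ext φ (tp z a))) (ho : ∀ q, U.testBit q = true → tp z q ∈ Cx(z) → q ≠ 0 →
      ∃ g ∈ Cx(z), g • a = q) {p : ℕ → ℕ} (hp : PQ z U N PAT Rels p) (hN : 2 ≤ N) (p0 : p 0 = 0) (p1 : p 1 = a)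
    (hpz : ∀ i < N, tp z (p i) ∈ Cx(z) ∧ tp z (p i) ∈ Cx(tp z a)) {T : BT} {t0 t1 : NP} (e0 : t0.1 = a)
    (e1 : t1.1 = 0) (hT : (okT nets m k gp t0 && okT nets m k gp t1 && !T.lst &&
      chkBT nets m K k U gp N PAT Rels FIN T [t0, t1]) = true) :
    ∃ s : G, ∃ fl ∈ FIN, ∀ i < N, tp z (lget fl 0 i) ∈ Cx(z) ∧
      s * ext φ (tp z (p i)) * s⁻¹ = ext φ (tp z (lget fl 0 i)) := by
  simp only [Bool.and_eq_true, Bool.not_eq_true'] at hT
  have zK : z ∈ Cx(z) := mem_Cx.2 rfl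
  have cd : ∀ y ∈ Cx(z), ext φ y ∈ Cx(d) := fun y hy => h.rng ▸ ext_range φ hy
  -- the swapping element
  obtain ⟨s, s1, s2⟩ : ∃ s : G, s * d * s⁻¹ = ext φ (tp z a) ∧ s * ext φ (tp z a) * s⁻¹ = d := by
    obtain ⟨s, hs⟩ := isConj_iff.1 hda
    obtain ⟨q, h1, h2, h3⟩ := hD (s⁻¹ * d * s⁻¹⁻¹) (by
      rw [← mem_cj_inv, inv_inv, cj_Cx, hs]; exact mem_Cx.2 (mem_Cx.1 (cd _ haz)).symm) (isConj_iff.2 ⟨_, rfl⟩)
    obtain ⟨g, hg, rfl⟩ := ho q h1 h2 fun e => a0 (C.tp_inj ha C.u0 (ext_inj h.inj haz (C.tp0.symm ▸ zK) (by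
      rw [e, C.tp0, h.zd] at h3
      rw [C.tp0, h.zd, ← hs]
      exact (congrArg (s * · * s⁻¹) h3).trans (by group))))
    rw [C.tp_smul ha, ext_conj φ hg haz] at h3
    refine ⟨s * ext φ g, ?_, ?_⟩
    · rw [← hs, mul_inv_rev, mul_assoc s, mul_assoc s, ← mul_assoc (_ * d), mem_Cx'.1 (cd g hg), mul_assoc]
    · rw [mul_inv_rev, mul_assoc s, mul_assoc s, ← mul_assoc (_ * _), h3]; group
  have ex : ∀ i < N, ∃ q, U.testBit q = true ∧ tp z q ∈ Cx(z) ∧ ext φ (tp z q) = s * ext φ (tp z (p i)) * s⁻¹ := by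
    intro i hi
    refine hD _ ?_ (IsConj.trans ?_ (isConj_iff.2 ⟨s, rfl⟩))
    · rw [← s2, ← cj_Cx, conj_mem_cj_iff, mem_Cx, ext_comm h.inj (hpz i hi).1 haz]
      exact mem_Cx.1 (hpz i hi).2
    · by_cases e : p i = 0
      · rw [e, C.tp0, h.zd]
      · obtain ⟨g, hg, e⟩ := ho _ (hp.u i hi) (hpz i hi).1 e
        rw [← e, C.tp_smul ha, ext_conj φ hg haz]
        exact hda.trans (isConj_iff.2 ⟨_, rfl⟩)
  choose! q q1 q2 q3 using ex
  have Q := hp.trans C h.inj (fun i hi => (hpz i hi).1) (fun i hi => ⟨q1 i hi, q2 i hi⟩) fun i hi => (q3 i hi).symm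
  obtain ⟨g, hg, fl, h1, h2⟩ := C.bt T _ hT.2 (forall_cons hT.1.1.1 (forall_cons hT.1.1.2 forall_nil)) q Q
    (fun i hi => by
      have hi' : i < 2 := hi
      have hi2 : i < N := by omega
      interval_cases i
      · refine (C.tp_inj (q1 0 hi2) ha (ext_inj h.inj (q2 0 hi2) haz ?_)).trans e0.symm
        rw [q3 0 hi2, p0, C.tp0, h.zd, s1]
      · refine (C.tp_inj (q1 1 hi2) C.u0 (ext_inj h.inj (q2 1 hi2) (C.tp0.symm ▸ zK) ?_)).trans e1.symm
        rw [q3 1 hi2, p1, C.tp0, h.zd, s2])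
    fun hl => absurd (hT.1.2 ▸ hl) (by simp)
  have hg' : g ∈ Cx(z) := by rw [C.cz]; exact e1 ▸ hg t1.1 (by simp)
  refine ⟨ext φ g * s, fl, h1, fun i hi => ?_⟩
  rw [← h2 i hi, C.tp_smul (q1 i hi), ext_conj φ hg' (q2 i hi), q3 i hi]
  exact ⟨mul_mem (mul_mem hg' (q2 i hi)) (inv_mem hg'), by group⟩

end

end CfH8.Fi
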