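import Cfsg.Agent.H8.FiB

/-! Orbits under a given subgroup, and the deletion calculus for lifted transpositions. -/

set_option autoImplicit false

namespace CfH8.Fi

open Subgroup CfH9 CfH6 MulAction

noncomputable def actP (Pss : List (List ℕ)) (v : List ℕ) (p : ℕ) : ℕ :=
  List.rec p (fun x _ ih => force ih (imgP (lget Pss [] x))) v

noncomputable def delW (Pss : List (List ℕ)) (pts : List ℕ) (cert : List (ℕ × ℕ)) : List ℕ → Bool :=
  List.rec (fun w => w.isEmpty) (fun c _ ih w => forceL (w.drop c.1) fun r => forceL (r.tail.take c.2) fun v =>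
    forceL (r.tail.drop c.2) fun s => !r.isEmpty && !s.isEmpty &&
      Nat.beq (actP Pss v (lget pts 0 (s.headD 0))) (lget pts 0 (r.headD 0)) &&
        forceL (w.take c.1 ++ (v ++ s.tail)) ih) cert

noncomputable def chkDel (nets : List Net) (m K : ℕ) (TG : List NP) (L : List (List ℕ × List (ℕ × ℕ))) : Bool :=
  forceLL (TG.map fun t => plW nets m K (wT t)) fun Pss => forceL (TG.map Prod.fst) fun pts =>
    L.all fun c => allLt TG.length c.1 && delW Pss pts c.2 c.1

section
variable {F : Type*} [Group F] [MulAction F ℕ]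
variable {m K : ℕ} {nets : List Net} {k : ℕ} {el : ℕ → F} {z : F} {U : ℕ} {bs gp : List ℕ}

def OrbM (M : Subgroup F) (fp : List ℕ) (p S : ℕ) : Prop :=
  ∀ q, S.testBit q = true → ∃ g ∈ M ⊓ fixer F fp, g • p = q

theorem OrbM.orbS {M : Subgroup F} {fp : List ℕ} {p S : ℕ} (h : OrbM M fp p S) : OrbS F fp [p] S := fun q hq =>
  let ⟨g, hg, e⟩ := h q hq; ⟨g, hg.2, p, List.mem_singleton_self _, e⟩

theorem OrbM.card [Finite F] {M : Subgroup F} {fp : List ℕ} {p S c d : ℕ} (h : OrbM M fp p S)
    (hc : (Nat.beq (Nat.shiftRight S (2 ^ d)) 0 && Nat.beq (popc d S) c) = true) :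
    c * Nat.card (M ⊓ fixer F (p :: fp) : Subgroup F) ≤ Nat.card (M ⊓ fixer F fp : Subgroup F) := by
  simp only [Bool.and_eq_true, Nat.beq_eq] at hc
  have e : M ⊓ fixer F (p :: fp) = (M ⊓ fixer F fp) ⊓ stabilizer F p := by
    ext g; simp only [mem_fixer, List.forall_mem_cons, mem_inf, mem_stabilizer_iff]; tauto
  rw [e, card_eq_orbit_mul (M ⊓ fixer F fp) p, ← hc.2, ← ncard_bitSet hc.1]
  refine Nat.mul_le_mul_right _ (Set.ncard_le_ncard (fun q hq => ?_) (Set.finite_range _))
  obtain ⟨g, hg, e⟩ := h q hq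
  exact ⟨⟨g, hg⟩, e⟩

theorem Ctx.evw_wP (C : Ctx m K nets k el z U bs gp) {ts : List NP} (h : ∀ t ∈ ts, Fi.okT nets m k gp t = true) :
    evw el (wP ts) = evw (tp z) (ts.map Prod.fst) := by
  induction ts with
  | nil => rfl
  | cons t ts ih =>
    rw [List.forall_mem_cons] at h
    exact (evw_append _ _ _).trans (by rw [(C.okT h.1).2.1, List.map_cons, evw_cons, ← ih h.2]; rfl)

theorem Ctx.orbM (C : Ctx m K nets k el z U bs gp) {M : Subgroup F} {S0 : ℕ}
    (hM : ∀ q, S0.testBit q = true → tp z q ∈ M) {tss : List (List NP)} {fp : List ℕ} {p fuel S : ℕ}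
    (h : (forceG S0 (fun S0 => tss.all fun ts => ts.all fun t => Fi.okT nets m k gp t && S0.testBit t.1) &&
      chkOrb nets m K k (tss.map wP) fp [p] fuel S) = true) : OrbM M fp p S := by
  simp only [chkOrb, forceG_eq, forceLL_eq, Bool.and_eq_true, List.all_eq_true, Nat.blt_eq, Nat.beq_eq, List.mem_map,
    forall_exists_index, and_imp, forall_apply_eq_imp_iff₂] at h
  obtain ⟨h0, ⟨⟨h1, h2⟩, h3⟩, h4, h5⟩ := h
  have e : ∀ w ∈ tss, ∀ i < m, imgP (plW nets m K (wP w)) i = evw el (wP w) • i := fun w hw i hi => by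
    rw [imgP_plW C.L.ok C.mK _ hi, C.L.word (allLt_sound (h1 w hw)) hi]
  intro q hq
  refine (bfs0_sound (Q := fun q => q < m ∧ ∃ g ∈ M ⊓ fixer F fp, g • p = q) ?_ fuel
    (fun p' hp => ⟨h3 p' hp, 1, one_mem _, by rw [one_smul, List.mem_singleton.1 hp]⟩) q (subM_sound h5 hq)).2
  intro Ps hP q ⟨hq, g, hg, e'⟩
  obtain ⟨_, hw', rfl⟩ := List.mem_map.1 hP
  obtain ⟨w, hw, rfl⟩ := List.mem_map.1 hw'
  refine ⟨by rw [imgP_plW C.L.ok C.mK _ hq]; exact (evw_bound C.L.ok _ q).1 hq, evw el (wP w) * g,
    mul_mem ⟨?_, fun b hb => by rw [← e w hw b (h2 b hb), h4 w hw b hb]⟩ hg, ?_⟩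
  · rw [C.evw_wP fun t ht => (h0 w hw t ht).1]
    refine Subgroup.list_prod_mem _ fun y hy => ?_
    obtain ⟨x, hx, rfl⟩ := List.mem_map.1 hy
    obtain ⟨t, ht, rfl⟩ := List.mem_map.1 hx
    exact hM _ (h0 w hw t ht).2
  · rw [e w hw q hq, mul_smul, e']

variable {E : Type*} [Group E] {π : E →* F} {t : E} {p0 : ℕ} {a : E}

theorem Lift.del (h : Lift z U π t p0 a) (C : Ctx m K nets k el z U bs gp) (h2 : a * a = 1) {TG : List NP}
    (hT : ∀ t ∈ TG, okT nets m k gp t = true ∧ InO π p0 t.1) {L : List (List ℕ × List (ℕ × ℕ))}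
    (hL : chkDel nets m K TG L = true) : ∀ w ∈ L.map Prod.fst, evw (fun x => lam π p0 a (xp TG x)) w = 1 := by
  simp only [chkDel, forceLL_eq, forceL_eq, List.all_eq_true, Bool.and_eq_true] at hL
  have hx : ∀ x < TG.length, okT nets m k gp (xn TG x) = true ∧ InO π p0 (xp TG x) := fun x hx => hT _ (lget_mem _ hx)
  have e1 : ∀ x < TG.length, lget (TG.map Prod.fst) 0 x = xp TG x := fun x hx => by
    rw [xp, xn, lget_eq, lget_eq, List.getD_eq_getElem _ _ hx, List.getD_eq_getElem _ _ (by simpa using hx),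
      List.getElem_map]
  have e2 : ∀ x < TG.length, lget (TG.map fun t => plW nets m K (wT t)) [] x = plW nets m K (wT (xn TG x)) :=
    fun x hx => by
      rw [xn, lget_eq, lget_eq, List.getD_eq_getElem _ _ hx, List.getD_eq_getElem _ _ (by simpa using hx),
        List.getElem_map]
  set ev := fun x => lam π p0 a (xp TG x)
  have act : ∀ v : List ℕ, (∀ x ∈ v, x < TG.length) → ∀ p, InO π p0 p →
      InO π p0 (actP (TG.map fun t => plW nets m K (wT t)) v p) ∧
        evw ev v * lam π p0 a p * (evw ev v)⁻¹ = lam π p0 a (actP (TG.map fun t => plW nets m K (wT t)) v p) := by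
    intro v hv p hp
    induction v with
    | nil => exact ⟨hp, by simp [actP]⟩
    | cons x v ih =>
      obtain ⟨h3, h4⟩ := ih fun y hy => hv y (List.mem_cons_of_mem _ hy)
      have hx' := hv x List.mem_cons_self
      have hm := C.Um _ (h.inU C h3)
      have e : actP (TG.map fun t => plW nets m K (wT t)) (x :: v) p =
          π (ev x) • actP (TG.map fun t => plW nets m K (wT t)) v p := by
        rw [h.map C (hx x hx').2, xp, ← (C.okT (hx x hx').1).2.1, C.L.word (C.okT (hx x hx').1).2.2 hm,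
          ← imgP_plW C.L.ok C.mK _ hm, ← e2 x hx']
        exact force_eq _ _
      rw [e, ← h.conj h3, ← h4, evw_cons]
      refine ⟨?_, by group⟩
      obtain ⟨g, e'⟩ := h3
      exact ⟨ev x * g, by rw [map_mul, mul_smul, e']⟩
  have key : ∀ (cert : List (ℕ × ℕ)) (w : List ℕ), (∀ x ∈ w, x < TG.length) →
      delW (TG.map fun t => plW nets m K (wT t)) (TG.map Prod.fst) cert w = true → evw ev w = 1 := by
    intro cert
    induction cert with
    | nil => intro w _ hw; rw [List.isEmpty_iff.1 hw]; rfl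
    | cons c cert ih =>
      intro w hw hc
      have e : ∀ Pss pts, delW Pss pts (c :: cert) w = forceL (w.drop c.1) fun r => forceL (r.tail.take c.2) fun v =>
        forceL (r.tail.drop c.2) fun s => !r.isEmpty && !s.isEmpty &&
          Nat.beq (actP Pss v (lget pts 0 (s.headD 0))) (lget pts 0 (r.headD 0)) &&
            forceL (w.take c.1 ++ (v ++ s.tail)) (delW Pss pts cert) := fun _ _ => rfl
      simp only [e, forceL_eq, Bool.and_eq_true, Nat.beq_eq, Bool.not_eq_true'] at hc
      rw [← List.take_append_drop c.1 w] at hw ⊢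
      generalize w.take c.1 = u, w.drop c.1 = r at hw hc
      cases r with
      | nil => simp at hc
      | cons x r =>
        simp only [List.tail_cons, List.headD_cons] at hc
        rw [← List.take_append_drop c.2 r] at hw ⊢
        generalize r.take c.2 = v, r.drop c.2 = s at hw hc
        cases s with
        | nil => simp at hc
        | cons y s =>
          simp only [List.tail_cons, List.headD_cons] at hc
          simp only [List.mem_append, List.mem_cons] at hw
          have hx' := hw x (by simp)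
          have hy' := hw y (by simp)
          have h3 := (act v (fun b hb => hw b (by simp [hb])) _ (hx y hy').2).2
          rw [← e1 y hy', hc.1.2, e1 x hx', e1 y hy'] at h3
          have h4 := ih _ (fun b hb => hw b (by simp only [List.mem_append] at hb; tauto)) hc.2
          have h5 : ev x * ev x = 1 := (h.sq C (hx x hx').2).trans h2
          simp only [evw_append, evw_cons] at h4 ⊢
          change evw ev v * ev y * (evw ev v)⁻¹ = ev x at h3
          rw [← h4, ← mul_assoc (evw ev v), mul_inv_eq_iff_eq_mul.1 h3, mul_assoc, ← mul_assoc (ev x), h5, one_mul]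
  intro w hw
  obtain ⟨c, hc, rfl⟩ := List.mem_map.1 hw
  exact key _ _ (allLt_sound (hL c hc).1) (hL c hc).2

end

end CfH8.Fi
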