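import Cfsg.Agent.H8.FiS

/-! Glue lemmas for the Fischer group certificates. -/

set_option autoImplicit false

namespace CfH8.Fi

open Subgroup CfH9 CfH6 MulAction

section
variable {F : Type*} [Group F] [MulAction F ℕ]
variable {m K : ℕ} {nets : List Net} {k : ℕ} {el : ℕ → F} {z : F} {U : ℕ} {bs gp : List ℕ}
  {XS : List NP} {n r : ℕ} {V : List ℕ}

theorem OrbS.card' [Finite F] {fp : List ℕ} {p S c d : ℕ} (h : OrbS F fp [p] S)
    (hc : (Nat.beq (Nat.shiftRight S (2 ^ d)) 0 && Nat.beq (popc d S) c) = true) :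
    c * Nat.card (fixer F (p :: fp)) ≤ Nat.card (fixer F fp) := by
  simp only [Bool.and_eq_true, Nat.beq_eq] at hc
  exact h.card (by rw [ncard_bitSet hc.1, hc.2])

theorem orbS_of {H : Subgroup F} {fp : List ℕ} (hH : H ≤ fixer F fp) {p S : ℕ} (h : orbit H p = bitSet S) :
    OrbS F fp [p] S := fun q hq => by
  have : q ∈ orbit H p := h ▸ hq
  obtain ⟨g, e⟩ := this
  exact ⟨g, hH g.2, p, List.mem_singleton_self _, e⟩

theorem fixer_nil : fixer F [] = ⊤ := eq_top_iff.2 fun _ _ _ h => absurd h List.not_mem_nil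

theorem fixer_mono {a b : List ℕ} (h : a.all (fun x => memN x b) = true) : fixer F b ≤ fixer F a :=
  fun _ hg x hx => hg x (memN_iff.1 (List.all_eq_true.1 h x hx))

theorem Lvl.real (L : Lvl m nets k el) {ws : List (List ℕ × ℕ)}
    (h : ws.all (fun w => chkActs nets m k XS n w.1 w.2) = true) : ∀ l ∈ ws.map Prod.snd, ∃ g : F, Acts XS n g l := by
  intro l hl
  obtain ⟨w, hw, rfl⟩ := List.mem_map.1 hl
  exact ⟨_, Lvl.acts L (List.all_eq_true.1 h w hw)⟩

theorem Ctx.realH (C : Ctx m K nets k el z U bs gp) (hx : xp XS 0 = 0) (hn : 0 < n) {NL : List ℕ}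
    (h : ∀ l ∈ NL, ∃ g : F, Acts XS n g l) (h0 : NL.all (fun l => Nat.beq (pg l 0) 0) = true) :
    ∀ l ∈ NL, ∃ g ∈ Cx(z), Acts XS n g l := fun l hl => by
  obtain ⟨g, e⟩ := h l hl
  have := (e 0 hn).2
  rw [Nat.eq_of_beq_eq_true (List.all_eq_true.1 h0 l hl), hx] at this
  exact ⟨g, by rw [C.cz]; exact this, e⟩

theorem real_top {NL : List ℕ} (h : ∀ l ∈ NL, ∃ g : F, Acts XS n g l) :
    ∀ l ∈ NL, ∃ g ∈ (⊤ : Subgroup F), Acts XS n g l := fun l hl => let ⟨g, e⟩ := h l hl; ⟨g, trivial, e⟩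

theorem Ctx.eqW (C : Ctx m K nets k el z U bs gp) {x y : List ℕ}
    (h : chkFx nets m k bs (x ++ y.reverse) = true) : evw el x = evw el y := by
  have h1 := C.one h
  simp only [chkFx, Bool.and_eq_true] at h
  rwa [evw_append, evw_reverse C.sq fun a ha => allLt_sound h.1 a (by simp [ha]), mul_inv_eq_one] at h1

theorem Ctx.conjW (C : Ctx m K nets k el z U bs gp) {g x y : List ℕ}
    (h : chkFx nets m k bs (g ++ x ++ g.reverse ++ y.reverse) = true) :
    evw el g * evw el x * (evw el g)⁻¹ = evw el y := by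
  have h1 := C.eqW h
  simp only [chkFx, Bool.and_eq_true] at h
  rwa [evw_append, evw_append, evw_reverse C.sq fun a ha => allLt_sound h.1 a (by simp [ha])] at h1

/-- representatives of the coset of an involution are conjugate into the base group -/
noncomputable def chkR (nets : List Net) (m k : ℕ) (bs : List ℕ) (XS : List NP) (r : ℕ) (fp t : List ℕ)
    (c : ℕ × List ℕ × ℕ) : Bool :=
  Nat.blt c.2.2 (2 ^ r) && chkFx nets m k fp c.2.1 &&
    chkFx nets m k bs (c.2.1 ++ (t ++ aW XS r c.1) ++ c.2.1.reverse ++ (aW XS r c.2.2).reverse)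

theorem ACtx.reps (C : ACtx m K nets k el z U bs gp XS n r V) {fp t : List ℕ} {cs : List (ℕ × List ℕ × ℕ)}
    (h : ∀ c ∈ cs, chkR nets m k bs XS r fp t c = true) :
    ∀ ρ ∈ cs.map Prod.fst, ∃ a < 2 ^ r, C0 (fixer F fp) (evw el t * ia z XS r ρ) (ia z XS r a) := by
  intro ρ hρ
  obtain ⟨c, hc, rfl⟩ := List.mem_map.1 hρ
  have := h c hc
  simp only [chkR, Bool.and_eq_true, Nat.blt_eq] at this
  have e := C.conjW this.2
  rw [evw_append, C.aW, C.aW] at e
  exact ⟨_, this.1.1, _, Lvl.fx C.L this.1.2, e⟩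

theorem ACtx.ia_one (C : ACtx m K nets k el z U bs gp XS n r V) (hx : xp XS 0 = 0) (hr : 0 < r) :
    ia z XS r 1 = z := by
  rw [ia, ← pow_zero 2, io_pow, if_pos hr, hx, C.tp0]

theorem ACtx.inj_of (C : ACtx m K nets k el z U bs gp XS n r V) {orbs : List (ℕ × ℕ)}
    (ho : ∀ o ∈ orbs, ∀ a, o.2.testBit a = true → C0 ⊤ (ia z XS r o.1) (ia z XS r a))
    (h : (Nat.beq (mkB orbs ||| 1) (2 ^ 2 ^ r - 1) &&
      (1 :: orbs.map Prod.fst).all fun a => bs.any fun b => chkMv nets m k (Fi.aW XS r a) b) = true) :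
    ∀ a < 2 ^ r, ia z XS r a = 1 → a = 0 := by
  rw [Bool.and_eq_true] at h
  have ne : ∀ a ∈ 1 :: orbs.map Prod.fst, ia z XS r a ≠ 1 := fun a ha e => by
    obtain ⟨b, -, hb⟩ := List.any_eq_true.1 (List.all_eq_true.1 h.2 a ha)
    exact Lvl.mv C.L hb (by rw [C.aW, e, one_smul])
  intro a ha e
  by_contra h0
  rcases cover_of h.1 ha h0 with rfl | ⟨o, h1, h2⟩
  · exact ne 1 List.mem_cons_self e
  · obtain ⟨g, -, e'⟩ := (ho o h1 a h2).symm
    exact ne o.1 (List.mem_cons_of_mem _ (List.mem_map_of_mem h1)) (by rw [← e', e]; simp)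

/-- the transpositions in the base group -/
theorem SCtx.da {gs : List ℕ} (C : SCtx m K nets k el z U bs gp XS n r V gs) {Cs : List NP}
    (h : (Cs.all (fun t => okT nets m k gp t && memN t.1 (XS.map Prod.fst)) &&
      subM (cand nets m K U Cs [] []) (mskL (XS.map Prod.fst))) = true) {a : ℕ} (ha : a < 2 ^ r)
    (hc : IsConj z (ia z XS r a)) : ∃ i < n, a = lget V 0 i := by
  simp only [Bool.and_eq_true, List.all_eq_true, memN_iff] at h
  have ex : ∀ p ∈ XS.map Prod.fst, ∃ i < n, xp XS i = p := fun p hp => by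
    obtain ⟨t, ht, rfl⟩ := List.mem_map.1 hp
    obtain ⟨i, hi, rfl⟩ := exists_lget (0, [], 0) ht
    exact ⟨i, C.len ▸ hi, rfl⟩
  obtain ⟨p, hp, e⟩ := C.of_conj hc
  have := subM_sound h.2 ((C.cand (fun t ht => (h.1 t ht).1) (by simp) p).2 ⟨hp, fun t ht => by
    obtain ⟨i, hi, e'⟩ := ex _ (h.1 t ht).2
    rw [← C.comm_iff hp, ← e', C.xv i hi, e, C.ia_comm], by simp, by simp⟩)
  obtain ⟨i, hi, rfl⟩ := ex p ((testBit_mskL _ _).1 this)
  exact ⟨i, hi, C.inj' ha (C.vlt i hi) (e ▸ C.xv i hi)⟩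

theorem Ctx.tr3 (C : Ctx m K nets k el z U bs gp) {S p : ℕ} (h : OrbS F [0] [p] S) {t : NP}
    (ht : Fi.okT nets m k gp t = true) (t0 : t.1 = 0) (hS : subM (Fi.cand nets m K U [] [t] []) S = true)
    (hp : U.testBit p = true) (hb : z * tp z p * z = tp z p * z * tp z p) {d e : F} (hd : IsConj z d)
    (he : IsConj z e) : d * e = e * d ∨ d * e * d = e * d * e := by
  obtain ⟨g, rfl⟩ := isConj_iff.1 hd
  obtain ⟨q, hq, e1⟩ := C.of_conj (he.trans (isConj_iff.2 ⟨g⁻¹, rfl⟩))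
  have e2 : e = g * tp z q * g⁻¹ := by rw [e1]; group
  rw [e2]
  simp only [conj_mul, mul_left_inj, mul_right_inj]
  by_cases hf : z • q = q
  · exact Or.inl ((C.comm_iff hq z).2 hf)
  · right
    obtain ⟨y, hy, rfl⟩ := h.one (subM_sound hS ((C.cand (by simp) (by simpa using ht) q).2
      ⟨hq, by simp, by simpa [t0, C.tp0] using hf, by simp⟩))
    rw [C.fixer0] at hy
    rw [C.tp_smul hp, ← mem_Cx'.1 hy]
    simp only [conj_mul]
    rw [mem_Cx'.1 hy, hb]

/-- a transposition commuting with given ones is conjugate to a standard one -/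
theorem Ctx.std (C : Ctx m K nets k el z U bs gp) {Cs : List NP} (hC : Cs.all (Fi.okT nets m k gp) = true)
    {fp Ex : List ℕ} {p : ℕ} (h : OrbS F fp [p] (Fi.cand nets m K U Cs [] Ex)) (hp : U.testBit p = true) {q : ℕ}
    (hq : U.testBit q = true) (h1 : ∀ t ∈ Cs, tp z t.1 • q = q) (h2 : q ∉ Ex) {w : F}
    (hw : ∀ g ∈ fixer F fp, g * w * g⁻¹ = w) : C0 (fixer F fp) (tp z p * w) (tp z q * w) := by
  obtain ⟨g, hg, rfl⟩ := h.one ((C.cand (List.all_eq_true.1 hC) (by simp) q).2 ⟨hq, h1, by simp, h2⟩)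
  exact ⟨g, hg, by rw [C.tp_smul hp, ← conj_mul, hw g hg]⟩

theorem Ctx.fix_tp (C : Ctx m K nets k el z U bs gp) {g : F} {p : ℕ} (hp : U.testBit p = true) (h : g • p = p) :
    g * tp z p * g⁻¹ = tp z p := by rw [← C.tp_smul hp, h]

end

end CfH8.Fi
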