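import Cfsg.Agent.H8.FiG
import Cfsg.Agent.H6.Iso

/-! Lifting transpositions to a central extension of order two. -/

set_option autoImplicit false

namespace CfH8.Fi

open Subgroup CfH9 CfH6 MulAction

section
variable {F : Type*} [Group F] {Kp M : Subgroup F}

/-- `M` has index at most two in `Kp` -/
def Ix2 (Kp M : Subgroup F) : Prop := ∀ x ∈ Kp, ∀ y ∈ Kp, x ∉ M → y ∉ M → x * y ∈ M

theorem Ix2.link (h : Ix2 Kp M) {x y : F} (hx : x ∈ Kp) (hy : y ∈ Kp) (e : x * y * (x * y) * (x * y) = 1)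
    (h1 : x ∈ M) : y ∈ M := by
  by_contra h2
  have h3 : x * y ∉ M := fun h3 => h2 ((M.mul_mem_cancel_left h1).1 h3)
  have h4 := h _ (mul_mem hx hy) _ (mul_mem hx hy) h3 h3
  exact h3 ((M.mul_mem_cancel_left h4).1 (e ▸ M.one_mem))

theorem Ix2.word (h : Ix2 Kp M) {ev : ℕ → F} {w : List ℕ} (hw : ∀ x ∈ w, ev x ∈ Kp ∧ ev x ∉ M) :
    evw ev w ∈ Kp ∧ (evw ev w ∈ M ↔ w.length % 2 = 0) := by
  induction w with
  | nil => simp
  | cons a w ih =>
    obtain ⟨h1, h2⟩ := ih fun x hx => hw x (List.mem_cons_of_mem _ hx)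
    obtain ⟨h3, h4⟩ := hw a List.mem_cons_self
    rw [evw_cons, List.length_cons]
    refine ⟨mul_mem h3 h1, fun h5 => ?_, fun h5 => h _ h3 _ h1 h4 fun h6 => by rw [h2] at h6; omega⟩
    by_contra h6
    exact h4 ((M.mul_mem_cancel_right (h2.2 (by omega))).1 h5)

theorem evw_twist (ev : ℕ → F) {t : F} (w : List ℕ) (ht : ∀ x ∈ w, ev x * t = t * ev x) :
    evw (fun x => ev x * t) w = evw ev w * t ^ w.length := by
  induction w with
  | nil => simp
  | cons a w ih =>
    have c : Commute (evw ev w) t := by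
      have : evw ev w ∈ Cx(t) := Subgroup.list_prod_mem _ fun y hy => by
        obtain ⟨x, hx, rfl⟩ := List.mem_map.1 hy
        exact mem_Cx.2 (ht x (List.mem_cons_of_mem _ hx))
      exact mem_Cx.1 this
    rw [evw_cons, evw_cons, ih fun x hx => ht x (List.mem_cons_of_mem _ hx), List.length_cons, pow_succ',
      mul_assoc, ← mul_assoc t, ← c.eq]
    simp only [mul_assoc]

theorem top_of_perfect (hp : commutator F = ⊤) {t : F} (ht : ∀ g, g * t = t * g) {H : Subgroup F}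
    (h : ∀ g, g ∈ H ∨ g * t ∈ H) : H = ⊤ := by
  rw [eq_top_iff, ← hp, commutator_def, commutator_le]
  intro x _ y _
  have : ∀ g, ∃ g' ∈ H, ∃ s, (∀ k, k * s = s * k) ∧ g = g' * s := fun g => (h g).elim
    (fun e => ⟨g, e, 1, by simp, by simp⟩) fun e => ⟨_, e, t⁻¹, fun k => (Commute.inv_right (ht k)).eq, by simp⟩
  obtain ⟨a, ha, s, hs, rfl⟩ := this x
  obtain ⟨b, hb, s', hs', rfl⟩ := this y
  have : a * s * (b * s') * (a * s)⁻¹ * (b * s')⁻¹ = a * b * a⁻¹ * b⁻¹ := by
    rw [mul_inv_rev, mul_inv_rev, mul_assoc a s, ← hs (b * s'), mul_assoc a, mul_assoc (b * s'),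
      mul_inv_cancel_left, mul_assoc b, ← hs' a⁻¹, mul_assoc a, mul_assoc b, mul_assoc a⁻¹, mul_inv_cancel_left]
    group
  rw [commutatorElement_def, this]
  exact mul_mem (mul_mem (mul_mem ha hb) (inv_mem ha)) (inv_mem hb)

end

section
variable {F E : Type*} [Group F] [Group E]

structure Ext (π : E →* F) (t : E) : Prop where
  cen : ∀ g, g * t = t * g
  t2 : t * t = 1
  ker : ∀ g, π g = 1 → g = 1 ∨ g = t
  pt : π t = 1

variable {π : E →* F} {t : E}

theorem Ext.eq (h : Ext π t) {x y : E} (e : π x = π y) : x = y ∨ x = y * t := by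
  rcases h.ker (y⁻¹ * x) (by simp [e]) with h1 | h1
  · exact Or.inl (inv_mul_eq_one.1 h1).symm
  · exact Or.inr (inv_mul_eq_iff_eq_mul.1 h1)

theorem Ext.sq (h : Ext π t) {x y : E} (e : π x = π y) : x * x = y * y := by
  rcases h.eq e with rfl | rfl
  · rfl
  · rw [mul_assoc, ← mul_assoc t, ← h.cen y, mul_assoc, h.t2, mul_one]

variable [MulAction F ℕ]

open Classical in
noncomputable def lam (π : E →* F) (p0 : ℕ) (a : E) (p : ℕ) : E :=
  if h : ∃ g, π g • p0 = p then h.choose * a * h.choose⁻¹ else 1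

/-- the lift of a transposition is centralised by everything that fixes the point -/
theorem Ext.cent (h : Ext π t) {p0 : ℕ} {a : E} (hc : ∀ g, π g • p0 = p0 → π g * π a = π a * π g)
    (hN : ∀ M, Ix2 (π.range ⊓ stabilizer F p0) M → Cx(a).map π ≤ M → π.range ⊓ stabilizer F p0 ≤ M) (g : E)
    (hg : π g • p0 = p0) : g * a = a * g := by
  have h1 : ∀ g, π g • p0 = p0 → π g ∉ Cx(a).map π → g * a * g⁻¹ = a * t := fun g hg hn =>
    (h.eq (by rw [map_mul, map_mul, hc g hg, map_inv, mul_inv_cancel_right])).resolve_left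
      fun e => hn ⟨g, mem_Cx'.2 e, rfl⟩
  obtain ⟨g', hg', e⟩ := hN _ (by
    rintro _ ⟨⟨x, rfl⟩, hx⟩ _ ⟨⟨y, rfl⟩, hy⟩ h2 h3
    refine ⟨x * y, mem_Cx'.2 ?_, map_mul _ _ _⟩
    rw [mul_inv_rev, mul_assoc x, mul_assoc x, ← mul_assoc (y * a), h1 y hy h3, mul_assoc, ← h.cen, ← mul_assoc,
      ← mul_assoc, h1 x hx h2, mul_assoc, h.t2, mul_one]) le_rfl ⟨⟨g, rfl⟩, hg⟩
  rcases h.eq e.symm with rfl | rfl
  · exact mem_Cx.1 hg'
  · rw [mul_assoc, ← h.cen, ← mul_assoc, mem_Cx.1 hg', mul_assoc]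

variable {m K : ℕ} {nets : List Net} {k : ℕ} {el : ℕ → F} {z : F} {U : ℕ} {bs gp : List ℕ}

structure Lift (z : F) (U : ℕ) (π : E →* F) (t : E) (p0 : ℕ) (a : E) : Prop extends Ext π t where
  pU : U.testBit p0 = true
  pa : π a = tp z p0
  ca : ∀ g, π g • p0 = p0 → g * a = a * g

/-- points in the orbit of the base point -/
def InO (π : E →* F) (p0 p : ℕ) : Prop := ∃ g, π g • p0 = p

namespace Lift
variable {p0 : ℕ} {a : E} (h : Lift z U π t p0 a)
include h

theorem lam0 (g : E) : lam π p0 a (π g • p0) = g * a * g⁻¹ := by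
  have ex : ∃ g', π g' • p0 = π g • p0 := ⟨g, rfl⟩
  rw [lam, dif_pos ex]
  have := h.ca (g⁻¹ * ex.choose) (by rw [map_mul, mul_smul, ex.choose_spec, map_inv, inv_smul_smul])
  rw [← mul_left_cancel_iff (a := g⁻¹), ← mul_right_cancel_iff (a := g)]
  convert mem_Cx'.1 (mem_Cx.2 this) using 1 <;> group

theorem conj {p : ℕ} (hp : InO π p0 p) (g : E) : g * lam π p0 a p * g⁻¹ = lam π p0 a (π g • p) := by
  obtain ⟨x, rfl⟩ := hp
  rw [← mul_smul, ← map_mul, h.lam0, h.lam0]; group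

variable (C : Ctx m K nets k el z U bs gp)
include C

theorem inU {p : ℕ} (hp : InO π p0 p) : U.testBit p = true := by
  obtain ⟨x, rfl⟩ := hp
  exact C.smul_mem h.pU _

theorem map {p : ℕ} (hp : InO π p0 p) : π (lam π p0 a p) = tp z p := by
  obtain ⟨x, rfl⟩ := hp
  rw [h.lam0, C.tp_smul h.pU, map_mul, map_mul, map_inv, h.pa]

theorem comm {p q : ℕ} (hp : InO π p0 p) (hq : InO π p0 q) (e : tp z p • q = q) :
    lam π p0 a p * lam π p0 a q = lam π p0 a q * lam π p0 a p := by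
  have := h.conj hq (lam π p0 a p)
  rw [h.map C hp, e] at this
  exact mul_inv_eq_iff_eq_mul.1 this

theorem sq {p : ℕ} (hp : InO π p0 p) : lam π p0 a p * lam π p0 a p = a * a := by
  obtain ⟨x, rfl⟩ := hp
  rw [h.lam0, conj_mul]
  rcases h.ker (a * a) (by rw [map_mul, h.pa, C.tp_sq h.pU]) with e | e <;> rw [e]
  · simp
  · rw [h.cen, mul_inv_cancel_right]

theorem prod_sq {ps : List ℕ} (hp : ∀ p ∈ ps, InO π p0 p) (hc : ∀ p ∈ ps, ∀ q ∈ ps, tp z p • q = q) :
    evw (lam π p0 a) ps * evw (lam π p0 a) ps = (a * a) ^ ps.length := by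
  induction ps with
  | nil => simp
  | cons p ps ih =>
    have c : evw (lam π p0 a) ps ∈ Cx(lam π p0 a p) := Subgroup.list_prod_mem _ fun y hy => by
      obtain ⟨x, hx, rfl⟩ := List.mem_map.1 hy
      exact mem_Cx.2 (h.comm C (hp x (List.mem_cons_of_mem _ hx)) (hp p List.mem_cons_self)
        (hc x (List.mem_cons_of_mem _ hx) p List.mem_cons_self))
    rw [evw_cons, mul_assoc, ← mul_assoc (evw _ ps), mem_Cx.1 c, mul_assoc, ih (fun p h => hp p (List.mem_cons_of_mem _ h))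
      fun p h q h' => hc p (List.mem_cons_of_mem _ h) q (List.mem_cons_of_mem _ h'), ← mul_assoc,
      h.sq C (hp p List.mem_cons_self), List.length_cons, pow_succ']

theorem map_evw {ps : List ℕ} (hp : ∀ p ∈ ps, InO π p0 p) : π (evw (lam π p0 a) ps) = evw (tp z) ps := by
  rw [CfH6.map_evw, evw, evw, List.map_congr_left fun p h' => h.map C (hp p h')]

/-- an odd number of commuting transpositions whose product lifts to an involution -/
theorem a2 {ps : List ℕ} (hp : ∀ p ∈ ps, InO π p0 p) (hc : ∀ p ∈ ps, ∀ q ∈ ps, tp z p • q = q)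
    (ho : ps.length % 2 = 1) {y : E} (hy : y * y = 1) (e : evw (tp z) ps = π y) : a * a = 1 := by
  have h1 := h.prod_sq C hp hc
  rw [h.toExt.sq (y := y) (by rw [h.map_evw C hp, e]), hy] at h1
  rcases h.ker (a * a) (by rw [map_mul, h.pa, C.tp_sq h.pU]) with e | e
  · exact e
  · rw [e, ← Nat.div_add_mod ps.length 2, ho, pow_add, pow_mul, pow_two, h.t2, one_pow, one_mul, pow_one] at h1
    exact e.trans h1.symm

theorem braid (h2 : a * a = 1) {p q : ℕ} (hp : InO π p0 p) (hq : InO π p0 q) (e : tp z p • q = tp z q • p) :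
    lam π p0 a p * lam π p0 a q * lam π p0 a p = lam π p0 a q * lam π p0 a p * lam π p0 a q := by
  have h3 := h.conj hq (lam π p0 a p)
  have h4 := h.conj hp (lam π p0 a q)
  rw [h.map C hp, e] at h3
  rw [h.map C hq, ← h3, inv_of_sq ((h.sq C hp).trans h2), inv_of_sq ((h.sq C hq).trans h2)] at h4
  exact h4.symm

end Lift

/-- relators of Coxeter type between named points -/
noncomputable def chkCox (nets : List Net) (m k : ℕ) (TG : List NP) (r : List ℕ) : Bool :=
  allLt TG.length r && forceG (lget r 0 0) fun x => forceG (lget r 0 1) fun y =>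
    (leqb r [x, y, x, y] && chkPt nets m k (wT (xn TG x)) (xp TG y) (xp TG y)) ||
    (leqb r [x, y, x, y, x, y] && chkPt nets m k (wT (xn TG y) ++ wT (xn TG x)) (xp TG y) (xp TG x))

theorem Lift.cox {p0 : ℕ} {a : E} (h : Lift z U π t p0 a) (C : Ctx m K nets k el z U bs gp) (h2 : a * a = 1)
    {TG : List NP} (hT : ∀ t ∈ TG, okT nets m k gp t = true ∧ InO π p0 t.1) {rs : List (List ℕ)}
    (hr : rs.all (chkCox nets m k TG) = true) : ∀ r ∈ rs, evw (fun x => lam π p0 a (xp TG x)) r = 1 := by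
  intro r hr'
  have := List.all_eq_true.1 hr r hr'
  simp only [chkCox, forceG_eq, Bool.and_eq_true, Bool.or_eq_true] at this
  generalize lget r 0 0 = x, lget r 0 1 = y at this
  obtain ⟨h3, ⟨h4, h5⟩ | ⟨h4, h5⟩⟩ := this <;> rw [leqb_sound _ _ h4] at h3 ⊢ <;>
    have hx := hT _ (lget_mem (0, [], 0) (allLt_sound h3 x (by simp))) <;>
    have hy := hT _ (lget_mem (0, [], 0) (allLt_sound h3 y (by simp))) <;>
    have sx := (h.sq C hx.2).trans h2 <;> have sy := (h.sq C hy.2).trans h2 <;>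
    have e := Lvl.pt C.L h5 <;> simp only [evw_cons, evw_nil, mul_one]
  · rw [xn, (C.okT hx.1).2.1] at e
    have b := h.comm C hx.2 hy.2 e
    change lam π p0 a (xp TG x) * lam π p0 a (xp TG y) = lam π p0 a (xp TG y) * lam π p0 a (xp TG x) at b
    change lam π p0 a (xp TG x) * lam π p0 a (xp TG x) = 1 at sx
    change lam π p0 a (xp TG y) * lam π p0 a (xp TG y) = 1 at sy
    generalize lam π p0 a (xp TG x) = u, lam π p0 a (xp TG y) = v at b sx sy
    rw [← mul_assoc v, ← b, mul_assoc, sy, mul_one, sx]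
  · rw [evw_append, xn, xn, (C.okT hx.1).2.1, (C.okT hy.1).2.1, mul_smul, ← eq_inv_smul_iff,
      inv_of_sq (C.tp_sq (C.okT hy.1).1)] at e
    have b := h.braid C h2 hx.2 hy.2 e
    change lam π p0 a (xp TG x) * lam π p0 a (xp TG y) * lam π p0 a (xp TG x) =
      lam π p0 a (xp TG y) * lam π p0 a (xp TG x) * lam π p0 a (xp TG y) at b
    change lam π p0 a (xp TG x) * lam π p0 a (xp TG x) = 1 at sx
    change lam π p0 a (xp TG y) * lam π p0 a (xp TG y) = 1 at sy
    generalize lam π p0 a (xp TG x) = u, lam π p0 a (xp TG y) = v at b sx sy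
    rw [← mul_assoc, ← mul_assoc, b, mul_assoc, ← mul_assoc v v, sy, one_mul, mul_assoc, ← mul_assoc u u, sx,
      one_mul, sy]

end

/-- an embedding of the centraliser of `z` onto the centraliser of `d` -/
structure Emb {F G : Type*} [Group F] [Group G] (z : F) (d : G) (φ : Cx(z) →* G) : Prop where
  inj : Function.Injective φ
  rng : φ.range = Cx(d)
  zd : ext φ z = d

theorem emb_of {P F G : Type*} [Group P] [Group F] [Group G] {z : F} {d : G} {ρ : P →* F} {τ : P →* G}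
    (h1 : Function.Injective ρ) (h2 : ρ.range = Cx(z)) (h3 : Function.Injective τ) (h4 : τ.range = Cx(d))
    {y : P} (h5 : ρ y = z) (h6 : τ y = d) : ∃ φ : Cx(z) →* G, Emb z d φ ∧ ∀ p, ext φ (ρ p) = τ p := by
  let e : P ≃* Cx(z) := (MonoidHom.ofInjective h1).trans (MulEquiv.subgroupCongr h2)
  have he : ∀ p, ext (τ.comp e.symm.toMonoidHom) (ρ p) = τ p := fun p => by
    rw [ext_mem _ (h2 ▸ ⟨p, rfl⟩)]
    exact congrArg τ (e.symm_apply_eq.2 rfl)
  refine ⟨τ.comp e.symm.toMonoidHom, ⟨h3.comp e.symm.injective, ?_, by rw [← h6, ← he, h5]⟩, he⟩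
  rw [← h4]
  ext g
  exact ⟨fun ⟨x, hx⟩ => ⟨_, hx⟩, fun ⟨x, hx⟩ => ⟨e x, by simpa using hx⟩⟩

end CfH8.Fi
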