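import Cfsg.Agent.H8.FiTop

/-! Recognition of Fischer groups: fusion in the large elementary abelian subgroup. -/

set_option autoImplicit false

namespace CfH8.Fi

open Subgroup Cfsg CfH9

universe u

/-- `T` is Sylow in `K` and `A`, enumerated by `ι`, is its only elementary abelian subgroup of
order `2 ^ r` -/
structure Loc {G : Type*} [Group G] (K T A : Subgroup G) (r : ℕ) (ι : ℕ → G) : Prop where
  syl : SylIn 2 T K
  AT : A ≤ T
  mem : ∀ a, a ∈ A ↔ ∃ n < 2 ^ r, ι n = a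
  mul : ∀ a < 2 ^ r, ∀ b < 2 ^ r, ι (a ^^^ b) = ι a * ι b
  inj : ∀ a < 2 ^ r, ι a = 1 → a = 0
  uniq : ∀ E ≤ T, (∀ e ∈ E, e * e = 1) → 2 ^ r ≤ Nat.card E → E = A
  inv : ∀ y ∈ T, y * y = 1 → ∃ n < 2 ^ r, C0 K y (ι n)

def WZ {G : Type*} [Group G] (T A : Subgroup G) (z : G) : Prop :=
  ∀ a ∈ A, (∀ t ∈ T, t * a * t⁻¹ = a ∨ t * a * t⁻¹ = a * z) → ∀ t ∈ T, t * a * t⁻¹ = a

noncomputable def cnt (B v m : ℕ) : ℕ :=
  Nat.rec 0 (fun n ih => Nat.add (Nat.land (Nat.land (Nat.shiftRight B n) (Nat.shiftRight B (Nat.xor n v))) 1) ih) m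

theorem and_one_eq (x : ℕ) : x &&& 1 = if x.testBit 0 then 1 else 0 := by
  rw [Nat.and_one_is_mod, Nat.testBit_zero]
  rcases Nat.mod_two_eq_zero_or_one x with h | h <;> simp [h]

theorem cnt_eq (B v m : ℕ) :
    cnt B v m = ((Finset.range m).filter fun n => B.testBit n = true ∧ B.testBit (n ^^^ v) = true).card := by
  induction m with
  | zero => rfl
  | succ n ih =>
    have e : cnt B v (n + 1) = (((B >>> n) &&& (B >>> (n ^^^ v))) &&& 1) + cnt B v n := rfl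
    rw [e, ih, and_one_eq, Finset.range_add_one, Finset.filter_insert]
    simp only [Nat.testBit_and, Nat.testBit_shiftRight, add_zero, Bool.and_eq_true]
    split_ifs with h
    · rw [Finset.card_insert_of_notMem (by simp), add_comm]
    · simp

section
variable {G : Type*} [Group G] {K T A : Subgroup G} {r : ℕ} {ι : ℕ → G}

theorem C0.refl (K : Subgroup G) (a : G) : C0 K a a := ⟨1, K.one_mem, by simp⟩

theorem C0.symm {a b : G} (h : C0 K a b) : C0 K b a :=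
  let ⟨g, hg, e⟩ := h; ⟨g⁻¹, K.inv_mem hg, by rw [← e]; group⟩

theorem C0.trans {a b c : G} (h : C0 K a b) (h' : C0 K b c) : C0 K a c :=
  let ⟨g, hg, e⟩ := h; let ⟨g', hg', e'⟩ := h'
  ⟨g' * g, K.mul_mem hg' hg, by rw [← e', ← e]; group⟩

theorem C0.mono {K' : Subgroup G} {a b : G} (h : C0 K a b) (hK : K ≤ K') : C0 K' a b :=
  let ⟨g, hg, e⟩ := h; ⟨g, hK hg, e⟩

theorem c0_top {a b : G} (h : IsConj a b) : C0 ⊤ a b :=
  let ⟨g, e⟩ := isConj_iff.1 h; ⟨g, trivial, e⟩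

namespace Loc
variable (h : Loc K T A r ι)
include h

theorem zero : ι 0 = 1 := by
  have := h.mul 0 (Nat.two_pow_pos r) 0 (Nat.two_pow_pos r)
  simpa using this

theorem sq' {n : ℕ} (hn : n < 2 ^ r) : ι n * ι n = 1 := by rw [← h.mul n hn n hn, Nat.xor_self, h.zero]

theorem sq {a : G} (ha : a ∈ A) : a * a = 1 := by
  obtain ⟨n, hn, rfl⟩ := (h.mem a).1 ha
  exact h.sq' hn

theorem mem' {n : ℕ} (hn : n < 2 ^ r) : ι n ∈ A := (h.mem _).2 ⟨n, hn, rfl⟩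

theorem comm {a b : G} (ha : a ∈ A) (hb : b ∈ A) : a * b = b * a := by
  obtain ⟨n, hn, rfl⟩ := (h.mem a).1 ha
  obtain ⟨m, hm, rfl⟩ := (h.mem b).1 hb
  rw [← h.mul n hn m hm, ← h.mul m hm n hn, Nat.xor_comm]

theorem inj' {a b : ℕ} (ha : a < 2 ^ r) (hb : b < 2 ^ r) (e : ι a = ι b) : a = b :=
  Nat.xor_eq_zero_iff.1 (h.inj _ (Nat.xor_lt_two_pow ha hb) (by rw [h.mul a ha b hb, e, h.sq' hb]))

theorem card : Nat.card A = 2 ^ r := by
  rw [← Nat.card_fin (2 ^ r)]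
  refine (Nat.card_congr (Equiv.ofBijective (fun i : Fin (2 ^ r) => (⟨ι i, h.mem' i.2⟩ : A)) ⟨?_, ?_⟩)).symm
  · intro i j e
    exact Fin.ext (h.inj' i.2 j.2 (congrArg Subtype.val e))
  · rintro ⟨a, ha⟩
    obtain ⟨n, hn, rfl⟩ := (h.mem a).1 ha
    exact ⟨⟨n, hn⟩, rfl⟩

theorem cj_eq {g : G} (hg : cj g A ≤ T) : g ∈ Nm(A) := by
  refine mem_normalizer_iff_cj.2 (h.uniq _ hg (fun e he => ?_) (by rw [card_cj, h.card]))
  obtain ⟨y, hy, rfl⟩ := mem_cj'.1 he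
  rw [conj_mul, h.sq hy, mul_one, mul_inv_cancel]

theorem nm {g : G} (hg : g ∈ Nm(T)) : g ∈ Nm(A) :=
  h.cj_eq ((cj_mono g h.AT).trans (cj_eq_of_mem_normalizer hg).le)

theorem pA : IsPGroup 2 A := isPGroup_iff_mem.2 fun a ha => ⟨1, by rw [pow_one, pow_two, h.sq ha]⟩

variable [Finite G]

theorem conj {g : G} (hg : cj g A ≤ K) : ∃ k ∈ K, k * g ∈ Nm(A) := by
  have := Fact.mk Nat.prime_two
  obtain ⟨k, hk, e⟩ := h.syl.exists_cj_le (isPGroup_cj h.pA g) hg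
  exact ⟨k, hk, h.cj_eq (by rwa [cj_mul])⟩

theorem inv' {y : G} (hy : y ∈ K) (h2 : y * y = 1) : ∃ n < 2 ^ r, C0 K y (ι n) := by
  have := Fact.mk Nat.prime_two
  obtain ⟨k, hk, e⟩ := h.syl.exists_conj_mem hy (k := 1) (by rw [pow_one, pow_two, h2])
  obtain ⟨n, hn, e'⟩ := h.inv _ e (by rw [conj_mul, h2, mul_one, mul_inv_cancel])
  exact ⟨n, hn, C0.trans ⟨k, hk, rfl⟩ e'⟩

/-- control of fusion in `A` when `T` is Sylow in the whole group -/
theorem ctrl (hT : SylIn 2 T ⊤) {a b : G} (ha : a ∈ A) (hb : b ∈ A) (hc : IsConj a b) :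
    ∃ n ∈ Nm(A), n * a * n⁻¹ = b := by
  have := Fact.mk Nat.prime_two
  obtain ⟨g, rfl⟩ := isConj_iff.1 hc
  obtain ⟨P, hP, hAP⟩ := exists_sylIn_ge (H := Cx(g * a * g⁻¹)) h.pA fun x hx => mem_Cx.2 (h.comm hx hb)
  obtain ⟨c, hc, e⟩ := hP.exists_cj_le (isPGroup_cj h.pA g) (by
    rw [← cj_Cx]; exact cj_mono g fun x hx => mem_Cx.2 (h.comm hx ha))
  obtain ⟨x, -, ex⟩ := hT.exists_cj_le hP.pgrp le_top
  have h1 := h.cj_eq ((cj_mono x hAP).trans ex)
  have h2 := h.cj_eq (g := x * (c * g)) (by rw [cj_mul, cj_mul]; exact (cj_mono x e).trans ex)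
  refine ⟨c * g, (Subgroup.mul_mem_cancel_left _ h1).1 h2, ?_⟩
  rw [mul_inv_rev, mul_assoc, mul_assoc, ← mul_assoc a, ← mul_assoc g, ← mul_assoc g, ← mul_assoc c]
  exact mem_Cx'.1 hc

end Loc

variable [Finite G] {z : G}

theorem Loc.fuse (h : Loc Cx(z) T A r ι) {v : G} (hv : v ∈ A) (hc : IsConj z v) :
    ∃ n ∈ Nm(A), n * z * n⁻¹ = v := by
  obtain ⟨g, rfl⟩ := isConj_iff.1 hc
  obtain ⟨k, hk, e⟩ := h.conj (g := g⁻¹) (by
    rw [cj_le_iff, inv_inv, cj_Cx]; exact fun x hx => mem_Cx.2 (h.comm hx hv))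
  refine ⟨_, Subgroup.inv_mem _ e, ?_⟩
  rw [mul_inv_rev, inv_inv, mul_inv_rev, inv_inv, mul_assoc, mul_assoc, ← mul_assoc z, ← mem_Cx.1 hk]
  group

theorem Loc.nfuse (h : Loc Cx(z) T A r ι) (hz : WZ T A z) {v : G} (hv : T ≤ Cx(v)) (hw : ¬ WZ T A v) :
    ¬ IsConj z v := by
  have := Fact.mk Nat.prime_two
  intro hc
  obtain ⟨g, rfl⟩ := isConj_iff.1 hc
  have h1 := h.syl.cj g
  rw [cj_Cx] at h1
  obtain ⟨c, hc, e⟩ := h1.conj (h1.of_card_le h.syl.pgrp hv (by rw [card_cj]))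
  rw [← cj_mul, ← mem_normalizer_iff_cj] at e
  have e2 : c * g * z * (c * g)⁻¹ = g * z * g⁻¹ := by
    rw [← mem_Cx'.1 hc]; group
  rw [← e2] at hw
  set n := c * g
  have eA := h.nm e
  apply hw
  intro a ha h3 t ht
  have := hz _ (conj_mem_of_mem_normalizer' eA ha) (fun s hs => by
    rcases h3 _ (conj_mem_of_mem_normalizer e hs) with e3 | e3
    · left; rw [← mul_left_cancel_iff (a := n), ← mul_right_cancel_iff (a := n⁻¹)]
      convert e3 using 1 <;> group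
    · right; rw [← mul_left_cancel_iff (a := n), ← mul_right_cancel_iff (a := n⁻¹)]
      convert e3 using 1 <;> group) _ (conj_mem_of_mem_normalizer' e ht)
  rw [← mul_left_cancel_iff (a := n⁻¹), ← mul_right_cancel_iff (a := n)]
  convert this using 1
  group

theorem Loc.count (h : Loc Cx(z) T A r ι) (hr : 1 < 2 ^ r) (hz : ι 1 = z) {v B : ℕ} (hv : v < 2 ^ r)
    (hc : IsConj z (ι v)) (hB : ∀ n < 2 ^ r, B.testBit n = true ↔ IsConj z (ι n)) :
    cnt B 1 (2 ^ r) = cnt B v (2 ^ r) := by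
  obtain ⟨g, hg, e⟩ := h.fuse (h.mem' hv) hc
  have ex : ∀ a < 2 ^ r, ∃ b < 2 ^ r, ι b = g * ι a * g⁻¹ := fun a ha =>
    (h.mem _).1 (conj_mem_of_mem_normalizer hg (h.mem' ha))
  choose! σ hσ1 hσ2 using ex
  have hx : ∀ a < 2 ^ r, σ (a ^^^ 1) = σ a ^^^ v := fun a ha =>
    h.inj' (hσ1 _ (Nat.xor_lt_two_pow ha hr)) (Nat.xor_lt_two_pow (hσ1 a ha) hv) (by
      rw [hσ2 _ (Nat.xor_lt_two_pow ha hr), h.mul _ (hσ1 a ha) _ hv, hσ2 a ha, h.mul a ha 1 hr, hz, ← e,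
        conj_mul])
  have hb : ∀ a < 2 ^ r, B.testBit (σ a) = true ↔ B.testBit a = true := fun a ha => by
    rw [hB _ (hσ1 a ha), hB a ha, hσ2 a ha]
    exact ⟨fun c => c.trans (isConj_iff.2 ⟨g, rfl⟩).symm, fun c => c.trans (isConj_iff.2 ⟨g, rfl⟩)⟩
  rw [cnt_eq, cnt_eq]
  refine Finset.card_bij (fun a _ => σ a) ?_ ?_ ?_
  · intro a ha
    simp only [Finset.mem_filter, Finset.mem_range] at ha ⊢
    rw [← hx a ha.1, hb a ha.1, hb _ (Nat.xor_lt_two_pow ha.1 hr)]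
    exact ⟨hσ1 a ha.1, ha.2⟩
  · intro a ha b hb' e
    simp only [Finset.mem_filter, Finset.mem_range] at ha hb'
    refine h.inj' ha.1 hb'.1 ?_
    have := congrArg ι e
    rwa [hσ2 a ha.1, hσ2 b hb'.1, mul_left_inj, mul_right_inj] at this
  · intro b hb'
    simp only [Finset.mem_filter, Finset.mem_range] at hb'
    obtain ⟨a, ha, ea⟩ := (h.mem _).1 (conj_mem_of_mem_normalizer' hg (h.mem' hb'.1))
    have : σ a = b := h.inj' (hσ1 a ha) hb'.1 (by rw [hσ2 a ha, ea]; group)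
    refine ⟨a, ?_, this⟩
    simp only [Finset.mem_filter, Finset.mem_range]
    rw [← hb a ha, ← hb _ (Nat.xor_lt_two_pow ha hr), hx a ha, this]
    exact ⟨ha, hb'.2⟩

end

/-- union of the masks of a list of orbits, together with the point `1` -/
def mkB (s : List (ℕ × ℕ)) : ℕ := s.foldr (fun o b => o.2 ||| b) 2

theorem testBit_mkB (s : List (ℕ × ℕ)) (n : ℕ) :
    (mkB s).testBit n = true ↔ n = 1 ∨ ∃ o ∈ s, o.2.testBit n = true := by
  induction s with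
  | nil =>
    change (2 ^ 1).testBit n = true ↔ _
    rw [Nat.testBit_two_pow, decide_eq_true_eq]
    exact ⟨fun e => Or.inl e.symm, fun e => e.elim Eq.symm fun ⟨_, h, _⟩ => absurd h List.not_mem_nil⟩
  | cons o s ih =>
    change (o.2 ||| mkB s).testBit n = true ↔ _
    rw [Nat.testBit_or, Bool.or_eq_true, ih]
    simp only [List.mem_cons, exists_eq_or_imp]
    tauto

noncomputable def chkCl (r : ℕ) (orbs : List (ℕ × ℕ)) (good bad : List ℕ) : Bool :=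
  Nat.blt 1 (2 ^ r) && Nat.beq (mkB orbs ||| 1) (2 ^ 2 ^ r - 1) && orbs.all (fun o => Nat.blt o.1 (2 ^ r)) &&
  orbs.sublists.all fun s => good.any (fun m => s.all fun o => Nat.beq o.1 m) ||
    s.any (fun o => bad.any (Nat.beq o.1)) ||
    s.any fun o => !Nat.beq (cnt (mkB s) 1 (2 ^ r)) (cnt (mkB s) o.1 (2 ^ r))

theorem Loc.classify {G : Type*} [Group G] [Finite G] {T A : Subgroup G} {r : ℕ} {ι : ℕ → G} {z : G}
    (h : Loc Cx(z) T A r ι) (hz : ι 1 = z) {orbs : List (ℕ × ℕ)} {good bad : List ℕ}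
    (ho : ∀ o ∈ orbs, ∀ n, o.2.testBit n = true → C0 Cx(z) (ι o.1) (ι n))
    (hb : ∀ m ∈ bad, ¬ IsConj z (ι m)) (hc : chkCl r orbs good bad = true) :
    ∃ m ∈ good, ∀ y ∈ Cx(z), IsConj z y → y = z ∨ C0 Cx(z) (ι m) y := by
  classical
  simp only [chkCl, Bool.and_eq_true, Nat.blt_eq, Nat.beq_eq, List.all_eq_true] at hc
  obtain ⟨⟨⟨hr, hcov⟩, hlt⟩, hc⟩ := hc
  have z1 : z ≠ 1 := fun e => absurd (h.inj 1 hr (hz.trans e)) one_ne_zero
  set s := orbs.filter fun o => IsConj z (ι o.1) with hs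
  have hB : ∀ n < 2 ^ r, (mkB s).testBit n = true ↔ IsConj z (ι n) := by
    intro n hn
    rw [testBit_mkB]
    constructor
    · rintro (rfl | ⟨o, ho', e⟩)
      · rw [hz]
      · rw [hs, List.mem_filter] at ho'
        exact (of_decide_eq_true ho'.2).trans (ho o ho'.1 n e).isConj
    · intro e
      have := congrArg (fun x => Nat.testBit x n) hcov
      simp only [Nat.testBit_or, Nat.testBit_two_pow_sub_one, hn, decide_true, Bool.or_eq_true,
        testBit_mkB] at this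
      rcases this with (h1 | ⟨o, h1, h2⟩) | h1
      · exact Or.inl h1
      · exact Or.inr ⟨o, List.mem_filter.2 ⟨h1, decide_eq_true (e.trans (ho o h1 n h2).isConj.symm)⟩, h2⟩
      · rw [Nat.testBit_one_eq_true_iff_self_eq_zero] at h1
        rw [h1, h.zero] at e
        exact absurd (isConj_one_right.1 e.symm) z1
  have := hc s (List.mem_sublists.2 List.filter_sublist)
  simp only [Bool.or_eq_true, List.any_eq_true, List.all_eq_true, Nat.beq_eq, Bool.not_eq_true'] at this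
  rcases this with (⟨m, hm, h1⟩ | ⟨o, h1, m, hm, h2⟩) | ⟨o, h1, h2⟩
  · refine ⟨m, hm, fun y hy hzy => ?_⟩
    obtain ⟨n, hn, e⟩ := h.inv' hy (by
      obtain ⟨g, rfl⟩ := isConj_iff.1 hzy
      rw [conj_mul, ← hz, h.sq' hr, mul_one, mul_inv_cancel])
    rcases (testBit_mkB _ _).1 ((hB n hn).2 (hzy.trans e.isConj)) with rfl | ⟨o, h2, h3⟩
    · left
      obtain ⟨k, hk, e⟩ := e.symm
      rw [← e, hz, mem_Cx'.1 hk]
    · right
      rw [← h1 o h2]
      exact (ho o (List.mem_filter.1 h2).1 n h3).trans e.symm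
  · exact absurd (of_decide_eq_true (List.mem_filter.1 h1).2) (h2 ▸ hb m hm)
  · have := h.count hr hz (hlt o (List.mem_filter.1 h1).1) (of_decide_eq_true (List.mem_filter.1 h1).2) hB
    rw [this, Nat.beq_refl] at h2
    exact absurd h2 (by simp)

/-! transport along an embedding of a subgroup -/

section
variable {F G : Type*} [Group F] [Group G] {K : Subgroup F} (φ : K →* G)

open Classical in
noncomputable def ext (y : F) : G := if h : y ∈ K then φ ⟨y, h⟩ else 1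

def img (S : Subgroup F) : Subgroup G := (S.subgroupOf K).map φ

theorem ext_mem {y : F} (h : y ∈ K) : ext φ y = φ ⟨y, h⟩ := dif_pos h

theorem ext_mul {x y : F} (hx : x ∈ K) (hy : y ∈ K) : ext φ (x * y) = ext φ x * ext φ y := by
  rw [ext_mem φ hx, ext_mem φ hy, ext_mem φ (K.mul_mem hx hy), ← map_mul]; rfl

theorem ext_one : ext φ 1 = 1 := by rw [ext_mem φ K.one_mem]; exact map_one φ

theorem ext_inv {x : F} (hx : x ∈ K) : ext φ x⁻¹ = (ext φ x)⁻¹ := by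
  rw [ext_mem φ hx, ext_mem φ (K.inv_mem hx), ← map_inv]; rfl

theorem ext_conj {x y : F} (hx : x ∈ K) (hy : y ∈ K) :
    ext φ (x * y * x⁻¹) = ext φ x * ext φ y * (ext φ x)⁻¹ := by
  rw [ext_mul φ (K.mul_mem hx hy) (K.inv_mem hx), ext_mul φ hx hy, ext_inv φ hx]

theorem mem_img {S : Subgroup F} (hS : S ≤ K) {g : G} : g ∈ img φ S ↔ ∃ y ∈ S, ext φ y = g :=
  ⟨fun ⟨y, hy, e⟩ => ⟨y, hy, (ext_mem φ y.2).trans e⟩,
    fun ⟨y, hy, e⟩ => ⟨⟨y, hS hy⟩, hy, (ext_mem φ (hS hy)).symm.trans e⟩⟩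

theorem mem_range_ext {g : G} : g ∈ φ.range ↔ ∃ y ∈ K, ext φ y = g :=
  ⟨fun ⟨y, e⟩ => ⟨y, y.2, (ext_mem φ y.2).trans e⟩, fun ⟨y, hy, e⟩ => ⟨⟨y, hy⟩, (ext_mem φ hy).symm.trans e⟩⟩

theorem ext_range {y : F} (hy : y ∈ K) : ext φ y ∈ φ.range := (mem_range_ext φ).2 ⟨y, hy, rfl⟩

theorem C0.ext {a b : F} (h : C0 K a b) (ha : a ∈ K) : C0 φ.range (ext φ a) (ext φ b) :=
  let ⟨g, hg, e⟩ := h; ⟨_, ext_range φ hg, by rw [← e, ext_conj φ hg ha]⟩

variable {φ} (hφ : Function.Injective φ)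
include hφ

theorem ext_inj {x y : F} (hx : x ∈ K) (hy : y ∈ K) (e : ext φ x = ext φ y) : x = y := by
  rw [ext_mem φ hx, ext_mem φ hy] at e
  exact congrArg Subtype.val (hφ e)

theorem c0_of_ext {a b : F} (ha : a ∈ K) (hb : b ∈ K) (h : C0 φ.range (ext φ a) (ext φ b)) : C0 K a b := by
  obtain ⟨g, hg, e⟩ := h
  obtain ⟨y, hy, rfl⟩ := (mem_range_ext φ).1 hg
  rw [← ext_conj φ hy ha] at e
  exact ⟨y, hy, ext_inj hφ (K.mul_mem (K.mul_mem hy ha) (K.inv_mem hy)) hb e⟩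

theorem ext_comm {a b : F} (ha : a ∈ K) (hb : b ∈ K) :
    ext φ a * ext φ b = ext φ b * ext φ a ↔ a * b = b * a := by
  rw [← ext_mul φ ha hb, ← ext_mul φ hb ha]
  exact ⟨ext_inj hφ (K.mul_mem ha hb) (K.mul_mem hb ha), fun e => by rw [e]⟩

theorem Loc.ext [Finite F] [Finite G] {T A : Subgroup F} {r : ℕ} {ι : ℕ → F} (h : Loc K T A r ι) :
    Loc φ.range (img φ T) (img φ A) r fun n => ext φ (ι n) := by
  have := Fact.mk Nat.prime_two
  have TK := h.syl.le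
  have AK := h.AT.trans TK
  have iK : ∀ n < 2 ^ r, ι n ∈ K := fun n hn => AK (h.mem' hn)
  refine ⟨?_, map_mono (subgroupOf_mono K h.AT), fun a => ?_, fun a ha b hb => ?_, fun a ha e => ?_,
    fun E hE h2 hc => ?_, fun y hy h2 => ?_⟩
  · rw [MonoidHom.range_eq_map]; exact h.syl.subgroupOf_top.map φ
  · rw [mem_img φ AK]
    constructor
    · rintro ⟨y, hy, rfl⟩
      obtain ⟨n, hn, rfl⟩ := (h.mem y).1 hy
      exact ⟨n, hn, rfl⟩
    · rintro ⟨n, hn, rfl⟩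
      exact ⟨_, h.mem' hn, rfl⟩
  · simp only [h.mul a ha b hb, ext_mul φ (iK a ha) (iK b hb)]
  · exact h.inj a ha (ext_inj hφ (iK a ha) K.one_mem (e.trans (ext_one φ).symm))
  · have e1 : (E.comap φ).map φ = E := map_comap_eq_self (hE.trans (map_le_range _ _))
    have e2 := h.uniq ((E.comap φ).map K.subtype) ?_ ?_ ?_
    · rw [← e1, ← e2, img]
      congr 1
      exact (comap_map_eq_self_of_injective K.subtype_injective _).symm
    · rintro _ ⟨y, hy, rfl⟩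
      obtain ⟨y', hy', e⟩ := hE hy
      rw [← hφ e]; exact hy'
    · rintro _ ⟨y, hy, rfl⟩
      have := h2 _ hy
      rw [← map_mul, ← map_one φ] at this
      exact congrArg Subtype.val (hφ this)
    · rwa [card_map_subtype, ← card_map_of_injective hφ, e1]
  · obtain ⟨y, hy', rfl⟩ := (mem_img φ TK).1 hy
    obtain ⟨n, hn, e⟩ := h.inv y hy' (ext_inj hφ (K.mul_mem (TK hy') (TK hy')) K.one_mem
      (by rw [ext_mul φ (TK hy') (TK hy'), h2, ext_one]))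
    exact ⟨n, hn, e.ext φ (TK hy')⟩

theorem wz_ext {T A : Subgroup F} (hT : T ≤ K) (hA : A ≤ K) {z : F} (hz : z ∈ K) :
    WZ (img φ T) (img φ A) (ext φ z) ↔ WZ T A z := by
  have c : ∀ t ∈ T, ∀ a ∈ A, t * a * t⁻¹ ∈ K := fun t ht a ha =>
    K.mul_mem (K.mul_mem (hT ht) (hA ha)) (K.inv_mem (hT ht))
  constructor
  · intro h a ha h1 t ht
    refine ext_inj hφ (c t ht a ha) (hA ha) ?_
    rw [ext_conj φ (hT ht) (hA ha)]
    refine h _ ((mem_img φ hA).2 ⟨a, ha, rfl⟩) (fun s hs => ?_) _ ((mem_img φ hT).2 ⟨t, ht, rfl⟩)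
    obtain ⟨s, hs', rfl⟩ := (mem_img φ hT).1 hs
    rw [← ext_conj φ (hT hs') (hA ha), ← ext_mul φ (hA ha) hz]
    exact (h1 s hs').imp (congrArg _) (congrArg _)
  · intro h a ha h1 t ht
    obtain ⟨a, ha', rfl⟩ := (mem_img φ hA).1 ha
    obtain ⟨t, ht', rfl⟩ := (mem_img φ hT).1 ht
    rw [← ext_conj φ (hT ht') (hA ha'), h a ha' (fun s hs => ?_) t ht']
    have := h1 _ ((mem_img φ hT).2 ⟨s, hs, rfl⟩)
    rw [← ext_conj φ (hT hs) (hA ha'), ← ext_mul φ (hA ha') hz] at this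
    exact this.imp (ext_inj hφ (c s hs a ha') (hA ha')) (ext_inj hφ (c s hs a ha') (K.mul_mem (hA ha') hz))

end

/-- the classes of the centraliser that fuse with `z` -/
theorem classify_ext {F G : Type*} [Group F] [Group G] [Finite F] [Finite G] {z : F} {φ : Cx(z) →* G}
    (hφ : Function.Injective φ) (hr : φ.range = Cx(ext φ z)) {T A : Subgroup F} {r : ℕ} {ι : ℕ → F}
    (h : Loc Cx(z) T A r ι) (hz : ι 1 = z) {orbs : List (ℕ × ℕ)} {good bad : List ℕ}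
    (ho : ∀ o ∈ orbs, ∀ n, o.2.testBit n = true → C0 Cx(z) (ι o.1) (ι n)) (hW : WZ T A z)
    (hb : ∀ m ∈ bad, T ≤ Cx(ι m) ∧ ι m ∈ Cx(z) ∧ ¬ WZ T A (ι m)) (hc : chkCl r orbs good bad = true) :
    ∃ m ∈ good, ∀ y ∈ Cx(z), IsConj (ext φ z) (ext φ y) → y = z ∨ C0 Cx(z) (ι m) y := by
  have h' := h.ext hφ
  have TK := h.syl.le
  have AK := h.AT.trans TK
  have zK : z ∈ Cx(z) := mem_Cx.2 rfl
  have hc' := hc
  simp only [chkCl, Bool.and_eq_true, Nat.blt_eq, List.all_eq_true] at hc'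
  rw [hr] at h'
  obtain ⟨m, hm, e⟩ := h'.classify (by rw [hz]) (orbs := orbs) (good := good) (bad := bad)
    (fun o h1 n h2 => hr ▸ (ho o h1 n h2).ext φ (AK (h.mem' (hc'.1.2 o h1))))
    (fun m hm => h'.nfuse ((wz_ext hφ TK AK zK).2 hW) (fun t ht => by
      obtain ⟨t, ht', rfl⟩ := (mem_img φ TK).1 ht
      exact mem_Cx.2 ((ext_comm hφ (TK ht') (hb m hm).2.1).2 (mem_Cx.1 ((hb m hm).1 ht'))))
      (by rw [wz_ext hφ TK AK (hb m hm).2.1]; exact (hb m hm).2.2)) hc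
  refine ⟨m, hm, fun y hy hzy => (e _ (hr ▸ ext_range φ hy) hzy).imp (ext_inj hφ hy zK) fun e' => ?_⟩
  rw [← hr] at e'
  by_cases hm' : ι m ∈ Cx(z)
  · exact c0_of_ext hφ hm' hy e'
  · exfalso
    obtain ⟨g, -, e'⟩ := e'
    rw [show ext φ (ι m) = 1 from dif_neg hm', mul_one, mul_inv_cancel] at e'
    rw [← e', isConj_one_left, ← ext_one φ] at hzy
    exact one_ne_zero (h.inj 1 hc'.1.1.1 (hz.trans (ext_inj hφ zK (one_mem _) hzy)))

/-- the last step: an embedded Fischer group containing the centraliser is everything -/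
theorem surj_of_pat {F : Type*} {G : Type u} [Group F] [Group G] [Finite F] [Finite G] {z u v u' : F}
    {x : Fin 7 → F} (hp : Pat ⊤ z u v u' x) {T A : Subgroup F} {r : ℕ} {ι : ℕ → F} (h : Loc ⊤ T A r ι)
    (hz : z ∈ A) (hu : u ∈ A) (hv : v ∈ A) (ψ : F →* G) (hψ : Function.Injective ψ)
    (hC : Cx(ψ z) ≤ ψ.range) (nu : ¬ IsConj (ψ z) (ψ u)) (nv : ¬ IsConj (ψ z) (ψ v)) :
    Function.Surjective ψ := by
  have := Fact.mk Nat.prime_two
  let φ : (⊤ : Subgroup F) →* G := ψ.comp (Subgroup.subtype _)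
  have hφ : Function.Injective φ := hψ.comp Subtype.val_injective
  have he : ∀ y, ext φ y = ψ y := fun y => ext_mem φ (mem_top y)
  have hr : φ.range = ψ.range := by
    ext g; rw [mem_range_ext]; simp only [he, mem_top, true_and, MonoidHom.mem_range]
  have h' := h.ext hφ
  rw [hr] at h'
  have up : ∀ {a b : F}, C0 ⊤ a b → C0 ψ.range (ψ a) (ψ b) := fun {a b} c => by
    have := c.ext φ (mem_top a); rwa [hr, he, he] at this
  have dn : ∀ {a : F} {b : G}, C0 ψ.range (ψ a) b → ∃ b', C0 ⊤ a b' ∧ ψ b' = b := by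
    rintro a b ⟨_, ⟨g, rfl⟩, rfl⟩
    exact ⟨g * a * g⁻¹, ⟨g, trivial, rfl⟩, by simp⟩
  have cm : ∀ {a b : F}, ψ a * ψ b = ψ b * ψ a → a * b = b * a := fun e => hψ (by simpa using e)
  have cls : ∀ y ∈ ψ.range, y * y = 1 → y ≠ 1 →
      C0 ψ.range (ψ z) y ∨ C0 ψ.range (ψ u) y ∨ C0 ψ.range (ψ v) y := by
    rintro _ ⟨y, rfl⟩ h2 h1
    exact (hp.cls y trivial (hψ (by simpa using h2)) fun e => h1 (by simp [e])).imp up (Or.imp up up)
  have z2 : ψ z * ψ z = 1 := by rw [← map_mul, hp.z2, map_one]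
  have rz : Rig ψ.range (ψ z) := rig_of hC fun g hg => by
    have hc : IsConj (ψ z) (g * ψ z * g⁻¹) := isConj_iff.2 ⟨g, rfl⟩
    rcases cls _ hg (by rw [conj_mul, z2, mul_one, mul_inv_cancel])
      (fun e => hp.z1 (hψ (by simpa using e))) with e | e | e
    · exact e
    · exact absurd (hc.trans e.isConj.symm) nu
    · exact absurd (hc.trans e.isConj.symm) nv
  have mA : ∀ {a : F}, a ∈ A → ψ a ∈ img φ A := fun {a} ha => (mem_img φ le_top).2 ⟨a, ha, he a⟩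
  have nA : Nm(img φ A) ≤ ψ.range := fun n hn =>
    rz n (h'.syl.le (h'.AT (conj_mem_of_mem_normalizer hn (mA hz))))
  have nuv : ¬ IsConj (ψ u) (ψ v) := by
    intro hc
    obtain ⟨n, hn, e⟩ := h'.ctrl (h'.syl.of_Nm_le le_top fun n hn => nA (h'.nm hn.2)) (mA hu) (mA hv) hc
    obtain ⟨b, c, e'⟩ := dn ⟨n, nA hn, e⟩
    exact hp.nuv (hψ e' ▸ c.isConj)
  refine MonoidHom.range_eq_top.1 (Pat.eq_top (z := ψ z) (u := ψ u) (v := ψ v) (u' := ψ u')
    (x := fun i => ψ (x i)) ⟨hC, z2, cls, nu, nv, nuv, fun d e hd he => ?_, by rw [hp.x0], by rw [hp.hu, map_mul],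
      fun e => hp.x1 (hψ e), fun i => up (hp.xD i), fun i j => by rw [← map_mul, hp.xc, map_mul],
      by simp only [← map_mul, hp.xp, map_one], fun d hd c1 c2 c3 c4 => ?_, fun d hd c1 c2 => ?_, ⟨v, rfl⟩,
      by rw [← map_mul, hp.v2, map_one], up hp.uu, by rw [← map_mul, hp.uv, map_mul],
      by rw [← map_mul]; exact up hp.uvv, fun d hd c1 c2 => ?_⟩)
  · obtain ⟨d, hd', rfl⟩ := dn hd
    obtain ⟨e, he', rfl⟩ := dn he
    simp only [← map_mul]
    exact (hp.tr3 d e hd' he').imp (congrArg _) (congrArg _)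
  · obtain ⟨d, hd', rfl⟩ := dn hd
    rw [← map_mul]
    exact up (hp.f3 d hd' (cm c1) (cm c2) (fun e => c3 (by rw [e])) fun e => c4 (by rw [e]))
  · obtain ⟨d, hd', rfl⟩ := dn hd
    rw [← map_mul]
    exact up (hp.f2 d hd' (cm c1) fun e => c2 (by rw [e]))
  · obtain ⟨d, hd', rfl⟩ := dn hd
    simp only [← map_mul]
    exact (hp.f6 d hd' (cm c1) (cm c2)).imp up (Or.imp (Or.imp up up) (Or.imp up up))

end CfH8.Fi
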