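import Cfsg.Agent.H8.FiL

/-! The centraliser of an involution as a central extension of its quotient. -/

set_option autoImplicit false

namespace CfH8.Fi

open Subgroup CfH9

theorem quot_ext {G F : Type*} [Group G] [Finite G] [Group F] {d : G} (hd : orderOf d = 2)
    [((zpowers d).subgroupOf Cx(d)).Normal] (e : (Cx(d) ⧸ (zpowers d).subgroupOf Cx(d)) ≃* F) :
    ∃ π : Cx(d) →* F, Ext π ⟨d, mem_Cx.2 rfl⟩ ∧ Function.Surjective π ∧ Nat.card Cx(d) = 2 * Nat.card F := by
  have d2 : d * d = 1 := by rw [← pow_two, ← hd, pow_orderOf_eq_one]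
  refine ⟨e.toMonoidHom.comp (QuotientGroup.mk' _), ⟨fun g => Subtype.ext (mem_Cx.1 g.2), Subtype.ext d2,
    fun g hg => ?_, ?_⟩, e.surjective.comp (QuotientGroup.mk'_surjective _), ?_⟩
  · have h1 : (g : G) ∈ zpowers d := by
      have : QuotientGroup.mk' ((zpowers d).subgroupOf Cx(d)) g = 1 := e.injective (hg.trans e.map_one.symm)
      exact mem_subgroupOf.1 ((QuotientGroup.eq_one_iff g).1 this)
    obtain ⟨k, hk⟩ := mem_zpowers_iff.1 h1
    rw [← zpow_mod_orderOf, hd] at hk
    rcases Int.emod_two_eq_zero_or_one k with h | h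
    · exact Or.inl (Subtype.ext (by rw [← hk]; simp [h]))
    · exact Or.inr (Subtype.ext (by rw [← hk]; simp [h]))
  · have : QuotientGroup.mk' ((zpowers d).subgroupOf Cx(d)) ⟨d, mem_Cx.2 rfl⟩ = 1 :=
      (QuotientGroup.eq_one_iff _).2 (mem_subgroupOf.2 (mem_zpowers d))
    rw [MonoidHom.comp_apply, this, map_one]
  · rw [card_eq_card_quotient_mul_card_subgroup ((zpowers d).subgroupOf Cx(d)), Nat.card_congr e.toEquiv,
      Nat.card_congr (subgroupOfEquivOfLe (zpowers_le.2 (mem_Cx.2 rfl))).toEquiv, Nat.card_zpowers, hd, mul_comm]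

end CfH8.Fi
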