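import Cfsg.Agent.H8.FiA

/-! The Sylow subgroup over the base of transpositions. -/

set_option autoImplicit false

namespace CfH8.Fi

open Subgroup CfH9 CfH6 MulAction

noncomputable def dbl (n : ℕ) (gs : List ℕ) : List ℕ :=
  List.rec [idc n] (fun g _ ih => forceL ih fun L => L ++ L.map (cmp n g)) gs

theorem dbl_ind {n : ℕ} {gs : List ℕ} {P : ℕ → Prop} (h0 : P (idc n)) (h : ∀ g ∈ gs, ∀ l, P l → P (cmp n g l)) :
    ∀ l ∈ dbl n gs, P l := by
  induction gs with
  | nil => intro l hl; rw [List.mem_singleton.1 hl]; exact h0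
  | cons g gs ih =>
    have e : dbl n (g :: gs) = forceL (dbl n gs) fun L => L ++ L.map (cmp n g) := rfl
    have ih' := ih fun g' hg => h g' (List.mem_cons_of_mem _ hg)
    rw [e, forceL_eq]
    intro l hl
    rcases List.mem_append.1 hl with hl | hl
    · exact ih' l hl
    · obtain ⟨l', hl', rfl⟩ := List.mem_map.1 hl
      exact h g List.mem_cons_self l' (ih' l' hl')

theorem idc_mem (n : ℕ) (gs : List ℕ) : idc n ∈ dbl n gs := by
  induction gs with
  | nil => exact List.mem_singleton_self _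
  | cons g gs ih =>
    have e : dbl n (g :: gs) = forceL (dbl n gs) fun L => L ++ L.map (cmp n g) := rfl
    rw [e, forceL_eq]
    exact List.mem_append_left _ ih

theorem dbl_canon {n : ℕ} (hn : n ≤ 32) (gs : List ℕ) : ∀ l ∈ dbl n gs, mkc (pg l) n = l :=
  dbl_ind (mkc_congr fun _ hi => pg_idc hn hi) fun g _ l _ => by
    rw [mkc_congr fun i hi => pg_cmp hi, cmp, forceG_eq, forceG_eq]

theorem length_dbl (n : ℕ) (gs : List ℕ) : (dbl n gs).length = 2 ^ gs.length := by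
  induction gs with
  | nil => rfl
  | cons g gs ih =>
    have e : dbl n (g :: gs) = forceL (dbl n gs) fun L => L ++ L.map (cmp n g) := rfl
    rw [e, forceL_eq, List.length_append, List.length_map, ih, List.length_cons, pow_succ, mul_two]

noncomputable def chkT (n : ℕ) (gs : List ℕ) : Bool :=
  forceL (dbl n gs) fun L => ndN L && gs.all fun g => L.all fun l => memN (cmp n g l) L

/-- involutions in the list -/
noncomputable def invs (n : ℕ) (L : List ℕ) : List ℕ :=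
  L.filter fun l => Nat.beq (cmp n l l) (idc n) && !Nat.beq l (idc n)

noncomputable def comms (n : ℕ) (I : List ℕ) (l : ℕ) : List ℕ :=
  I.filter fun l' => Nat.beq (cmp n l l') (cmp n l' l)

noncomputable def mskP (p : ℕ → Bool) (N : ℕ) : ℕ :=
  Nat.rec (fun S => S) (fun a ih S => force (Bool.rec S (Nat.lor S (Nat.shiftLeft 1 a)) (p a)) ih) N 0

theorem testBit_mskP (p : ℕ → Bool) (N q : ℕ) : (mskP p N).testBit q = true ↔ q < N ∧ p q = true := by
  have : ∀ S, (Nat.rec (motive := fun _ => ℕ → ℕ) (fun S => S) (fun a ih S => force (Bool.rec S (Nat.lor S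
      (Nat.shiftLeft 1 a)) (p a)) ih) N S).testBit q = true ↔ S.testBit q = true ∨ q < N ∧ p q = true := by
    induction N with
    | zero => simp
    | succ N ih =>
      intro S
      dsimp only
      rw [force_eq, ih]
      cases hp : p N with
      | false =>
        refine or_congr_right (and_congr_left fun h => ⟨by omega, fun h' => ?_⟩)
        rcases Nat.lt_succ_iff_lt_or_eq.1 h' with h' | rfl
        exacts [h', by simp [hp] at h]
      | true =>
        dsimp only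
        rw [testBit_lor, or_assoc]
        refine or_congr_right ⟨?_, fun h => ?_⟩
        · rintro (h | h)
          exacts [bit_one h ▸ ⟨by omega, hp⟩, ⟨by omega, h.2⟩]
        · rcases Nat.lt_succ_iff_lt_or_eq.1 h.1 with h' | rfl
          · exact Or.inr ⟨h', h.2⟩
          · left; change (1 <<< q).testBit q = true; simp [Nat.one_shiftLeft]
  rw [mskP, this]; simp

noncomputable def fxm (V : List ℕ) (r l : ℕ) : ℕ := mskP (fun a => Nat.beq (lin V r l a) a) (2 ^ r)

/-- the check that the base group is the only large elementary abelian subgroup -/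
noncomputable def chkU (V : List ℕ) (n r : ℕ) (gs : List ℕ) : Bool :=
  forceL (invs n (dbl n gs)) fun I => forceL (I.map (fxm V r)) fun M =>
    M.all (fun S => Nat.blt (2 * popc r S) (2 ^ r)) &&
    I.all fun l => forceL (comms n I l) fun J => J.all fun l' => Nat.beq l l' ||
      Nat.blt (((comms n J l').length + 1) * popc r (Nat.land (lget M 0 (I.idxOf l)) (lget M 0 (I.idxOf l')))) (2 ^ r)

noncomputable def prodc (n : ℕ) (NL : List ℕ) (w : List ℕ) : ℕ :=
  List.rec (idc n) (fun a _ ih => cmp n (lget NL 0 a) ih) w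

/-- conjugation of the involutions to `l0`, and representatives in the coset -/
noncomputable def chkI (V : List ℕ) (n r : ℕ) (gs NL : List ℕ) (l0 : ℕ) (cert : List (ℕ × List ℕ))
    (reps : List ℕ) : Bool :=
  (invs n (dbl n gs)).all (fun l => cert.any fun c => Nat.beq c.1 l && allLt NL.length c.2 &&
    forceG (prodc n NL c.2) fun p => Nat.beq (cmp n p l) (cmp n l0 p)) &&
  subM (fxm V r l0) (bfs0 Nat.xor ((List.range r).map fun j => Nat.xor (2 ^ j) (lin V r l0 (2 ^ j))) (2 ^ r) reps)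

noncomputable def chkW (V : List ℕ) (n r : ℕ) (gs Ls : List ℕ) (v : ℕ) : Bool :=
  forceL (dbl n gs) fun L => Ls.all (fun l => memN l L) && allN (fun a =>
    !(Ls.all fun l => forceG (lin V r l a) fun b => Nat.beq b a || Nat.beq b (Nat.xor a v)) ||
      L.all fun l => Nat.beq (lin V r l a) a) (2 ^ r)

noncomputable def chkNW (V : List ℕ) (n r : ℕ) (gs : List ℕ) (v a : ℕ) : Bool :=
  forceL (dbl n gs) fun L => Nat.blt a (2 ^ r) && L.all (fun l => Nat.beq (lin V r l v) v &&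
    forceG (lin V r l a) fun b => Nat.beq b a || Nat.beq b (Nat.xor a v)) && L.any fun l => !Nat.beq (lin V r l a) a

section
variable {F : Type*} [Group F] [MulAction F ℕ] [Finite F]
variable {m K : ℕ} {nets : List Net} {k : ℕ} {el : ℕ → F} {z : F} {U : ℕ} {bs gp : List ℕ}
  {XS : List NP} {n r : ℕ} {V : List ℕ}

/-- elements acting on the base by a permutation of the list -/
noncomputable def TL (F : Type*) [Group F] [MulAction F ℕ] (XS : List NP) (n : ℕ) (gs : List ℕ) : Subgroup F :=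
  closure {g | ∃ l ∈ dbl n gs, Acts XS n g l}

structure SCtx (m K : ℕ) (nets : List Net) (k : ℕ) (el : ℕ → F) (z : F) (U : ℕ) (bs gp : List ℕ)
    (XS : List NP) (n r : ℕ) (V : List ℕ) (gs : List ℕ) : Prop extends ACtx m K nets k el z U bs gp XS n r V where
  inj : ∀ a < 2 ^ r, ia z XS r a = 1 → a = 0
  surj : ∀ g, g ∈ fA F XS ↔ ∃ a < 2 ^ r, ia z XS r a = g
  real : ∀ l ∈ gs, ∃ g : F, Acts XS n g l
  chk : chkT n gs = true

namespace SCtx
variable {gs : List ℕ} (C : SCtx m K nets k el z U bs gp XS n r V gs)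
include C

omit [Finite F] in
theorem key : ∀ l ∈ dbl n gs, ∃ g : F, Acts XS n g l ∧
    ∀ h : F, (∃ l' ∈ dbl n gs, Acts XS n h l') → ∃ l' ∈ dbl n gs, Acts XS n (g * h) l' := by
  have hc := C.chk
  simp only [chkT, forceL_eq, Bool.and_eq_true, List.all_eq_true, memN_iff] at hc
  refine dbl_ind ⟨1, C.acts_id.2 (one_mem _), fun h hh => by rwa [one_mul]⟩ ?_
  rintro g hg l ⟨x, h1, h2⟩
  obtain ⟨t, ht⟩ := C.real g hg
  refine ⟨t * x, ht.mul h1, fun h hh => ?_⟩
  obtain ⟨l', h3, h4⟩ := h2 h hh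
  exact ⟨_, hc.2 g hg l' h3, mul_assoc t x h ▸ ht.mul h4⟩

theorem mem_TL {g : F} : g ∈ TL F XS n gs ↔ ∃ l ∈ dbl n gs, Acts XS n g l := by
  refine ⟨fun hg => ?_, fun h => subset_closure h⟩
  let S : Submonoid F :=
    { carrier := {g | ∃ l ∈ dbl n gs, Acts XS n g l}
      one_mem' := ⟨_, idc_mem n gs, C.acts_id.2 (one_mem _)⟩
      mul_mem' := by
        rintro a b ⟨l, h1, h2⟩ ⟨l', h3, h4⟩
        obtain ⟨x, h5, h6⟩ := C.key l h1
        obtain ⟨l'', h7, h8⟩ := h6 b ⟨l', h3, h4⟩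
        exact ⟨l'', h7, h5.congr h2 h4 h8⟩ }
  have : g ∈ (TL F XS n gs).toSubmonoid := hg
  rw [TL, closure_toSubmonoid_of_finite] at this
  exact (Submonoid.closure_le (S := S)).2 subset_rfl this

theorem real' {l : ℕ} (hl : l ∈ dbl n gs) : ∃ g ∈ TL F XS n gs, Acts XS n g l :=
  let ⟨g, h, _⟩ := C.key l hl; ⟨g, C.mem_TL.2 ⟨l, hl, h⟩, h⟩

theorem AT : fA F XS ≤ TL F XS n gs := fun _ hg => C.mem_TL.2 ⟨_, idc_mem n gs, C.acts_id.2 hg⟩

omit [Finite F] in
theorem code_eq {g : F} {l l' : ℕ} (hl : l ∈ dbl n gs) (hl' : l' ∈ dbl n gs) (h : Acts XS n g l)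
    (h' : Acts XS n g l') : l = l' := by
  rw [← dbl_canon C.n32 gs l hl, ← dbl_canon C.n32 gs l' hl']
  exact mkc_congr fun i hi => C.acts_eq h h' hi

omit [Finite F] in
theorem inj' {a b : ℕ} (ha : a < 2 ^ r) (hb : b < 2 ^ r) (e : ia z XS r a = ia z XS r b) : a = b :=
  Nat.xor_eq_zero_iff.1 (C.inj _ (Nat.xor_lt_two_pow ha hb) (by rw [C.ia_xor, e, C.ia_sq]))

theorem card_le (E : Subgroup F) (Ls : List ℕ) (h : ∀ e ∈ E, ∃ l ∈ Ls, Acts XS n e l) :
    Nat.card E ≤ Ls.length * Nat.card (E ⊓ fA F XS : Subgroup F) := by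
  classical
  choose f hf1 hf2 using h
  have := Fintype.ofFinite E
  have h1 := Finset.card_le_mul_card_image_of_maps_to (s := (Finset.univ : Finset E)) (t := Ls.toFinset)
    (f := fun e => f e.1 e.2) (fun e _ => List.mem_toFinset.2 (hf1 _ _)) (Nat.card (E ⊓ fA F XS : Subgroup F))
    (fun l _ => by
      rcases (Finset.univ.filter fun e : E => f e.1 e.2 = l).eq_empty_or_nonempty with h | ⟨e0, h0⟩
      · rw [h]; simp
      rw [← Nat.card_eq_finsetCard]
      have a : ∀ e ∈ Finset.univ.filter fun e : E => f e.1 e.2 = l, Acts XS n (e : F) l := fun e he => by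
        rw [← (Finset.mem_filter.1 he).2]; exact hf2 _ _
      exact Nat.card_le_card_of_injective (fun e => ⟨(e0 : F)⁻¹ * e.1, E.mul_mem (E.inv_mem e0.2) e.1.2,
        C.mem_fA.2 fun i hi => (a _ h0).fix (a _ e.2) hi⟩) fun a b e =>
        Subtype.ext (Subtype.ext (mul_left_cancel (congrArg Subtype.val e))))
  rw [Finset.card_univ, ← Nat.card_eq_fintype_card, mul_comm] at h1
  exact h1.trans (Nat.mul_le_mul_right _ (List.toFinset_card_le Ls))

theorem cardA : Nat.card (fA F XS) = 2 ^ r := by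
  rw [← Nat.card_fin (2 ^ r)]
  refine (Nat.card_congr (Equiv.ofBijective (fun i : Fin (2 ^ r) => (⟨ia z XS r i, C.ia_mem i⟩ : fA F XS))
    ⟨fun i j e => Fin.ext (C.inj' i.2 j.2 (congrArg Subtype.val e)), ?_⟩)).symm
  rintro ⟨a, ha⟩
  obtain ⟨n, hn, rfl⟩ := (C.surj a).1 ha
  exact ⟨⟨n, hn⟩, rfl⟩

theorem cardT : Nat.card (TL F XS n gs) = 2 ^ (gs.length + r) := by
  have hc := C.chk
  simp only [chkT, forceL_eq, Bool.and_eq_true] at hc
  have hn := ndN_sound hc.1
  apply le_antisymm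
  · have := C.card_le _ _ fun e he => C.mem_TL.1 he
    rwa [inf_eq_right.2 C.AT, C.cardA, length_dbl, ← pow_add] at this
  · choose t ht1 ht2 using fun l : Fin (dbl n gs).length => C.real' (List.get_mem _ l)
    have := Nat.card_le_card_of_injective (fun p : Fin (dbl n gs).length × fA F XS =>
      (⟨t p.1 * p.2, mul_mem (ht1 _) (C.AT p.2.2)⟩ : TL F XS n gs)) fun p q e => by
      have e' : t p.1 * p.2 = t q.1 * q.2 := congrArg Subtype.val e
      have a : ∀ p : Fin (dbl n gs).length × fA F XS, Acts XS n (t p.1 * p.2) ((dbl n gs).get p.1) :=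
        fun p i hi => ⟨(ht2 p.1 i hi).1, by rw [mul_smul, C.mem_fA.1 p.2.2 i hi, (ht2 p.1 i hi).2]⟩
      have h1 : p.1 = q.1 := hn.injective_get (C.code_eq (List.get_mem _ _) (List.get_mem _ _) (a p) (e' ▸ a q))
      rw [h1] at e'
      exact Prod.ext h1 (Subtype.ext (mul_left_cancel e'))
    rwa [Nat.card_prod, Nat.card_fin, C.cardA, length_dbl, ← pow_add] at this

theorem sylIn {KK : Subgroup F} (hK : TL F XS n gs ≤ KK) {c : ℕ} (hc : Nat.card KK = 2 ^ (gs.length + r) * c)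
    (ho : ¬ 2 ∣ c) : SylIn 2 (TL F XS n gs) KK := by
  have := Fact.mk Nat.prime_two
  refine sylIn_of_not_dvd hK (IsPGroup.of_card C.cardT) ?_
  have := card_mul_relIndex hK
  rw [C.cardT, hc] at this
  rwa [Nat.eq_of_mul_eq_mul_left (Nat.two_pow_pos _) this]

omit [Finite F] in
theorem inv_code {e : F} {l : ℕ} (hl : l ∈ dbl n gs) (h : Acts XS n e l) (h2 : e * e = 1) :
    e ∈ fA F XS ∨ l ∈ invs n (dbl n gs) := by
  by_cases h1 : l = idc n
  · exact Or.inl (C.acts_id.1 (h1 ▸ h))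
  refine Or.inr (List.mem_filter.2 ⟨hl, ?_⟩)
  have : cmp n l l = idc n := by
    rw [cmp, forceG_eq, forceG_eq]
    exact mkc_congr fun i hi => by
      rw [← pg_cmp hi, C.acts_eq (h.mul h) (C.acts_id.2 (h2 ▸ one_mem _)) hi, pg_idc C.n32 hi]
  rw [this, Nat.beq_refl, Bool.true_and, Bool.not_eq_true']
  exact Bool.eq_false_iff.2 fun e => h1 (Nat.eq_of_beq_eq_true e)

omit [Finite F] in
theorem comm_code {e e' : F} {l l' : ℕ} (h : Acts XS n e l) (h' : Acts XS n e' l') (hc : e * e' = e' * e) :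
    Nat.beq (cmp n l l') (cmp n l' l) = true :=
  Nat.beq_eq.mpr (cmp_congr fun i hi => by
    rw [← pg_cmp hi, ← pg_cmp hi]; exact C.acts_eq (h.mul h') (hc ▸ h'.mul h) hi)

theorem card_fix {B : Subgroup F} (hB : B ≤ fA F XS) {S : ℕ}
    (h : ∀ a < 2 ^ r, ia z XS r a ∈ B → S.testBit a = true) : Nat.card B ≤ popc r S := by
  choose f hf1 hf2 using fun b : B => (C.surj b).1 (hB b.2)
  rw [popc_eq, ← Nat.card_eq_finsetCard]
  exact Nat.card_le_card_of_injective (fun b => ⟨f b, Finset.mem_filter.2 ⟨Finset.mem_range.2 (hf1 b),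
    h _ (hf1 b) (hf2 b ▸ b.2)⟩⟩) fun a b e => Subtype.ext (by
      rw [← hf2 a, ← hf2 b, show f a = f b from congrArg Subtype.val e])

omit [Finite F] in
theorem fxm_of {e : F} {l a : ℕ} (h : Acts XS n e l) (ha : a < 2 ^ r) (hc : e * ia z XS r a = ia z XS r a * e) :
    (fxm V r l).testBit a = true :=
  (testBit_mskP _ _ _).2 ⟨ha, Nat.beq_eq.mpr (C.inj' (C.lin_lt h a) ha (by
    rw [← C.conj h, hc, mul_inv_cancel_right]))⟩

theorem uniq (h : chkU V n r gs = true) (E : Subgroup F) (hE : E ≤ TL F XS n gs) (h2 : ∀ e ∈ E, e * e = 1)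
    (hc : 2 ^ r ≤ Nat.card E) : E = fA F XS := by
  simp only [chkU, forceL_eq, Bool.and_eq_true, List.all_eq_true, Nat.blt_eq, Bool.or_eq_true, Nat.beq_eq,
    List.mem_map, forall_exists_index, and_imp, forall_apply_eq_imp_iff₂] at h
  have cm : ∀ a ∈ E, ∀ b ∈ E, a * b = b * a := fun a ha b hb => by
    rw [← inv_of_sq (h2 _ (mul_mem ha hb)), mul_inv_rev, inv_of_sq (h2 a ha), inv_of_sq (h2 b hb)]
  by_contra hne
  have : ¬ E ≤ fA F XS := fun hle => hne (eq_of_le_of_card_ge hle (C.cardA ▸ hc))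
  obtain ⟨e, he, heA⟩ := SetLike.not_le_iff_exists.1 this
  obtain ⟨l, hl, a⟩ := C.mem_TL.1 (hE he)
  have hI := (C.inv_code hl a (h2 e he)).resolve_left heA
  have M : ∀ l ∈ invs n (dbl n gs),
      lget ((invs n (dbl n gs)).map (fxm V r)) 0 ((invs n (dbl n gs)).idxOf l) = fxm V r l := fun l hl => by
    have := List.idxOf_lt_length_of_mem hl
    rw [lget_eq, List.getD_eq_getElem _ _ (by simpa using this)]; simp
  by_cases ex : ∃ e' ∈ E, ∃ l' ∈ invs n (dbl n gs), Acts XS n e' l' ∧ l ≠ l'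
  · obtain ⟨e', he', l', hl', a', hne⟩ := ex
    have h3 := (h.2 l hI l' (List.mem_filter.2 ⟨hl', C.comm_code a a' (cm e he e' he')⟩)).resolve_left hne
    rw [M l hI, M l' hl'] at h3
    have h4 := C.card_le E (idc n :: comms n (comms n (invs n (dbl n gs)) l) l') fun x hx => by
      obtain ⟨y, hy, b⟩ := C.mem_TL.1 (hE hx)
      rcases C.inv_code hy b (h2 x hx) with h5 | h5
      · exact ⟨_, List.mem_cons_self, C.acts_id.2 h5⟩
      · exact ⟨y, List.mem_cons_of_mem _ (List.mem_filter.2 ⟨List.mem_filter.2 ⟨h5, C.comm_code a b (cm e he x hx)⟩,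
          C.comm_code a' b (cm e' he' x hx)⟩), b⟩
    have h5 := C.card_fix (B := E ⊓ fA F XS) inf_le_right (S := Nat.land (fxm V r l) (fxm V r l')) fun x hx hm =>
      (testBit_land _ _ _).2 ⟨C.fxm_of a hx (cm e he _ hm.1), C.fxm_of a' hx (cm e' he' _ hm.1)⟩
    exact absurd (hc.trans (h4.trans (Nat.mul_le_mul_left _ h5))) (not_le.2 h3)
  · push Not at ex
    have h4 := C.card_le E [idc n, l] fun x hx => by
      obtain ⟨y, hy, b⟩ := C.mem_TL.1 (hE hx)
      rcases C.inv_code hy b (h2 x hx) with h5 | h5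
      · exact ⟨_, List.mem_cons_self, C.acts_id.2 h5⟩
      · exact ⟨y, by simp [ex x hx y h5 b], b⟩
    have h5 := C.card_fix (B := E ⊓ fA F XS) inf_le_right (S := fxm V r l) fun x hx hm =>
      C.fxm_of a hx (cm e he _ hm.1)
    exact absurd (hc.trans (h4.trans (Nat.mul_le_mul_left _ h5))) (not_le.2 (h.1 l hI))

theorem inv {KK : Subgroup F} (hA : fA F XS ≤ KK) {NL : List ℕ} (hN : ∀ l ∈ NL, ∃ g ∈ KK, Acts XS n g l)
    {l0 : ℕ} {t0 : F} (ht : Acts XS n t0 l0) (t2 : t0 * t0 = 1) {cert : List (ℕ × List ℕ)} {reps : List ℕ}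
    (h : chkI V n r gs NL l0 cert reps = true)
    (hr : ∀ ρ ∈ reps, ∃ a < 2 ^ r, C0 KK (t0 * ia z XS r ρ) (ia z XS r a)) (y : F) (hy : y ∈ TL F XS n gs)
    (h2 : y * y = 1) : ∃ a < 2 ^ r, C0 KK y (ia z XS r a) := by
  simp only [chkI, forceG_eq, Bool.and_eq_true, List.all_eq_true, List.any_eq_true, Nat.beq_eq] at h
  obtain ⟨l, hl, a⟩ := C.mem_TL.1 hy
  rcases C.inv_code hl a h2 with h3 | h3
  · obtain ⟨b, hb, rfl⟩ := (C.surj y).1 h3
    exact ⟨b, hb, C0.refl _ _⟩
  obtain ⟨c, -, ⟨-, c1⟩, c2⟩ := h.1 l h3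
  have : ∀ w : List ℕ, (∀ x ∈ w, x < NL.length) → ∃ g ∈ KK, Acts XS n g (prodc n NL w) := fun w hw => by
    induction w with
    | nil => exact ⟨1, one_mem _, C.acts_id.2 (one_mem _)⟩
    | cons x w ih =>
      obtain ⟨g, h1, h2⟩ := ih fun x hx => hw x (List.mem_cons_of_mem _ hx)
      obtain ⟨g', h3, h4⟩ := hN _ (lget_mem 0 (hw x List.mem_cons_self))
      exact ⟨g' * g, mul_mem h3 h1, h4.mul h2⟩
  obtain ⟨g, hg, ag⟩ := this c.2 (allLt_sound c1)
  obtain ⟨b, -, e⟩ := (C.surj _).1 (C.mem_fA.2 fun i hi => (ht.mul ag).fix (c2 ▸ ag.mul a) hi)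
  have e2 : g * y * g⁻¹ = t0 * ia z XS r (lin V r (prodc n NL c.2) b) := by rw [← C.conj ag, e]; group
  set w := lin V r (prodc n NL c.2) b
  have hw : (fxm V r l0).testBit w = true := C.fxm_of ht (C.lin_lt ag b) (by
    have : t0 * ia z XS r w * (t0 * ia z XS r w) = 1 := by rw [← e2, conj_mul, h2, mul_one, mul_inv_cancel]
    rw [eq_inv_of_mul_eq_one_left this, mul_inv_rev, inv_of_sq t2, inv_of_sq (C.ia_sq w)])
  obtain ⟨a', h4, h5⟩ := bfs0_sound (f := Nat.xor) (Q := fun w => ∃ a < 2 ^ r, C0 KK (t0 * ia z XS r w) (ia z XS r a))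
    (fun d hd p ⟨a', h4, h5⟩ => ⟨a', h4, C0.trans (b := t0 * ia z XS r p) (by
      obtain ⟨j, -, rfl⟩ := List.mem_map.1 hd
      refine ⟨ia z XS r (2 ^ j), hA (C.ia_mem _), ?_⟩
      change ia z XS r (2 ^ j) * (t0 * ia z XS r ((2 ^ j ^^^ lin V r l0 (2 ^ j)) ^^^ p)) * _ = _
      rw [Nat.xor_comm (2 ^ j), Nat.xor_assoc, C.ia_xor, ← C.conj ht, C.ia_xor, inv_of_sq t2, C.ia_comm (2 ^ j) p,
        ← mul_assoc t0, ← mul_assoc t0, ← mul_assoc t0, t2, one_mul, mul_assoc (ia z XS r (2 ^ j)) t0,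
        ← mul_assoc (ia z XS r (2 ^ j)), C.ia_sq, one_mul, ← mul_assoc, mul_inv_cancel_right]) h5⟩)
    _ hr w (subM_sound h.2 hw)
  exact ⟨a', h4, C0.trans ⟨g, hg, e2⟩ h5⟩

theorem wz {Ls : List ℕ} {v : ℕ} (hv : v < 2 ^ r) (h : chkW V n r gs Ls v = true) :
    WZ (TL F XS n gs) (fA F XS) (ia z XS r v) := by
  simp only [chkW, forceL_eq, Bool.and_eq_true, List.all_eq_true, memN_iff] at h
  intro a ha h1 t ht
  obtain ⟨a, ha', rfl⟩ := (C.surj a).1 ha
  have h2 := allN_sound h.2 a ha'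
  simp only [forceG_eq, Bool.or_eq_true, Bool.not_eq_true', List.all_eq_true, Nat.beq_eq] at h2
  rcases h2 with h2 | h2
  · refine absurd (List.all_eq_true.2 fun l hl => ?_) (by rw [h2]; simp)
    obtain ⟨g, hg, e⟩ := C.real' (h.1 l hl)
    have := h1 g hg
    rw [C.conj e, ← C.ia_xor] at this
    simp only [Bool.or_eq_true, Nat.beq_eq]
    exact this.imp (C.inj' (C.lin_lt e a) ha') (C.inj' (C.lin_lt e a) (Nat.xor_lt_two_pow ha' hv))
  · obtain ⟨l, hl, e⟩ := C.mem_TL.1 ht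
    rw [C.conj e, h2 l hl]

theorem nwz {v a : ℕ} (h : chkNW V n r gs v a = true) :
    TL F XS n gs ≤ Cx(ia z XS r v) ∧ ¬ WZ (TL F XS n gs) (fA F XS) (ia z XS r v) := by
  simp only [chkNW, forceL_eq, forceG_eq, Bool.and_eq_true, List.all_eq_true, List.any_eq_true, Nat.blt_eq,
    Bool.or_eq_true, Nat.beq_eq, Bool.not_eq_true'] at h
  obtain ⟨⟨h0, h1⟩, l, hl, h2⟩ := h
  refine ⟨fun t ht => ?_, fun hw => ?_⟩
  · obtain ⟨l, hl, e⟩ := C.mem_TL.1 ht
    rw [mem_Cx', C.conj e, (h1 l hl).1]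
  · obtain ⟨g, hg, e⟩ := C.real' hl
    have := hw _ (C.ia_mem a) (fun t ht => by
      obtain ⟨l, hl, e⟩ := C.mem_TL.1 ht
      rw [C.conj e, ← C.ia_xor]
      exact (h1 l hl).2.imp (congrArg _) (congrArg _)) g hg
    rw [C.conj e] at this
    exact Nat.ne_of_beq_eq_false h2 (C.inj' (C.lin_lt e a) h0 this)

theorem loc {KK : Subgroup F} (hs : SylIn 2 (TL F XS n gs) KK) (h : chkU V n r gs = true)
    (hi : ∀ y ∈ TL F XS n gs, y * y = 1 → ∃ a < 2 ^ r, C0 KK y (ia z XS r a)) :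
    Loc KK (TL F XS n gs) (fA F XS) r (ia z XS r) :=
  ⟨hs, C.AT, C.surj, fun a _ b _ => C.ia_xor a b, C.inj, C.uniq h, hi⟩

/-- the Sylow subgroup fixes the first base point -/
theorem TL_le (hx : xp XS 0 = 0) (hn : 0 < n) (h : (dbl n gs).all (fun l => Nat.beq (pg l 0) 0) = true) :
    TL F XS n gs ≤ Cx(z) := fun t ht => by
  obtain ⟨l, hl, e⟩ := C.mem_TL.1 ht
  have := (e 0 hn).2
  rw [Nat.eq_of_beq_eq_true (List.all_eq_true.1 h l hl), hx] at this
  rw [C.cz]; exact this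

end SCtx

end

end CfH8.Fi
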