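import Cfsg.Agent.OD.Pre
import Cfsg.Agent.H8.Amalgam5

/-!
# Amalgams of index `(3, 3)`: the local action on the trivalent graph
-/

set_option autoImplicit false
set_option linter.unusedSectionVars false

namespace CfH8

open Subgroup MulAction CfH9 Cfsg
open scoped commutatorElement
open CfH7 (OZ)

variable {X : Type*} [Group X] {M₁ M₂ : Subgroup X}

local notation "Gv" δ:max => MulAction.stabilizer X δ
local notation "Qv" δ:max => vertexQ 2 δ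
local notation "Zv" δ:max => vertexZ 2 δ
local notation "VI" => vertexVIter 2 M₁ M₂
local notation "Vx" => CosetVertex M₁ M₂
local notation "Adj" => SimpleGraph.Adj (cosetGraph M₁ M₂)
local notation "dd" => SimpleGraph.dist (cosetGraph M₁ M₂)
local notation "bb" => criticalDistance 2 M₁ M₂

theorem cjQ {δ : Vx} {x : X} (hx : x ∈ Qv δ) (g : X) : g * x * g⁻¹ ∈ Qv (g • δ) := by
  rw [vertexQ_smul]; exact conj_mem_cj g hx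

theorem cjQ_iff {δ : Vx} {x g : X} : g * x * g⁻¹ ∈ Qv (g • δ) ↔ x ∈ Qv δ := by
  rw [vertexQ_smul]; exact conj_mem_cj_iff

theorem cjZ {δ : Vx} {x : X} (hx : x ∈ Zv δ) (g : X) : g * x * g⁻¹ ∈ Zv (g • δ) := by
  rw [vertexZ_smul]; exact conj_mem_cj g hx

theorem cjZ_iff {δ : Vx} {x g : X} : g * x * g⁻¹ ∈ Zv (g • δ) ↔ x ∈ Zv δ := by
  rw [vertexZ_smul]; exact conj_mem_cj_iff

theorem fixv {δ : Vx} {g : X} (hg : g ∈ Gv δ) : g • δ = δ := hg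

theorem dd_symm {δ γ : Vx} {n : ℕ} (h : dd δ γ ≤ n) : dd γ δ ≤ n := by
  rwa [SimpleGraph.dist_comm]

theorem dd_refl (δ : Vx) : dd δ δ ≤ 0 := by simp

theorem dd_adj {δ γ : Vx} (a : Adj δ γ) : dd δ γ ≤ 1 := (AmT.dist_adj a).le

theorem mem_Nm_of_comm {A : Subgroup X} {u : X} (h : ⁅A, zpowers u⁆ ≤ A) : u ∈ Nm(A) :=
  zpowers_le.1 (CfH7.le_Nm_of_comm_le_left h)

theorem comm_mem_of_le {A B C : Subgroup X} (h : ⁅A, B⁆ ≤ C) {x y : X} (hx : x ∈ A) (hy : y ∈ B) :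
    ⁅x, y⁆ ∈ C := h (commutator_mem_commutator hx hy)

theorem comm_mem_of_le' {A B C : Subgroup X} (h : ⁅A, B⁆ ≤ C) {x y : X} (hx : x ∈ A) (hy : y ∈ B) :
    ⁅y, x⁆ ∈ C := by
  rw [← commutatorElement_inv]; exact inv_mem (comm_mem_of_le h hx hy)

theorem comm_le_inf_bot {A B C D : Subgroup X} (h1 : ⁅A, B⁆ ≤ C) (h2 : ⁅B, A⁆ ≤ D)
    (h : C ⊓ D = ⊥) : A ≤ Cz(B) :=
  CfH7.comm_eq_bot_left.1 (le_bot_iff.1 (h ▸ le_inf h1 (commutator_comm B A ▸ h2)))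

theorem comm_le_of {A B A' B' C : Subgroup X} (h : ⁅A', B'⁆ ≤ C) (h1 : A ≤ A') (h2 : B ≤ B') :
    ⁅A, B⁆ ≤ C := (Subgroup.commutator_mono h1 h2).trans h

theorem comm_le_of' {A B A' B' C : Subgroup X} (h : ⁅A', B'⁆ ≤ C) (h1 : A ≤ B') (h2 : B ≤ A') :
    ⁅A, B⁆ ≤ C := commutator_comm B A ▸ comm_le_of h h2 h1

namespace AmT

variable (h : AmT 3 M₁ M₂) {δ γ γ' γ₁ γ₂ γ₃ μ : CosetVertex M₁ M₂} {x y u g : X}
include h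

theorem QG (a : Adj δ γ) (hx : x ∈ Qv δ) : x ∈ Gv γ := h.Q_le_of_adj a hx

theorem QG0 (hx : x ∈ Qv δ) : x ∈ Gv δ := h.Q_le_G δ hx

theorem mulQ (a : Adj δ γ) (hx : x ∈ Gv δ ⊓ Gv γ) (hy : y ∈ Gv δ ⊓ Gv γ) (nx : x ∉ Qv δ)
    (ny : y ∉ Qv δ) : x * y ∈ Qv δ := mul_mem_of_relIndex_two (h.i2 δ γ a) hx hy nx ny

theorem not_mem_G (a : Adj δ γ) (a' : Adj δ γ') (hne : γ ≠ γ') (hx : x ∈ Gv δ ⊓ Gv γ)
    (nx : x ∉ Qv δ) : x ∉ Gv γ' := fun e => nx (h.mem_Q a a' hne hx.1 hx.2 e)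

theorem smul_ne (a : Adj δ γ) (a' : Adj δ γ') (hne : γ ≠ γ') (hx : x ∈ Gv δ ⊓ Gv γ)
    (nx : x ∉ Qv δ) : x • γ' ≠ γ' := h.not_mem_G a a' hne hx nx

omit h in
theorem smul_ne' (hne : γ ≠ γ') (hx : x ∈ Gv γ) : x • γ' ≠ γ := fun e =>
  hne (by rw [← inv_smul_smul x γ', e]; exact (fixv (inv_mem hx)).symm)

theorem swap (a₁ : Adj δ γ₁) (a₂ : Adj δ γ₂) (a₃ : Adj δ γ₃) (h12 : γ₁ ≠ γ₂) (h13 : γ₁ ≠ γ₃)
    (h23 : γ₂ ≠ γ₃) (hx : x ∈ Gv δ ⊓ Gv γ₁) (nx : x ∉ Qv δ) : x • γ₂ = γ₃ := by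
  rcases h.three_nbrs a₁ a₂ a₃ (adj_smul_of_mem a₂ hx.1) h12 h13 h23 with e | e | e
  · exact absurd e (smul_ne' h12 hx.2)
  · exact absurd e (h.smul_ne a₁ a₂ h12 hx nx)
  · exact e

theorem exists_T (a : Adj δ γ) : ∃ s ∈ Gv δ ⊓ Gv γ, s ∉ Qv δ :=
  SetLike.not_le_iff_exists.1 (h.not_T_le_Q a)

theorem exists_third (a₁ : Adj δ γ₁) (a₂ : Adj δ γ₂) (h12 : γ₁ ≠ γ₂) :
    ∃ γ₃, Adj δ γ₃ ∧ γ₁ ≠ γ₃ ∧ γ₂ ≠ γ₃ := by
  obtain ⟨s, hs, ns⟩ := h.exists_T a₁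
  exact ⟨s • γ₂, adj_smul_of_mem a₂ hs.1, (smul_ne' h12 hs.2).symm, (h.smul_ne a₁ a₂ h12 hs ns).symm⟩

theorem exists_QQ (a : Adj δ γ) : ∃ s ∈ Qv δ, s ∉ Qv γ :=
  SetLike.not_le_iff_exists.1 (h.not_Q_le a)

theorem G_le' (a : Adj δ γ) (hu : u ∈ Gv δ) (nu : u ∉ Gv γ) {H : Subgroup X}
    (h1 : Gv δ ⊓ Gv γ ≤ H) (h2 : u ∈ H) : Gv δ ≤ H :=
  h.G_le a (zpowers_le.2 hu) (fun e => nu (zpowers_le.1 e)) h1 (zpowers_le.2 h2)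

theorem T_le' (a : Adj δ γ) (hu : u ∈ Gv δ ⊓ Gv γ) (nu : u ∉ Qv δ) {H : Subgroup X}
    (h1 : Qv δ ≤ H) (h2 : u ∈ H) : Gv δ ⊓ Gv γ ≤ H :=
  h.T_le a (zpowers_le.2 hu) (fun e => nu (zpowers_le.1 e)) h1 (zpowers_le.2 h2)

theorem le_of_two (a : Adj δ γ) {A H : Subgroup X} (hA : A ≤ Gv δ ⊓ Gv γ) (hu : u ∈ A)
    (nu : u ∉ Qv δ) (h1 : A ⊓ Qv δ ≤ H) (h2 : u ∈ H) : A ≤ H := fun x hx => by
  by_cases nx : x ∈ Qv δ
  · exact h1 (mi hx nx)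
  · simpa using mul_mem (h1 (mi (mul_mem hx hu) (h.mulQ a (hA hx) (hA hu) nx nu))) (inv_mem h2)

theorem G_le_two (a₁ : Adj δ γ₁) (a₂ : Adj δ γ₂) (h12 : γ₁ ≠ γ₂) {H : Subgroup X}
    (h1 : Gv δ ⊓ Gv γ₁ ≤ H) (h2 : Gv δ ⊓ Gv γ₂ ≤ H) : Gv δ ≤ H := by
  obtain ⟨s, hs, ns⟩ := h.exists_T a₂
  exact h.G_le' a₁ hs.1 (h.not_mem_G a₂ a₁ h12.symm hs ns) h1 (h2 hs)

theorem not_Nm (a : Adj δ γ) (hu : u ∈ Gv δ) (nu : u ∉ Gv γ) {Y : Subgroup X}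
    (hY : Y ≤ Gv δ ⊓ Gv γ) (hne : Y ≠ ⊥) (hn : Gv γ ≤ Nm(Y)) : u ∉ Nm(Y) := fun e =>
  hne (h.bot_of_norm a (hY.trans inf_le_left) (hY.trans inf_le_right)
    (h.G_le' a hu nu (inf_le_right.trans hn) e) hn)

theorem mem_Nm_cj (a : Adj δ γ) {Y : Subgroup X} (hY : Qv γ ⊓ Qv δ ≤ Nm(Y)) (hu : u ∈ Gv δ)
    (hu' : u ∈ Nm(Y)) (hg : g ∈ Qv δ) : u ∈ Nm(cj g Y) := by
  by_cases hc : g ∈ Nm(Y)
  · rwa [cj_eq_of_mem_normalizer hc]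
  have h1 : u * g * u⁻¹ ∈ Qv δ := fixv hu ▸ cjQ hg u
  have h2 : u * g * u⁻¹ ∉ Nm(Y) := fun e => hc (by
    simpa [mul_assoc] using mul_mem (mul_mem (inv_mem hu') e) hu')
  have h3 := hY (mi (h.mulQ a.symm (h.Q_le_T' a.symm (inv_mem hg)) (h.Q_le_T' a.symm h1)
    (fun e => hc (by simpa using hY (mi e (inv_mem hg)))) fun e => h2 (hY (mi e h1)))
    (mul_mem (inv_mem hg) h1))
  rw [← cj_normalizer, mem_cj]
  simpa [mul_assoc] using mul_mem h3 hu'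

theorem dL (a : Adj γ δ) {n : ℕ} (hn : dd δ μ ≤ n) : dd γ μ ≤ n + 1 := by
  have := h.dist_tri γ δ μ
  have := dd_adj a
  omega

theorem dR {n : ℕ} (hn : dd δ μ ≤ n) (a : Adj μ γ) : dd δ γ ≤ n + 1 :=
  dd_symm (h.dL a.symm (dd_symm hn))

theorem VQ (k : ℕ) {n : ℕ} (hn : dd δ μ ≤ n) (hb : n + k < bb) : VI k δ ≤ Qv μ :=
  vertexVIter_le_iff.2 fun ν hν => h.Z_le_Q_of_lt (by
    have := h.dist_tri ν δ μ
    have := dd_symm hν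
    omega)

theorem VG (k : ℕ) {n : ℕ} (hn : dd δ μ ≤ n) (hb : n + k ≤ bb) : VI k δ ≤ Gv μ :=
  vertexVIter_le_iff.2 fun ν hν => h.Z_le_stab_of_le (by
    have := h.dist_tri ν δ μ
    have := dd_symm hν
    omega)

theorem ZQ {n : ℕ} (hn : dd δ μ ≤ n) (hb : n < bb) : Zv δ ≤ Qv μ := h.Z_le_Q_of_lt (by omega)

theorem ZG {n : ℕ} (hn : dd δ μ ≤ n) (hb : n ≤ bb) : Zv δ ≤ Gv μ :=
  h.Z_le_stab_of_le (by omega)

theorem ZC {n : ℕ} (hn : dd δ μ ≤ n) (hb : n < bb) : Zv δ ≤ Cz(Zv μ) :=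
  (h.ZQ hn hb).trans (h.Q_le_CZ μ)

omit h in
theorem Z_le_VI (n : ℕ) (δ : Vx) : Zv δ ≤ VI n δ := Z_le_vertexVIter (by simp)

omit h in
theorem Z_le_V (a : Adj δ γ) : Zv γ ≤ VI 1 δ := Z_le_vertexVIter (dd_adj a)

theorem VI_adj (a : Adj δ γ) (n : ℕ) : VI n γ ≤ VI (n + 1) δ := h.vertexVIter_le_of_adj a n

omit h in
theorem VI_mono {n m : ℕ} (hnm : n ≤ m) (δ : Vx) : VI n δ ≤ VI m δ :=
  vertexVIter_le_iff.2 fun _ hν => Z_le_vertexVIter (hν.trans hnm)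

theorem VI_zero (δ : Vx) : VI 0 δ = Zv δ :=
  le_antisymm (vertexVIter_le_iff.2 fun ν hν => by
    rw [(h.conn.dist_eq_zero_iff).1 (Nat.le_zero.1 hν)]) (Z_le_VI 0 δ)

theorem VI_le {n : ℕ} {H : Subgroup X} (h0 : Zv δ ≤ H) (h1 : ∀ γ, Adj δ γ → VI n γ ≤ H) :
    VI (n + 1) δ ≤ H := vertexVIter_le_iff.2 fun ν hν => by
  rcases e : dd δ ν with _ | m
  · rwa [← (h.conn.dist_eq_zero_iff).1 e]
  · obtain ⟨γ, a, hd⟩ := h.exists_step e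
    exact (Z_le_vertexVIter (by omega)).trans (h1 γ a)

theorem VI_le' {n : ℕ} {H : Subgroup X} (h1 : ∀ γ, Adj δ γ → VI (n + 1) γ ≤ H) :
    VI (n + 2) δ ≤ H := by
  obtain ⟨γ, a⟩ := exists_adj δ
  exact h.VI_le (((Z_le_V a.symm).trans (VI_mono (by omega) γ)).trans (h1 γ a)) h1

theorem forall_nbr {P : Vx → Prop} (a₁ : Adj δ γ₁) (a₂ : Adj δ γ₂) (a₃ : Adj δ γ₃)
    (h12 : γ₁ ≠ γ₂) (h13 : γ₁ ≠ γ₃) (h23 : γ₂ ≠ γ₃) (p1 : P γ₁) (p2 : P γ₂) (p3 : P γ₃) :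
    ∀ γ, Adj δ γ → P γ := fun _ a => by
  rcases h.three_nbrs a₁ a₂ a₃ a h12 h13 h23 with rfl | rfl | rfl <;> assumption

theorem VI_smul (n : ℕ) (g : X) (δ : Vx) : VI n (g • δ) = cj g (VI n δ) :=
  vertexVIter_smul h.gen n g δ

theorem cjV {n : ℕ} (hx : x ∈ VI n δ) (g : X) : g * x * g⁻¹ ∈ VI n (g • δ) := by
  rw [h.VI_smul]; exact conj_mem_cj g hx

theorem NmV (n : ℕ) (δ : Vx) : Gv δ ≤ Nm(VI n δ) := stab_le_Nm_vertexVIter h.gen n δ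

theorem VI_ne_bot (n : ℕ) (δ : Vx) : VI n δ ≠ ⊥ := ne_bot_of_le (Z_le_VI n δ) (h.Z_ne_bot δ)

theorem not_Nm_VI (a : Adj δ γ) (hu : u ∈ Gv δ) (nu : u ∉ Gv γ) {n : ℕ} (hb : n + 1 ≤ bb) :
    u ∉ Nm(VI n γ) :=
  h.not_Nm a hu nu (le_inf (h.VG n (dd_adj a.symm) (by omega)) (h.VG n (dd_refl γ) (by omega)))
    (h.VI_ne_bot n γ) (h.NmV n γ)

theorem not_Nm_Z (a : Adj δ γ) (hu : u ∈ Gv δ) (nu : u ∉ Gv γ) : u ∉ Nm(Zv γ) :=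
  h.not_Nm a hu nu ((h.Z_le_Q γ).trans (h.Q_le_T' a)) (h.Z_ne_bot γ) (stab_le_Nm_vertexZ 2 γ)

/-- an element moving `γ` does not normalize `V^{(n)}_ν V^{(n)}_δ` -/
theorem not_Nm_sup (a : Adj δ γ) (hu : u ∈ Gv δ) (nu : u ∉ Gv γ) {n : ℕ} (hb : n + 2 ≤ bb)
    (hZ : Zv γ ≤ VI n δ) (a' : Adj γ μ) (hne : δ ≠ μ) : u ∉ Nm(VI n μ ⊔ VI n δ) := fun e => by
  obtain ⟨g, hg, ng⟩ := h.exists_QQ a
  have h1 := h.mem_Nm_cj a (fun y hy => mem_Nm_sup (h.NmV n μ (h.QG a' hy.1))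
    (h.NmV n δ (h.QG0 hy.2))) hu e hg
  rw [cj_sup, ← h.VI_smul, ← h.VI_smul, fixv (h.QG0 hg)] at h1
  refine h.not_Nm_VI a hu nu (n := n + 1) hb ?_
  have hgT := h.Q_le_T' a.symm hg
  have a'' := adj_smul_of_mem a' hgT.1
  convert mem_Nm_sup e h1 using 3
  refine le_antisymm (h.VI_le (hZ.trans (le_sup_of_le_left le_sup_right))
    (h.forall_nbr a.symm a' a'' hne (smul_ne' hne hgT.2).symm (h.smul_ne a.symm a' hne hgT ng).symm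
      (le_sup_of_le_left le_sup_right) (le_sup_of_le_left le_sup_left)
      (le_sup_of_le_right le_sup_left))) ?_
  exact sup_le (sup_le (h.VI_adj a' n) (h.VI_adj a.symm n))
    (sup_le (h.VI_adj a'' n) (h.VI_adj a.symm n))

theorem relIndex_le_two (a : Adj δ γ) {A : Subgroup X} (hA : A ≤ Gv δ ⊓ Gv γ) :
    (Qv δ).relIndex A ≤ 2 :=
  (relIndex_le_of_le_right hA (by rw [h.i2 δ γ a]; omega)).trans (h.i2 δ γ a).le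

theorem card_le_two_mul (a : Adj δ γ) {A : Subgroup X} (hA : A ≤ Gv δ ⊓ Gv γ) :
    Nat.card A ≤ Nat.card (A ⊓ Qv δ : Subgroup X) * 2 := by
  rw [← card_mul_relIndex (inf_le_left : A ⊓ Qv δ ≤ A), inf_relIndex_left]
  exact Nat.mul_le_mul_left _ (h.relIndex_le_two a hA)

theorem finZ (δ : Vx) : Finite (Zv δ) :=
  haveI := h.finite_Q δ
  finite_of_le (h.Z_le_Q δ)

theorem crit_ZG {α α' : Vx} (c : IsCriticalPair 2 α α') : Zv α ≤ Gv α' := h.ZG c.2.le le_rfl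

theorem exists_geo {α α' : Vx} (c : IsCriticalPair 2 α α') : ∃ f : ℕ → Vx, f 0 = α ∧ f bb = α' ∧
    (∀ i, i < bb → Adj (f i) (f (i + 1))) ∧ (∀ i k, i + k ≤ bb → dd (f i) (f (i + k)) ≤ k) ∧
    ∀ i, i + 2 ≤ bb → f i ≠ f (i + 2) := by
  obtain ⟨p, hp⟩ := (h.conn.preconnected α α').exists_walk_length_eq_dist
  rw [c.2] at hp
  have h1 : ∀ i, i < bb → Adj (p.getVert i) (p.getVert (i + 1)) := fun i hi =>
    p.adj_getVert_succ (hp ▸ hi)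
  have h2 : ∀ i k, i + k ≤ bb → dd (p.getVert i) (p.getVert (i + k)) ≤ k := fun i k => by
    induction k with
    | zero => exact fun _ => dd_refl _
    | succ k ih => exact fun hk => h.dR (ih (by omega)) (h1 (i + k) (by omega))
  have e : p.getVert bb = α' := by rw [← hp, p.getVert_length]
  refine ⟨p.getVert, p.getVert_zero, e, h1, h2, fun i hi e' => ?_⟩
  have h3 := h2 0 i (by omega)
  have h4 := h2 (i + 2) (bb - (i + 2)) (by omega)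
  rw [zero_add, p.getVert_zero] at h3
  rw [show i + 2 + (bb - (i + 2)) = bb by omega, e, ← e'] at h4
  have := h.dist_tri α (p.getVert i) α'
  have := c.2
  omega

end AmT

end CfH8
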