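import Cfsg.Agent.OD.Pre
import Cfsg.Agent.H8.Gold1

/-!
# Amalgams of index `(3, 3)` in which `Ω₁ Z(T)` is central in one of the two groups
-/

set_option autoImplicit false
set_option linter.unusedSectionVars false

namespace CfH8

open Subgroup MulAction CfH9 Cfsg
open scoped commutatorElement
open CfH7 (OZ)

variable {X : Type*} [Group X] {M₁ M₂ : Subgroup X}

local notation "Gv" δ:max => MulAction.stabilizer X δ
local notation "Qv" δ:max => vertexQ 2 δ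
local notation "Zv" δ:max => vertexZ 2 δ
local notation "VI" => vertexVIter 2 M₁ M₂
local notation "Vx" => CosetVertex M₁ M₂
local notation "Adj" => SimpleGraph.Adj (cosetGraph M₁ M₂)
local notation "dd" => SimpleGraph.dist (cosetGraph M₁ M₂)
local notation "bb" => criticalDistance 2 M₁ M₂

/-- `Z_δ` is central in `G_δ` -/
def TB (δ : CosetVertex M₁ M₂) : Prop := vertexZ 2 δ ≤ Cz(stabilizer X δ)

theorem TB.smul {δ : Vx} (h : TB δ) (g : X) : TB (g • δ) := by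
  unfold TB
  rw [vertexZ_smul, stab_smul, ← cj_centralizer]
  exact cj_mono g h

theorem TB.conj {δ : Vx} (h : TB δ) {z g : X} (hz : z ∈ Zv δ) (hg : g ∈ Gv δ) :
    g * z * g⁻¹ = z := mem_Cx'.1 (le_Cx_iff.2 (h hz) hg)

theorem TB.comm {δ : Vx} (h : TB δ) {z g : X} (hz : z ∈ Zv δ) (hg : g ∈ Gv δ) :
    g * z = z * g := h hz g hg

theorem TB.le_Cz {δ : Vx} (h : TB δ) {A : Subgroup X} (hA : A ≤ Gv δ) : A ≤ Cz(Zv δ) :=
  CfH7.le_Cz_comm (le_trans h (Cz_anti hA))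

/-- amalgam of index `(3, 3)` with alternating types -/
structure AmG (M₁ M₂ : Subgroup X) : Prop extends AmT 3 M₁ M₂ where
  alt : ∀ δ γ : CosetVertex M₁ M₂, (cosetGraph M₁ M₂).Adj δ γ → TB δ ∨ TB γ

namespace AmG

variable (h : AmG M₁ M₂) {α α' α₁ α₂ α₃ β β' β₁ β₂ β₃ δ γ : CosetVertex M₁ M₂} {x y s u g : X}
include h

theorem Z_le_OZ (a : Adj α β) (hb : TB β) : Zv β ≤ OZ 2 (Gv α ⊓ Gv β) :=
  CfH7.le_OZ (h.Z_elem β) ((h.Z_le_Q β).trans (h.Q_le_T' a)) (le_trans hb (Cz_anti inf_le_right))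

theorem OZ_le_Z' (a : Adj α β) : OZ 2 (Gv α ⊓ Gv β) ≤ Zv β := inf_comm (Gv β) _ ▸ h.OZ_le_Z a.symm

theorem Zle (a : Adj α β) (hb : TB β) : Zv β ≤ Zv α := (h.Z_le_OZ a hb).trans (h.OZ_le_Z a)

theorem bot_of (a : Adj α β) (hb : TB β) {A : Subgroup X} (hA : A ≤ Zv β) (h1 : Gv α ≤ Nm(A)) :
    A = ⊥ :=
  h.bot_of_norm a (hA.trans ((h.Z_le_Q β).trans (h.Q_le_of_adj a.symm)))
    (hA.trans (h.Z_le_stab β)) h1 ((CfH7.le_Cz_comm (hA.trans hb)).trans (Cz_le_Nm A))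

theorem eq_one_of (a : Adj α β) (hb : TB β) (hx : x ∈ Zv β) (hu : u ∈ Gv α) (nu : u ∉ Gv β)
    (e : u * x = x * u) : x = 1 := by
  have := h.bot_of a hb (zpowers_le.2 hx) ((h.G_le' a hu nu (H := Cx(x))
    (fun g hg => mem_Cx.2 (hb.comm hx hg.2)) (mem_Cx.2 e)).trans (Cz_zpowers x ▸ Cz_le_Nm _))
  exact zpowers_eq_bot.1 this

theorem notTB (a : Adj α β) (hb : TB β) : ¬ TB α := fun ha =>
  h.Z_ne_bot β (h.bot_of a hb le_rfl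
    ((CfH7.le_Cz_comm ((h.Zle a hb).trans ha)).trans (Cz_le_Nm _)))

theorem tb (a : Adj α β) (ha : ¬ TB α) : TB β := (h.alt α β a).resolve_left ha

theorem tb2 (a : Adj α β) (a' : Adj α β') (hb : TB β) : TB β' := h.tb a' (h.notTB a hb)

theorem leQ (ha : ¬ TB α) {A : Subgroup X} (h0 : A ≤ Gv α) (h1 : A ≤ Cz(Zv α)) : A ≤ Qv α := by
  obtain ⟨β, a⟩ := exists_adj α
  refine le_trans (le_inf h0 h1) ?_
  have hn : Gv α ≤ Nm(Gv α ⊓ Cz(Zv α)) := CfH7.le_normalizer_inf le_normalizer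
    ((stab_le_Nm_vertexZ 2 α).trans (Nm_le_Nm_Cz _))
  by_cases hc : Gv α ⊓ Cz(Zv α) ≤ Gv β
  · exact CfH7.le_pCoreOf inf_le_left hn ((h.pT α β a).to_le (le_inf inf_le_left hc))
  · have hb := h.tb a ha
    exact absurd (h.bot_of a hb le_rfl ((h.G_le a inf_le_left hc (hb.le_Cz inf_le_right)
      (inf_le_right.trans (Cz_anti (h.Zle a hb)))).trans (Cz_le_Nm _))) (h.Z_ne_bot β)

theorem memQ (ha : ¬ TB α) (h0 : x ∈ Gv α) (h1 : x ∈ Cz(Zv α)) : x ∈ Qv α :=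
  zpowers_le.1 (h.leQ ha (zpowers_le.2 h0) (zpowers_le.2 h1))

theorem ZZ1 (a₁ : Adj α β₁) (a₂ : Adj α β₂) (hne : β₁ ≠ β₂) (hb : TB β₁) (h1 : x ∈ Zv β₁)
    (h2 : x ∈ Zv β₂) : x = 1 := by
  obtain ⟨s, hs, ns⟩ := h.exists_T a₂
  exact h.eq_one_of a₁ hb h1 hs.1 (h.not_mem_G a₂ a₁ hne.symm hs ns)
    ((h.tb2 a₁ a₂ hb).comm h2 hs.2)

theorem ZZ (a₁ : Adj α β₁) (a₂ : Adj α β₂) (hne : β₁ ≠ β₂) (hb : TB β₁) : Zv β₁ ⊓ Zv β₂ = ⊥ :=
  eq_bot_iff.2 fun _ hx => h.ZZ1 a₁ a₂ hne hb hx.1 hx.2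

theorem Z_le_E (α : Vx) : Zv α ≤ OZ 2 (Qv α) := h.Z_le_omega α

theorem E_mem (a : Adj α β) (hx : x ∈ OZ 2 (Qv α)) (hs : s ∈ Gv α ⊓ Gv β) (ns : s ∉ Qv α)
    (e : s * x = x * s) : x ∈ Zv β := by
  obtain ⟨⟨h1, h2⟩, h3⟩ := CfH7.mem_OZ.1 hx
  exact h.OZ_le_Z' a (CfH7.mem_OZ.2 ⟨⟨h.Q_le_T a h1, le_Cx_iff.1
    (h.T_le' a hs ns (le_Cx_iff.2 h2) (mem_Cx.2 e))⟩, h3⟩)

theorem Z_mem (a : Adj α β) (hx : x ∈ Zv α) (hs : s ∈ Gv α ⊓ Gv β) (ns : s ∉ Qv α)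
    (e : s * x = x * s) : x ∈ Zv β := h.E_mem a (h.Z_le_E α hx) hs ns e

theorem NmE (α : Vx) : Gv α ≤ Nm(OZ 2 (Qv α)) :=
  (stab_le_Nm_vertexQ 2 α).trans (CfH7.Nm_le_Nm_OZ _)

theorem commE (a : Adj α β) : ⁅OZ 2 (Qv α), Gv α ⊓ Gv β⁆ ≤ Zv β := by
  rw [commutator_le]
  intro x hx s hs
  have hc := (CfH7.mem_OZ.1 hx).1.2
  by_cases ns : s ∈ Qv α
  · rw [commutatorElement_eq_one_iff_mul_comm.2 (hc s ns).symm]; exact one_mem _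
  have h1 := conj_mem_of_mem_normalizer (h.NmE α hs.1) hx
  have hE := CfH7.elemAb_OZ (p := 2) (Qv α)
  have e1 : x⁻¹ = x := inv_eq_of_mul_eq_one_right (by rw [← sq]; exact hE.2 x hx)
  refine h.E_mem a (commutator_mem_left hx (h.NmE α hs.1)) hs ns ?_
  have e2 : s * s * x = x * (s * s) := hc _ (h.mulQ a hs hs ns ns)
  have e3 := comm_iff.1 hE.1 _ hx _ h1
  rw [commutatorElement_def, e1]
  calc s * (x * s * x * s⁻¹) = (s * x * s⁻¹) * (s * s * x) * s⁻¹ * s⁻¹ * s := by group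
    _ = (s * x * s⁻¹) * x * s := by rw [e2]; group
    _ = _ := by rw [← e3]; group

theorem card_Z_eq (a₁ : Adj α β₁) (a₂ : Adj α β₂) : Nat.card (Zv β₁) = Nat.card (Zv β₂) := by
  obtain ⟨g, -, rfl⟩ := stab_trans a₁ a₂
  rw [vertexZ_smul, card_cj]

theorem E_split (a₁ : Adj α β₁) (a₂ : Adj α β₂) (hne : β₁ ≠ β₂) (hb : TB β₁)
    (hx : x ∈ OZ 2 (Qv α)) : ∃ x₁ ∈ Zv β₁, ∃ x₂ ∈ Zv β₂, x = x₁ * x₂ := by
  obtain ⟨s, hs, ns⟩ := h.exists_T a₁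
  have hE := CfH7.elemAb_OZ (p := 2) (Qv α)
  have h2 := (h.Zle a₂ (h.tb2 a₁ a₂ hb)).trans (h.Z_le_E α)
  have key : ∀ y ∈ OZ 2 (Qv α), ∀ z ∈ OZ 2 (Qv α), ⁅y, s⁆ = ⁅z, s⁆ → y * z⁻¹ ∈ Zv β₁ := by
    intro y hy z hz e
    refine h.E_mem a₁ (mul_mem hy (inv_mem hz)) hs ns ?_
    have e3 := comm_iff.1 hE.1 _ hy _ (inv_mem hz)
    simp only [commutatorElement_def, mul_left_inj] at e
    calc s * (y * z⁻¹) = z⁻¹ * (z * s * z⁻¹) * y := by rw [e3]; group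
      _ = _ := by rw [← e, e3]; group
  have := h.finZ β₁
  let f : Zv β₂ → Zv β₁ := fun y => ⟨⁅(y : X), s⁆, comm_mem_of_le (h.commE a₁) (h2 y.2) hs⟩
  have hf : Function.Injective f := fun y z e => Subtype.ext (mul_inv_eq_one.1
    (h.ZZ1 a₁ a₂ hne hb (key _ (h2 y.2) _ (h2 z.2) (congrArg Subtype.val e))
      (mul_mem y.2 (inv_mem z.2))))
  obtain ⟨y, hy⟩ := ((Nat.bijective_iff_injective_and_card f).2 ⟨hf, h.card_Z_eq a₂ a₁⟩).2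
    ⟨⁅x, s⁆, comm_mem_of_le (h.commE a₁) hx hs⟩
  exact ⟨_, key _ hx _ (h2 y.2) (congrArg Subtype.val hy).symm, y, y.2, by simp⟩

theorem Z_split (a₁ : Adj α β₁) (a₂ : Adj α β₂) (hne : β₁ ≠ β₂) (hb : TB β₁)
    (hx : x ∈ Zv α) : ∃ x₁ ∈ Zv β₁, ∃ x₂ ∈ Zv β₂, x = x₁ * x₂ :=
  h.E_split a₁ a₂ hne hb (h.Z_le_E α hx)

theorem Z_le_sup (a₁ : Adj α β₁) (a₂ : Adj α β₂) (hne : β₁ ≠ β₂) (hb : TB β₁) {H : Subgroup X}
    (h1 : Zv β₁ ≤ H) (h2 : Zv β₂ ≤ H) : Zv α ≤ H := fun _ hx => by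
  obtain ⟨x₁, e1, x₂, e2, rfl⟩ := h.Z_split a₁ a₂ hne hb hx
  exact mul_mem (h1 e1) (h2 e2)

theorem E_le_Z (ha : ¬ TB α) : OZ 2 (Qv α) ≤ Zv α := fun _ hx => by
  obtain ⟨β, a⟩ := exists_adj α
  obtain ⟨β', a', hne⟩ := h.exists_adj_ne a
  obtain ⟨x₁, e1, x₂, e2, rfl⟩ := h.E_split a' a hne (h.tb a' ha) hx
  exact mul_mem (h.Zle a' (h.tb a' ha) e1) (h.Zle a (h.tb a ha) e2)

theorem mem_Z_of_Cz (ha : ¬ TB α) (h1 : x ∈ Qv α) (h2 : Qv α ≤ Cx(x)) (h3 : x * x = 1) :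
    x ∈ Zv α := h.E_le_Z ha (CfH7.mem_OZ.2 ⟨⟨h1, le_Cx_iff.1 h2⟩, by rwa [sq]⟩)

theorem commZ (a : Adj α β) : ⁅Zv α, Gv α ⊓ Gv β⁆ ≤ Zv β :=
  comm_le_of (h.commE a) (h.Z_le_E α) le_rfl

theorem commV (hb : TB β) : ⁅VI 1 β, Qv β⁆ ≤ Zv β := by
  rw [commutator_comm, ← h.VI_zero β]
  refine CfH7.commutator_le_of_le_secCz (h.VI_le ?_ fun α a => ?_) <;> rw [h.VI_zero]
  · exact CfH7.le_secCz le_normalizer (CfH7.comm_le_right ((h.Q_le_G β).trans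
      (stab_le_Nm_vertexZ 2 β)))
  · rw [h.VI_zero]
    exact CfH7.le_secCz (((h.Z_le_Q α).trans (h.Q_le_of_adj a.symm)).trans (stab_le_Nm_vertexZ 2 β))
      (comm_le_of' (h.commZ a.symm) (h.Q_le_T' a.symm) le_rfl)

theorem CQ (a : Adj β α) (hb : TB β) {A : Subgroup X} (h0 : A ≤ Gv β) (h1 : A ≤ Cz(Zv α)) :
    A ≤ Qv α :=
  h.leQ (h.notTB a.symm hb) (fun x hx => by
    by_contra nx
    exact h.not_Nm_Z a (h0 hx) nx (Cz_le_Nm _ (h1 hx))) h1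

theorem CQ1 (a : Adj β α) (hb : TB β) (h0 : x ∈ Gv β) (h1 : x ∈ Cz(Zv α)) : x ∈ Qv α :=
  zpowers_le.1 (h.CQ a hb (zpowers_le.2 h0) (zpowers_le.2 h1))

theorem CV (hb : TB β) {A : Subgroup X} (h0 : A ≤ Gv β) (h1 : A ≤ Cz(VI 1 β)) : A ≤ Qv β := by
  obtain ⟨α, a⟩ := exists_adj β
  obtain ⟨α', a', hne⟩ := h.exists_adj_ne a
  exact h.le_Q a' a hne h0
    ((h.CQ a' hb h0 (h1.trans (Cz_anti (AmT.Z_le_V a')))).trans (h.Q_le_G _))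
    ((h.CQ a hb h0 (h1.trans (Cz_anti (AmT.Z_le_V a)))).trans (h.Q_le_G _))

theorem crit_A (c : IsCriticalPair 2 α α') : ¬ TB α := fun hb => by
  obtain ⟨β, a, hd⟩ := h.exists_crit_step c
  exact (h.crit_iff.1 c).1 ((h.Zle a.symm hb).trans (h.ZQ le_rfl (by omega)))

theorem two_le_b : 2 ≤ bb := by
  obtain ⟨α, β, c⟩ := h.exists_critical
  have := h.crit_pos c
  by_contra hb
  have a : Adj β α := (SimpleGraph.dist_eq_one_iff_adj.1 (by rw [c.2]; omega)).symm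
  have hb := h.tb a.symm (h.crit_A c)
  obtain ⟨s, hs, ns⟩ := SetLike.not_le_iff_exists.1 (h.crit_iff.1 c).1
  obtain ⟨α', a', hne⟩ := h.exists_adj_ne a
  obtain ⟨g, hg, rfl⟩ := stab_trans a a'
  have hs' := cjZ hs g
  have ns' : g * s * g⁻¹ ∉ Qv β := by rwa [← fixv hg, cjQ_iff]
  generalize g * s * g⁻¹ = t at hs' ns'
  generalize g • α = α' at a' hne hs'
  obtain ⟨α'', a'', n1, n2⟩ := h.exists_third a a' hne.symm
  have sT := h.Q_le_T' a (h.Z_le_Q α hs)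
  have tT := h.Q_le_T' a' (h.Z_le_Q α' hs')
  have hd : s * t * (s * t) ∈ Qv β := by
    refine h.charP β (mi (mul_mem (mul_mem sT.1 tT.1) (mul_mem sT.1 tT.1)) fun x hx => ?_)
    have c1 := comm_mem_of_le (h.commV hb) (AmT.Z_le_V a hs) hx
    have c2 := comm_mem_of_le (h.commV hb) (AmT.Z_le_V a' hs') hx
    have e1 : s * x * s⁻¹ = ⁅s, x⁆ * x := by simp [commutatorElement_def]
    have e2 : t * x * t⁻¹ = ⁅t, x⁆ * x := by simp [commutatorElement_def]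
    generalize ⁅s, x⁆ = c at c1 e1
    generalize ⁅t, x⁆ = d at c2 e2
    have e3 : s * t * x * (s * t)⁻¹ = d * c * x := by
      calc s * t * x * (s * t)⁻¹ = s * (t * x * t⁻¹) * s⁻¹ := by group
        _ = (s * d * s⁻¹) * (s * x * s⁻¹) := by rw [e2]; group
        _ = _ := by rw [hb.conj c2 sT.1, e1, mul_assoc]
    rw [eq_comm, ← mul_inv_eq_iff_eq_mul]
    calc s * t * (s * t) * x * (s * t * (s * t))⁻¹
        = s * t * (s * t * x * (s * t)⁻¹) * (s * t)⁻¹ := by group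
      _ = (s * t * (d * c) * (s * t)⁻¹) * (s * t * x * (s * t)⁻¹) := by
          conv_lhs => rw [e3]
          group
      _ = _ := by
        rw [hb.conj (mul_mem c2 c1) (mul_mem sT.1 tT.1), e3, ← mul_assoc, ← mul_assoc,
          mul_assoc (d * c), h.sq_eq (mul_mem c2 c1), one_mul]
  have := fixv (h.QG a hd)
  rw [mul_smul, mul_smul s t α, h.swap a' a a'' hne n2 n1 tT ns',
    h.swap a a'' a' n1 hne.symm n2.symm sT ns, mul_smul, fixv tT.2,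
    h.swap a a' a'' hne.symm n1 n2 sT ns] at this
  exact n1 this.symm

theorem V_le_Q (β : Vx) : VI 1 β ≤ Qv β := h.VQ 1 (dd_refl β) h.two_le_b

theorem V_le_G (a : Adj β α) : VI 1 β ≤ Gv α := (h.V_le_Q β).trans (h.Q_le_of_adj a)

theorem ZQ1 (a : Adj α β) : Zv α ≤ Qv β := h.ZQ (dd_adj a) h.two_le_b

/-- a `T`-invariant subgroup of `Q_α` centralized by an element moving `β` is trivial -/
theorem CB (a : Adj α β) (hb : TB β) {K : Subgroup X} (hK : K ≤ Qv α) (hn : Gv α ⊓ Gv β ≤ Nm(K))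
    (hu : u ∈ Gv α) (nu : u ∉ Gv β) (hc : K ≤ Cx(u)) : K = ⊥ := by
  by_contra hne
  have := h.finite_Q α
  have := h.fin α
  have := finite_of_le hK
  have := finite_of_le (inf_le_left : Gv α ⊓ Gv β ≤ _)
  have hp := (h.pT α β a).to_le (hK.trans (h.Q_le_T a))
  obtain ⟨x, hx, hx1⟩ := exists_ne_one_of_ne_bot (omegaOne_ne_bot (hp.to_le inf_le_left)
    (inf_Cz_ne_bot (h.pT α β a) hp hn hne))
  have h1 := omegaOne_le _ hx
  exact hx1 (h.eq_one_of a hb (h.OZ_le_Z' a (omegaOne_mono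
    (inf_le_inf_right _ (hK.trans (h.Q_le_T a))) hx)) hu nu (mem_Cx.1 (hc h1.1)).symm)

theorem sq_one (a : Adj α β) (hb : TB β) {F : Subgroup X} (hF : F ≤ Qv α) (hn : Gv α ≤ Nm(F))
    (hu : u ∈ Gv α) (nu : u ∉ Gv β) (hc : ∀ x ∈ F, ⁅u, x⁆ * ⁅u, x⁆ = 1 ∧ ⁅u, x⁆ * x = x * ⁅u, x⁆)
    (hx : x ∈ F) : x * x = 1 := by
  have := h.CB a hb (K := CfH7.nclo (zpowers (x * x)) (Gv α))
    ((CfH7.nclo_le hn (zpowers_le.2 (mul_mem hx hx))).trans hF)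
    (inf_le_left.trans (CfH7.right_le_Nm_nclo _ _)) hu nu (CfH7.nclo_le_iff'.2 fun g hg => by
      rw [cj_zpowers, zpowers_le, show g * (x * x) * g⁻¹ = (g * x * g⁻¹) * (g * x * g⁻¹) by group]
      obtain ⟨e1, e2⟩ := hc _ (conj_mem_of_mem_normalizer (hn hg) hx)
      generalize g * x * g⁻¹ = y at e1 e2
      rw [mem_Cx, eq_comm, ← mul_inv_eq_iff_eq_mul]
      calc u * (y * y) * u⁻¹ = ⁅u, y⁆ * (y * ⁅u, y⁆) * y := by
            simp only [commutatorElement_def]; group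
        _ = _ := by rw [← e2, ← mul_assoc, e1, one_mul])
  exact zpowers_eq_bot.1 (le_bot_iff.1 (this ▸ CfH7.le_nclo _ _))

theorem edge_trans' (a : Adj α β) (a' : Adj α' β') (hb : TB β) (hb' : TB β') :
    ∃ g : X, g • α = α' ∧ g • β = β' := by
  obtain ⟨g, e | ⟨e1, e2⟩⟩ := edge_trans a a'
  · exact ⟨g, e⟩
  · exact absurd (e2 ▸ hb.smul g) (h.notTB a' hb')

theorem arc_trans {γ' δ' : Vx} (a : Adj δ α) (a₂ : Adj δ γ) (hne : α ≠ γ) (a' : Adj δ' α')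
    (a₂' : Adj δ' γ') (hne' : α' ≠ γ') (hb : TB δ ↔ TB δ') :
    ∃ g : X, g • δ = δ' ∧ g • α = α' ∧ g • γ = γ' := by
  obtain ⟨g, rfl, rfl⟩ : ∃ g : X, g • δ = δ' ∧ g • α = α' := by
    by_cases hd : TB δ
    · exact (h.edge_trans' a.symm a'.symm hd (hb.1 hd)).imp fun _ => And.symm
    · exact h.edge_trans' a a' (h.tb a hd) (h.tb a' fun e => hd (hb.2 e))
  obtain ⟨s, hs, e⟩ := h.two_trans a' (adj_smul a₂ g) a₂' (fun e => hne (smul_left_cancel g e).symm)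
    hne'.symm
  exact ⟨s * g, by rw [mul_smul, fixv hs.1], by rw [mul_smul, fixv hs.2], by rw [mul_smul, e]⟩

end AmG

end CfH8
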