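import Cfsg.Agent.OD.Pre
import Cfsg.Agent.H8.Gold2

/-!
# Amalgams of index `(3, 3)` with `|Z_β| = 2`
-/

set_option autoImplicit false
set_option linter.unusedSectionVars false

namespace CfH8

open Subgroup MulAction CfH9 Cfsg
open scoped commutatorElement
open CfH7 (OZ)

variable {X : Type*} [Group X] {M₁ M₂ : Subgroup X}

local notation "Gv" δ:max => MulAction.stabilizer X δ
local notation "Qv" δ:max => vertexQ 2 δ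
local notation "Zv" δ:max => vertexZ 2 δ
local notation "VI" => vertexVIter 2 M₁ M₂
local notation "Vx" => CosetVertex M₁ M₂
local notation "Adj" => SimpleGraph.Adj (cosetGraph M₁ M₂)
local notation "dd" => SimpleGraph.dist (cosetGraph M₁ M₂)
local notation "bb" => criticalDistance 2 M₁ M₂

theorem mem_Nm_of_le_cj {A : Subgroup X} [Finite A] {u : X} (h : A ≤ cj u⁻¹ A) : u ∈ Nm(A) := by
  have : Finite (cj u⁻¹ A) := finite_cj inferInstance _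
  rw [← inv_mem_iff, mem_normalizer_iff_cj]
  exact (eq_of_le_of_card_ge h (card_cj _ _).le).symm

/-- the subgroup `Z ∪ Z p` -/
def ext2 (Z : Subgroup X) (p : X) (hp : p ∈ Nm(Z)) (h2 : p * p ∈ Z) : Subgroup X where
  carrier := {x | x ∈ Z ∨ x * p ∈ Z}
  one_mem' := Or.inl (one_mem _)
  mul_mem' := by
    rintro x y (hx | hx) (hy | hy)
    · exact Or.inl (mul_mem hx hy)
    · exact Or.inr (mul_assoc x y p ▸ mul_mem hx hy)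
    · refine Or.inr ?_
      simpa [mul_assoc] using mul_mem hx (conj_mem_of_mem_normalizer' hp hy)
    · refine Or.inl ?_
      simpa [mul_assoc] using mul_mem (mul_mem hx (conj_mem_of_mem_normalizer' hp hy)) (inv_mem h2)
  inv_mem' := by
    rintro x (hx | hx)
    · exact Or.inl (inv_mem hx)
    · refine Or.inr ?_
      simpa [mul_assoc] using mul_mem (conj_mem_of_mem_normalizer hp (inv_mem hx)) h2

theorem two_of_le_ext2 {Z A : Subgroup X} {p : X} {hp : p ∈ Nm(Z)} {h2 : p * p ∈ Z}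
    (h : A ≤ ext2 Z p hp h2) {x y : X} (hx : x ∈ A) (hy : y ∈ A) (nx : x ∉ Z) (ny : y ∉ Z) :
    x * y ∈ Z := by
  simpa [mul_assoc] using mul_mem (mul_mem ((h hx).resolve_left nx)
    (conj_mem_of_mem_normalizer' hp ((h hy).resolve_left ny))) (inv_mem h2)

theorem le_of_two' {Z A H : Subgroup X} {x : X}
    (h : ∀ y ∈ A, y ∉ Z → y * x ∈ Z) (h1 : Z ≤ H) (h2 : x ∈ H) : A ≤ H := fun y hy => by
  by_cases ny : y ∈ Z
  · exact h1 ny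
  · simpa using mul_mem (h1 (h y hy ny)) (inv_mem h2)

/-- the groups `Z_β` have order two -/
def U2 (M₁ M₂ : Subgroup X) : Prop := ∀ β : CosetVertex M₁ M₂, TB β →
  ∀ x ∈ vertexZ 2 β, ∀ y ∈ vertexZ 2 β, x ≠ 1 → y ≠ 1 → x = y

/-- `[V_β, G_{αβ}] Z_β` -/
def Rv (β α : CosetVertex M₁ M₂) : Subgroup X :=
  ⁅vertexVIter 2 M₁ M₂ 1 β, stabilizer X β ⊓ stabilizer X α⁆ ⊔ vertexZ 2 β

/-- `V_β / Z_β` is a natural module -/
def Natu (M₁ M₂ : Subgroup X) : Prop := ∀ β α : CosetVertex M₁ M₂,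
  (cosetGraph M₁ M₂).Adj β α → TB β → Rv β α ≤ vertexZ 2 α

namespace AmG

variable (h : AmG M₁ M₂) {α α' α₁ α₂ α₃ β β' β₁ β₂ β₃ δ γ μ : CosetVertex M₁ M₂}
  {x y s t u g : X}
include h

theorem u2_of (hb : TB β) (h1 : ∀ x ∈ Zv β, ∀ y ∈ Zv β, x ≠ 1 → y ≠ 1 → x = y) : U2 M₁ M₂ := by
  intro β' hb' x hx y hy nx ny
  obtain ⟨α, a⟩ := exists_adj β
  obtain ⟨α', a'⟩ := exists_adj β'
  obtain ⟨g, -, rfl⟩ := h.edge_trans' a'.symm a.symm hb' hb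
  simpa using h1 _ (cjZ hx g) _ (cjZ hy g) (by simpa using nx) (by simpa using ny)

theorem exists_Z (a : Adj α β) (hb : TB β) : ∃ e ∈ Zv α, e ∉ Zv β := by
  obtain ⟨β', a', hne⟩ := h.exists_adj_ne a
  obtain ⟨e, he, ne⟩ := exists_ne_one_of_ne_bot (h.Z_ne_bot β')
  exact ⟨e, h.Zle a' (h.tb2 a a' hb) he, fun h1 => ne (h.ZZ1 a a' hne.symm hb h1 he)⟩

theorem Rv_smul (g : X) (β α : Vx) : Rv (g • β) (g • α) = cj g (Rv β α) := by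
  rw [Rv, Rv, cj_sup, cj_commutator, cj_inf, h.VI_smul, stab_smul, stab_smul, vertexZ_smul]

theorem natu_of (a : Adj β α) (hb : TB β) (h1 : Rv β α ≤ Zv α) : Natu M₁ M₂ := by
  intro β' α' a' hb'
  obtain ⟨g, rfl, rfl⟩ := h.edge_trans' a.symm a'.symm hb hb'
  rw [h.Rv_smul, vertexZ_smul]
  exact cj_mono g h1

theorem Rv_le (β α : Vx) : Rv β α ≤ VI 1 β :=
  sup_le (CfH7.comm_le_left (inf_le_left.trans (h.NmV 1 β))) (AmT.Z_le_VI 1 β)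

theorem NmR (β α : Vx) : Gv β ⊓ Gv α ≤ Nm(Rv β α) := fun g hg => by
  rw [mem_normalizer_iff_cj, ← h.Rv_smul, fixv hg.1, fixv hg.2]

omit h in
theorem commR0 : ⁅VI 1 β, Gv β ⊓ Gv α⁆ ≤ Rv β α := le_sup_left

omit h in
theorem Z_le_R : Zv β ≤ Rv β α := le_sup_right

theorem le_Cz_VI {A : Subgroup X} {n : ℕ} (h1 : ∀ μ, dd δ μ ≤ n → A ≤ Cz(Zv μ)) :
    A ≤ Cz(VI n δ) :=
  CfH7.le_Cz_comm (vertexVIter_le_iff.2 fun μ hμ => CfH7.le_Cz_comm (h1 μ hμ))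

theorem VC (k l : ℕ) {n : ℕ} (hn : dd δ μ ≤ n) (hb : n + k + l < bb) : VI k δ ≤ Cz(VI l μ) :=
  h.le_Cz_VI fun ν hν => (h.VQ k ((h.dist_tri δ μ ν).trans (Nat.add_le_add hn hν))
    (by omega)).trans (h.Q_le_CZ ν)

theorem sqV {n : ℕ} (hb : n + n < bb) (hx : x ∈ VI n δ) : x * x = 1 := by
  have hc : IsMulCommutative (VI n δ) := comm_iff.2 fun a ha b hb' =>
    h.VC n n (dd_refl δ) (by omega) hb' a ha
  have : VI n δ ≤ omegaOne 2 (VI n δ) := vertexVIter_le_iff.2 fun μ hμ =>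
    le_omegaOne_of_elementary (h.Z_elem μ) (Z_le_vertexVIter hμ)
  rw [← sq]
  exact ((mem_omegaOne_iff_of_comm hc).1 (this hx)).2

theorem finV {n : ℕ} (hb : n ≤ bb) (δ : Vx) : Finite (VI n δ) :=
  haveI := h.fin δ
  finite_of_le (h.VG n (dd_refl δ) (by omega))

end AmG

/-- amalgam of index `(3, 3)` with alternating types and `|Z_β| = 2` -/
structure AmU (M₁ M₂ : Subgroup X) : Prop extends AmG M₁ M₂ where
  u2 : U2 M₁ M₂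

namespace AmU

variable (h : AmU M₁ M₂) {α α' α₁ α₂ α₃ β β' β₁ β₂ β₃ δ γ μ : CosetVertex M₁ M₂}
  {x y s t u g : X}
include h

theorem ZB_le (hb : TB β) (hx : x ∈ Zv β) (nx : x ≠ 1) {H : Subgroup X} (h1 : x ∈ H) :
    Zv β ≤ H := fun y hy => by
  by_cases ny : y = 1
  · rw [ny]; exact one_mem _
  · rwa [h.u2 β hb y hy x hx ny nx]

theorem I2 (a : Adj α β) (hb : TB β) (hx : x ∈ Zv α) (hy : y ∈ Zv α) (nx : x ∉ Zv β)
    (ny : y ∉ Zv β) : x * y ∈ Zv β := by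
  obtain ⟨β', a', hne⟩ := h.exists_adj_ne a
  have hb' := h.tb2 a a' hb
  obtain ⟨x₁, e1, x₂, e2, rfl⟩ := h.Z_split a a' hne.symm hb hx
  obtain ⟨y₂, f2, y₁, f1, rfl⟩ := h.Z_split a' a hne hb' hy
  rw [h.u2 β' hb' y₂ f2 x₂ e2 (by rintro rfl; exact ny (by simpa using f1))
    (by rintro rfl; exact nx (by simpa using e1)), mul_assoc, ← mul_assoc x₂, h.sq_eq e2, one_mul]
  exact mul_mem e1 f1

theorem ZA_le (a : Adj α β) (hb : TB β) (hx : x ∈ Zv α) (nx : x ∉ Zv β) {H : Subgroup X}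
    (h1 : Zv β ≤ H) (h2 : x ∈ H) : Zv α ≤ H :=
  le_of_two' (fun _ hy ny => h.I2 a hb hy hx ny nx) h1 h2

theorem Z_le_of_two (ha : ¬ TB α) (hx : x ∈ Zv α) (hy : y ∈ Zv α) (nx : x ≠ 1) (ny : y ≠ 1)
    (hne : x ≠ y) {H : Subgroup X} (h1 : x ∈ H) (h2 : y ∈ H) : Zv α ≤ H := by
  obtain ⟨β, a⟩ := exists_adj α
  have hb := h.tb a ha
  by_cases e1 : x ∈ Zv β <;> by_cases e2 : y ∈ Zv β
  · exact absurd (h.u2 β hb x e1 y e2 nx ny) hne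
  · exact h.ZA_le a hb hy e2 (h.ZB_le hb e1 nx h1) h2
  · exact h.ZA_le a hb hx e1 (h.ZB_le hb e2 ny h2) h1
  · refine h.ZA_le a hb hx e1 (h.ZB_le hb (h.I2 a hb hx hy e1 e2) (fun e => hne ?_)
      (mul_mem h1 h2)) h1
    exact mul_right_cancel (e.trans (h.sq_eq hy).symm)

theorem third (a₁ : Adj α β₁) (a₂ : Adj α β₂) (a₃ : Adj α β₃) (h12 : β₁ ≠ β₂) (h13 : β₁ ≠ β₃)
    (h23 : β₂ ≠ β₃) (hb : TB β₁) (hx : x ∈ Zv α) (n1 : x ∉ Zv β₁) (n2 : x ∉ Zv β₂) :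
    x ∈ Zv β₃ := by
  obtain ⟨e, he, ne⟩ := exists_ne_one_of_ne_bot (h.Z_ne_bot β₃)
  have hb2 := h.tb2 a₁ a₂ hb
  have he' := h.Zle a₃ (h.tb2 a₁ a₃ hb) he
  have := h.ZZ1 a₁ a₂ h12 hb (h.I2 a₁ hb hx he' n1 fun e1 => ne (h.ZZ1 a₁ a₃ h13 hb e1 he))
    (h.I2 a₂ hb2 hx he' n2 fun e1 => ne (h.ZZ1 a₂ a₃ h23 hb2 e1 he))
  rw [eq_inv_of_mul_eq_one_left this]
  exact inv_mem he

theorem conj_not_mem (a : Adj β α) (hb : TB β) (hu : u ∈ Gv β) (nu : u ∉ Gv α) (hx : x ∈ Zv α)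
    (nx : x ∉ Zv β) : u * x * u⁻¹ ∉ Zv α := fun e => by
  have := h.finZ α
  exact h.not_Nm_Z a hu nu (mem_Nm_of_le_cj (h.ZA_le a.symm hb hx nx (fun z hz => mem_cj_inv.2 (by
    rw [hb.conj hz hu]; exact h.Zle a.symm hb hz)) (mem_cj_inv.2 e)))

theorem comm_not_mem (a : Adj β α) (hb : TB β) (hu : u ∈ Gv β) (nu : u ∉ Gv α) (hx : x ∈ Zv α)
    (nx : x ∉ Zv β) : ⁅x, u⁆ ∉ Zv α := fun e =>
  h.conj_not_mem a hb hu nu hx nx (by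
    simpa [commutatorElement_def, mul_assoc] using inv_mem (mul_mem (inv_mem hx) e))

theorem ZAA (a₁ : Adj β α₁) (a₂ : Adj β α₂) (hne : α₁ ≠ α₂) (hb : TB β) (h1 : x ∈ Zv α₁)
    (h2 : x ∈ Zv α₂) : x ∈ Zv β := by
  by_contra nx
  obtain ⟨s, hs, ns⟩ := h.exists_T a₂
  exact h.conj_not_mem a₁ hb hs.1 (h.not_mem_G a₂ a₁ hne.symm hs ns) h1 nx
    (h.ZA_le a₂.symm hb h2 nx (h.Zle a₁.symm hb) h1
      (conj_mem_of_mem_normalizer (stab_le_Nm_vertexZ 2 α₂ hs.2) h2))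

theorem card_Z (ha : ¬ TB α) : Nat.card (Zv α) ≤ 4 := by
  obtain ⟨β, a⟩ := exists_adj α
  have hb := h.tb a ha
  obtain ⟨e, he, ne⟩ := h.exists_Z a hb
  obtain ⟨z, hz, nz⟩ := exists_ne_one_of_ne_bot (h.Z_ne_bot β)
  have h1 : (Zv β).relIndex (Zv α) = 2 := relIndex_eq_two_iff_exists_notMem_and.2
    ⟨e, he, ne, fun y hy => or_iff_not_imp_right.2 fun ny => h.I2 a hb hy he ny ne⟩
  have h2 : (⊥ : Subgroup X).relIndex (Zv β) = 2 := relIndex_eq_two_iff_exists_notMem_and.2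
    ⟨z, hz, nz, fun y hy => or_iff_not_imp_right.2 fun ny => by
      rw [h.u2 β hb y hy z hz ny nz]; exact h.sq_eq hz⟩
  rw [← relIndex_bot_left, ← relIndex_mul_relIndex _ _ _ bot_le (h.Zle a hb), h1, h2]

theorem commV1 (hb : TB β) (hx : x ∈ VI 1 β) (hy : y ∈ Qv β) : ⁅x, y⁆ ∈ Zv β :=
  comm_mem_of_le (h.commV hb) hx hy

theorem R_two (a : Adj β α) (hb : TB β) (hx : x ∈ Rv β α) (hy : y ∈ Rv β α) (nx : x ∉ Zv β)
    (ny : y ∉ Zv β) : x * y ∈ Zv β := by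
  obtain ⟨α₁, a₁, n1⟩ := h.exists_adj_ne a
  obtain ⟨α₂, a₂, n2, n12⟩ := h.exists_third a a₁ n1.symm
  obtain ⟨t₁, e1, f1⟩ := h.exists_Z a₁.symm hb
  obtain ⟨t₂, e2, f2⟩ := h.exists_Z a₂.symm hb
  have v1 := AmT.Z_le_V a₁ e1
  have v2 := AmT.Z_le_V a₂ e2
  have hp : t₁ * t₂ ∈ Nm(Zv β) := stab_le_Nm_vertexZ 2 β (h.QG0 (h.V_le_Q β (mul_mem v1 v2)))
  have h2 : t₁ * t₂ * (t₁ * t₂) ∈ Zv β := by
    have := h.commV1 hb v1 (h.V_le_Q β v2)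
    rwa [commutatorElement_def, inv_eq_of_mul_eq_one_right (h.sq_eq e1),
      inv_eq_of_mul_eq_one_right (h.sq_eq e2), mul_assoc] at this
  have key : ∀ {α₁ α₂ : Vx} {t₁ t₂ : X}, Adj β α₁ → Adj β α₂ → α ≠ α₁ → α ≠ α₂ → α₁ ≠ α₂ →
      t₁ ∈ Zv α₁ → t₁ ∉ Zv β → t₂ ∈ Zv α₂ → t₂ ∉ Zv β → ∀ g ∈ Gv β ⊓ Gv α, ∀ t ∈ Zv α₁,
      ⁅g, t⁆ ∈ Zv β ∨ ⁅g, t⁆ * (t₁ * t₂) ∈ Zv β := by
    intro α₁ α₂ t₁ t₂ a₁ a₂ n1 n2 n12 e1 f1 e2 f2 g hg t ht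
    by_cases ng : g ∈ Qv β
    · exact Or.inl (comm_mem_of_le' (h.commV hb) (AmT.Z_le_V a₁ ht) ng)
    by_cases nt : t ∈ Zv β
    · rw [commutatorElement_eq_one_iff_mul_comm.2 (hb.comm nt hg.1)]; exact Or.inl (one_mem _)
    have h3 := cjZ ht g
    rw [h.swap a a₁ a₂ n1 n2 n12 hg ng] at h3
    have h4 : g * t * g⁻¹ ∉ Zv β := by rwa [← fixv hg.1, cjZ_iff]
    have h5 := h.I2 a₁.symm hb (inv_mem ht) e1 (by simpa using nt) f1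
    have h6 := conj_mem_of_mem_normalizer
      (stab_le_Nm_vertexZ 2 β (h.QG a₂.symm (h.Z_le_Q _ h3))) h5
    refine Or.inr ?_
    simpa [commutatorElement_def, mul_assoc] using mul_mem h6 (h.I2 a₂.symm hb h3 e2 h4 f2)
  have hN : ext2 (Zv β) _ hp h2 ≤ VI 1 β := by
    rintro x (hx | hx)
    · exact AmT.Z_le_VI 1 β hx
    · simpa [mul_assoc] using mul_mem (AmT.Z_le_VI 1 β hx) (inv_mem (mul_mem v1 v2))
  have hZ : Zv β ≤ ext2 (Zv β) _ hp h2 := fun _ => Or.inl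
  have hn : Qv β ≤ Nm(ext2 (Zv β) _ hp h2) :=
    CfH7.le_Nm_of_comm_le_left ((comm_le_of (h.commV hb) hN le_rfl).trans hZ)
  refine two_of_le_ext2 (hp := hp) (h2 := h2) (sup_le ?_ hZ) hx hy nx ny
  rw [commutator_comm]
  refine CfH7.commutator_le_of_le_secCz (h.VI_le (n := 0) ?_ (h.forall_nbr a a₁ a₂ n1.symm n2 n12
    ?_ ?_ ?_)) <;> try rw [h.VI_zero]
  · exact CfH7.le_secCz ((h.Z_le_Q β).trans hn) ((CfH7.comm_le_right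
      (inf_le_left.trans (stab_le_Nm_vertexZ 2 β))).trans hZ)
  · exact CfH7.le_secCz ((h.ZQ1 a.symm).trans hn)
      ((comm_le_of' (h.commZ a.symm) (inf_comm _ _).le le_rfl).trans hZ)
  · exact CfH7.le_secCz ((h.ZQ1 a₁.symm).trans hn) (commutator_le.2
      (key a₁ a₂ n1.symm n2 n12 e1 f1 e2 f2))
  · refine CfH7.le_secCz ((h.ZQ1 a₂.symm).trans hn) (commutator_le.2 fun g hg t ht =>
      (key a₂ a₁ n2 n1.symm n12.symm e2 f2 e1 f1 g hg t ht).imp_right fun e => ?_)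
    have := mul_mem e h2
    rwa [mul_assoc, show t₂ * t₁ * (t₁ * t₂ * (t₁ * t₂)) = t₂ * (t₁ * t₁) * t₂ * (t₁ * t₂) by group,
      h.sq_eq e1, mul_one, h.sq_eq e2, one_mul] at this

theorem commR (a : Adj β α) (hb : TB β) : ⁅Rv β α, Gv β ⊓ Gv α⁆ ≤ Zv β := by
  refine commutator_le.2 fun x hx g hg => ?_
  by_cases nx : x ∈ Zv β
  · exact commutator_mem_left nx (stab_le_Nm_vertexZ 2 β hg.1)
  · have := h.R_two a hb hx (conj_mem_of_mem_normalizer (h.NmR β α hg) (inv_mem hx)) nx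
      (by rw [← fixv hg.1, cjZ_iff]; simpa using nx)
    simpa [commutatorElement_def, mul_assoc] using this

theorem comm_mem_R (a : Adj β α) (a₁ : Adj β α₁) (hu : u ∈ Gv β ⊓ Gv α) (ht : t ∈ Zv α₁) :
    ⁅t, u⁆ ∈ Rv β α := comm_mem_of_le AmG.commR0 (AmT.Z_le_V a₁ ht) hu

theorem comm_not_mem' (a : Adj β α) (a₁ : Adj β α₁) (n1 : α ≠ α₁) (hb : TB β)
    (hu : u ∈ Gv β ⊓ Gv α) (nu : u ∉ Qv β) (ht : t ∈ Zv α₁) (nt : t ∉ Zv β) : ⁅t, u⁆ ∉ Zv β :=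
  fun e => h.comm_not_mem a₁ hb hu.1 (h.not_mem_G a a₁ n1 hu nu) ht nt (h.Zle a₁.symm hb e)

theorem prod_mem_R (a : Adj β α) (a₁ : Adj β α₁) (a₂ : Adj β α₂) (n1 : α ≠ α₁) (n2 : α ≠ α₂)
    (n12 : α₁ ≠ α₂) (hb : TB β) (e1 : x ∈ Zv α₁) (f1 : x ∉ Zv β) (e2 : y ∈ Zv α₂)
    (f2 : y ∉ Zv β) : x * y ∈ Rv β α ∧ x * y ∉ Zv β := by
  refine ⟨?_, fun e => f1 (h.ZAA a₁ a₂ n12 hb e1 ?_)⟩
  · obtain ⟨s, hs, ns⟩ := h.exists_T a
    have h3 := cjZ e1 s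
    rw [h.swap a a₁ a₂ n1 n2 n12 hs ns] at h3
    have h4 : s * x * s⁻¹ ∉ Zv β := by rwa [← fixv hs.1, cjZ_iff]
    simpa [commutatorElement_def, mul_assoc] using mul_mem (h.comm_mem_R a a₁ hs e1)
      (AmG.Z_le_R (h.I2 a₂.symm hb h3 e2 h4 f2))
  · simpa using mul_mem (h.Zle a₂.symm hb e) (inv_mem e2)

theorem R_le (a : Adj β α) (hb : TB β) (hx : x ∈ Rv β α) (nx : x ∉ Zv β) {H : Subgroup X}
    (h1 : Zv β ≤ H) (h2 : x ∈ H) : Rv β α ≤ H :=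
  le_of_two' (fun _ hy ny => h.R_two a hb hy hx ny nx) h1 h2

/-- `R ≤ Q_μ` when both or neither of the other two groups `Z` lie in `Q_μ` -/
theorem R_le_Q (a : Adj β α) (a₁ : Adj β α₁) (a₂ : Adj β α₂) (n1 : α ≠ α₁) (n2 : α ≠ α₂)
    (n12 : α₁ ≠ α₂) (hb : TB β) (a' : Adj μ γ) (hV : VI 1 β ≤ Gv μ ⊓ Gv γ) (hZ : Zv β ≤ Qv μ)
    (m1 : ¬ Zv α₁ ≤ Qv μ) (m2 : ¬ Zv α₂ ≤ Qv μ) : Rv β α ≤ Qv μ := by
  obtain ⟨x, e1, f1⟩ := SetLike.not_le_iff_exists.1 m1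
  obtain ⟨y, e2, f2⟩ := SetLike.not_le_iff_exists.1 m2
  obtain ⟨h1, h2⟩ := h.prod_mem_R a a₁ a₂ n1 n2 n12 hb e1 (fun e => f1 (hZ e)) e2
    fun e => f2 (hZ e)
  exact h.R_le a hb h1 h2 hZ
    (h.mulQ a' (hV (AmT.Z_le_V a₁ e1)) (hV (AmT.Z_le_V a₂ e2)) f1 f2)

theorem natu_of_Nm (h3 : 3 ≤ bb) (a : Adj β α) (hb : TB β) (hu : u ∈ Gv α) (nu : u ∉ Gv β)
    (hn : u ∈ Nm(Rv β α ⊔ Zv α)) : Natu M₁ M₂ := by
  have h1 : Gv α ≤ Nm(Rv β α ⊔ Zv α) := h.G_le' a.symm hu nu (fun g hg =>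
    mem_Nm_sup (h.NmR β α (mi hg.2 hg.1)) (stab_le_Nm_vertexZ 2 α hg.1)) hn
  have h2 : ⁅Rv β α ⊔ Zv α, Qv α⁆ = ⊥ := h.bot_of a.symm hb
    (CfH7.commutator_sup_left_le (((h.Rv_le β α).trans (h.V_le_Q β)).trans ((h.Q_le_G β).trans
      (stab_le_Nm_vertexZ 2 β))) ((h.ZQ1 a.symm).trans ((h.Q_le_G β).trans
      (stab_le_Nm_vertexZ 2 β))) (comm_le_of (h.commR a hb) le_rfl (h.Q_le_T' a))
      ((CfH7.comm_eq_bot_left.2 (h.Z_le_CQ α)).le.trans bot_le))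
    fun g hg => mem_Nm_commutator (h1 hg) (stab_le_Nm_vertexQ 2 α hg)
  refine h.natu_of a hb fun x hx => ?_
  have hx' := h.Rv_le β α hx
  exact h.mem_Z_of_Cz (h.notTB a.symm hb) (h.VQ 1 (dd_adj a) (by omega) hx')
    (le_Cx_iff.2 (CfH7.comm_eq_bot_left.1 h2 (mem_sup_left hx))) (h.sqV (by omega) hx')

/-- no nontrivial element of `Z_γ` centralizes a subgroup of `G_α` moving `β` -/
theorem K2B (a : Adj α β) (hb : TB β) (a' : Adj β γ) (hne : α ≠ γ) (hu : u ∈ Gv α)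
    (nu : u ∉ Gv β) (hx : x ∈ Zv γ) (e : u * x = x * u) : x = 1 := by
  by_cases nx : x ∈ Zv β
  · exact h.eq_one_of a hb nx hu nu e
  have := h.not_Nm_sup a hu nu (n := 0) h.two_le_b (by rw [h.VI_zero]; exact h.Zle a hb) a' hne
  rw [h.VI_zero, h.VI_zero] at this
  have hf := h.finV (n := 1) (by have := h.two_le_b; omega) β
  have hf' := finite_of_le (sup_le (AmT.Z_le_V a') (AmT.Z_le_V a.symm))
  have h1 : Zv α ≤ cj u⁻¹ (Zv γ ⊔ Zv α) := fun z hz => mem_cj_inv.2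
    (mem_sup_right (conj_mem_of_mem_normalizer (stab_le_Nm_vertexZ 2 α hu) hz))
  refine absurd (mem_Nm_of_le_cj (sup_le (h.ZA_le a'.symm hb hx nx ((h.Zle a hb).trans h1)
    (mem_cj_inv.2 ?_)) h1)) this
  rw [e, mul_inv_cancel_right]
  exact mem_sup_left hx

theorem TS (ha : ¬ TB α) {A U Y : Subgroup X} (h1 : ⁅A, U⁆ ≤ Zv α) (h2 : ¬ U ≤ Nm(A))
    (hx : x ∈ Zv α) (hx' : x ∈ A) (nx : x ≠ 1) (hY : ⁅A, U⁆ ≤ Y) (hA : A ≤ Y) : Zv α ≤ Y := by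
  obtain ⟨y, hy, ny⟩ := SetLike.not_le_iff_exists.1 fun e => h2 (CfH7.le_Nm_of_comm_le_left e)
  exact h.Z_le_of_two ha hx (h1 hy) nx (by rintro rfl; exact ny (one_mem _))
    (by rintro rfl; exact ny hx') (hA hx') (hY hy)

variable (hn : Natu M₁ M₂)
include hn

theorem natV (a : Adj β α) (hb : TB β) : ⁅VI 1 β, Gv β ⊓ Gv α⁆ ≤ Zv α :=
  AmG.commR0.trans (hn β α a hb)

theorem natW (ha : ¬ TB α) : ⁅VI 2 α, Qv α⁆ ≤ Zv α := by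
  rw [commutator_comm]
  refine CfH7.commutator_le_of_le_secCz (h.VI_le ?_ fun β a => ?_)
  · exact CfH7.le_secCz le_normalizer (CfH7.comm_le_right ((h.Q_le_G α).trans
      (stab_le_Nm_vertexZ 2 α)))
  · exact CfH7.le_secCz ((h.V_le_G a.symm).trans (stab_le_Nm_vertexZ 2 α))
      (comm_le_of' (h.natV hn a.symm (h.tb a ha)) (h.Q_le_T' a.symm) le_rfl)

theorem V_le_sup (a : Adj β α) (a₁ : Adj β α₁) (n1 : α ≠ α₁) (hb : TB β) {H : Subgroup X}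
    (h0 : Zv α ≤ H) (h1 : Zv α₁ ≤ H) : VI 1 β ≤ H := by
  obtain ⟨α₂, a₂, n2, n12⟩ := h.exists_third a a₁ n1
  obtain ⟨t₁, e1, f1⟩ := h.exists_Z a₁.symm hb
  obtain ⟨t₂, e2, f2⟩ := h.exists_Z a₂.symm hb
  have hZ := (h.Zle a.symm hb).trans h0
  refine h.VI_le (n := 0) hZ (h.forall_nbr a a₁ a₂ n1 n2 n12 ?_ ?_ ?_) <;> rw [h.VI_zero]
  · exact h0
  · exact h1
  · refine h.ZA_le a₂.symm hb e2 f2 hZ ?_
    simpa using mul_mem (inv_mem (h1 e1))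
      (h0 (hn β α a hb (h.prod_mem_R a a₁ a₂ n1 n2 n12 hb e1 f1 e2 f2).1))

theorem V_two (a : Adj β α) (hb : TB β) (hx : x ∈ VI 1 β) (hy : y ∈ VI 1 β) (nx : x ∉ Zv α)
    (ny : y ∉ Zv α) : x * y ∈ Zv α := by
  obtain ⟨α₁, a₁, n1⟩ := h.exists_adj_ne a
  obtain ⟨t, e1, f1⟩ := h.exists_Z a₁.symm hb
  have hp : t ∈ Nm(Zv α) := stab_le_Nm_vertexZ 2 α (h.V_le_G a (AmT.Z_le_V a₁ e1))
  have h2 : t * t ∈ Zv α := by rw [h.sq_eq e1]; exact one_mem _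
  have hZ : Zv α ≤ ext2 (Zv α) _ hp h2 := fun _ => Or.inl
  exact two_of_le_ext2 (hp := hp) (h2 := h2) (h.V_le_sup hn a a₁ n1.symm hb hZ
    (h.ZA_le a₁.symm hb e1 f1 ((h.Zle a.symm hb).trans hZ) (Or.inr h2))) hx hy nx ny

theorem V_le (a : Adj β α) (hb : TB β) (hx : x ∈ VI 1 β) (nx : x ∉ Zv α) {H : Subgroup X}
    (h1 : Zv α ≤ H) (h2 : x ∈ H) : VI 1 β ≤ H :=
  le_of_two' (fun _ hy ny => h.V_two hn a hb hy hx ny nx) h1 h2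

/-- no nontrivial element of `Z_γ` centralizes an element of `G_β` moving `α` -/
theorem K2A (h3 : 3 ≤ bb) (a : Adj β α) (hb : TB β) (a₁ : Adj α μ) (n1 : β ≠ μ) (a₂ : Adj μ γ)
    (n2 : α ≠ γ) (hu : u ∈ Gv β) (nu : u ∉ Gv α) (hx : x ∈ Zv γ) (e : u * x = x * u) : x = 1 := by
  have hm := h.tb2 a.symm a₁ hb
  by_contra n0
  by_cases nx : x ∈ Zv μ
  · refine h.conj_not_mem a hb hu nu (h.Zle a₁ hm nx)
      (fun e => n0 (h.ZZ1 a.symm a₁ n1 hb e nx)) ?_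
    rw [e, mul_inv_cancel_right]
    exact h.Zle a₁ hm nx
  have := h.not_Nm_sup a hu nu (n := 1) h3 (AmT.Z_le_V a) a₁ n1
  have hf := h.finV (n := 2) (by omega) α
  have hf' := finite_of_le (sup_le (h.VI_adj a₁ 1) (h.VI_adj a.symm 1))
  have h1 : VI 1 β ≤ cj u⁻¹ (VI 1 μ ⊔ VI 1 β) := fun z hz => mem_cj_inv.2
    (mem_sup_right (conj_mem_of_mem_normalizer (h.NmV 1 β hu) hz))
  refine absurd (mem_Nm_of_le_cj (sup_le (h.V_le hn a₁.symm hm (AmT.Z_le_V a₂ hx)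
    (fun e => nx (h.ZAA a₁.symm a₂ n2 hm e hx)) ((AmT.Z_le_V a).trans h1)
    (mem_cj_inv.2 ?_)) h1)) this
  rw [e, mul_inv_cancel_right]
  exact mem_sup_left (AmT.Z_le_V a₂ hx)

/-- the step lemma -/
theorem ST {e f f' : Vx} (he : ¬ TB e) (hb : TB β) (a : Adj β f) (a' : Adj β f')
    (h1 : VI 2 e ≤ Qv f) (h2 : Zv f' ≤ Qv e) (h3 : Zv e ⊓ Zv f = ⊥) : VI 2 e ≤ Qv f' :=
  h.CQ a' hb (h1.trans (h.Q_le_of_adj a.symm)) (comm_le_inf_bot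
    (comm_le_of (h.natW hn he) le_rfl h2)
    (comm_le_of (h.natV hn a hb) (AmT.Z_le_V a') (h1.trans (h.Q_le_T' a))) h3)

end AmU

end CfH8
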