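import Cfsg.Agent.OD.Pre
import Cfsg.Agent.H8.Gold3

/-!
# Amalgams of index `(3, 3)`: even critical distance
-/

set_option autoImplicit false
set_option linter.unusedSectionVars false

namespace CfH8

open Subgroup MulAction CfH9 Cfsg
open scoped commutatorElement
open CfH7 (OZ)

variable {X : Type*} [Group X] {M₁ M₂ : Subgroup X}

local notation "Gv" δ:max => MulAction.stabilizer X δ
local notation "Qv" δ:max => vertexQ 2 δ
local notation "Zv" δ:max => vertexZ 2 δ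
local notation "VI" => vertexVIter 2 M₁ M₂
local notation "Vx" => CosetVertex M₁ M₂
local notation "Adj" => SimpleGraph.Adj (cosetGraph M₁ M₂)
local notation "dd" => SimpleGraph.dist (cosetGraph M₁ M₂)
local notation "bb" => criticalDistance 2 M₁ M₂

/-- a geodesic path between the vertices of a critical pair -/
structure Geo (f : ℕ → CosetVertex M₁ M₂) : Prop where
  crit : ¬ vertexZ 2 (f 0) ≤ vertexQ 2 (f (criticalDistance 2 M₁ M₂))
  adj' : ∀ i j, j = i + 1 → j ≤ criticalDistance 2 M₁ M₂ → (cosetGraph M₁ M₂).Adj (f i) (f j)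
  d' : ∀ i j k, j ≤ i + k → i ≤ j → j ≤ criticalDistance 2 M₁ M₂ →
    (cosetGraph M₁ M₂).dist (f i) (f j) ≤ k
  ne' : ∀ i j, j = i + 2 → j ≤ criticalDistance 2 M₁ M₂ → f i ≠ f j
  tA' : ∀ i, i ≤ criticalDistance 2 M₁ M₂ → i % 2 = 0 → ¬ TB (f i)
  tB' : ∀ i, i ≤ criticalDistance 2 M₁ M₂ → i % 2 = 1 → TB (f i)

namespace Geo

variable {f : ℕ → CosetVertex M₁ M₂} (F : Geo f)
include F

theorem adj (i j : ℕ) (h1 : j = i + 1 := by omega) (h2 : j ≤ bb := by omega) :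
    Adj (f i) (f j) := F.adj' i j h1 h2

theorem d (i j k : ℕ) (h1 : j ≤ i + k := by omega) (h2 : i ≤ j := by omega)
    (h3 : j ≤ bb := by omega) : dd (f i) (f j) ≤ k := F.d' i j k h1 h2 h3

theorem ne (i j : ℕ) (h1 : j = i + 2 := by omega) (h2 : j ≤ bb := by omega) : f i ≠ f j :=
  F.ne' i j h1 h2

theorem tA (i : ℕ) (h1 : i ≤ bb := by omega) (h2 : i % 2 = 0 := by omega) : ¬ TB (f i) :=
  F.tA' i h1 h2

theorem tB (i : ℕ) (h1 : i ≤ bb := by omega) (h2 : i % 2 = 1 := by omega) : TB (f i) :=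
  F.tB' i h1 h2

end Geo

theorem mem_Nm_of_conj {A : Subgroup X} [Finite A] {u : X} (h : ∀ x ∈ A, u * x * u⁻¹ ∈ A) :
    u ∈ Nm(A) := mem_Nm_of_le_cj fun x hx => mem_cj_inv.2 (h x hx)

theorem conj_mem_of_comm {A : Subgroup X} {u x : X} (hx : x ∈ A) (h : ⁅u, x⁆ ∈ A) :
    u * x * u⁻¹ ∈ A := by simpa [commutatorElement_def] using mul_mem h hx

theorem conj_mem_of_comm' {A : Subgroup X} {u x : X} (hx : x ∈ A) (h : ⁅x, u⁆ ∈ A) :
    u * x * u⁻¹ ∈ A := conj_mem_of_comm hx (by rw [← commutatorElement_inv]; exact inv_mem h)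

namespace AmG

variable (h : AmG M₁ M₂) {α α' α₁ α₂ α₃ β β' β₁ β₂ β₃ δ γ μ : CosetVertex M₁ M₂}
  {x y z s t u g : X} {f : ℕ → CosetVertex M₁ M₂}
include h

theorem exists_Geo : ∃ f : ℕ → Vx, Geo f := by
  obtain ⟨α, α', c⟩ := h.exists_critical
  obtain ⟨f, rfl, rfl, h1, h2, h3⟩ := h.exists_geo c
  have h4 : ∀ i, i ≤ bb → (TB (f i) ↔ i % 2 = 1) := fun i => by
    induction i with
    | zero => exact fun _ => by simpa using h.crit_A c
    | succ i ih => 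
      intro hi
      have a := h1 i (by omega)
      by_cases e : TB (f i)
      · have := (ih (by omega)).1 e
        exact iff_of_false (h.notTB a.symm e) (by omega)
      · have := mt (ih (by omega)).2 e
        exact iff_of_true (h.tb a e) (by omega)
  refine ⟨f, (h.crit_iff.1 c).1, ?_, fun i j k _ _ _ => ?_, ?_, fun i hi e e' => ?_,
    fun i hi e => (h4 i hi).2 e⟩
  · rintro i _ rfl hi
    exact h1 i (by omega)
  · have := h2 i (j - i) (by omega)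
    rw [show i + (j - i) = j by omega] at this
    omega
  · rintro i _ rfl hi
    exact h3 i hi
  · have := (h4 i hi).1 e'
    omega

theorem comm_surj (a : Adj α β) (hb : TB β) (hs : s ∈ Gv α ⊓ Gv β) (ns : s ∉ Qv α)
    (hz : z ∈ Zv β) : ∃ y ∈ Zv α, z = ⁅y, s⁆ := by
  obtain ⟨β₁, a₁, n1⟩ := h.exists_adj_ne a
  obtain ⟨β₂, a₂, n2, n12⟩ := h.exists_third a a₁ n1.symm
  have b1 := h.tb2 a a₁ hb
  obtain ⟨x₁, e1, x₂, e2, rfl⟩ := h.Z_split a₁ a₂ n12 b1 (h.Zle a hb hz)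
  have e1' := h.Zle a₁ b1 e1
  refine ⟨x₁, e1', mul_inv_eq_one.1 (h.ZZ1 a a₂ n2 hb
    (mul_mem hz (inv_mem (comm_mem_of_le (h.commZ a) e1' hs))) ?_)⟩
  have h3 := cjZ e1 s
  rw [h.swap a a₁ a₂ n1.symm n2 n12 hs ns] at h3
  have := conj_mem_of_mem_normalizer (stab_le_Nm_vertexZ 2 β₂ (h.QG a₂ (h.Z_le_Q α e1')))
    (mul_mem e2 h3)
  simpa [commutatorElement_def, mul_assoc] using this

/-- critical pairs of two vertices of type `A` -/
theorem critAA (c : ¬ Zv α ≤ Qv α') (ha : ¬ TB α') (a : Adj α β) (hd : dd β α' < bb)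
    (a' : Adj α' β') (hd' : dd α β' < bb) : Zv β' ≤ Zv β := fun z hz => by
  obtain ⟨s, hs, ns⟩ := SetLike.not_le_iff_exists.1 c
  obtain ⟨y, hy, rfl⟩ := h.comm_surj a' (h.tb a' ha) (h.Q_le_T' a' (h.ZQ le_rfl hd' hs)) ns hz
  exact comm_mem_of_le' (h.commZ a) hs (h.Q_le_T' a (h.ZQ (dd_symm le_rfl) hd hy))

theorem critAA_symm (c : ¬ Zv α ≤ Qv α') (ha : ¬ TB α') (hd : dd α α' ≤ bb) : ¬ Zv α' ≤ Qv α :=
  fun e => c (h.leQ ha (h.ZG hd le_rfl) (CfH7.le_Cz_comm (e.trans (h.Q_le_CZ α))))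

/-- an element of `Z_{β'}` centralized by an element swapping the other neighbours -/
theorem Z_one (a : Adj α β) (a' : Adj α β') (hne : β ≠ β') (hb : TB β)
    (hs : s ∈ Gv α ⊓ Gv β) (ns : s ∉ Qv α) (hx : x ∈ Zv β') (e : s * x = x * s) : x = 1 :=
  h.eq_one_of a' (h.tb2 a a' hb) hx hs.1 (h.not_mem_G a a' hne hs ns) e

theorem even_u2 (he : bb % 2 = 0) : U2 M₁ M₂ := by
  obtain ⟨f, F⟩ := h.exists_Geo
  have h2 := h.two_le_b
  obtain ⟨m, a, n⟩ := h.exists_adj_ne (F.adj 0 1)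
  obtain ⟨s, hs, ns⟩ := SetLike.not_le_iff_exists.1 (h.critAA_symm F.crit (F.tA bb) (F.d 0 bb bb))
  have hs' := h.Q_le_T' (F.adj 0 1) (h.ZQ (dd_symm (F.d 1 bb (bb - 1))) (by omega) hs)
  have hm := h.tb a (F.tA 0)
  have key : ∀ x ∈ Zv m, x ∈ Qv (f bb) → x = 1 := fun x hx e =>
    h.Z_one (F.adj 0 1) a n.symm (F.tB 1) hs' ns hx (h.Q_le_CZ _ e s hs)
  have hT : Zv m ≤ Gv (f bb) ⊓ Gv (f (bb - 1)) := (h.Zle a hm).trans
    ((h.ZQ (F.d 0 (bb - 1) (bb - 1)) (by omega)).trans (h.Q_le_T' (F.adj (bb - 1) bb).symm))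
  refine h.u2_of hm fun x hx y hy nx ny => ?_
  have := key _ (mul_mem hx hy) (h.mulQ (F.adj (bb - 1) bb).symm (hT hx) (hT hy)
    (fun e => nx (key x hx e)) fun e => ny (key y hy e))
  exact mul_right_cancel (this.trans (h.sq_eq hy).symm)

theorem b_ne_four : bb ≠ 4 := fun e => by
  obtain ⟨f, F⟩ := h.exists_Geo
  have := h.critAA F.crit (F.tA bb) (F.adj 0 1) ((F.d 1 bb 3).trans_lt (by omega))
    (F.adj 3 bb).symm ((F.d 0 3 3).trans_lt (by omega))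
  exact h.Z_ne_bot (f 3) (le_bot_iff.1 (h.ZZ (F.adj 1 2).symm (F.adj 2 3) (F.ne 1 3) (F.tB 1) ▸
    le_inf this le_rfl))

end AmG

namespace AmU

variable (h : AmU M₁ M₂) {α α' α₁ α₂ α₃ β β' β₁ β₂ β₃ δ γ μ : CosetVertex M₁ M₂}
  {x y s t u g : X}
include h

theorem even_not_ge_six (he : bb % 2 = 0) : ¬ 6 ≤ bb := fun h6 => by
  obtain ⟨f, F⟩ := h.exists_Geo
  obtain ⟨n, hn⟩ : ∃ n, bb = n + 6 := ⟨bb - 6, by omega⟩
  have cs := h.critAA_symm F.crit (F.tA bb) (F.d 0 bb bb)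
  obtain ⟨s, hs, ns⟩ := SetLike.not_le_iff_exists.1 cs
  have a01 := F.adj 0 1
  have ab := F.adj (n + 5) bb
  have hs' := h.Q_le_T' a01 (h.ZQ (dd_symm (F.d 1 bb (bb - 1))) (by omega) hs)
  have hZ : Zv (f (n + 5)) ≤ Zv (f 0) := (h.critAA F.crit (F.tA bb) a01
    ((F.d 1 bb (n + 5)).trans_lt (by omega)) ab.symm
    ((F.d 0 (n + 5) (n + 5)).trans_lt (by omega))).trans (h.Zle a01 (F.tB 1))
  have hsV : ∀ x ∈ Qv (f (n + 5)), ⁅s, x⁆ ∈ Zv (f 0) := fun x hx =>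
    hZ (h.commV1 (F.tB (n + 5)) (AmT.Z_le_V ab hs) hx)
  have h1 : ∀ m, Adj (f 0) m → m ≠ f 1 → ∀ a, Adj m a → Zv a ≤ Qv (f (n + 4)) := by
    intro m am nm a aa
    by_contra c
    have := h.critAA c (F.tA (n + 4)) aa.symm
      ((h.dL am.symm (F.d 0 (n + 4) (n + 4))).trans_lt (by omega)) (F.adj (n + 3) (n + 4)).symm
      ((h.dL aa.symm (h.dL am.symm (F.d 0 (n + 3) (n + 3)))).trans_lt (by omega))
    obtain ⟨z, hz, nz⟩ := exists_ne_one_of_ne_bot (h.Z_ne_bot (f (n + 3)))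
    exact nz (h.Z_one a01 am nm.symm (F.tB 1) hs' ns (this hz) ((F.tB (n + 3)).comm hz
      (h.ZG (dd_symm (F.d (n + 3) bb 3)) (by omega) hs)))
  have h2 : ∀ m, Adj (f 0) m → VI 1 m ≤ Qv (f (n + 4)) := by
    intro m am
    by_cases nm : m = f 1
    · exact nm ▸ h.VQ 1 (F.d 1 (n + 4) (n + 3)) (by omega)
    · refine h.VI_le (n := 0) (h.ZQ (h.dL am.symm (F.d 0 (n + 4) (n + 4))) (by omega)) fun a aa => ?_
      rw [h.VI_zero]
      exact h1 m am nm a aa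
  obtain ⟨m, am, nm⟩ := h.exists_adj_ne a01
  have hm := h.tb am (F.tA 0)
  have nsm := h.not_mem_G a01 am nm.symm hs' ns
  have h3 : ∀ a, Adj m a → f 0 ≠ a → ¬ Zv a ≤ Qv (f (n + 5)) := by
    intro a aa na e
    have := h.not_Nm_sup am hs'.1 nsm (n := 0) (by omega)
      (by rw [h.VI_zero]; exact h.Zle am hm) aa na
    rw [h.VI_zero, h.VI_zero] at this
    have hf := h.finV (n := 1) (by omega) m
    have hf' := finite_of_le (sup_le (AmT.Z_le_V aa) (AmT.Z_le_V am.symm))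
    exact this (mem_Nm_of_le_cj (sup_le (fun x hx => mem_cj_inv.2 (conj_mem_of_comm
      (mem_sup_left hx) (mem_sup_right (hsV x (e hx))))) fun x hx => mem_cj_inv.2
      (mem_sup_right (conj_mem_of_mem_normalizer (stab_le_Nm_vertexZ 2 _ hs'.1) hx))))
  obtain ⟨a₁, aa₁, n1⟩ := h.exists_adj_ne am.symm
  obtain ⟨a₂, aa₂, n2, n12⟩ := h.exists_third am.symm aa₁ n1.symm
  have hT := h.Q_le_T' (F.adj (n + 4) (n + 5)).symm
  have hn : Natu M₁ M₂ := by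
    have h4 := h.R_le_Q am.symm aa₁ aa₂ n1.symm n2 n12 hm (F.adj (n + 4) (n + 5)).symm
      ((h2 m am).trans hT) ((h.Zle am hm).trans (h.ZQ (F.d 0 (n + 5) (n + 5)) (by omega)))
      (h3 a₁ aa₁ n1.symm) (h3 a₂ aa₂ n2)
    have hf := h.finV (n := 1) (by omega) m
    have hf' := finite_of_le (sup_le (h.Rv_le m (f 0)) (AmT.Z_le_V am.symm))
    exact h.natu_of_Nm (by omega) am.symm hm hs'.1 nsm (mem_Nm_of_le_cj (sup_le
      (fun x hx => mem_cj_inv.2 (conj_mem_of_comm (mem_sup_left hx)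
      (mem_sup_right (hsV x (h4 hx))))) fun x hx => mem_cj_inv.2
      (mem_sup_right (conj_mem_of_mem_normalizer (stab_le_Nm_vertexZ 2 _ hs'.1) hx))))
  have h5 : ∀ a, Adj m a → VI 2 a ≤ Qv (f (n + 4)) := by
    intro a aa
    by_cases na : f 0 = a
    · exact na ▸ h.VI_le' h2
    have ta := h.notTB aa.symm hm
    have k : ∀ {μ : Vx}, Zv μ ≤ Cx(s) → Zv a ⊓ Zv μ = ⊥ := fun e => eq_bot_iff.2 fun x hx =>
      h.K2B am hm aa na hs'.1 nsm hx.1 (mem_Cx.1 (e hx.2)).symm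
    have da : ∀ k, k ≤ bb → dd a (f k) ≤ k + 2 := fun k hk =>
      h.dL aa.symm (h.dL am.symm (F.d 0 k k))
    have h6 := (h.VQ 2 (da (n + 1) (by omega)) (by omega)).trans
      (h.Q_le_T' (F.adj (n + 1) (n + 2)).symm)
    refine h.ST hn ta (F.tB (n + 3)) (F.adj (n + 2) (n + 3)).symm (F.adj (n + 3) (n + 4))
      (h.leQ (F.tA (n + 2)) (h6.trans inf_le_left) (comm_le_inf_bot (comm_le_of (h.natW hn ta)
        le_rfl (h.ZQ (dd_symm (da (n + 2) (by omega))) (by omega)))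
        (comm_le_of (h.commZ (F.adj (n + 1) (n + 2)).symm) le_rfl h6) (k ?_)))
      (h.leQ ta (h.ZG (dd_symm (da (n + 4) (by omega))) (by omega))
        (CfH7.le_Cz_comm ((h1 m am nm a aa).trans (h.Q_le_CZ _)))) (k ?_)
    · exact le_Cx_iff.2 ((F.tB (n + 1)).le_Cz (h.ZG (dd_symm (F.d (n + 1) bb 5)) (by omega)) hs)
    · exact le_Cx_iff.2 (h.ZC (dd_symm (F.d (n + 2) bb 4)) (by omega) hs)
  obtain ⟨t, ht, nt⟩ := SetLike.not_le_iff_exists.1 (h3 a₁ aa₁ n1.symm)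
  have hf := h.finV (n := 3) (by omega) m
  have hW := h.VI_adj am.symm 2
  have ht' : t ∈ VI 2 (f 0) := h.VI_adj am 1 (AmT.Z_le_V aa₁ ht)
  exact h.not_Nm_VI am hs'.1 nsm (n := 3) (by omega) (mem_Nm_of_le_cj
    (h.le_of_two (F.adj (n + 4) (n + 5)).symm ((h.VI_le' h5).trans hT) (hW ht') nt
      (fun x hx => mem_cj_inv.2 (conj_mem_of_comm hx.1 (hW (AmT.Z_le_VI 2 _ (hsV x hx.2)))))
      (mem_cj_inv.2 (hW (conj_mem_of_mem_normalizer (h.NmV 2 _ hs'.1) ht')))))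

end AmU

end CfH8
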