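import Cfsg.Agent.OD.Pre
import Cfsg.Agent.H8.Gold4

/-!
# Amalgams of index `(3, 3)`: critical distance two; `|Z_β| = 2` for odd critical distance
-/

set_option autoImplicit false
set_option linter.unusedSectionVars false

namespace CfH8

open Subgroup MulAction CfH9 Cfsg
open scoped commutatorElement
open CfH7 (OZ)

variable {X : Type*} [Group X] {M₁ M₂ : Subgroup X}

local notation "Gv" δ:max => MulAction.stabilizer X δ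
local notation "Qv" δ:max => vertexQ 2 δ
local notation "Zv" δ:max => vertexZ 2 δ
local notation "VI" => vertexVIter 2 M₁ M₂
local notation "Vx" => CosetVertex M₁ M₂
local notation "Adj" => SimpleGraph.Adj (cosetGraph M₁ M₂)
local notation "dd" => SimpleGraph.dist (cosetGraph M₁ M₂)
local notation "bb" => criticalDistance 2 M₁ M₂

theorem ZQ_smul {δ μ : Vx} {g : X} : Zv (g • δ) ≤ Qv (g • μ) ↔ Zv δ ≤ Qv μ := by
  rw [vertexZ_smul, vertexQ_smul, cj_le_cj_iff]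

/-- the intersection of `Q_α` with all neighbouring `Q_γ` -/
def QQ (α : CosetVertex M₁ M₂) : Subgroup X :=
  vertexQ 2 α ⊓ ⨅ (γ) (_ : (cosetGraph M₁ M₂).Adj α γ), vertexQ 2 γ

theorem mem_QQ {α : Vx} {x : X} : x ∈ QQ α ↔ x ∈ Qv α ∧ ∀ γ, Adj α γ → x ∈ Qv γ := by
  simp [QQ, mem_iInf]

theorem comm_of_sq {E : Subgroup X} (h : ∀ x ∈ E, x * x = 1) {x y : X} (hx : x ∈ E)
    (hy : y ∈ E) : x * y = y * x := by
  rw [← inv_eq_of_mul_eq_one_right (h _ (mul_mem hx hy)), mul_inv_rev,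
    inv_eq_of_mul_eq_one_right (h x hx), inv_eq_of_mul_eq_one_right (h y hy)]

namespace AmG

variable (h : AmG M₁ M₂) {α α' α₁ α₂ α₃ β β' β₁ β₂ β₃ δ γ μ : CosetVertex M₁ M₂}
  {x y z s t u g : X} {f : ℕ → CosetVertex M₁ M₂}
include h

theorem NmQQ (α : Vx) : Gv α ≤ Nm(QQ α) := fun g hg => by
  have := h.finite_Q α
  have : Finite (QQ α) := finite_of_le inf_le_left
  refine mem_Nm_of_conj fun x hx => ?_
  rw [mem_QQ] at hx ⊢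
  refine ⟨fixv hg ▸ cjQ hx.1 g, fun γ a => ?_⟩
  simpa using cjQ (hx.2 _ (AmT.adj_smul_of_mem a (inv_mem hg))) g

theorem I1 (hb : TB β) (a₁ : Adj β α₁) (a₂ : Adj β α₂) (hne : α₁ ≠ α₂) (h1 : x ∈ Zv α₁)
    (h2 : x ∈ Zv α₂) : ∀ α, Adj β α → x ∈ Zv α := by
  obtain ⟨α₃, a₃, n1, n2⟩ := h.exists_third a₁ a₂ hne
  refine h.forall_nbr a₁ a₂ a₃ hne n1 n2 h1 h2 ?_
  obtain ⟨s, hs, ns⟩ := h.exists_T a₁
  have h3 := cjZ h2 s
  rw [h.swap a₁ a₂ a₃ hne n1 n2 hs ns] at h3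
  have h4 := h.Zle a₃.symm hb (comm_mem_of_le (h.commZ a₁.symm) h1 (mi hs.2 hs.1))
  simpa [commutatorElement_def, mul_assoc] using mul_mem h4 h3

theorem I0 (hb : TB β) (a : Adj β α) : ∃ u ∈ Gv β, u ∉ Gv α ∧
    ∀ x, (∀ α, Adj β α → x ∈ Zv α) → u * x = x * u := by
  obtain ⟨α₁, a₁, n1⟩ := h.exists_adj_ne a
  obtain ⟨α₂, a₂, n2, n12⟩ := h.exists_third a a₁ n1.symm
  obtain ⟨s, hs, ns⟩ := h.exists_T a
  obtain ⟨t, ht, nt⟩ := h.exists_T a₁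
  refine ⟨s * t * (s * t), mul_mem (mul_mem hs.1 ht.1) (mul_mem hs.1 ht.1), fun e => ?_,
    fun x hx => ?_⟩
  · have := fixv e
    rw [mul_smul, mul_smul s t α, h.swap a₁ a a₂ n1 n12 n2 ht nt,
      h.swap a a₂ a₁ n2 n1.symm n12.symm hs ns, mul_smul, fixv ht.2,
      h.swap a a₁ a₂ n1.symm n2 n12 hs ns] at this
    exact n2 this.symm
  · have c1 := comm_mem_of_le' (h.commZ a.symm) (hx α a) (mi hs.2 hs.1)
    have c2 := comm_mem_of_le' (h.commZ a₁.symm) (hx α₁ a₁) (mi ht.2 ht.1)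
    have e1 : s * x * s⁻¹ = ⁅s, x⁆ * x := by simp [commutatorElement_def]
    have e2 : t * x * t⁻¹ = ⁅t, x⁆ * x := by simp [commutatorElement_def]
    generalize ⁅s, x⁆ = c at c1 e1
    generalize ⁅t, x⁆ = d at c2 e2
    have e3 : s * t * x * (s * t)⁻¹ = d * c * x := by
      calc s * t * x * (s * t)⁻¹ = s * (t * x * t⁻¹) * s⁻¹ := by group
        _ = (s * d * s⁻¹) * (s * x * s⁻¹) := by rw [e2]; group
        _ = _ := by rw [hb.conj c2 hs.1, e1, mul_assoc]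
    rw [← mul_inv_eq_iff_eq_mul]
    calc s * t * (s * t) * x * (s * t * (s * t))⁻¹
        = s * t * (s * t * x * (s * t)⁻¹) * (s * t)⁻¹ := by group
      _ = (s * t * (d * c) * (s * t)⁻¹) * (s * t * x * (s * t)⁻¹) := by
          conv_lhs => rw [e3]
          group
      _ = _ := by
        rw [hb.conj (mul_mem c2 c1) (mul_mem hs.1 ht.1), e3, ← mul_assoc, ← mul_assoc,
          mul_assoc (d * c), h.sq_eq (mul_mem c2 c1), one_mul]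

theorem I3 (hb : TB β) (a : Adj β α) (a₁ : Adj β α₁) (n1 : α ≠ α₁) (a' : Adj α β')
    (n' : β ≠ β') (h1 : x ∈ Zv β') (h2 : x ∈ Zv α₁) : x = 1 := by
  have hb' := h.tb2 a.symm a' hb
  have hx := h.Zle a' hb' h1
  obtain ⟨β'', a'', n2, n3⟩ := h.exists_third a.symm a' n'
  obtain ⟨s, hs, ns⟩ := h.exists_T a'
  have k1 := h.I1 hb a a₁ n1 hx h2
  have k : ∀ γ, Adj α γ → ∀ μ, Adj γ μ → x ∈ Zv μ := by
    refine h.forall_nbr a.symm a' a'' n' n2 n3 k1 (fun μ aμ => h.Zle aμ.symm hb' h1) fun μ aμ => ?_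
    rw [← h.swap a' a.symm a'' n'.symm n3 n2 hs ns] at aμ
    have := cjZ (k1 (s⁻¹ • μ) (by simpa using adj_smul aμ s⁻¹)) s
    rwa [smul_inv_smul, hb'.conj h1 hs.2] at this
  obtain ⟨u, hu, nu, hc⟩ := h.I0 hb a
  have hK : CfH7.nclo (zpowers x) (Gv α) ≤ Zv α := CfH7.nclo_le (stab_le_Nm_vertexZ 2 α)
    (zpowers_le.2 hx)
  have := h.bot_of_norm a (hK.trans ((h.ZQ1 a.symm).trans (h.Q_le_G β)))
    (hK.trans (h.Z_le_stab α)) (h.G_le' a hu nu (inf_le_right.trans (CfH7.right_le_Nm_nclo _ _))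
      (Cz_le_Nm _ (le_Cx_iff.1 (CfH7.nclo_le_iff'.2 fun g hg => ?_)))) (CfH7.right_le_Nm_nclo _ _)
  · exact zpowers_eq_bot.1 (le_bot_iff.1 (this ▸ CfH7.le_nclo _ _))
  · rw [cj_zpowers, zpowers_le, mem_Cx]
    refine (hc _ fun μ aμ => ?_).symm
    simpa using cjZ (k (g⁻¹ • β) (AmT.adj_smul_of_mem a.symm (inv_mem hg)) (g⁻¹ • μ)
      (adj_smul aμ _)) g

theorem exists_three (hu : ¬ U2 M₁ M₂) (hb : TB β) (a : Adj β α) (a₁ : Adj β α₁) (n1 : α ≠ α₁)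
    (a' : Adj δ γ) (hZ : Zv α ≤ Gv δ ⊓ Gv γ) : ∃ x ∈ Zv α, x ∈ Qv δ ∧ x ∉ Zv α₁ := by
  obtain ⟨β', a', n'⟩ := h.exists_adj_ne a.symm
  have hb' := h.tb2 a.symm a' hb
  by_contra! hc
  have k : ∀ x ∈ Zv β', x ∈ Qv δ → x = 1 := fun x hx e =>
    h.I3 hb a a₁ n1 a' n'.symm hx (hc x (h.Zle a' hb' hx) e)
  refine hu (h.u2_of hb' fun x hx y hy nx ny => ?_)
  have := k _ (mul_mem hx hy) (h.mulQ ‹Adj δ γ› (hZ (h.Zle a' hb' hx)) (hZ (h.Zle a' hb' hy))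
    (fun e => nx (k x hx e)) fun e => ny (k y hy e))
  exact mul_right_cancel (this.trans (h.sq_eq hy).symm)

theorem odd_crit (hu : ¬ U2 M₁ M₂) (h3 : 3 ≤ bb) (c : ¬ Zv α ≤ Qv β') (hb' : TB β')
    (ha : ¬ TB α) (a : Adj α β) (a₂ : Adj β α₂) (n2 : α ≠ α₂) (a' : Adj β' α')
    (hd : dd α₂ α' + 3 ≤ bb) (aγ : Adj β' γ) (nγ : α' ≠ γ) :
    ∃ x ∈ Zv α, ∃ y ∈ Zv γ, x ∈ Qv β' ∧ y ∈ Gv α ⊓ Gv β ∧ ⁅x, y⁆ ≠ 1 ∧ ⁅x, y⁆ ∈ Zv β ∧
      ⁅x, y⁆ ∈ Zv β' := by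
  have hb := h.tb a ha
  have d1 : dd α α' ≤ dd α₂ α' + 2 := h.dL a (h.dL a₂ le_rfl)
  have d2 : dd γ α₂ ≤ dd α₂ α' + 2 := h.dL aγ.symm (h.dL a' (dd_symm le_rfl))
  have hZ := (h.ZQ d1 (by omega)).trans (h.Q_le_T' a')
  obtain ⟨s, hs, ns⟩ := SetLike.not_le_iff_exists.1 c
  obtain ⟨y, hy, y1, y2⟩ := h.exists_three hu hb' aγ a' nγ.symm a₂
    ((h.ZQ d2 (by omega)).trans (h.Q_le_T' a₂))
  obtain ⟨x, hx, x1, x2⟩ := h.exists_three hu hb a.symm a₂ n2 a' hZ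
  have hy' := h.Q_le_T' a y1
  have ny : y ∉ Qv α := fun e => by
    have h1 := cjZ hy s
    rw [mem_Cx'.1 (mem_Cx.2 (h.Q_le_CZ α e s hs))] at h1
    exact y2 (h.I1 hb' aγ (AmT.adj_smul_of_mem aγ (hZ hs).1)
      (h.smul_ne a' aγ nγ (hZ hs) ns).symm hy h1 α' a')
  refine ⟨x, hx, y, hy, x1, hy', fun e => x2 (h.Zle a₂.symm hb (h.Z_mem a hx hy' ny
    (commutatorElement_eq_one_iff_mul_comm.1 e).symm)), comm_mem_of_le (h.commZ a) hx hy',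
    comm_mem_of_le' (h.commV hb') (AmT.Z_le_V aγ hy) x1⟩

theorem odd_u2 (ho : bb % 2 = 1) : U2 M₁ M₂ := by
  by_contra hu
  obtain ⟨f, F⟩ := h.exists_Geo
  have h2 := h.two_le_b
  obtain ⟨n, hn⟩ : ∃ n, bb = n + 3 := ⟨bb - 3, by omega⟩
  have a01 := F.adj 0 1
  have ab := (F.adj (n + 2) bb).symm
  obtain ⟨γ, aγ, nγ⟩ := h.exists_adj_ne ab
  obtain ⟨x, hx, y, hy, x1, hy', c1, -, -⟩ := h.odd_crit hu (by omega) F.crit (F.tB bb) (F.tA 0)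
    a01 (F.adj 1 2) (F.ne 0 2) ab (by have := F.d 2 (n + 2) n; omega) aγ nγ.symm
  have ny : y ∉ Qv (f 0) := fun e =>
    c1 (commutatorElement_eq_one_iff_mul_comm.2 (h.Q_le_CZ _ e x hx))
  have nx : x ∉ Qv γ := fun e =>
    c1 (commutatorElement_eq_one_iff_mul_comm.2 (h.Q_le_CZ _ e y hy).symm)
  obtain ⟨m, am, nm⟩ := h.exists_adj_ne a01
  have hm := h.tb am (F.tA 0)
  have tb1 := F.tB (n + 1)
  have k : ∀ z ∈ Zv m, z ∈ Zv (f (n + 1)) → z = 1 := fun z h1 h2 =>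
    h.Z_one a01 am nm.symm (F.tB 1) hy' ny h1 (tb1.comm h2
      (h.ZG (h.dL aγ.symm (dd_symm (F.d (n + 1) bb 2))) (by omega) hy))
  have a1 := (F.adj n (n + 1)).symm
  have a2 := F.adj (n + 1) (n + 2)
  have h1 : VI 1 m ≤ Qv (f (n + 1)) := by
    have h0 := h.ZQ (F.d 0 (n + 1) (n + 1)) (by omega)
    refine h.VI_le (n := 0) ((h.Zle am hm).trans h0) fun a aa => ?_
    rw [h.VI_zero]
    by_cases na : a = f 0
    · exact na ▸ h0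
    by_contra c
    obtain ⟨_, -, _, -, -, -, c1, c2, c3⟩ := h.odd_crit hu (by omega) c tb1
      (h.notTB aa.symm hm) aa.symm am.symm na a1 (by have := F.d 0 n n; omega) a2
      (F.ne n (n + 2))
    exact c1 (k _ c2 c3)
  have h3 : Zv (f (n + 2)) ≤ Qv m := by
    by_contra c
    obtain ⟨a, aa, na⟩ := h.exists_adj_ne am.symm
    obtain ⟨_, -, _, -, -, -, c1, c2, c3⟩ := h.odd_crit hu (by omega) c hm (F.tA (n + 2))
      a2.symm a1 (F.ne n (n + 2)).symm am.symm (by have := dd_symm (F.d 0 n n); omega) aa na.symm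
    exact c1 (k _ c3 c2)
  have h4 := (h.CQ a2 tb1 (h1.trans (h.Q_le_G _)) (comm_le_inf_bot
    (comm_le_of (h.commV hm) le_rfl h3) (comm_le_of (h.commV tb1) (AmT.Z_le_V a2) h1)
    (eq_bot_iff.2 fun z hz => k z hz.1 hz.2))).trans (h.Q_le_T' ab)
  obtain ⟨s, hs, ns⟩ := SetLike.not_le_iff_exists.1 F.crit
  have hf := h.finV (n := 1) (by omega) m
  have hZ : Zv (f 0) ≤ cj y⁻¹ (VI 1 m) := fun z hz => mem_cj_inv.2
    (AmT.Z_le_V am.symm (conj_mem_of_mem_normalizer (stab_le_Nm_vertexZ 2 _ hy'.1) hz))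
  refine h.not_Nm_VI am hy'.1 (h.not_mem_G a01 am nm.symm hy' ny) (n := 1) (by omega)
    (mem_Nm_of_le_cj (h.le_of_two ab h4 (AmT.Z_le_V am.symm hs) ns (h.le_of_two aγ.symm
      (inf_le_right.trans (h.Q_le_T' aγ.symm)) (mi (AmT.Z_le_V am.symm hx) x1) nx
      (fun v hv => mem_cj_inv.2 ?_) (hZ hx)) (hZ hs)))
  rw [h.Q_le_CZ γ hv.2 y hy, mul_inv_cancel_right]
  exact hv.1.1

end AmG

namespace AmU

variable (h : AmU M₁ M₂) {α α' α₁ α₂ α₃ β β' β₁ β₂ β₃ δ γ μ : CosetVertex M₁ M₂}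
  {x y s t u g : X}
include h

theorem nc2 (h2 : bb = 2) (hb : TB β) (a₁ : Adj β α₁) (a₂ : Adj β α₂) (hne : α₁ ≠ α₂) :
    ¬ Zv α₁ ≤ Qv α₂ := by
  obtain ⟨f, F⟩ := h.exists_Geo
  obtain ⟨g, -, rfl, rfl⟩ := h.arc_trans (F.adj 0 1).symm (F.adj 1 bb) (F.ne 0 bb) a₁ a₂ hne
    (iff_of_true (F.tB 1) hb)
  rw [ZQ_smul]
  exact F.crit

theorem bound_two (h2 : bb = 2) (a : Adj α β) (hb : TB β) :
    Nat.card (Gv α ⊓ Gv β : Subgroup X) ≤ 2 ^ 7 := by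
  have ha := h.notTB a hb
  obtain ⟨β', a', n1⟩ := h.exists_adj_ne a
  obtain ⟨β'', a'', n2, n12⟩ := h.exists_third a a' n1.symm
  obtain ⟨α₂, a₂, m2⟩ := h.exists_adj_ne a.symm
  obtain ⟨α₃, a₃, m3, m23⟩ := h.exists_third a.symm a₂ m2.symm
  have ex : ∀ {γ μ : Vx}, Adj α γ → Adj γ μ → α ≠ μ → ∃ e ∈ Zv μ, e ∈ Qv γ ∧ e ∉ Qv α :=
    fun a1 a2 hne => by
      obtain ⟨e, he, ne⟩ := SetLike.not_le_iff_exists.1 (h.nc2 h2 (h.tb a1 ha) a2 a1.symm hne.symm)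
      exact ⟨e, he, h.ZQ1 a2.symm he, ne⟩
  have third : ∀ {γ₁ γ₂ : Vx}, Adj α γ₁ → Adj α γ₂ → γ₁ ≠ γ₂ → ∀ x ∈ Qv α, x ∈ Qv γ₁ →
      x ∈ Qv γ₂ → x ∈ QQ α := by
    intro γ₁ γ₂ a1 a2 n12 x h0 h1 h2
    obtain ⟨γ₃, a3, n13, n23⟩ := h.exists_third a1 a2 n12
    refine mem_QQ.2 ⟨h0, h.forall_nbr a1 a2 a3 n12 n13 n23 h1 h2 ?_⟩
    obtain ⟨μ, aμ, nμ⟩ := h.exists_adj_ne a1.symm
    obtain ⟨e, he, e1, e2⟩ := ex a1 aμ nμ.symm
    have h3 := cjQ h2 e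
    rw [h.swap a1 a2 a3 n12 n13 n23 (h.Q_le_T' a1 e1) e2] at h3
    have b1 := h.tb a1 ha
    simpa [commutatorElement_def, mul_assoc] using mul_mem (inv_mem (h.ZQ1 a3 (h.Zle a1 b1
      (h.commV1 b1 (AmT.Z_le_V aμ he) h1)))) h3
  obtain ⟨μ, aμ, nμ⟩ := h.exists_adj_ne a'.symm
  obtain ⟨w, hw, w1, w2⟩ := ex a' aμ nμ.symm
  have hb' := h.tb a' ha
  have wT := h.Q_le_T' a' w1
  have cw : ∀ x ∈ Qv β', ⁅w, x⁆ ∈ Zv β' := fun x hx => h.commV1 hb' (AmT.Z_le_V aμ hw) hx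
  have sq : ∀ x ∈ QQ α, x * x = 1 := fun x hx =>
    h.sq_one a hb inf_le_left (h.NmQQ α) wT.1 (h.not_mem_G a' a n1 wT w2) (fun y hy =>
      have := (mem_QQ.1 hy).2 β' a'
      ⟨h.sq_eq (cw y this), (hb'.comm (cw y this) (h.QG0 this)).symm⟩) hx
  obtain ⟨e₂, he₂, e21, e22⟩ := ex a a₂ m2.symm
  obtain ⟨e₃, he₃, e31, e32⟩ := ex a a₃ m3
  have y1 := h.mulQ a (h.Q_le_T' a e21) (h.Q_le_T' a e31) e22 e32
  have y2 := mul_mem e21 e31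
  have y3 : e₂ * e₃ * (e₂ * e₃) ≠ 1 := fun e => by
    have e' : e₂ * e₃ = e₃ * e₂ := by
      rw [← inv_eq_of_mul_eq_one_right e, mul_inv_rev, inv_eq_of_mul_eq_one_right (h.sq_eq he₂),
        inv_eq_of_mul_eq_one_right (h.sq_eq he₃)]
    have z1 : ∀ x ∉ Qv α, x ∉ Zv β := fun x nx e => nx (h.ZQ1 a.symm e)
    refine h.nc2 h2 hb a₂ a₃ m23 (h.CQ a₃ hb ((h.ZQ1 a₂.symm).trans (h.Q_le_G β))
      (h.ZA_le a₂.symm hb he₂ (z1 _ e22) ((h.Zle a₃.symm hb).trans (CfH7.elemAb_le_Cz (h.Z_elem _)))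
      (le_Cx_iff.1 (h.ZA_le a₃.symm hb he₃ (z1 _ e32) ?_ (mem_Cx.2 e'.symm)))))
    exact le_Cx_iff.2 (hb.le_Cz (h.Q_le_G β) e21)
  have hK : Gv α ⊓ Gv β ⊓ Qv α ⊓ Qv β ⊓ Qv β' ⊓ Qv α₂ ⊓ Qv α₃ ≤ Zv α := by
    intro k hk
    have k0 := third a a' n1.symm k hk.1.1.1.1.2 hk.1.1.1.2 hk.1.1.2
    have k1 : Qv α ⊓ Qv β ≤ Cx(k) := h.le_of_two a'.symm (inf_le_left.trans (h.Q_le_T' a'.symm))
      (mi y1 y2) (fun e => y3 (sq _ (third a a' n1.symm _ y1 y2 e)))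
      (fun x hx => mem_Cx.2 (comm_of_sq sq (third a a' n1.symm _ hx.1.1 hx.1.2 hx.2) k0))
      (mul_mem (mem_Cx.2 (h.Q_le_CZ _ hk.1.2 _ he₂)) (mem_Cx.2 (h.Q_le_CZ _ hk.2 _ he₃)))
    have y4 := cjQ y1 w
    have y5 := cjQ y2 w
    rw [fixv wT.1] at y4
    rw [h.swap a' a a'' n1 n12 n2 wT w2] at y5
    refine h.mem_Z_of_Cz ha (mem_QQ.1 k0).1 (h.le_of_two a.symm (h.Q_le_T' a.symm) y4
      (fun e => y3 ?_) k1 ?_) (sq k k0)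
    · simpa using sq _ (third a a'' n2 _ y4 e y5)
    · have e1 := mem_Cx.1 (k1 (mi y1 y2))
      have e2 := h.Q_le_CZ α y4 _ (h.Zle a' hb' (cw k hk.1.1.2))
      rw [mem_Cx]
      generalize e₂ * e₃ = y at e1 e2
      calc w * y * w⁻¹ * k = ⁅w, k⁆⁻¹ * (⁅w, k⁆ * (w * y * w⁻¹)) * k := by group
        _ = ⁅w, k⁆⁻¹ * (w * (y * k) * w⁻¹) := by rw [e2, commutatorElement_def]; group
        _ = _ := by rw [e1, commutatorElement_def]; group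
  have := h.finZ α
  have c0 := (card_le_of_le hK).trans (h.card_Z ha)
  have c1 := h.card_le_two_mul a (le_rfl (a := Gv α ⊓ Gv β))
  have c2 := h.card_le_two_mul a.symm ((inf_le_right (a := Gv α ⊓ Gv β)).trans (h.Q_le_T' a.symm))
  have c3 := h.card_le_two_mul a'.symm (A := Gv α ⊓ Gv β ⊓ Qv α ⊓ Qv β)
    ((inf_le_left.trans inf_le_right).trans (h.Q_le_T' a'.symm))
  have c4 := h.card_le_two_mul a₂.symm (A := Gv α ⊓ Gv β ⊓ Qv α ⊓ Qv β ⊓ Qv β')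
    ((inf_le_left.trans inf_le_right).trans (h.Q_le_T' a₂.symm))
  have c5 := h.card_le_two_mul a₃.symm (A := Gv α ⊓ Gv β ⊓ Qv α ⊓ Qv β ⊓ Qv β' ⊓ Qv α₂)
    ((inf_le_left.trans (inf_le_left.trans inf_le_right)).trans (h.Q_le_T' a₃.symm))
  omega

end AmU

end CfH8
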