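import Cfsg.Agent.OD.Pre
import Cfsg.Agent.H8.Gold5

/-!
# Amalgams of index `(3, 3)`: odd critical distance, natural case
-/

set_option autoImplicit false
set_option linter.unusedSectionVars false

namespace CfH8

open Subgroup MulAction CfH9 Cfsg
open scoped commutatorElement
open CfH7 (OZ)

variable {X : Type*} [Group X] {M₁ M₂ : Subgroup X}

local notation "Gv" δ:max => MulAction.stabilizer X δ
local notation "Qv" δ:max => vertexQ 2 δ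
local notation "Zv" δ:max => vertexZ 2 δ
local notation "VI" => vertexVIter 2 M₁ M₂
local notation "Vx" => CosetVertex M₁ M₂
local notation "Adj" => SimpleGraph.Adj (cosetGraph M₁ M₂)
local notation "dd" => SimpleGraph.dist (cosetGraph M₁ M₂)
local notation "bb" => criticalDistance 2 M₁ M₂

theorem comm_of_invol {a b : X} (ha : a * a = 1) (hb : b * b = 1) (h : a * b * (a * b) = 1) :
    a * b = b * a := by
  rw [← inv_eq_of_mul_eq_one_right h, mul_inv_rev, inv_eq_of_mul_eq_one_right ha,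
    inv_eq_of_mul_eq_one_right hb]

namespace AmU

variable (h : AmU M₁ M₂) {α α' α₁ α₂ α₃ β β' β₁ β₂ β₃ δ γ μ : CosetVertex M₁ M₂}
  {x y s t u g : X} {f : ℕ → CosetVertex M₁ M₂}
include h

theorem odd_type (F : Geo f) {n : ℕ} (hb : bb = n + 3) (aγ : Adj (f bb) γ) (nγ : f (n + 2) ≠ γ) :
    (∃ u ∈ Zv γ, u ∈ Gv (f 1) ⊓ Gv (f 2) ∧ u ∉ Qv (f 1)) ∨
      (Zv γ ≤ Qv (f 1) ∧ ∃ u ∈ Zv γ, u ∉ Qv (f 0)) := by
  by_cases c : Zv γ ≤ Qv (f 1)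
  · refine Or.inr ⟨c, SetLike.not_le_iff_exists.1 fun e => ?_⟩
    obtain ⟨s, hs, ns⟩ := SetLike.not_le_iff_exists.1 F.crit
    have ab := (F.adj (n + 2) bb).symm
    have sT := h.Q_le_T' ab (h.ZQ (F.d 0 (n + 2) (n + 2)) (by omega) hs)
    exact h.not_Nm_Z aγ sT.1 (h.not_mem_G ab aγ nγ sT ns)
      (Cz_le_Nm _ (CfH7.le_Cz_comm (e.trans (h.Q_le_CZ _)) hs))
  · obtain ⟨u, hu, nu⟩ := SetLike.not_le_iff_exists.1 c
    exact Or.inl ⟨u, hu, h.Q_le_T' (F.adj 1 2)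
      (h.ZQ (h.dL aγ.symm (dd_symm (F.d 2 bb (n + 1)))) (by omega) hu), nu⟩

variable (hn : Natu M₁ M₂)
include hn

theorem N2 (hb : TB β) (a : Adj β α) (a' : Adj β α') (hne : α ≠ α') :
    ∃ g ∈ Qv β, g ∈ Qv α' ∧ g ∉ Qv α := by
  obtain ⟨g, hg, ng⟩ := h.exists_QQ a
  by_cases c : g ∈ Qv α'
  · exact ⟨g, hg, c, ng⟩
  obtain ⟨α'', a'', n1, n2⟩ := h.exists_third a a' hne
  have k : ∀ {γ : Vx}, Adj β γ → g ∉ Qv γ → ∃ t ∈ Zv γ, t ∉ Zv β ∧ ⁅t, g⁆ ≠ 1 := fun aγ ng => by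
    obtain ⟨t, ht, nt⟩ := h.exists_Z aγ.symm hb
    exact ⟨t, ht, nt, fun e => nt (h.Z_mem aγ.symm ht (h.Q_le_T' aγ.symm hg) ng
      (commutatorElement_eq_one_iff_mul_comm.1 e).symm)⟩
  obtain ⟨t₁, e1, f1, g1⟩ := k a ng
  obtain ⟨t₂, e2, f2, g2⟩ := k a' c
  obtain ⟨p1, p2⟩ := h.prod_mem_R a'' a a' n1.symm n2.symm hne hb e1 f1 e2 f2
  have c1 := h.commV1 hb (AmT.Z_le_V a e1) hg
  have c2 := h.commV1 hb (AmT.Z_le_V a' e2) hg
  have h1 : g ∈ Qv α'' := by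
    refine h.CQ1 a'' hb (h.QG0 hg) (le_Cx_iff.1 (h.ZA_le a''.symm hb (hn β α'' a'' hb p1) p2
      (le_Cx_iff.2 (hb.le_Cz (h.Q_le_G β) hg)) ?_))
    rw [mem_Cx, ← commutatorElement_eq_one_iff_mul_comm, commutatorElement_mul_left_eq_conj_mul,
      hb.conj c2 (h.QG a.symm (h.Z_le_Q α e1)), h.u2 β hb _ c2 _ c1 g2 g1, h.sq_eq c1]
  obtain ⟨s, hs, ns⟩ := h.exists_T a
  refine ⟨s * g * s⁻¹, fixv hs.1 ▸ cjQ hg s, ?_, by rwa [← fixv hs.2, cjQ_iff]⟩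
  rw [← h.swap a a'' a' n1 hne n2.symm hs ns]
  exact cjQ h1 s

theorem nat_not_ge_seven (ho : bb % 2 = 1) : ¬ 7 ≤ bb := fun h7 => by
  obtain ⟨f, F⟩ := h.exists_Geo
  obtain ⟨n, hb⟩ : ∃ n, bb = n + 7 := ⟨bb - 7, by omega⟩
  have a01 := F.adj 0 1
  have ab := (F.adj (n + 6) bb).symm
  obtain ⟨γ, aγ, nγ⟩ := h.exists_adj_ne ab
  have ty := h.odd_type F (n := n + 4) (by omega) aγ nγ.symm
  obtain ⟨u, hu, K⟩ : ∃ u ∈ Zv γ, ∀ m, Adj (f 0) m → m ≠ f 1 → ∀ a, Adj m a → f 0 ≠ a →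
      ∀ x ∈ Zv a, u * x = x * u → x = 1 := by
    rcases ty with ⟨u, hu, uT, nu⟩ | ⟨c, u, hu, nu⟩
    · exact ⟨u, hu, fun m am nm a aa na x hx e => h.K2A hn (by omega) a01.symm (F.tB 1) am
        nm.symm aa na uT.1 (h.not_mem_G (F.adj 1 2) a01.symm (F.ne 0 2).symm uT nu) hx e⟩
    · have uT := h.Q_le_T' a01 (c hu)
      exact ⟨u, hu, fun m am nm a aa na x hx e => h.K2B am (h.tb am (F.tA 0)) aa na uT.1
        (h.not_mem_G a01 am nm.symm uT nu) hx e⟩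
  have K' : ∀ m, Adj (f 0) m → m ≠ f 1 → ∀ a, Adj m a → f 0 ≠ a → ∀ k, n + 2 ≤ k → k ≤ bb →
      Zv a ⊓ Zv (f k) = ⊥ := fun m am nm a aa na k h1 h2 => eq_bot_iff.2 fun x hx =>
    K m am nm a aa na x hx.1
      (h.ZC (h.dL aγ.symm (dd_symm (F.d k bb 5))) (by omega) hu x hx.2).symm
  have dm : ∀ m, Adj (f 0) m → ∀ k, k ≤ bb → dd m (f k) ≤ k + 1 := fun m am k hk =>
    h.dL am.symm (F.d 0 k k)
  have W3 : ∀ m, Adj (f 0) m → m ≠ f 1 → ∀ a, Adj m a → f 0 ≠ a → VI 2 a ≤ Qv (f (n + 4)) :=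
    fun m am nm a aa na => h.ST hn (h.notTB aa.symm (h.tb am (F.tA 0))) (F.tB (n + 3))
      (F.adj (n + 2) (n + 3)).symm (F.adj (n + 3) (n + 4))
      (h.VQ 2 (h.dL aa.symm (dm m am (n + 2) (by omega))) (by omega))
      (h.ZQ (dd_symm (h.dL aa.symm (dm m am (n + 4) (by omega)))) (by omega))
      (K' m am nm a aa na _ le_rfl (by omega))
  by_cases cII : ∃ m, Adj (f 0) m ∧ m ≠ f 1 ∧ ¬ Zv (f (n + 6)) ≤ Qv m
  · obtain ⟨m, am, nm, c⟩ := cII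
    have hm := h.tb am (F.tA 0)
    obtain ⟨u', hu', nu'⟩ := SetLike.not_le_iff_exists.1 c
    have hZ := (h.ZQ (dd_symm (F.d 0 (n + 6) (n + 6))) (by omega)).trans (h.Q_le_T' am.symm)
    have uT := hZ hu'
    obtain ⟨a, aa, na⟩ := h.exists_adj_ne am.symm
    have nua := h.not_mem_G am.symm aa na.symm uT nu'
    have hW : ∀ a, Adj m a → VI 2 a ≤ Qv (f (n + 4)) := fun a aa => by
      by_cases na : f 0 = a
      · exact na ▸ h.VQ 2 (F.d 0 (n + 4) (n + 4)) (by omega)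
      · exact W3 m am nm a aa na
    have cW : ∀ A : Subgroup X, A ≤ Qv (f (n + 4)) → ⁅A, Zv (f (n + 6))⁆ ≤ Zv (f (n + 4)) :=
      fun A hA => comm_le_of' (h.natW hn (F.tA (n + 4))) hA
        (Z_le_vertexVIter (F.d (n + 4) (n + 6) 2))
    obtain ⟨t, ht, nt⟩ := h.exists_Z aa.symm hm
    have hT := h.TS (F.tA (n + 4)) (cW _ (hW a aa))
      (fun e => h.not_Nm_VI aa uT.1 nua (n := 2) (by omega) (e hu'))
      (comm_mem_of_le (cW _ (hW a aa)) (AmT.Z_le_VI 2 a ht) hu')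
      (h.VI_adj aa.symm 1 (commutator_mem_left (AmT.Z_le_V aa ht) (h.NmV 1 m uT.1)))
      (fun e => h.comm_not_mem aa hm uT.1 nua ht nt (e ▸ one_mem _))
      (comm_le_of (CfH7.comm_le_left (h.NmV 3 m)) (h.VI_adj aa 2) (hZ.trans inf_le_left))
      (h.VI_adj aa 2)
    have h4 : VI 4 a ≤ Qv (f (n + 4)) := h.VI_le' fun m' am' => by
      by_cases nm' : m = m'
      · exact nm' ▸ h.VI_le' hW
      refine h.VI_le' fun e ae => ?_
      by_cases ne : a = e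
      · exact ne ▸ hW a aa
      have te := h.notTB ae.symm (h.tb2 aa.symm am' hm)
      have k3 : ∀ k, n ≤ k → k ≤ n + 6 → Zv e ⊓ Zv (f k) = ⊥ := fun k h1 h2 =>
        eq_bot_iff.2 fun x hx => h.K2A hn (by omega) aa hm am' nm' ae ne uT.1 nua hx.1
          (h.ZC (dd_symm (F.d k (n + 6) 6)) (by omega) hu' x hx.2).symm
      have de : ∀ k, k ≤ bb → dd e (f k) ≤ k + 1 + 1 + 1 + 1 := fun k hk =>
        h.dL ae.symm (h.dL am'.symm (h.dL aa.symm (dm m am k hk)))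
      exact h.ST hn te (F.tB (n + 3)) (F.adj (n + 2) (n + 3)).symm (F.adj (n + 3) (n + 4))
        (h.ST hn te (F.tB (n + 1)) (F.adj n (n + 1)).symm (F.adj (n + 1) (n + 2))
          (h.VQ 2 (de n (by omega)) (by omega)) (h.ZQ (dd_symm (de (n + 2) (by omega))) (by omega))
          (k3 n le_rfl (by omega)))
        (hT.trans (h.VQ 3 (h.dR (h.dR (dd_adj aa) am') ae) (by omega)))
        (k3 (n + 2) (by omega) (by omega))
    exact h.not_Nm_VI aa uT.1 nua (n := 4) (by omega) (CfH7.le_Nm_of_comm_le_left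
      ((cW _ h4).trans (hT.trans (h.VI_adj aa.symm 3))) hu')
  push Not at cII
  have hV : ∀ m, Adj (f 0) m → VI 1 m ≤ Qv (f (n + 6)) := fun m am => by
    by_cases nm : m = f 1
    · exact nm ▸ h.VQ 1 (F.d 1 (n + 6) (n + 5)) (by omega)
    have hm := h.tb am (F.tA 0)
    have a1 := (F.adj (n + 4) (n + 5)).symm
    have h1 := (h.VQ 1 (dm m am (n + 4) (by omega)) (by omega)).trans (h.Q_le_T' a1)
    obtain ⟨a, aa, na⟩ := h.exists_adj_ne am.symm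
    refine h.CQ (F.adj (n + 5) (n + 6)) (F.tB (n + 5)) (h1.trans inf_le_left) (comm_le_inf_bot
      (comm_le_of (h.commV hm) le_rfl (cII m am nm)) (comm_le_of (h.natV hn a1 (F.tB (n + 5)))
      (AmT.Z_le_V (F.adj (n + 5) (n + 6))) h1) (le_bot_iff.1 ?_))
    rw [← K' m am nm a aa na.symm (n + 4) (by omega) (by omega)]
    exact inf_le_inf_right _ (h.Zle aa.symm hm)
  have hU : ∀ m, Adj (f 0) m → m ≠ f 1 → VI 3 m ≤ Qv (f (n + 6)) := fun m am nm =>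
    h.VI_le' fun a aa => by
      by_cases na : f 0 = a
      · exact na ▸ h.VI_le' hV
      have ta := h.notTB aa.symm (h.tb am (F.tA 0))
      exact h.ST hn ta (F.tB (n + 5)) (F.adj (n + 4) (n + 5)).symm (F.adj (n + 5) (n + 6))
        (W3 m am nm a aa na) (h.leQ ta ((cII m am nm).trans (h.Q_le_of_adj aa))
          (CfH7.le_Cz_comm (((AmT.Z_le_V aa).trans (hV m am)).trans (h.Q_le_CZ _))))
        (K' m am nm a aa na _ (by omega) (by omega))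
  have cU : ∀ A : Subgroup X, A ≤ Qv (f (n + 6)) → ⁅A, Zv γ⁆ ≤ Zv (f (n + 6)) := fun A hA =>
    comm_le_of' (h.natV hn ab (F.tB bb)) (hA.trans (h.Q_le_T' ab)) (AmT.Z_le_V aγ)
  rcases ty with ⟨u, hu, uT, nu⟩ | ⟨c, u, hu, nu⟩
  · have nu0 := h.not_mem_G (F.adj 1 2) a01.symm (F.ne 0 2).symm uT nu
    have hG := h.ZG (h.dL aγ.symm (dd_symm (F.d 1 bb (n + 6)))) (by omega)
    obtain ⟨t, ht, nt⟩ := h.exists_Z a01 (F.tB 1)
    have hT := h.TS (F.tA (n + 6)) (cU _ (h.VI_le' hV))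
      (fun e => h.not_Nm_VI a01.symm uT.1 nu0 (n := 2) (by omega) (e hu))
      (comm_mem_of_le (cU _ (h.VI_le' hV)) (AmT.Z_le_VI 2 _ ht) hu)
      (h.VI_adj a01 1 (commutator_mem_left (AmT.Z_le_V a01.symm ht) (h.NmV 1 _ uT.1)))
      (fun e => h.comm_not_mem a01.symm (F.tB 1) uT.1 nu0 ht nt (e ▸ one_mem _))
      (comm_le_of (CfH7.comm_le_left (h.NmV 3 _)) (h.VI_adj a01.symm 2) hG) (h.VI_adj a01.symm 2)
    have hf := h.finV (n := 4) (by omega) (f 0)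
    refine h.not_Nm_VI a01.symm uT.1 nu0 (n := 4) (by omega) (mem_Nm_of_le_cj
      (h.VI_le' fun m am x hx => mem_cj_inv.2 ?_))
    by_cases nm : m = f 1
    · exact h.VI_adj am 3 (conj_mem_of_mem_normalizer (h.NmV 3 m (nm ▸ uT.1)) hx)
    · exact conj_mem_of_comm' (h.VI_adj am 3 hx)
        (h.VI_adj a01 3 (hT (comm_mem_of_le (cU _ (hU m am nm)) hx hu)))
  · have hG := c.trans (h.Q_le_T' a01)
    obtain ⟨m, am, nm⟩ := h.exists_adj_ne a01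
    have nu0 := h.not_mem_G a01 am nm.symm (hG hu) nu
    obtain ⟨t, ht, nt⟩ := h.exists_Z a01 (F.tB 1)
    have hT := h.TS (F.tA (n + 6)) (cU _ (hV m am))
      (fun e => h.not_Nm_VI am (hG hu).1 nu0 (n := 1) (by omega) (e hu))
      (comm_mem_of_le (cU _ (hV m am)) (AmT.Z_le_V am.symm ht) hu)
      (AmT.Z_le_V am.symm (commutator_mem_left ht (stab_le_Nm_vertexZ 2 _ (hG hu).1)))
      (fun e => nt (h.Z_mem a01 ht (hG hu) nu (commutatorElement_eq_one_iff_mul_comm.1 e).symm))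
      (comm_le_of (CfH7.comm_le_left (h.NmV 2 _)) (h.VI_adj am 1) (hG.trans inf_le_left))
      (h.VI_adj am 1)
    exact h.not_Nm_VI am (hG hu).1 nu0 (n := 3) (by omega) (CfH7.le_Nm_of_comm_le_left
      ((cU _ (hU m am nm)).trans (hT.trans (h.VI_adj am.symm 2))) hu)

theorem nc5 (h5 : bb = 5) {μ₀ μ₁ μ₂ μ₃ μ₄ : Vx} (hb : TB μ₂) (a₀ : Adj μ₁ μ₀) (a₁ : Adj μ₂ μ₁)
    (a₃ : Adj μ₂ μ₃) (a₄ : Adj μ₃ μ₄) (n02 : μ₂ ≠ μ₀) (n13 : μ₁ ≠ μ₃) (n24 : μ₂ ≠ μ₄) :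
    ¬ VI 1 μ₀ ≤ Qv μ₄ := by
  obtain ⟨f, F⟩ := h.exists_Geo
  obtain ⟨g, rfl, rfl, rfl⟩ := h.arc_trans (F.adj 2 3).symm (F.adj 3 4) (F.ne 2 4) a₁ a₃ n13
    (iff_of_true (F.tB 3) hb)
  have c : ¬ VI 1 (g • f 1) ≤ Qv (g • f bb) := by
    rw [h.VI_smul, vertexQ_smul, cj_le_cj_iff]
    exact fun e => F.crit ((AmT.Z_le_V (F.adj 0 1).symm).trans e)
  have b0 := adj_smul (F.adj 1 2).symm g
  have b4 := adj_smul (F.adj 4 bb) g
  have m0 : g • f 3 ≠ g • f 1 := fun e => F.ne 1 3 (by omega) (by omega) (smul_left_cancel g e).symm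
  have m4 : g • f 3 ≠ g • f bb := fun e => F.ne 3 bb (by omega) (by omega) (smul_left_cancel g e)
  generalize g • f 1 = ν₀ at *
  generalize g • f bb = ν₄ at *
  generalize g • f 2 = μ₁ at *
  generalize g • f 3 = μ₂ at *
  generalize g • f 4 = μ₃ at *
  have c2 : ¬ VI 1 μ₀ ≤ Qv ν₄ := by
    by_cases e : ν₀ = μ₀
    · exact e ▸ c
    obtain ⟨s, s1, s2, s3⟩ := h.N2 hn hb a₁ a₃ n13
    rwa [← h.swap a₁.symm b0 a₀ m0 n02 e (h.Q_le_T' a₁.symm s1) s3, ← fixv (h.QG b4 s2), h.VI_smul,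
      vertexQ_smul, cj_le_cj_iff]
  by_cases e : ν₄ = μ₄
  · exact e ▸ c2
  obtain ⟨s, s1, s2, s3⟩ := h.N2 hn hb a₃ a₁ n13.symm
  rwa [← h.swap a₃.symm b4 a₄ m4 n24 e (h.Q_le_T' a₃.symm s1) s3, ← fixv (h.QG a₀ s2), h.VI_smul,
    vertexQ_smul, cj_le_cj_iff]

theorem nat_ne_five : bb ≠ 5 := fun h5 => by
  obtain ⟨f, F⟩ := h.exists_Geo
  have a01 := F.adj 0 1
  have a12 := F.adj 1 2
  have a23 := F.adj 2 3
  have a34 := F.adj 3 4
  have a45 := F.adj 4 5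
  obtain ⟨m, am, nm⟩ := h.exists_adj_ne a01
  have hm := h.tb am (F.tA 0)
  obtain ⟨x, hx, nx⟩ := SetLike.not_le_iff_exists.1 (h.nc5 hn h5 (F.tB 1) am a01.symm a12 a23
    nm.symm (F.ne 0 2) (F.ne 1 3))
  obtain ⟨y, hy, ny⟩ := SetLike.not_le_iff_exists.1 (h.nc5 hn h5 (F.tB 3) a45 a34 a23.symm a12.symm
    (F.ne 3 5) (F.ne 2 4).symm (F.ne 1 3).symm)
  have x2 := h.VQ 1 (h.dL am.symm (F.d 0 2 2)) (by omega) hx
  have y2 := h.VQ 1 (dd_symm (F.d 2 5 3)) (by omega) hy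
  have key : ∀ {δ₀ δ₁ δ₂ m : Vx} {x y : X}, Adj δ₀ m → Adj δ₁ δ₀ → Adj δ₁ δ₂ → δ₀ ≠ δ₂ → TB δ₁ →
      x ∈ VI 1 m → y ∈ Qv δ₂ → y ∉ Qv δ₁ → ⁅x, y⁆ * ⁅x, y⁆ ∈ Zv δ₁ := by
    intro δ₀ δ₁ δ₂ m x y am a0 a2 n02 b1 hx hy ny
    have yT := h.Q_le_T' a2 hy
    have a0' := AmT.adj_smul_of_mem a0 yT.1
    have n0 := h.smul_ne a2 a0 n02.symm yT ny
    have x1 := h.VI_adj am 1 hx
    have x2 := h.cjV x1 y
    have e : ⁅x, y⁆ * ⁅x, y⁆ = ⁅x, y * x * y⁻¹⁆ := by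
      rw [commutatorElement_def x (y * x * y⁻¹), inv_eq_of_mul_eq_one_right (h.sqV (by omega) x2),
        commutatorElement_def, inv_eq_of_mul_eq_one_right (h.sqV (by omega) x1)]
      group
    rw [e]
    exact h.ZAA a0 a0' n0.symm b1
      (comm_mem_of_le (h.natW hn (h.notTB a0.symm b1)) x1
        (h.VQ 2 (h.dR (dd_adj a0'.symm) a0) (by omega) x2))
      (comm_mem_of_le' (h.natW hn (h.notTB a0'.symm b1)) x2
        (h.VQ 2 (h.dR (dd_adj a0.symm) a0') (by omega) x1))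
  have k1 := key am a01.symm a12 (F.ne 0 2) (F.tB 1) hx y2 ny
  have k2 := inv_mem (key a45 a34 a23.symm (F.ne 2 4).symm (F.tB 3) hy x2 nx)
  rw [mul_inv_rev, commutatorElement_inv] at k2
  have k3 := h.ZZ1 a12.symm a23 (F.ne 1 3) (F.tB 1) k1 k2
  have yT := h.Q_le_T' a12 y2
  have a0' := AmT.adj_smul_of_mem a01.symm yT.1
  have am' := adj_smul am y
  have hm' := hm.smul y
  have x' := h.cjV hx y
  have nx0 : x ∉ Zv (f 0) := fun e => nx (h.ZQ (F.d 0 3 3) (by omega) e)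
  have d1 : dd m (y • f 0) ≤ 1 + 1 + 1 := h.dR (h.dR (dd_adj am.symm) a01) a0'
  refine h.nc5 hn h5 (F.tB 1) am a01.symm a0' am' nm.symm
    (h.smul_ne a12 a01.symm (F.ne 0 2).symm yT ny).symm (AmT.smul_ne' nm.symm yT.1).symm
    (h.CV hm' (h.VG 1 (h.dR d1 am') (by omega)) (h.V_le hn am.symm hm hx nx0 ?_
      (le_Cx_iff.1 (h.V_le hn am'.symm hm' x' (by rwa [cjZ_iff]) ?_ ?_))))
  · rw [← h.VI_zero]
    exact h.VC 0 1 (h.dR (h.dR (dd_adj a01) a0') am') (by omega)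
  · exact le_Cx_iff.2 ((h.VQ 1 d1 (by omega)).trans (h.Q_le_CZ _) hx)
  · refine mem_Cx.2 (comm_of_invol (h.sqV (n := 1) (by omega) hx) (h.sqV (by omega) x') ?_).symm
    rw [← k3, commutatorElement_def, inv_eq_of_mul_eq_one_right (h.sqV (n := 1) (by omega) hx)]
    group

end AmU

end CfH8
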