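import Cfsg.Agent.OD.Pre
import Cfsg.Agent.H8.Gold6

/-!
# Amalgams of index `(3, 3)`: critical distance three, natural case
-/

set_option autoImplicit false
set_option linter.unusedSectionVars false

namespace CfH8

open Subgroup MulAction CfH9 Cfsg
open scoped commutatorElement
open CfH7 (OZ)

variable {X : Type*} [Group X] {M₁ M₂ : Subgroup X}

local notation "Gv" δ:max => MulAction.stabilizer X δ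
local notation "Qv" δ:max => vertexQ 2 δ
local notation "Zv" δ:max => vertexZ 2 δ
local notation "VI" => vertexVIter 2 M₁ M₂
local notation "Vx" => CosetVertex M₁ M₂
local notation "Adj" => SimpleGraph.Adj (cosetGraph M₁ M₂)
local notation "dd" => SimpleGraph.dist (cosetGraph M₁ M₂)
local notation "bb" => criticalDistance 2 M₁ M₂

theorem comm_mul_mul {v v' f c : X} (h1 : Commute v f) (h2 : Commute v c) (h3 : Commute v v')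
    (h4 : Commute v' f) (h5 : Commute v' c) : ⁅v * f, v' * c⁆ = ⁅f, c⁆ := by
  have e1 : v * f * (v' * c) = v * v' * (f * c) := by
    rw [mul_assoc, ← mul_assoc f, ← h4.eq]; group
  have e2 : v' * c * (v * f) = v * v' * (c * f) := by
    rw [mul_assoc, ← mul_assoc c, ← h2.eq, h3.eq]; group
  have e3 : Commute (v * v') (f * c) := (h1.mul_right h2).mul_left (h4.mul_right h5)
  have e4 : Commute (v * v') (c * f) := (h2.mul_right h1).mul_left (h5.mul_right h4)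
  calc ⁅v * f, v' * c⁆ = v * f * (v' * c) * (v' * c * (v * f))⁻¹ := by
        rw [commutatorElement_def]; group
    _ = _ := by rw [e1, e2, e3.eq, e4.eq, commutatorElement_def]; group

/-- `C_{Q_β}(V_β)` -/
def Dv (β : CosetVertex M₁ M₂) : Subgroup X := vertexQ 2 β ⊓ Cz(vertexVIter 2 M₁ M₂ 1 β)

namespace AmU

variable (h : AmU M₁ M₂) {α α' α₁ α₂ α₃ β β' β₁ β₂ β₃ δ γ μ : CosetVertex M₁ M₂}
  {x y s t u g : X} {f : ℕ → CosetVertex M₁ M₂} (hn : Natu M₁ M₂) (h3 : criticalDistance 2 M₁ M₂ = 3)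
include h

theorem cjD (hx : x ∈ Dv β) (g : X) : g * x * g⁻¹ ∈ Dv (g • β) := by
  rw [Dv, h.VI_smul, vertexQ_smul, ← cj_centralizer, ← cj_inf]
  exact conj_mem_cj g hx

theorem D_le_Q (hb : TB β) (a : Adj β α) : Dv β ≤ Qv α :=
  h.CQ a hb (inf_le_left.trans (h.Q_le_G β)) (inf_le_right.trans (Cz_anti (AmT.Z_le_V a)))

include hn

theorem mem_D (hb : TB β) (a : Adj β α) (a₁ : Adj β α₁) (n1 : α ≠ α₁) (h0 : x ∈ Qv β)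
    (h1 : x ∈ Qv α) (h2 : x ∈ Qv α₁) : x ∈ Dv β :=
  mi h0 (le_Cx_iff.1 (h.V_le_sup hn a a₁ n1 hb (le_Cx_iff.2 (h.Q_le_CZ _ h1))
    (le_Cx_iff.2 (h.Q_le_CZ _ h2))))

include h3

theorem commD (hb : TB β) (hx : x ∈ VI 3 β) (hy : y ∈ Dv β) : ⁅x, y⁆ ∈ VI 1 β := by
  refine comm_mem_of_le' (CfH7.commutator_le_of_le_secCz (h.VI_le' fun a aa => CfH7.le_secCz
    ((h.VG 2 (dd_adj aa.symm) (by omega)).trans (h.NmV 1 β)) ?_)) hy hx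
  exact (comm_le_of' (h.natW hn (h.notTB aa.symm hb)) (h.D_le_Q hb aa) le_rfl).trans
    (AmT.Z_le_V aa)

omit hn in
theorem nc3 (ha : ¬ TB α) (a₁ : Adj α β₁) (a₂ : Adj α β₂) (hne : β₁ ≠ β₂) :
    ¬ VI 1 β₁ ≤ Qv β₂ := by
  obtain ⟨f, F⟩ := h.exists_Geo
  obtain ⟨g, -, rfl, rfl⟩ := h.arc_trans (F.adj 1 2).symm (F.adj 2 bb) (F.ne 1 bb) a₁ a₂ hne
    (iff_of_false (F.tA 2) ha)
  rw [h.VI_smul, vertexQ_smul, cj_le_cj_iff]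
  exact fun e => F.crit ((AmT.Z_le_V (F.adj 0 1).symm).trans e)

theorem nc3' (ha : ¬ TB α) (a₁ : Adj α β₁) (a₂ : Adj α β₂) (hne : β₁ ≠ β₂) (hx : x ∈ VI 1 β₁)
    (nx : x ∉ Zv α) : x ∉ Qv β₂ := fun e =>
  h.nc3 h3 ha a₁ a₂ hne (h.V_le hn a₁.symm (h.tb a₁ ha) hx nx (h.ZQ1 a₂) e)

theorem exists_w (ha : ¬ TB α) (a : Adj α β) : ∃ w ∈ VI 3 β, w ∈ Qv β ∧ w ∉ Qv α := by
  have hb := h.tb a ha
  obtain ⟨a₁, aa₁, n1⟩ := h.exists_adj_ne a.symm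
  obtain ⟨a₂, aa₂, n2, n12⟩ := h.exists_third a.symm aa₁ n1.symm
  obtain ⟨β', a', n'⟩ := h.exists_adj_ne aa₁.symm
  obtain ⟨v, hv, nv⟩ := SetLike.not_le_iff_exists.1
    (h.nc3 h3 (h.notTB aa₁.symm hb) a' aa₁.symm n')
  have vT := h.Q_le_T' aa₁ (h.VQ 1 (dd_adj a'.symm) (by omega) hv)
  obtain ⟨g, g1, g2, g3⟩ := h.N2 hn hb a.symm aa₂ n2
  have h1 := cjQ (inv_mem g2) v
  rw [h.swap aa₁ aa₂ a.symm n12 n1 n2.symm vT nv] at h1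
  refine ⟨⁅g, v⁆, commutator_mem_right (h.VI_adj aa₁ 2 (h.VI_adj a' 1 hv))
    (h.NmV 3 β (h.QG0 g1)), commutator_mem_left g1 (stab_le_Nm_vertexQ 2 β vT.1), fun e => g3 ?_⟩
  simpa [commutatorElement_def, mul_assoc] using mul_mem e (inv_mem h1)

theorem V12 (ha : ¬ TB α) (a₁ : Adj α β₁) (a₂ : Adj α β₂) (a₃ : Adj α β₃) (n12 : β₁ ≠ β₂)
    (n13 : β₁ ≠ β₃) (n23 : β₂ ≠ β₃) (b₁ : Adj β₁ α₁) (m₁ : α ≠ α₁) (b₂ : Adj β₂ α₂)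
    (m₂ : α ≠ α₂) (hx : x ∈ Zv α₁) (nx : x ∉ Zv β₁) (hy : y ∈ Zv α₂) (ny : y ∉ Zv β₂) :
    ⁅x, y⁆ ∈ Zv β₃ ∧ ⁅x, y⁆ ≠ 1 := by
  have key : ∀ {β₁ β₂ α₁ α₂ : Vx} {x y : X}, Adj α β₁ → Adj α β₂ → β₁ ≠ β₂ → Adj β₁ α₁ → α ≠ α₁ →
      Adj β₂ α₂ → α ≠ α₂ → x ∈ Zv α₁ → x ∉ Zv β₁ → y ∈ Zv α₂ → y ∉ Zv β₂ →
      ⁅x, y⁆ ∈ Zv α ∧ ⁅x, y⁆ ∉ Zv β₁ := by
    intro β₁ β₂ α₁ α₂ x y a₁ a₂ n12 b₁ m₁ b₂ m₂ hx nx hy ny
    have yT := h.Q_le_T' a₁.symm (h.ZQ (h.dR (dd_adj b₂.symm) a₂.symm) (by omega) hy)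
    exact ⟨comm_mem_of_le (h.natV hn a₁.symm (h.tb a₁ ha)) (AmT.Z_le_V b₁ hx) yT,
      h.comm_not_mem' a₁.symm b₁ m₁ (h.tb a₁ ha) yT (h.nc3' hn h3 ha a₂ a₁ n12.symm
        (AmT.Z_le_V b₂ hy) fun e => ny (h.ZAA a₂.symm b₂ m₂ (h.tb a₂ ha) e hy)) hx nx⟩
  obtain ⟨k1, k2⟩ := key a₁ a₂ n12 b₁ m₁ b₂ m₂ hx nx hy ny
  obtain ⟨-, k3⟩ := key a₂ a₁ n12.symm b₂ m₂ b₁ m₁ hy ny hx nx
  exact ⟨h.third a₁ a₂ a₃ n12 n13 n23 (h.tb a₁ ha) k1 k2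
    (fun e => k3 (by rw [← commutatorElement_inv]; exact inv_mem e)),
    fun e => k2 (e ▸ one_mem _)⟩

theorem bound_three (a₁ : Adj α β₁) (hb₁ : TB β₁) :
    Nat.card (Gv α ⊓ Gv β₁ : Subgroup X) ≤ 2 ^ 7 := by
  have ha := h.notTB a₁ hb₁
  obtain ⟨β₂, a₂, n21⟩ := h.exists_adj_ne a₁
  obtain ⟨β₃, a₃, n13, n23⟩ := h.exists_third a₁ a₂ n21.symm
  have hb₂ := h.tb a₂ ha
  have hb₃ := h.tb a₃ ha
  obtain ⟨α₁, b₁, m₁⟩ := h.exists_adj_ne a₁.symm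
  obtain ⟨α₂, b₂, m₂⟩ := h.exists_adj_ne a₂.symm
  obtain ⟨α₃, b₃, m₃⟩ := h.exists_adj_ne a₃.symm
  obtain ⟨v₁, e₁, f₁⟩ := h.exists_Z b₁.symm hb₁
  obtain ⟨v₂, e₂, f₂⟩ := h.exists_Z b₂.symm hb₂
  obtain ⟨v₃, e₃, f₃⟩ := h.exists_Z b₃.symm hb₃
  have g₁ : v₁ ∉ Zv α := fun e => f₁ (h.ZAA a₁.symm b₁ m₁.symm hb₁ e e₁)
  have g₂ : v₂ ∉ Zv α := fun e => f₂ (h.ZAA a₂.symm b₂ m₂.symm hb₂ e e₂)
  have g₃ : v₃ ∉ Zv α := fun e => f₃ (h.ZAA a₃.symm b₃ m₃.symm hb₃ e e₃)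
  have c12 := h.V12 hn h3 ha a₁ a₂ a₃ n21.symm n13 n23 b₁ m₁.symm b₂ m₂.symm e₁ f₁ e₂ f₂
  have c32 := h.V12 hn h3 ha a₃ a₂ a₁ n23.symm n13.symm n21 b₃ m₃.symm b₂ m₂.symm e₃ f₃ e₂ f₂
  have c13 := h.V12 hn h3 ha a₁ a₃ a₂ n13 n21.symm n23.symm b₁ m₁.symm b₃ m₃.symm e₁ f₁ e₃ f₃
  have c23 := h.V12 hn h3 ha a₂ a₃ a₁ n23 n21 n13.symm b₂ m₂.symm b₃ m₃.symm e₂ f₂ e₃ f₃
  obtain ⟨w₁, u₁, q₁, r₁⟩ := h.exists_w hn h3 ha a₁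
  obtain ⟨w₃, u₃, q₃, r₃⟩ := h.exists_w hn h3 ha a₃
  have t₁ := h.Q_le_T' a₁ q₁
  have t₃ := h.Q_le_T' a₃ q₃
  have ZD : Zv α ≤ Dv β₂ := le_inf (h.ZQ1 a₂) (h.VI_zero α ▸ h.VC 0 1 (dd_adj a₂) (by omega))
  have C13 : ∀ x ∈ Dv β₁, x ∈ Dv β₃ → x ∈ Dv β₂ := by
    intro x x1 x3
    have k1 := h.cjD x3 w₁
    have k3 := h.cjD x1 w₃
    rw [h.swap a₁ a₃ a₂ n13 n21.symm n23.symm t₁ r₁] at k1
    rw [h.swap a₃ a₁ a₂ n13.symm n23.symm n21.symm t₃ r₃] at k3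
    by_cases c1 : ⁅w₁, x⁆ ∈ Zv α
    · simpa [commutatorElement_def, mul_assoc] using mul_mem (inv_mem (ZD c1)) k1
    by_cases c3 : ⁅w₃, x⁆ ∈ Zv α
    · simpa [commutatorElement_def, mul_assoc] using mul_mem (inv_mem (ZD c3)) k3
    have l1 := ZD (h.V_two hn a₁.symm hb₁ (h.commD hn h3 hb₁ u₁ x1) (AmT.Z_le_V b₁ e₁) c1 g₁)
    have l3 := ZD (h.V_two hn a₃.symm hb₃ (h.commD hn h3 hb₃ u₃ x3) (AmT.Z_le_V b₃ e₃) c3 g₃)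
    have l : v₁⁻¹ * v₃ ∈ Dv β₂ := by
      simpa [commutatorElement_def, mul_assoc] using
        mul_mem (mul_mem (inv_mem l1) (mul_mem k1 (inv_mem k3))) l3
    have e := l.2 v₂ (AmT.Z_le_V b₂ e₂)
    have e' : ⁅v₃, v₂⁆ = ⁅v₁, v₂⁆ := by
      calc ⁅v₃, v₂⁆ = v₁ * (v₁⁻¹ * v₃ * v₂) * v₃⁻¹ * v₂⁻¹ := by rw [commutatorElement_def]; group
        _ = _ := by rw [← e, commutatorElement_def]; group
    exact absurd (h.ZZ1 a₁ a₃ n13 hb₁ (e' ▸ c32.1) c12.1) c12.2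
  have hW : VI 2 α ≤ Qv α := h.VQ 2 (dd_refl α) (by omega)
  have w₁' := h.VI_adj a₁ 1 (AmT.Z_le_V b₁ e₁)
  have w₂' := h.VI_adj a₂ 1 (AmT.Z_le_V b₂ e₂)
  have hQ : Qv α ≤ Dv β₃ ⊔ VI 2 α := by
    have p1 := h.nc3' hn h3 ha a₁ a₃ n13 (AmT.Z_le_V b₁ e₁) g₁
    have p2 := h.nc3' hn h3 ha a₂ a₃ n23 (AmT.Z_le_V b₂ e₂) g₂
    have hT := h.Q_le_T' a₃.symm
    refine h.le_of_two a₃.symm hT (hW w₁') p1 (h.le_of_two b₃.symm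
      (inf_le_right.trans (h.Q_le_T' b₃.symm)) (mi (mul_mem (hW w₁') (hW w₂'))
        (h.mulQ a₃.symm (hT (hW w₁')) (hT (hW w₂')) p1 p2)) (fun e => ?_)
      (fun x hx => mem_sup_left (h.mem_D hn hb₃ a₃.symm b₃ m₃.symm hx.1.2 hx.1.1 hx.2))
      (mem_sup_right (mul_mem w₁' w₂'))) (mem_sup_right w₁')
    have e1 := h.Q_le_CZ _ e v₃ e₃
    have e' : ⁅v₂, v₃⁆ = ⁅v₁, v₃⁆ := by
      calc ⁅v₂, v₃⁆ = v₁⁻¹ * (v₁ * v₂ * v₃) * v₂⁻¹ * v₃⁻¹ := by rw [commutatorElement_def]; group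
        _ = v₁⁻¹ * v₃ * v₁ * v₃⁻¹ := by rw [← e1]; group
        _ = _ := by rw [commutatorElement_def, inv_eq_of_mul_eq_one_right (h.sq_eq e₁)]
    exact absurd (h.ZZ1 a₁ a₂ n21.symm hb₁ (e' ▸ c23.1) c13.1) c13.2
  have hF : Gv α ≤ Nm((Qv α ⊓ Cz(VI 2 α) : Subgroup X)) :=
    CfH7.le_normalizer_inf (stab_le_Nm_vertexQ 2 α) ((h.NmV 2 α).trans (Nm_le_Nm_Cz _))
  have FD : Qv α ⊓ Cz(VI 2 α) ≤ Dv β₃ :=
    have := inf_le_right.trans (Cz_anti (h.VI_adj a₃ 1))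
    le_inf (h.CV hb₃ (inf_le_left.trans (h.Q_le_of_adj a₃)) this) this
  have nw := h.not_mem_G a₃ a₁ n13.symm t₃ r₃
  have hK := h.CB a₁ hb₁ (K := ⁅Qv α ⊓ Cz(VI 2 α), Qv α⁆)
    ((CfH7.comm_le_left ((h.Q_le_G α).trans hF)).trans inf_le_left)
    (fun g hg => mem_Nm_commutator (hF hg.1) (stab_le_Nm_vertexQ 2 α hg.1)) t₃.1 nw
    (commutator_le.2 fun x hx q hq => by
      obtain ⟨c, hc, y, hy, rfl⟩ := (mem_sup_iff_of_le_normalizer_left ((hW.trans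
        (h.Q_le_of_adj a₃)).trans (CfH7.le_normalizer_inf (stab_le_Nm_vertexQ 2 β₃)
        ((h.NmV 1 β₃).trans (Nm_le_Nm_Cz _))))).1 (hQ hq)
      have e : ⁅x, c * y⁆ = ⁅x, c⁆ := by
        have := hx.2 y hy
        calc ⁅x, c * y⁆ = x * c * x⁻¹ * (x * y) * x⁻¹ * y⁻¹ * c⁻¹ := by
              rw [commutatorElement_def]; group
          _ = _ := by rw [← this, commutatorElement_def]; group
      have k1 := h.commD hn h3 hb₃ u₃ (FD hx)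
      have k2 := h.commD hn h3 hb₃ u₃ hc
      rw [e, mem_Cx, eq_comm, ← mul_inv_eq_iff_eq_mul]
      conv_rhs => rw [← comm_mul_mul ((FD hx).2 _ k1) (hc.2 _ k1)
        (h.VC 1 1 (dd_refl β₃) (by omega) k2 _ k1) ((FD hx).2 _ k2) (hc.2 _ k2)]
      simp only [commutatorElement_def]
      group)
  have hle : Gv α ⊓ Gv β₁ ⊓ Qv β₁ ⊓ Qv α ⊓ Qv α₁ ⊓ Qv β₃ ⊓ Qv α₃ ≤ Zv α := by
    intro k hk
    have k1 := h.mem_D hn hb₁ a₁.symm b₁ m₁.symm hk.1.1.1.1.2 hk.1.1.1.2 hk.1.1.2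
    have k3 := h.mem_D hn hb₃ a₃.symm b₃ m₃.symm hk.1.2 hk.1.1.1.2 hk.2
    have kF : k ∈ Qv α ⊓ Cz(VI 2 α) := mi hk.1.1.1.2 (le_Cx_iff.1 (h.VI_le'
      (h.forall_nbr a₁ a₂ a₃ n21.symm n13 n23 (le_Cx_iff.2 k1.2) (le_Cx_iff.2 (C13 k k1 k3).2)
        (le_Cx_iff.2 k3.2))))
    refine h.mem_Z_of_Cz ha kF.1 (le_Cx_iff.2 (CfH7.comm_eq_bot_left.1 hK kF))
      (h.sq_one a₁ hb₁ inf_le_left hF t₃.1 nw (fun x hx => ?_) kF)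
    have := h.commD hn h3 hb₃ u₃ (FD hx)
    exact ⟨h.sqV (by omega) this, (FD hx).2 _ this⟩
  have := h.finZ α
  have c0 := (card_le_of_le hle).trans (h.card_Z ha)
  have c1 := h.card_le_two_mul a₁.symm (inf_comm (Gv α) (Gv β₁)).le
  have c2 := h.card_le_two_mul a₁ ((inf_le_right (a := Gv α ⊓ Gv β₁)).trans (h.Q_le_T' a₁))
  have c3 := h.card_le_two_mul b₁.symm (A := Gv α ⊓ Gv β₁ ⊓ Qv β₁ ⊓ Qv α)
    ((inf_le_left.trans inf_le_right).trans (h.Q_le_T' b₁.symm))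
  have c4 := h.card_le_two_mul a₃.symm (A := Gv α ⊓ Gv β₁ ⊓ Qv β₁ ⊓ Qv α ⊓ Qv α₁)
    ((inf_le_left.trans inf_le_right).trans (h.Q_le_T' a₃.symm))
  have c5 := h.card_le_two_mul b₃.symm (A := Gv α ⊓ Gv β₁ ⊓ Qv β₁ ⊓ Qv α ⊓ Qv α₁ ⊓ Qv β₃)
    (inf_le_right.trans (h.Q_le_T' b₃.symm))
  omega

end AmU

end CfH8
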