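import Cfsg.Agent.OD.Pre
import Cfsg.Agent.H8.Gold7

/-!
# Amalgams of index `(3, 3)`: odd critical distance forces the natural case
-/

set_option autoImplicit false
set_option linter.unusedSectionVars false

namespace CfH8

open Subgroup MulAction CfH9 Cfsg
open scoped commutatorElement
open CfH7 (OZ)

variable {X : Type*} [Group X] {M₁ M₂ : Subgroup X}

local notation "Gv" δ:max => MulAction.stabilizer X δ
local notation "Qv" δ:max => vertexQ 2 δ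
local notation "Zv" δ:max => vertexZ 2 δ
local notation "VI" => vertexVIter 2 M₁ M₂
local notation "Vx" => CosetVertex M₁ M₂
local notation "Adj" => SimpleGraph.Adj (cosetGraph M₁ M₂)
local notation "dd" => SimpleGraph.dist (cosetGraph M₁ M₂)
local notation "bb" => criticalDistance 2 M₁ M₂

namespace AmU

variable (h : AmU M₁ M₂) {α α' α₁ α₂ α₃ β β' β'' β₁ β₂ β₃ δ γ μ m : CosetVertex M₁ M₂}
  {x y s t u g p : X} {f : ℕ → CosetVertex M₁ M₂}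
include h

theorem arc3 (ho : bb % 2 = 1) (hb : TB β) (a : Adj β α) (a' : Adj β α') (hne : α ≠ α')
    (am : Adj α m) (nm : β ≠ m) : ∃ g ∈ Qv α, g ∈ Qv α' ∧ g ∉ Qv m := by
  obtain ⟨f, F⟩ := h.exists_Geo
  have h2 := h.two_le_b
  obtain ⟨n, hn⟩ : ∃ n, bb = n + 3 := ⟨bb - 3, by omega⟩
  obtain ⟨g, rfl, rfl, rfl⟩ := h.arc_trans (F.adj (n + 1) (n + 2)) (F.adj n (n + 1)).symm
    (F.ne n (n + 2)).symm a a' hne (iff_of_true (F.tB (n + 1)) hb)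
  obtain ⟨s, hs, ns⟩ := SetLike.not_le_iff_exists.1 F.crit
  have s1 := cjQ (h.ZQ (F.d 0 (n + 2) (n + 2)) (by omega) hs) g
  have s2 := cjQ (h.ZQ (F.d 0 n n) (by omega) hs) g
  have s3 : g * s * g⁻¹ ∉ Qv (g • f bb) := by rwa [cjQ_iff]
  have b4 := adj_smul (F.adj (n + 2) bb) g
  have m4 : g • f (n + 1) ≠ g • f bb := fun e =>
    F.ne (n + 1) bb (by omega) (by omega) (smul_left_cancel g e)
  by_cases e : g • f bb = m
  · exact ⟨_, s1, s2, e ▸ s3⟩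
  obtain ⟨k, hk, nk⟩ := h.exists_QQ a
  refine ⟨_, fixv (h.QG a hk) ▸ cjQ s1 k, fixv (h.QG a' hk) ▸ cjQ s2 k, ?_⟩
  rwa [← h.swap a.symm b4 am m4 nm e (h.Q_le_T' a.symm hk) nk, cjQ_iff]

theorem nondiag (ho : bb % 2 = 1) (ha : ¬ TB α) (a : Adj α β) (a' : Adj α β') (hne : β ≠ β') :
    ∃ g ∈ Qv α, g ∈ Qv β ∧ g ∉ Qv β' := by
  obtain ⟨α', b, n⟩ := h.exists_adj_ne a.symm
  obtain ⟨g, g1, g2, g3⟩ := h.arc3 ho (h.tb a ha) a.symm b n.symm a' hne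
  exact ⟨g, g1, h.mem_Q a.symm b n.symm (h.QG a g1) (h.QG0 g1) (h.QG0 g2), g3⟩

theorem exists_R (hb : TB β) (a : Adj β α) : ∃ p ∈ Rv β α, p ∉ Zv β := by
  obtain ⟨α₁, a₁, n1⟩ := h.exists_adj_ne a
  obtain ⟨s, hs, ns⟩ := h.exists_T a
  obtain ⟨t, ht, nt⟩ := h.exists_Z a₁.symm hb
  exact ⟨_, h.comm_mem_R a a₁ hs ht, h.comm_not_mem' a a₁ n1.symm hb hs ns ht nt⟩

theorem common (F : Geo f) {n : ℕ} (hb : bb = n + 5) (ho : bb % 2 = 1) (aγ : Adj (f bb) γ)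
    (hu : u ∈ Zv γ) (am : Adj (f 0) m) (K0 : ∀ x ∈ Zv m, u * x = x * u → x = 1) :
    (∃ p ∈ Rv m (f 0), p ∉ Zv m ∧ ∃ z ∈ Zv (f 0), u * (p * z) = p * z * u) ∨
      ∃ a, Adj m a ∧ f 0 ≠ a ∧ ∃ t ∈ Zv a, t ∉ Zv m ∧ ∃ z ∈ Zv (f 0), u * (t * z) = t * z * u := by
  have hm := h.tb am (F.tA 0)
  have tb2 := F.tB (n + 3)
  have a32 := (F.adj (n + 2) (n + 3)).symm
  have a21 := F.adj (n + 3) (n + 4)
  have ab := (F.adj (n + 4) bb).symm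
  have dm : ∀ k, k ≤ bb → dd m (f k) ≤ k + 1 := fun k hk => h.dL am.symm (F.d 0 k k)
  have uV : ∀ x ∈ VI 1 (f (n + 3)), u * x = x * u := fun x hx =>
    (h.VC 0 1 (h.dL aγ.symm (dd_symm (F.d (n + 3) bb 2))) (by omega) (h.VI_zero γ ▸ hu) x hx).symm
  obtain ⟨a₁, b₁, n1⟩ := h.exists_adj_ne am.symm
  obtain ⟨a₂, b₂, n2, n12⟩ := h.exists_third am.symm b₁ n1.symm
  obtain ⟨t₁, e₁, f₁⟩ := h.exists_Z b₁.symm hm
  obtain ⟨t₂, e₂, f₂⟩ := h.exists_Z b₂.symm hm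
  by_cases c : Zv (f (n + 4)) ≤ Qv m
  swap
  · obtain ⟨t, ht, nt⟩ := SetLike.not_le_iff_exists.1 c
    have tT := h.Q_le_T' am.symm (h.ZQ (dd_symm (F.d 0 (n + 4) (n + 4))) (by omega) ht)
    refine Or.inl ⟨_, h.comm_mem_R am.symm b₁ tT e₁,
      h.comm_not_mem' am.symm b₁ n1.symm hm tT nt e₁ f₁, 1, one_mem _, ?_⟩
    rw [mul_one]
    exact uV _ (commutator_mem_right (AmT.Z_le_V a21 ht) (h.NmV 1 _
      (h.ZG (h.dL b₁.symm (dm (n + 3) (by omega))) (by omega) e₁)))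
  have h1 : VI 1 m ≤ Qv (f (n + 3)) := by
    refine h.VI_le (n := 0) (h.ZQ (dm (n + 3) (by omega)) (by omega)) fun a aa x hx => ?_
    rw [h.VI_zero] at hx
    by_contra nx
    obtain ⟨t, ht, nt⟩ := h.exists_Z a21.symm tb2
    have xT := h.Q_le_T' a32 (h.ZQ (h.dL aa.symm (dm (n + 2) (by omega))) (by omega) hx)
    refine h.comm_not_mem' a32 a21 (F.ne (n + 2) (n + 4)) tb2 xT nx ht nt ?_
    rw [K0 _ (comm_mem_of_le' (h.commV hm) (AmT.Z_le_V aa hx) (c ht))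
      (uV _ (commutator_mem_left (AmT.Z_le_V a21 ht) (h.NmV 1 _ xT.1)))]
    exact one_mem _
  have h2 := (h.CQ a21 tb2 (h1.trans (h.Q_le_G _)) (comm_le_inf_bot
    (comm_le_of (h.commV hm) le_rfl c) (comm_le_of (h.commV tb2) (AmT.Z_le_V a21) h1)
    (eq_bot_iff.2 fun z hz => K0 z hz.1 (uV z (AmT.Z_le_VI 1 _ hz.2))))).trans (h.Q_le_T' ab)
  obtain ⟨s, hs, ns⟩ := SetLike.not_le_iff_exists.1 F.crit
  have k : ∀ t ∈ VI 1 m, ∃ z ∈ Zv (f 0), t * z ∈ Qv (f bb) := fun t ht => by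
    by_cases nt : t ∈ Qv (f bb)
    · exact ⟨1, one_mem _, by rwa [mul_one]⟩
    · exact ⟨s, hs, h.mulQ ab (h2 ht) (h2 (AmT.Z_le_V am.symm hs)) nt ns⟩
  obtain ⟨z₁, g₁, q₁⟩ := k t₁ (AmT.Z_le_V b₁ e₁)
  obtain ⟨z₂, g₂, q₂⟩ := k t₂ (AmT.Z_le_V b₂ e₂)
  by_cases c1 : t₁ * z₁ ∈ Qv γ
  · exact Or.inr ⟨a₁, b₁, n1.symm, t₁, e₁, f₁, z₁, g₁, h.Q_le_CZ γ c1 u hu⟩
  by_cases c2 : t₂ * z₂ ∈ Qv γ
  · exact Or.inr ⟨a₂, b₂, n2, t₂, e₂, f₂, z₂, g₂, h.Q_le_CZ γ c2 u hu⟩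
  obtain ⟨p1, p2⟩ := h.prod_mem_R am.symm b₁ b₂ n1.symm n2 n12 hm e₁ f₁ e₂ f₂
  refine Or.inl ⟨_, p1, p2, t₂⁻¹ * z₁ * t₂ * z₂, mul_mem (conj_mem_of_mem_normalizer'
    (stab_le_Nm_vertexZ 2 _ (h.V_le_G am.symm (AmT.Z_le_V b₂ e₂))) g₁) g₂, ?_⟩
  rw [show t₁ * t₂ * (t₂⁻¹ * z₁ * t₂ * z₂) = t₁ * z₁ * (t₂ * z₂) by group]
  exact h.Q_le_CZ γ (h.mulQ aγ.symm (h.Q_le_T' aγ.symm q₁) (h.Q_le_T' aγ.symm q₂) c1 c2) u hu

variable (hn : ¬ Natu M₁ M₂)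
include hn

theorem RZ (a : Adj β α) (hb : TB β) (hx : x ∈ Rv β α) (h1 : x ∈ Zv α) : x ∈ Zv β := by
  by_contra nx
  exact hn (h.natu_of a hb (h.R_le a hb hx nx (h.Zle a.symm hb) h1))

theorem noNm (h3 : 3 ≤ bb) (a : Adj β α) (hb : TB β) (hu : u ∈ Gv α) (nu : u ∉ Gv β)
    (hp : p ∈ Rv β α) (np : p ∉ Zv β) : u * p * u⁻¹ ∉ Rv β α ⊔ Zv α := fun e => by
  have hf := h.finV (n := 1) (by omega) β
  have hf' := finite_of_le (sup_le (h.Rv_le β α) (AmT.Z_le_V a))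
  have h1 : Zv α ≤ cj u⁻¹ (Rv β α ⊔ Zv α) := fun z hz => mem_cj_inv.2
    (mem_sup_right (conj_mem_of_mem_normalizer (stab_le_Nm_vertexZ 2 α hu) hz))
  exact hn (h.natu_of_Nm h3 a hb hu nu (mem_Nm_of_le_cj (sup_le
    (h.R_le a hb hp np ((h.Zle a.symm hb).trans h1) (mem_cj_inv.2 e)) h1)))

theorem notNat_ne_three : bb ≠ 3 := fun h3 => by
  obtain ⟨f, F⟩ := h.exists_Geo
  have a01 := F.adj 0 1
  have a12 := F.adj 1 2
  have ab := (F.adj 2 bb).symm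
  have tb := F.tB bb
  obtain ⟨γ, aγ, nγ⟩ := h.exists_adj_ne ab
  obtain ⟨s, hs, ns⟩ := SetLike.not_le_iff_exists.1 F.crit
  have sT := h.Q_le_T' ab (h.ZQ (F.d 0 2 2) (by omega) hs)
  rcases h.odd_type F (n := 0) (by omega) aγ nγ.symm with ⟨u, hu, uT, nu⟩ | ⟨c, -⟩
  · have nu3 : u ∉ Zv (f bb) := fun e => nu (h.ZQ1 a12.symm (h.Zle ab.symm tb e))
    have ns1 : s ∉ Zv (f 1) := fun e => ns (h.ZQ1 ab.symm (h.Zle a12.symm (F.tB 1) e))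
    have c3 := inv_mem (h.comm_mem_R ab aγ sT hu)
    rw [commutatorElement_inv] at c3
    have d3 := h.comm_not_mem' ab aγ nγ.symm tb sT ns hu nu3
    obtain ⟨g, hg, ng⟩ := h.exists_T ab.symm
    have c1 := h.comm_mem_R a12 a01.symm uT hs
    refine h.noNm hn (by omega) a12 (F.tB 1) hg.1 (h.not_mem_G ab.symm a12.symm
      (F.ne 1 bb).symm hg ng) c1 (h.comm_not_mem' a12 a01.symm (F.ne 0 2).symm (F.tB 1) uT nu hs ns1)
      (conj_mem_of_comm' (mem_sup_left c1) (mem_sup_right (h.Zle ab.symm tb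
        (comm_mem_of_le (h.commR ab tb) c3 (mi hg.2 hg.1)))))
  · obtain ⟨t, ht, nt⟩ := h.exists_Z aγ.symm tb
    exact h.comm_not_mem' ab aγ nγ.symm tb sT ns ht nt (h.RZ hn ab tb (h.comm_mem_R ab aγ sT ht)
      (h.Zle a12.symm (F.tB 1) (comm_mem_of_le' (h.commV (F.tB 1)) (AmT.Z_le_V a01.symm hs) (c ht))))

theorem P2 (ho : bb % 2 = 1) (h5 : 5 ≤ bb) (hb : TB β) (a : Adj α β) (a' : Adj α β')
    (a'' : Adj α β'') (n1 : β ≠ β') (n2 : β ≠ β'') (n12 : β' ≠ β'') :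
    ¬ Gv β ≤ Nm(Rv β' α ⊔ VI 1 β ⊔ (Rv β'' α ⊔ VI 1 β)) := fun hM => by
  have ha := h.notTB a hb
  have hb' := h.tb a' ha
  have hb'' := h.tb a'' ha
  obtain ⟨p', e', f'⟩ := h.exists_R hb' a'.symm
  obtain ⟨p'', e'', f''⟩ := h.exists_R hb'' a''.symm
  have RW : ∀ {γ : Vx}, Adj α γ → Rv γ α ≤ VI 2 α := fun aγ => (h.Rv_le _ _).trans (h.VI_adj aγ 1)
  have WC := h.VC 2 2 (dd_refl α) (by omega)
  have pW := mul_mem (RW a' e') (RW a'' e'')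
  have hp : p' * p'' ∈ Nm(Zv α) := stab_le_Nm_vertexZ 2 α (h.VG 2 (dd_refl α) (by omega) pW)
  have h2 : p' * p'' * (p' * p'') ∈ Zv α := by rw [h.sqV (by omega) pW]; exact one_mem _
  have hZ : Zv α ≤ ext2 (Zv α) _ hp h2 := fun _ => Or.inl
  have hN : VI 2 α ≤ Nm(ext2 (Zv α) _ hp h2) := by
    refine (CfH7.le_Cz_comm (le_trans ?_ WC)).trans (Cz_le_Nm _)
    rintro x (hx | hx)
    · exact AmT.Z_le_VI 2 α hx
    · simpa [mul_assoc] using mul_mem (AmT.Z_le_VI 2 α hx) (inv_mem pW)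
  have key : ∀ {β' β'' : Vx} {p' p'' : X}, Adj α β' → Adj α β'' → β ≠ β' → β ≠ β'' → β' ≠ β'' →
      p' ∈ Rv β' α → p' ∉ Zv β' → p'' ∈ Rv β'' α → p'' ∉ Zv β'' → ∀ x ∈ Rv β' α, ∀ g ∈ Qv β,
      ⁅x, g⁆ ∈ Zv α ∨ ⁅x, g⁆ * (p' * p'') ∈ Zv α := by
    intro β' β'' p' p'' a' a'' n1 n2 n12 e' f' e'' f'' x hx g hg
    have hb' := h.tb a' ha
    have hb'' := h.tb a'' ha
    have gT := h.Q_le_T' a hg
    by_cases ng : g ∈ Qv α
    · exact Or.inl (h.Zle a' hb' (comm_mem_of_le (h.commR a'.symm hb') hx (h.Q_le_T' a'.symm ng)))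
    by_cases nx : x ∈ Zv β'
    · exact Or.inl (commutator_mem_left (h.Zle a' hb' nx) (stab_le_Nm_vertexZ 2 α gT.1))
    have e := h.swap a a' a'' n1 n2 n12 gT ng
    have k1 : g * x⁻¹ * g⁻¹ ∈ Rv β'' α := by
      rw [← e, ← fixv gT.1, h.Rv_smul]; exact conj_mem_cj g (inv_mem hx)
    have k2 : g * x⁻¹ * g⁻¹ ∉ Zv β'' := by rw [← e, cjZ_iff]; simpa using nx
    have k3 := WC (RW a' e') _ (RW a'' k1)
    refine Or.inr ?_
    have := mul_mem (h.Zle a' hb' (h.R_two a'.symm hb' hx e' nx f'))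
      (h.Zle a'' hb'' (h.R_two a''.symm hb'' k1 e'' k2 f''))
    rwa [mul_assoc, ← mul_assoc p', ← k3, show x * (g * x⁻¹ * g⁻¹ * p' * p'') =
      ⁅x, g⁆ * (p' * p'') by rw [commutatorElement_def]; group] at this
  have hV := h.VI_adj a 1
  have cV := (h.commV hb).trans ((h.Zle a hb).trans hZ)
  have hL : ⁅Rv β' α ⊔ VI 1 β ⊔ (Rv β'' α ⊔ VI 1 β), Qv β⁆ ⊔ Zv β ≤ ext2 (Zv α) _ hp h2 := by
    refine sup_le (CfH7.commutator_sup_left_le ((sup_le (RW a') hV).trans hN)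
      ((sup_le (RW a'') hV).trans hN) (CfH7.commutator_sup_left_le ((RW a').trans hN)
      (hV.trans hN) (commutator_le.2 (key a' a'' n1 n2 n12 e' f' e'' f'')) cV)
      (CfH7.commutator_sup_left_le ((RW a'').trans hN) (hV.trans hN) (commutator_le.2
      fun x hx g hg => (key a'' a' n2 n1 n12.symm e'' f'' e' f' x hx g hg).imp_right fun e => ?_)
      cV)) ((h.Zle a hb).trans hZ)
    rwa [WC (RW a' e') _ (RW a'' e'')] at e
  have hk : ¬ Qv α ⊓ Qv β ≤ Cx(p') := fun hc => by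
    obtain ⟨k, k1, k2, k3⟩ := h.nondiag ho ha a'' a n2.symm
    obtain ⟨s, hs, ns⟩ := h.exists_T a'
    have k4 := cjQ k2 s
    rw [h.swap a' a'' a n12 n1.symm n2.symm hs ns] at k4
    have k5 := mem_Cx.1 (hc (mi (fixv hs.1 ▸ cjQ k1 s) k4))
    have k6 := h.Q_le_CZ α k1 _ (h.Zle a' hb' (comm_mem_of_le' (h.commR a'.symm hb') e'
      (mi (inv_mem hs.2) (inv_mem hs.1))))
    refine f' (h.RZ hn a'.symm hb' e' (h.mem_Z_of_Cz ha (h.VQ 2 (dd_refl α) (by omega) (RW a' e'))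
      (h.le_of_two a.symm (h.Q_le_T' a.symm) k1 k3 hc (mem_Cx.2 ?_))
      (h.sqV (by omega) (RW a' e'))))
    calc k * p' = ⁅s⁻¹, p'⁆⁻¹ * (⁅s⁻¹, p'⁆ * k) * p' := by group
      _ = ⁅s⁻¹, p'⁆⁻¹ * s⁻¹ * (s * k * s⁻¹ * p') * s := by rw [k6, commutatorElement_def]; group
      _ = _ := by rw [k5, commutatorElement_def]; group
  obtain ⟨k, hk, nk⟩ := SetLike.not_le_iff_exists.1 hk
  set L := ⁅Rv β' α ⊔ VI 1 β ⊔ (Rv β'' α ⊔ VI 1 β), Qv β⁆ ⊔ Zv β with hLdef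
  have h3 : Zv α ≤ L := h.Z_le_sup a a' n1 hb le_sup_right (h.ZB_le hb'
    (comm_mem_of_le (h.commR a'.symm hb') e' (h.Q_le_T' a'.symm hk.1))
    (fun e => nk (mem_Cx.2 (commutatorElement_eq_one_iff_mul_comm.1 e).symm))
    (mem_sup_left (commutator_mem_commutator (mem_sup_left (mem_sup_left e')) hk.2)))
  have h4 : ∀ μ, Adj β μ → Zv μ ≤ ext2 (Zv α) _ hp h2 := fun μ aμ => by
    obtain ⟨g, hg, rfl⟩ := stab_trans a.symm aμ
    rw [vertexZ_smul]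
    exact ((cj_mono g h3).trans (cj_eq_of_mem_normalizer (mem_Nm_sup (mem_Nm_commutator (hM hg)
      (stab_le_Nm_vertexQ 2 β hg)) (stab_le_Nm_vertexZ 2 β hg))).le).trans hL
  obtain ⟨a₁, b₁, m1⟩ := h.exists_adj_ne a.symm
  obtain ⟨a₂, b₂, m2, m12⟩ := h.exists_third a.symm b₁ m1.symm
  obtain ⟨t₁, e₁, f₁⟩ := h.exists_Z b₁.symm hb
  obtain ⟨t₂, e₂, f₂⟩ := h.exists_Z b₂.symm hb
  obtain ⟨p1, p2⟩ := h.prod_mem_R a.symm b₁ b₂ m1.symm m2 m12 hb e₁ f₁ e₂ f₂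
  exact p2 (h.RZ hn a.symm hb p1 (two_of_le_ext2 le_rfl (h4 a₁ b₁ e₁) (h4 a₂ b₂ e₂)
    (fun e => f₁ (h.ZAA a.symm b₁ m1.symm hb e e₁)) fun e => f₂ (h.ZAA a.symm b₂ m2 hb e e₂)))

theorem notNat_not_ge_five (ho : bb % 2 = 1) : ¬ 5 ≤ bb := fun h5 => by
  obtain ⟨f, F⟩ := h.exists_Geo
  obtain ⟨n, hb⟩ : ∃ n, bb = n + 5 := ⟨bb - 5, by omega⟩
  have a01 := F.adj 0 1
  have a12 := F.adj 1 2
  have ab := (F.adj (n + 4) bb).symm
  have b1 := F.tB 1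
  obtain ⟨γ, aγ, nγ⟩ := h.exists_adj_ne ab
  obtain ⟨m, am, nm⟩ := h.exists_adj_ne a01
  have hm := h.tb am (F.tA 0)
  have cj1 : ∀ {u p z : X}, u * (p * z) = p * z * u → u * p * u⁻¹ = p * ⁅z, u⁆ := fun {u p z} e => by
    calc u * p * u⁻¹ = u * (p * z) * z⁻¹ * u⁻¹ := by group
      _ = _ := by rw [e, commutatorElement_def]; group
  rcases h.odd_type F (n := n + 2) (by omega) aγ nγ.symm with ⟨u, hu, uT, nu⟩ | ⟨c, u, hu, nu⟩
  swap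
  · have uT := h.Q_le_T' a01 (c hu)
    have nu0 := h.not_mem_G a01 am nm.symm uT nu
    have hZ : ∀ z ∈ Zv (f 0), ⁅z, u⁆ ∈ Zv (f 0) := fun z hz =>
      commutator_mem_left hz (stab_le_Nm_vertexZ 2 _ uT.1)
    rcases h.common F hb ho aγ hu am (fun x hx e => h.eq_one_of am hm hx uT.1 nu0 e) with
      ⟨p, hp, np, z, hz, e⟩ | ⟨a, aa, na, t, ht, nt, z, hz, e⟩
    · exact h.noNm hn (by omega) am.symm hm uT.1 nu0 hp np
        (cj1 e ▸ mul_mem (mem_sup_left hp) (mem_sup_right (hZ z hz)))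
    · have := h.not_Nm_sup am uT.1 nu0 (n := 0) (by omega)
        (by rw [h.VI_zero]; exact h.Zle am hm) aa na
      rw [h.VI_zero, h.VI_zero] at this
      have hf := h.finV (n := 1) (by omega) m
      have hf' := finite_of_le (sup_le (AmT.Z_le_V aa) (AmT.Z_le_V am.symm))
      have h1 : Zv (f 0) ≤ cj u⁻¹ (Zv a ⊔ Zv (f 0)) := fun z hz => mem_cj_inv.2
        (mem_sup_right (conj_mem_of_mem_normalizer (stab_le_Nm_vertexZ 2 _ uT.1) hz))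
      exact this (mem_Nm_of_le_cj (sup_le (h.ZA_le aa.symm hm ht nt ((h.Zle am hm).trans h1)
        (mem_cj_inv.2 (cj1 e ▸ mul_mem (mem_sup_left ht) (mem_sup_right (hZ z hz))))) h1))
  have nu0 := h.not_mem_G a12 a01.symm (F.ne 0 2).symm uT nu
  have hZ : ∀ z ∈ Zv (f 0), ⁅z, u⁆ ∈ VI 1 (f 1) := fun z hz =>
    commutator_mem_left (AmT.Z_le_V a01.symm hz) (h.NmV 1 _ uT.1)
  obtain ⟨p, hp, np, e⟩ : ∃ p ∈ Rv m (f 0), p ∉ Zv m ∧ u * p * u⁻¹ ∈ Rv m (f 0) ⊔ VI 1 (f 1) := by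
    rcases h.common F hb ho aγ hu am (fun x hx e => by
      by_contra nx
      refine h.conj_not_mem a01.symm b1 uT.1 nu0 (h.Zle am hm hx)
        (fun e => nx (h.ZZ1 a01 am nm.symm b1 e hx)) ?_
      rw [e, mul_inv_cancel_right]
      exact h.Zle am hm hx) with ⟨p, hp, np, z, hz, e⟩ | ⟨a, aa, na, t, ht, nt, z, hz, e⟩
    · exact ⟨p, hp, np, cj1 e ▸ mul_mem (mem_sup_left hp) (mem_sup_right (hZ z hz))⟩
    · obtain ⟨g, g1, g2, g3⟩ := h.arc3 ho b1 a01.symm (AmT.adj_smul_of_mem a01.symm (inv_mem uT.1))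
        (fun e => nu0 (by simpa using inv_mem (show u⁻¹ ∈ Gv (f 0) from e.symm))) am nm.symm
      have g4 := cjQ g2 u
      rw [smul_inv_smul] at g4
      have gT := h.Q_le_T' am.symm g1
      refine ⟨_, h.comm_mem_R am.symm aa gT ht, h.comm_not_mem' am.symm aa na hm gT g3 ht nt, ?_⟩
      rw [show u * ⁅t, g⁆ * u⁻¹ = ⁅u * t * u⁻¹, u * g * u⁻¹⁆ by
        simp only [commutatorElement_def]; group, cj1 e, commutatorElement_mul_left_eq_conj_mul]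
      exact mul_mem (mem_sup_right (conj_mem_of_mem_normalizer (h.NmV 1 _ (h.ZG
        (h.dR (h.dR (dd_adj aa.symm) am.symm) a01) (by omega) ht)) (commutator_mem_left (hZ z hz)
        (h.NmV 1 _ (h.QG a01 g4))))) (mem_sup_left (h.comm_mem_R am.symm aa (h.Q_le_T' am.symm g4) ht))
  have hf := h.finV (n := 2) (by omega) (f 0)
  have hf' := finite_of_le (sup_le ((h.Rv_le m (f 0)).trans (h.VI_adj am 1)) (h.VI_adj a01 1))
  have h1 : VI 1 (f 1) ≤ cj u⁻¹ (Rv m (f 0) ⊔ VI 1 (f 1)) := fun z hz => mem_cj_inv.2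
    (mem_sup_right (conj_mem_of_mem_normalizer (h.NmV 1 _ uT.1) hz))
  have h2 := mem_Nm_of_le_cj (sup_le (h.R_le am.symm hm hp np
    (((h.Zle am hm).trans (AmT.Z_le_V a01.symm)).trans h1) (mem_cj_inv.2 e)) h1)
  obtain ⟨m', am', n1, n2⟩ := h.exists_third a01 am nm.symm
  have cjY : ∀ g ∈ Gv (f 1) ⊓ Gv (f 0), ∀ m, cj g (Rv m (f 0) ⊔ VI 1 (f 1)) =
      Rv (g • m) (f 0) ⊔ VI 1 (f 1) := fun g hg m => by
    rw [cj_sup, ← h.Rv_smul, ← h.VI_smul, fixv hg.1, fixv hg.2]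
  obtain ⟨g, hg, ng⟩ := h.exists_QQ a01.symm
  have h3 := h.mem_Nm_cj a01.symm (fun y hy => mem_Nm_sup (h.NmR m _ (h.Q_le_T' am.symm hy.1))
    (h.NmV 1 _ (h.QG0 hy.2))) uT.1 h2 hg
  rw [cjY g (h.Q_le_T a01.symm hg), h.swap a01 am am' nm.symm n1 n2 (h.Q_le_T' a01 hg) ng] at h3
  refine h.P2 hn ho h5 b1 a01 am am' nm.symm n1 n2 (h.G_le' a01.symm uT.1 nu0 (fun y hy => ?_)
    (mem_Nm_sup h2 h3))
  rw [mem_normalizer_iff_cj, cj_sup, cjY y hy, cjY y hy]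
  by_cases ny : y ∈ Qv (f 0)
  · rw [fixv (h.QG am ny), fixv (h.QG am' ny)]
  · rw [h.swap a01 am am' nm.symm n1 n2 (mi hy.2 hy.1) ny,
      h.swap a01 am' am n1 nm.symm n2.symm (mi hy.2 hy.1) ny, sup_comm]

end AmU

theorem AmG.bound (h : AmG M₁ M₂) {α β : Vx} (a : Adj α β) (hb : TB β) :
    Nat.card (Gv α ⊓ Gv β : Subgroup X) ≤ 2 ^ 7 := by
  have h2 := h.two_le_b
  rcases Nat.mod_two_eq_zero_or_one bb with he | ho
  · have hu : AmU M₁ M₂ := ⟨h, h.even_u2 he⟩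
    have := hu.even_not_ge_six he
    have := h.b_ne_four
    exact hu.bound_two (by omega) a hb
  · have hu : AmU M₁ M₂ := ⟨h, h.odd_u2 ho⟩
    by_cases hn : Natu M₁ M₂
    · have := hu.nat_not_ge_seven hn ho
      have := hu.nat_ne_five hn
      exact hu.bound_three hn (by omega) a hb
    · have := hu.notNat_not_ge_five hn ho
      have := hu.notNat_ne_three hn
      omega

end CfH8
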