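import Cfsg.Agent.OD.Pre
import Cfsg.Agent.H8.Gold8

/-!
# Goldschmidt's bound for amalgams of index `(3, 3)`
-/

set_option autoImplicit false
set_option linter.unusedSectionVars false

namespace CfH8

open Subgroup MulAction CfH9 Cfsg
open scoped commutatorElement
open CfH7 (OZ)

variable {X : Type*} [Group X] {M₁ M₂ : Subgroup X}

local notation "Gv" δ:max => MulAction.stabilizer X δ
local notation "Qv" δ:max => vertexQ 2 δ
local notation "Zv" δ:max => vertexZ 2 δ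
local notation "VI" => vertexVIter 2 M₁ M₂
local notation "Vx" => CosetVertex M₁ M₂
local notation "Adj" => SimpleGraph.Adj (cosetGraph M₁ M₂)
local notation "dd" => SimpleGraph.dist (cosetGraph M₁ M₂)
local notation "bb" => criticalDistance 2 M₁ M₂

theorem gold_top (gen : M₁ ⊔ M₂ = ⊤) (core : ∀ N : Subgroup X, N ≤ M₁ ⊓ M₂ → N.Normal → N = ⊥)
    (h1 : AmSide 3 M₁ (M₁ ⊓ M₂)) (h2 : AmSide 3 M₂ (M₁ ⊓ M₂)) :
    Nat.card (M₁ ⊓ M₂ : Subgroup X) ≤ 2 ^ 7 := by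
  have key : ∀ {P T : Subgroup X}, AmSide 3 P T → P ≤ Cz(OZ 2 T) →
      sylowCenterClosure 2 P ≤ Cz(P) := fun {P T} h e => sylowCenterClosure_le_iff.2 fun S hS => by
    have := h.fin
    obtain ⟨g, hg, rfl⟩ := sylIn_conj h.syl hS
    have : cj g (OZ 2 T) = OZ 2 T := cj_eq_of_mem_normalizer (Cz_le_Nm _ (e hg))
    rw [CfH7.cj_OZ] at this
    exact this.le.trans (CfH7.le_Cz_comm e)
  by_cases c : M₁ ≤ Cz(OZ 2 (M₁ ⊓ M₂)) ∨ M₂ ≤ Cz(OZ 2 (M₁ ⊓ M₂))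
  · have h : AmG M₁ M₂ := ⟨amT_of Nat.prime_three gen core h1 h2, fun δ γ a =>
      edge_ind (P := fun H K => sylowCenterClosure 2 H ≤ Cz(H) ∨ sylowCenterClosure 2 K ≤ Cz(K))
        (fun g H K h => by
          rw [← cj_sylowCenterClosure, ← cj_sylowCenterClosure, ← cj_centralizer, ← cj_centralizer]
          exact h.imp (cj_mono g) (cj_mono g)) (c.imp (key h1) (key h2))
        (c.imp (key h1) (key h2)).symm a⟩
    have a := adj_inl_inr (M₁ := M₁) (M₂ := M₂) 1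
    have s1 : Gv (Sum.inl ((1 : X) : X ⧸ M₁) : Vx) = M₁ := by rw [stab_inl, cj_one]
    have s2 : Gv (Sum.inr ((1 : X) : X ⧸ M₂) : Vx) = M₂ := by rw [stab_inr, cj_one]
    rcases h.alt _ _ a with hb | hb
    · have := h.bound a.symm hb
      rwa [s1, s2, inf_comm] at this
    · have := h.bound a hb
      rwa [s1, s2] at this
  · rw [not_or] at c
    have := h1.fin
    have := finite_of_le h1.syl.le
    have e := card_mul_relIndex (pCoreOf_le_of_sylIn h1.syl)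
    rw [(h1.relIndex_eq Nat.prime_three).1] at e
    rcases (amalgam_S4_top Nat.prime_three gen core h1 h2 c.1 c.2).2.2 with ⟨e1, -⟩ | ⟨e1, -⟩ <;>
      omega

theorem gold_char {P₁ P₂ : Subgroup X}
    (core : ∀ N : Subgroup X, N ≤ P₁ ⊓ P₂ → P₁ ≤ Nm(N) → P₂ ≤ Nm(N) → N = ⊥)
    (h1 : AmSide 3 P₁ (P₁ ⊓ P₂)) (h2 : AmSide 3 P₂ (P₁ ⊓ P₂)) :
    Nat.card (P₁ ⊓ P₂ : Subgroup X) ≤ 2 ^ 7 := by
  set H := P₁ ⊔ P₂ with hH
  have l1 : P₁ ≤ H := le_sup_left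
  have l2 : P₂ ≤ H := le_sup_right
  have := gold_top (M₁ := P₁.subgroupOf H) (M₂ := P₂.subgroupOf H)
    (by rw [← subgroupOf_sup l1 l2, subgroupOf_self]) (fun N hN hn => by
      have h3 : H ≤ Nm(N.map H.subtype) := CfH7.le_normalizer_map_subtype N
      have := core (N.map H.subtype) (map_le_iff_le_comap.2 hN) (l1.trans h3) (l2.trans h3)
      rwa [Subgroup.map_eq_bot_iff_of_injective _ H.subtype_injective] at this)
    (h1.subgroupOf l1) (h2.subgroupOf l2)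
  rwa [show P₁.subgroupOf H ⊓ P₂.subgroupOf H = (P₁ ⊓ P₂).subgroupOf H from rfl,
    card_subgroupOf (inf_le_left.trans l1)] at this

theorem relIndex_two_three {P T : Subgroup X} [Finite P] (hs : SylIn 2 T P)
    (hi : (pCoreOf 2 P).relIndex P = 6) : (pCoreOf 2 P).relIndex T = 2 ∧ T.relIndex P = 3 := by
  haveI := finite_of_le hs.le
  rw [← relIndex_mul_relIndex _ _ _ (pCoreOf_le_of_sylIn hs) hs.le] at hi
  have h2 := sylIn_not_dvd_relIndex hs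
  obtain ⟨n, hn⟩ := (IsPGroup.iff_card (p := 2)).1 hs.pgrp
  obtain ⟨k, -, hk⟩ := (Nat.dvd_prime_pow Nat.prime_two).1
    (hn ▸ relIndex_dvd_card (pCoreOf 2 P) T)
  have h3 : T.relIndex P ∣ 3 :=
    (Nat.Coprime.dvd_mul_left ((Nat.prime_two.coprime_iff_not_dvd.2 h2).symm)).1
      (show T.relIndex P ∣ 2 * 3 from Dvd.intro_left _ hi)
  rcases (Nat.dvd_prime Nat.prime_three).1 h3 with e | e
  · rw [e, hk, mul_one] at hi
    have := Nat.Prime.dvd_of_dvd_pow Nat.prime_three (hi ▸ (by decide : 3 ∣ 6))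
    omega
  · rw [e] at hi
    exact ⟨by omega, e⟩

theorem gold_nonchar {P₁ P₂ T : Subgroup X} [Finite P₁] [Finite P₂]
    (core : ∀ N : Subgroup X, N ≤ T → P₁ ≤ Nm(N) → P₂ ≤ Nm(N) → N = ⊥)
    (s1 : SylIn 2 T P₁) (s2 : SylIn 2 T P₂) (i1 : (pCoreOf 2 P₁).relIndex P₁ = 6)
    (i2 : (pCoreOf 2 P₂).relIndex P₂ = 6) (hc : ¬ P₁ ⊓ Cz(pCoreOf 2 P₁) ≤ pCoreOf 2 P₁) :
    Nat.card T ≤ 2 ^ 7 := by
  obtain ⟨a1, b1⟩ := relIndex_two_three s1 i1
  obtain ⟨a2, b2⟩ := relIndex_two_three s2 i2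
  have q1 := pCoreOf_le_of_sylIn s1
  have q2 := pCoreOf_le_of_sylIn s2
  have n1 : P₁ ≤ Nm(pCoreOf 2 P₁) := CfH7.le_normalizer_pCoreOf P₁
  have n2 : P₂ ≤ Nm(pCoreOf 2 P₂) := CfH7.le_normalizer_pCoreOf P₂
  have hT := finite_of_le s1.le
  have h1 : ∀ N : Subgroup X, N ≤ pCoreOf 2 P₁ → P₂ ≤ Nm(N) → N = ⊥ := fun N hN hn => by
    refine core N (hN.trans q1) ?_ hn
    rcases eq_or_eq_of_relIndex_prime' Nat.prime_three b1 (le_inf s1.le (s2.le.trans hn))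
      inf_le_left with e | e
    · refine absurd (CfH7.le_pCoreOf inf_le_left (CfH7.le_normalizer_inf le_normalizer
        (n1.trans (Nm_le_Nm_Cz _))) (s1.pgrp.to_le ?_)) hc
      rw [← e]
      exact inf_le_inf_left _ ((Cz_anti hN).trans (Cz_le_Nm _))
    · exact e.ge.trans inf_le_right
  haveI : Fintype (P₂ ⧸ T.subgroupOf P₂) := Fintype.ofFinite _
  set D := pCoreOf 2 P₁ ⊓ pCoreOf 2 P₂ with hD
  have hTD : T ≤ Nm(D) := CfH7.le_normalizer_inf (s1.le.trans n1) (s2.le.trans n2)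
  have e0 : ∀ g : P₂, cj ((g : P₂ ⧸ T.subgroupOf P₂).out : X) D = cj (g : X) D := fun g => by
    obtain ⟨t, ht⟩ := QuotientGroup.mk_out_eq_mul (T.subgroupOf P₂) g
    rw [ht, coe_mul, cj_mul, cj_eq_of_mem_normalizer (hTD (mem_subgroupOf.1 t.2))]
  have hK : (⨅ i : P₂ ⧸ T.subgroupOf P₂, cj (i.out : X) D) = ⊥ := by
    have hle : (⨅ i : P₂ ⧸ T.subgroupOf P₂, cj (i.out : X) D) ≤ D := by
      refine (iInf_le _ ((1 : P₂) : P₂ ⧸ T.subgroupOf P₂)).trans ?_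
      rw [e0, coe_one, cj_one]
    have := finite_of_le (hle.trans (inf_le_left.trans q1))
    refine h1 _ (hle.trans inf_le_left) fun g hg => mem_Nm_of_le_cj (le_trans ?_ (le_of_eq
      (show ⨅ i : P₂ ⧸ T.subgroupOf P₂, cj g⁻¹ (cj (i.out : X) D) = _ from ?_)))
    · refine le_iInf fun i => (iInf_le _ (((⟨g, hg⟩⁻¹ * i.out : P₂)) : P₂ ⧸ T.subgroupOf P₂)).trans ?_
      rw [e0, coe_mul, cj_mul]
      rfl
    · ext x
      simp only [mem_iInf, mem_cj_inv]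
  have h2 := relIndex_iInf_le (L := pCoreOf 2 P₂) fun i : P₂ ⧸ T.subgroupOf P₂ => cj (i.out : X) D
  have h3 : ∀ i : P₂ ⧸ T.subgroupOf P₂, (cj (i.out : X) D).relIndex (pCoreOf 2 P₂) ≤ 2 := fun i => by
    rw [← cj_eq_of_mem_normalizer (n2 i.out.2), relIndex_cj, hD, inf_relIndex_right]
    exact (relIndex_le_of_le_right q2 (by omega)).trans a1.le
  have h4 := h2.trans (Finset.prod_le_pow_card _ _ _ fun i _ => h3 i)
  rw [hK, relIndex_bot_left, Finset.card_univ, ← Nat.card_eq_fintype_card] at h4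
  have h5 : Nat.card (P₂ ⧸ T.subgroupOf P₂) = 3 := b2
  have e := card_mul_relIndex q2
  rw [h5] at h4
  rw [a2] at e
  omega

/-- Goldschmidt's bound -/
theorem goldschmidt_bound {P₁ P₂ : Subgroup X} [Finite P₁] [Finite P₂]
    (core : ∀ N : Subgroup X, N ≤ P₁ ⊓ P₂ → P₁ ≤ Nm(N) → P₂ ≤ Nm(N) → N = ⊥)
    (s1 : SylIn 2 (P₁ ⊓ P₂) P₁) (s2 : SylIn 2 (P₁ ⊓ P₂) P₂) (i1 : (pCoreOf 2 P₁).relIndex P₁ = 6)
    (i2 : (pCoreOf 2 P₂).relIndex P₂ = 6) : Nat.card (P₁ ⊓ P₂ : Subgroup X) ≤ 2 ^ 7 := by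
  by_cases c1 : P₁ ⊓ Cz(pCoreOf 2 P₁) ≤ pCoreOf 2 P₁
  · by_cases c2 : P₂ ⊓ Cz(pCoreOf 2 P₂) ≤ pCoreOf 2 P₂
    · exact gold_char core ⟨‹_›, c1, s1, i1⟩ ⟨‹_›, c2, s2, i2⟩
    · exact gold_nonchar (fun N h h1 h2 => core N h h2 h1) s2 s1 i2 i1 c2
  · exact gold_nonchar core s1 s2 i1 i2 c1

end CfH8
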