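import Cfsg.Agent.OD.Pre
import Cfsg.Agent.L.CA
import Cfsg.Agent.L.TC2
/-! Stabiliser chains for coset tables, and normal forms in an extension of degree two. -/
set_option autoImplicit false
open CfH6 CfL MulAction Subgroup
namespace CfH8.ON

/-- one level of a stabiliser chain -/
structure Lev where
  ws : List (List ℕ)
  b : ℕ
  c : ℕ
  m : ℕ
  cert : List (ℕ × ℕ)

def allW : List Lev → List (List ℕ)
  | [] => []
  | l :: ls => l.ws ++ allW ls

noncomputable def chainOk (T : Tab) (d : ℕ) : List Lev → Bool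
  | [] => true
  | l :: ls => Nat.blt l.b T.N && ((allW ls).all fun w => allLt T.nc w && Nat.beq (T.trL w l.b) l.b) &&
      ((allW (l :: ls)).all (allLt T.nc) &&
        Nat.ble l.c (popc d (T.growL (allW (l :: ls)) l.m l.cert (Nat.shiftLeft 1 l.b)))) && chainOk T d ls

section
variable {T : Tab} {G : Type*} [Group G] {ev : ℕ → G}

theorem chain_lw [Finite G] (r : Rep T ev) (d : ℕ) : ∀ ls : List Lev, chainOk T d ls = true →
    ∃ bs : List r.Pt, bs.map (fun p => p.1) = ls.map Lev.b ∧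
      Lw (closure {g | ∃ w ∈ allW ls, evw ev w = g}) bs (ls.map Lev.c).prod
  | [], _ => ⟨[], rfl, Lw.nil _⟩
  | l :: ls, h => by
    simp only [chainOk, Bool.and_eq_true] at h
    obtain ⟨⟨⟨h1, h2⟩, h3⟩, h4⟩ := h
    obtain ⟨bs, e, hl⟩ := chain_lw r d ls h4
    refine ⟨r.pt l.b h1 :: bs, by rw [List.map_cons, List.map_cons, e]; rfl, ?_⟩
    rw [List.map_cons, List.prod_cons]
    refine Lw.cons (closure_mono ?_) ?_ (r.orb_ge (ws := allW (l :: ls))
      (fun w hw => Subgroup.subset_closure (by exact ⟨w, hw, rfl⟩)) _ l.m l.cert l.c d ?_) hl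
    · rintro _ ⟨w, hw, rfl⟩
      exact ⟨w, List.mem_append_right _ hw, rfl⟩
    · rw [closure_le]
      rintro _ ⟨w, hw, rfl⟩
      exact r.words_stab _ _ h2 w hw
    · rw [Bool.and_eq_true]; exact h3

/-- a word is one of the listed words, tested on a base -/
noncomputable def chkK (T : Tab) (k : ℕ) (bs : List ℕ) (ks : List (List ℕ)) (w : List ℕ) : Bool :=
  allLt k w && ks.any fun v => allLt k v && bs.all fun b => Nat.beq (T.trL v (T.trL w b)) b

theorem base_of_chain [Finite G] (r : Rep T ev) (d : ℕ) (ls : List Lev) (h : chainOk T d ls = true)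
    (hc : Nat.card G ≤ (ls.map Lev.c).prod) {k : ℕ} (hk : k ≤ T.nc) {ks : List (List ℕ)} {w : List ℕ}
    (hw : chkK T k (ls.map Lev.b) ks w = true) :
    (∀ x ∈ w, x < k) ∧ ∃ v ∈ ks, (∀ x ∈ v, x < k) ∧ evw ev (w ++ v) = 1 := by
  obtain ⟨bs, e, hl⟩ := chain_lw r d ls h
  rw [chkK, Bool.and_eq_true, List.any_eq_true] at hw
  obtain ⟨h1, v, hv, h2⟩ := hw
  rw [Bool.and_eq_true] at h2
  refine ⟨allLt_sound h1, v, hv, allLt_sound h2.1, (hl.top hc).2 _ fun b hb => (r.fix_iff ?_ b).2 ?_⟩
  · intro x hx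
    rcases List.mem_append.1 hx with h | h
    · exact (allLt_sound h1 x h).trans_le hk
    · exact (allLt_sound h2.1 x h).trans_le hk
  · rw [Tab.Good.trL_append]
    exact Nat.eq_of_beq_eq_true (List.all_eq_true.1 h2.2 b.1 (e ▸ List.mem_map.2 ⟨b, hb, rfl⟩))

/-- move the letter `4` to the right -/
noncomputable def nfw (A : List (List ℕ)) (z : List ℕ) (w : List ℕ) : Bool → List ℕ :=
  List.rec (fun e => Bool.rec [] [4] e) (fun l _ ih e => Bool.rec
    (Bool.rec (l :: ih false) (ih true) (Nat.beq l 4))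
    (Bool.rec (A.getD l [] ++ ih true) (z ++ ih false) (Nat.beq l 4)) e) w

theorem evw_nfw {A : List (List ℕ)} {z : List ℕ} (h1 : ∀ l, l ≠ 4 → ev 4 * ev l = evw ev (A.getD l []) * ev 4)
    (h2 : ev 4 * ev 4 = evw ev z) (w : List ℕ) :
    evw ev (nfw A z w false) = evw ev w ∧ evw ev (nfw A z w true) = ev 4 * evw ev w := by
  induction w with
  | nil => exact ⟨rfl, by simp [nfw]⟩
  | cons l w ih =>
    have e1 : nfw A z (l :: w) false = Bool.rec (l :: nfw A z w false) (nfw A z w true) (Nat.beq l 4) := rfl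
    have e2 : nfw A z (l :: w) true =
      Bool.rec (A.getD l [] ++ nfw A z w true) (z ++ nfw A z w false) (Nat.beq l 4) := rfl
    rw [e1, e2]
    cases h : Nat.beq l 4 with
    | false =>
      have hl : l ≠ 4 := fun e => by rw [e] at h; cases h
      refine ⟨by simp [ih.1], ?_⟩
      simp only [evw_append, evw_cons, ih.2]
      rw [← mul_assoc, ← h1 l hl, mul_assoc]
    | true =>
      obtain rfl := Nat.eq_of_beq_eq_true h
      refine ⟨by simp [ih.2], ?_⟩
      simp only [evw_append, evw_cons, ih.1]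
      rw [← h2, mul_assoc]
end

end CfH8.ON
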