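import Cfsg.Agent.OD.Pre
import Cfsg.Agent.H8.ONU
import Cfsg.Agent.OD.Helper8x40a7b24b35
/-! The word problem in central extensions of `L₃(4)` by groups of exponent four, and in their extensions of degree
two. -/
set_option autoImplicit false
set_option maxRecDepth 100000
open CfH6 CfL
namespace CfH8.ON

variable {G : Type*} [Group G]

def ev5 (x y w : G) : ℕ → G := fun k => [x, x⁻¹, y, y⁻¹, w].getD k 1
def il4 : List ℕ := [1, 0, 3, 2]
def wp : List ℕ := [2, 0, 2, 0, 2, 0, 2, 0, 2, 0]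
def wq : List ℕ := [2, 2, 0, 2, 2, 0, 2, 2, 0]
def wr : List ℕ := [3, 3, 3, 1, 2, 0, 3, 3, 3, 1, 2, 0]

theorem ev5_inv (x y w : G) : ∀ l < 4, ev5 x y w (il4.getD l 0) = (ev5 x y w l)⁻¹ := by
  intro l hl
  interval_cases l <;> simp [ev5, il4]

theorem evw_iv (x y w : G) (v : List ℕ) (hv : allLt 4 v = true) :
    evw (ev5 x y w) (invw il4 v) = (evw (ev5 x y w) v)⁻¹ :=
  evw_invw _ il4 4 (ev5_inv x y w) v (allLt_sound hv)

theorem evw_ev5 (x y w w' : G) (v : List ℕ) (hv : allLt 4 v = true) : evw (ev5 x y w) v = evw (ev5 x y w') v :=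
  evw_congr (k := 4) (fun l hl => by interval_cases l <;> rfl) (allLt_sound hv)

theorem map_ev5 {H : Type*} [Group H] (f : G →* H) (x y w : G) (v : List ℕ) :
    f (evw (ev5 x y w) v) = evw (ev5 (f x) (f y) (f w)) v := by
  rw [map_evw]
  congr 1
  funext l
  rcases l with _ | _ | _ | _ | _ | l <;> simp [ev5]

theorem ev5_mem {K : Subgroup G} {x y w : G} (hx : x ∈ K) (hy : y ∈ K) (hw : w ∈ K) (v : List ℕ) :
    evw (ev5 x y w) v ∈ K := by
  induction v with
  | nil => exact K.one_mem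
  | cons l v ih =>
    rw [evw_cons]
    refine K.mul_mem ?_ ih
    rcases l with _ | _ | _ | _ | _ | l
    exacts [hx, K.inv_mem hx, hy, K.inv_mem hy, hw, K.one_mem]

theorem ev5_mem4 {K : Subgroup G} {x y : G} (hx : x ∈ K) (hy : y ∈ K) (w : G) (v : List ℕ) (hv : allLt 4 v = true) :
    evw (ev5 x y w) v ∈ K := by
  rw [evw_ev5 x y w 1 v hv]; exact ev5_mem hx hy K.one_mem v

/-- the relations of the cover -/
structure UR (x y : G) : Prop where
  x3 : x * x * x = 1
  y7 : y ^ 7 = 1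
  Z : ∃ Z : Subgroup G, (∀ z ∈ Z, z * x = x * z ∧ z * y = y * z ∧ z ^ 4 = 1) ∧ (∀ a ∈ Z, ∀ b ∈ Z, a * b = b * a) ∧
    evw (ev5 x y 1) wp ∈ Z ∧ evw (ev5 x y 1) wq ∈ Z ∧ evw (ev5 x y 1) wr ∈ Z

theorem U_fin : Finite (WP 10 Uil Urels) ∧ Nat.card (WP 10 Uil Urels) ≤ 322560 := by
  have h1 := (HC_cov (byW (wel 10 Uil Urels) [[2], [3], [4], [5], [6], [7]]) ⊥
    (byW_inv _ (n := 4) (wp_inv _ _ _) (wp_rel _ _ _) (by decide +kernel))
    (byW_rels _ (n := 4) (wp_inv _ _ _) (wp_rel _ _ _) (by decide +kernel)) (by simp [HC_subs])).card_le bot_fin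
  have h2 := (UC_cov (wel 10 Uil Urels) _ (wp_inv _ _ _) (wp_rel _ _ _) (by
    simp only [UC_subs, List.forall_mem_cons]
    exact ⟨mem_gensub (x := 0) (by decide), mem_gensub (x := 2) (by decide), mem_gensub (x := 4) (by decide),
      forall_nil⟩)).card_le h1
  rw [wp_top] at h2
  exact fin_top h2

noncomputable def cK (ks : List (List ℕ)) (v : List ℕ) : Bool := chkK UT 4 [0, 224, 1] ks v

theorem comm_rel {a b : G} (h : a * b = b * a) : a⁻¹ * (b⁻¹ * (a * (b * 1))) = 1 := by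
  rw [mul_one, h]; group

theorem pow4_rel {a : G} (h : a ^ 4 = 1) : a * (a * (a * (a * 1))) = 1 := by
  simpa [pow_succ, mul_assoc] using h

theorem UR.one {x y : G} (h : UR x y) (w : G) {ks : List (List ℕ)} (hk : ∀ k ∈ ks, evw (ev5 x y w) k = 1)
    (v : List ℕ) (hc : cK ks v = true) : evw (ev5 x y w) v = 1 := by
  obtain ⟨r⟩ := UT_act.rep
  have := U_fin.1
  obtain ⟨h1, k, hk', h2, h3⟩ := base_of_chain (G := WP 10 Uil Urels) r 9 Uch Uch_ok U_fin.2 (k := 4) (by decide) hc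
  obtain ⟨Z, z1, z2, zp, zq, zr⟩ := h.Z
  generalize hp : evw (ev5 x y 1) wp = p at zp
  generalize hq : evw (ev5 x y 1) wq = q at zq
  generalize hr : evw (ev5 x y 1) wr = r at zr
  obtain ⟨ρ, hρ⟩ := wp_hom 10 Uil Urels (by decide) (fun l => [x, x⁻¹, y, y⁻¹, p, p⁻¹, q, q⁻¹, r, r⁻¹].getD l 1)
    (by intro l hl; interval_cases l <;> simp [Uil]) (by
      simp only [Urels, List.forall_mem_cons, evw_cons, evw_nil, List.getD_cons_succ, List.getD_cons_zero]
      refine ⟨by simpa [mul_assoc] using h.x3, by simpa [pow_succ, mul_assoc] using h.y7, ?_, ?_, ?_,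
        comm_rel (z1 p zp).1, comm_rel (z1 p zp).2.1, comm_rel (z1 q zq).1, comm_rel (z1 q zq).2.1,
        comm_rel (z1 r zr).1, comm_rel (z1 r zr).2.1, comm_rel (z2 p zp q zq), pow4_rel (z1 p zp).2.2,
        pow4_rel (z1 q zq).2.2, pow4_rel (z1 r zr).2.2, forall_nil⟩
      · rw [← hp]; simp [wp, ev5, mul_assoc]
      · rw [← hq]; simp [wq, ev5, mul_assoc]
      · rw [← hr]; simp [wr, ev5, mul_assoc])
  have h4 : ∀ l ∈ v ++ k, l < 4 := fun l hl => (List.mem_append.1 hl).elim (h1 l) (h2 l)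
  have h5 := hom_evw hρ (v ++ k) fun l hl => (h4 l hl).trans (by decide)
  replace h3 : evw (wel 10 Uil Urels) (v ++ k) = 1 := h3
  rw [h3, map_one, evw_congr (ev' := ev5 x y w) (k := 4) (fun l hl => by interval_cases l <;> rfl) h4, evw_append,
    hk k hk', mul_one] at h5
  exact h5.symm

theorem nil_one (x y w : G) : ∀ k ∈ [([] : List ℕ)], evw (ev5 x y w) k = 1 := by simp

theorem UR.eq {x y : G} (h : UR x y) (w : G) {ks : List (List ℕ)} (hk : ∀ k ∈ ks, evw (ev5 x y w) k = 1)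
    (u v : List ℕ) (hc : (allLt 4 v && cK ks (u ++ invw il4 v)) = true) : evw (ev5 x y w) u = evw (ev5 x y w) v := by
  rw [Bool.and_eq_true] at hc
  have := h.one w hk _ hc.2
  rwa [evw_append, evw_iv x y w v hc.1, mul_inv_eq_one] at this

/-- substitution of a word for the second generator -/
def sg (Y : List ℕ) : List (List ℕ) := [[0], [1], Y, invw il4 Y]

theorem evw_sg (x y w w' : G) {Y : List ℕ} (hY : allLt 4 Y = true) (v : List ℕ) (hv : allLt 4 v = true) :
    evw (ev5 x y w) (subst (sg Y) v) = evw (ev5 x (evw (ev5 x y w) Y) w') v := by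
  rw [evw_subst]
  refine evw_congr (k := 4) (fun l hl => ?_) (allLt_sound hv)
  interval_cases l
  · simp [byW, sg, ev5]
  · simp [byW, sg, ev5]
  · rfl
  · exact evw_iv x y w Y hY

theorem conj_ev5 (x y w : G) (v : List ℕ) (hv : allLt 4 v = true) :
    w * evw (ev5 x y 1) v * w⁻¹ = evw (ev5 (w * x * w⁻¹) (w * y * w⁻¹) 1) v := by
  have := map_ev5 (MulAut.conj w).toMonoidHom x y 1 v
  simpa using this

/-- an extension of degree two -/
structure Sit (x y w : G) (Y z : List ℕ) (ks : List (List ℕ)) : Prop where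
  ur : UR x y
  lt : allLt 4 Y = true
  cx : w * x = x * w
  cy : w * y = evw (ev5 x y w) Y * w
  sq : w * w = evw (ev5 x y w) z
  ks : ∀ k ∈ ks, evw (ev5 x y w) k = 1

noncomputable def cC (Y z : List ℕ) (ks : List (List ℕ)) (v : List ℕ) : Bool := cK ks (nfw (sg Y) z v false)

theorem Sit.one {x y w : G} {Y z : List ℕ} {ks : List (List ℕ)} (h : Sit x y w Y z ks) (v : List ℕ)
    (hc : cC Y z ks v = true) : evw (ev5 x y w) v = 1 := by
  rw [← (evw_nfw (ev := ev5 x y w) (A := sg Y) (z := z) ?_ h.sq v).1]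
  · exact h.ur.one w h.ks _ hc
  intro l hl
  change w * _ = _ * w
  rcases l with _ | _ | _ | _ | _ | l
  · simpa [sg, ev5] using h.cx
  · simpa [sg, ev5] using (Commute.inv_right h.cx).eq
  · exact h.cy
  · change w * y⁻¹ = evw (ev5 x y w) (invw il4 Y) * w
    rw [evw_iv x y w Y h.lt, eq_inv_mul_iff_mul_eq, ← mul_assoc, ← h.cy, mul_inv_cancel_right]
  · exact absurd rfl hl
  · simp [sg, ev5]

theorem Sit.eq {x y w : G} {Y z : List ℕ} {ks : List (List ℕ)} (h : Sit x y w Y z ks) (u v : List ℕ)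
    (hc : (allLt 4 v && cC Y z ks (u ++ invw il4 v)) = true) : evw (ev5 x y w) u = evw (ev5 x y w) v := by
  rw [Bool.and_eq_true] at hc
  have := h.one _ hc.2
  rwa [evw_append, evw_iv x y w v hc.1, mul_inv_eq_one] at this

/-- relators on new letters -/
theorem Sit.rels {x y w : G} {Y z : List ℕ} {ks : List (List ℕ)} (h : Sit x y w Y z ks) (σ rs : List (List ℕ))
    (hc : (rs.all fun r => cC Y z ks (subst σ r)) = true) : ∀ r ∈ rs, evw (byW (ev5 x y w) σ) r = 1 := fun r hr => by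
  rw [← evw_subst]; exact h.one _ (List.all_eq_true.1 hc r hr)

theorem UR.rels {x y : G} (h : UR x y) (w : G) {ks : List (List ℕ)} (hk : ∀ k ∈ ks, evw (ev5 x y w) k = 1)
    (σ rs : List (List ℕ)) (hc : (rs.all fun r => cK ks (subst σ r)) = true) :
    ∀ r ∈ rs, evw (byW (ev5 x y w) σ) r = 1 := fun r hr => by
  rw [← evw_subst]; exact h.one w hk _ (List.all_eq_true.1 hc r hr)

end CfH8.ON
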