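import Cfsg.Agent.OD.Pre
import Cfsg.Agent.H6.L7M
import Cfsg.Agent.H9.SylIn
/-! The O'Nan group: a Sylow 7-subgroup and an outer automorphism. -/
set_option autoImplicit false
set_option maxRecDepth 100000
set_option Elab.async false
namespace CfH8.ONS
open CfH6 MulAction
attribute [local instance] ONA.act

abbrev P : Type := ONB.G

noncomputable def c3 (w : List ℕ) : Bool := allLt 8 w && Nat.beq (appW ONA.nets0 w 13) 13 &&
  Nat.beq (appW ONA.nets0 w 6) 6 && Nat.beq (appW ONA.nets0 w 40) 40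

theorem one3 {w : List ℕ} (h : c3 w = true) : evw ONB.el w = 1 := by
  simp only [c3, Bool.and_eq_true, Nat.beq_eq] at h
  refine ONG.base _ fun b hb => ?_
  have b6 : b < 6 := by revert b; decide
  have k : ∀ X, appW ONA.nets0 w X = X → X.testBit b = X.testBit (evw ONB.el w • b) := fun X e => by
    rw [ONA.L0.word (allLt_sound h.1.1.1) (by omega), ← testBit_appW ONA.L0.ok, e]
  have k1 := k _ h.1.1.2
  have k2 := k _ h.1.2
  have k3 := k _ h.2
  clear k
  generalize evw ONB.el w • b = j at k1 k2 k3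
  by_cases c : j < 6
  · revert k1 k2 k3; revert j; revert b; decide
  · have : ∀ X < 2 ^ 6, X.testBit j = false := fun X hX =>
      Nat.testBit_lt_two_pow (hX.trans_le (Nat.pow_le_pow_right (by decide) (by omega)))
    rw [this _ (by decide)] at k1 k2 k3
    exfalso
    revert b; decide

theorem testBit_loop1 (f : ℕ → ℕ) (i a n : ℕ) (h : ∀ c, (f c).testBit i = false) : (loop1 f a n).testBit i = false := by
  induction n with
  | zero => exact Nat.zero_testBit i
  | succ n ih =>
    change Nat.testBit (f (a + n) ||| loop1 f a n) i = false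
    rw [Nat.testBit_or, h, ih]; rfl

/-- the points moved by a word -/
noncomputable def mvd (w : List ℕ) : ℕ :=
  loop1 (fun j => force (plane 131072 17 j) fun x => Nat.xor (appW ONA.nets0 w x) x) 0 17

theorem mvd_spec {w : List ℕ} (hw : allLt 8 w = true) {i : ℕ} (hi : i < 131072) (h : evw ONB.el w • i = i) :
    (mvd w).testBit i = false := by
  refine testBit_loop1 _ _ _ _ fun c => ?_
  rw [force_eq]
  change Nat.testBit (appW ONA.nets0 w (plane 131072 17 c) ^^^ plane 131072 17 c) i = false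
  rw [Nat.testBit_xor, testBit_appW ONA.L0.ok, ← ONA.L0.word (allLt_sound hw) hi, h, Bool.xor_self]

def wZ : List ℕ := [4, 5, 3, 4, 5, 2]
def wA : List ℕ := [6, 7, 5, 6, 3, 4, 5, 2, 3, 4, 5, 6, 5, 3, 4, 5, 3, 4, 5, 6, 7, 3, 4, 5, 6, 3]
def wB : List ℕ := [0, 5, 1, 5] ++ wA ++ invw ONB.il [0, 5, 1, 5]
def al : List (List ℕ) := [[4, 5, 0, 5, 4, 2], [2, 4, 5, 1, 5, 4], [2], [3], [4], [1, 5, 0], [1, 6, 0], [7]]
def lq : List ℕ := [0, 118805, 121697, 119759, 119971, 120384, 120284]
def lr : List ℕ := [80, 115803, 115434, 114391, 115661, 115437, 115454]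
noncomputable def A : P := evw ONB.el wA
noncomputable def B : P := evw ONB.el wB
noncomputable def Z : P := evw ONB.el wZ

def bits (l : List ℕ) : ℕ := List.rec 0 (fun p _ ih => Nat.lor (Nat.shiftLeft 1 p) ih) l

theorem mem_bits {l : List ℕ} {i : ℕ} (h : (bits l).testBit i = true) : i ∈ l := by
  induction l with
  | nil => exact absurd h (by simp [bits])
  | cons p l ih =>
    change Nat.testBit (1 <<< p ||| bits l) i = true at h
    rw [Nat.testBit_or, Bool.or_eq_true, Nat.one_shiftLeft, Nat.testBit_two_pow, decide_eq_true_eq] at h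
    exact h.elim (fun e => e ▸ List.mem_cons_self) fun e => List.mem_cons_of_mem _ (ih e)

theorem fixZ {i : ℕ} (hi : i ∈ orbit P 0) (h : Z • i = i) : i ∈ 116667 :: (lq ++ lr) := by
  rw [← orbit_top] at hi
  have h1 : ONA.U.testBit i = true := orbit_sub_of_card ONG.stab.1 ONG.stab.2 (by decide) ONA.subU ONA.cU hi
  have h2 : i < 131072 := by
    by_contra hc
    have : ONA.U < 2 ^ 131072 := by decide +kernel
    rw [Nat.testBit_lt_two_pow (this.trans_le (Nat.pow_le_pow_right (by decide) (by omega)))] at h1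
    exact absurd h1 (by decide)
  have h4 : ONA.U = mvd wZ ||| bits (116667 :: (lq ++ lr)) := by decide +kernel
  rw [h4, Nat.testBit_or, mvd_spec (by decide) h2 h, Bool.false_or] at h1
  exact mem_bits h1

theorem iw (w : List ℕ) (h : allLt 8 w = true) : evw ONB.el (invw ONB.il w) = (evw ONB.el w)⁻¹ :=
  evw_invw _ _ 8 ONB.hinv w (allLt_sound h)

theorem eq3 {u v : List ℕ} (h : (allLt 8 v && c3 (u ++ invw ONB.il v)) = true) : evw ONB.el u = evw ONB.el v := by
  rw [Bool.and_eq_true] at h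
  have := one3 h.2
  rwa [evw_append, iw v h.1, mul_inv_eq_one] at this

theorem A7 : A ^ 7 = 1 := (evw_wpow _ _ _).symm.trans (one3 (by decide +kernel))
theorem Z7 : Z ^ 7 = 1 := (evw_wpow _ _ _).symm.trans (one3 (by decide +kernel))
theorem B7 : B ^ 7 = 1 := by
  rw [B, wB, evw_append, evw_append, iw _ rfl, conj_pow, ← A, A7, mul_one, mul_inv_cancel]
theorem AZ : A * Z = Z * A := by
  rw [A, Z, ← evw_append, ← evw_append]; exact eq3 (by decide +kernel)
theorem BZ : B * Z = Z * B := by
  rw [B, Z, ← evw_append, ← evw_append]; exact eq3 (by decide +kernel)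
theorem BA : B * A = A * B * Z := by
  rw [A, B, Z, ← evw_append, ← evw_append, ← evw_append]; exact eq3 (by decide +kernel)
theorem Z1 : Z ≠ 1 := ONA.L0.ne_one wZ 1 (by decide +kernel)

theorem al1 : ((ONB.rels.take 17).all fun r => c3 (subst al r)) = true := by decide +kernel
theorem al2 : (((ONB.rels.drop 17).take 3).all fun r => c3 (subst al r)) = true := by decide +kernel
theorem al3 : ((ONB.rels.drop 20).all fun r => c3 (subst al r)) = true := by decide +kernel

theorem exAl : ∃ α : P ≃* P, ∀ w, allLt 8 w = true → α (evw ONB.el w) = evw ONB.el (subst al w) := by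
  obtain ⟨ρ, hρ⟩ := ONB.hhom (byW ONB.el al) (byW_inv ONB.el (n := 4) ONB.hinv ONB.hrel (by decide +kernel)) fun r hr => by
    rw [← evw_subst]
    rw [← List.take_append_drop 17 ONB.rels, ← List.take_append_drop 3 (ONB.rels.drop 17), List.mem_append,
      List.mem_append] at hr
    rcases hr with h | h | h
    exacts [one3 (List.all_eq_true.1 al1 r h), one3 (List.all_eq_true.1 al2 r h), one3 (List.all_eq_true.1 al3 r h)]
  have := ONG.simple
  have := ONO.finG.1
  have hi := inj_of_simple ρ (g := ONB.el 7) (by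
    rw [hρ 7 (by decide)]; exact ONA.L0.ne_one [7] 2 (by decide +kernel))
  exact ⟨MulEquiv.ofBijective ρ (Finite.injective_iff_bijective.1 hi), fun w hw => by
    rw [evw_subst]; exact hom_evw hρ w (allLt_sound hw)⟩

def pt (l : List ℕ) (n : ZMod 7) : ℕ := l.getD n.val 0
def Tr (l : List ℕ) (x : P) (j : ZMod 7) : Prop := ∀ n, x • pt l n = pt l (n + j)

theorem Tr.mul {l : List ℕ} {x y : P} {i j : ZMod 7} (h : Tr l x i) (h' : Tr l y j) : Tr l (x * y) (i + j) := fun n => by
  rw [mul_smul, h', h]; congr 1; ring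

theorem Tr.zpow {l : List ℕ} {x : P} {i : ZMod 7} (h : Tr l x i) (m : ℤ) : Tr l (x ^ m) (m * i) := by
  induction m with
  | zero => intro n; simp
  | succ m ih => simpa [zpow_add_one, add_mul] using ih.mul h
  | pred m ih =>
    have : Tr l x⁻¹ (-i) := fun n => by rw [inv_smul_eq_iff, h]; congr 1; ring
    rw [zpow_sub_one]
    convert ih.mul this using 1
    push_cast; ring

noncomputable def trChk (w l : List ℕ) (j : ℕ) : Bool := allLt 8 w && (List.range 7).all fun n =>
  Nat.blt (l.getD n 0) 131072 && Nat.beq (chkMap ONA.nets0 w (l.getD n 0) (l.getD ((n + j) % 7) 0)) 0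

theorem tr_of {w l : List ℕ} (j : ℕ) (h : trChk w l j = true) : Tr l (evw ONB.el w) j := fun n => by
  rw [trChk, Bool.and_eq_true] at h
  have := List.all_eq_true.1 h.2 n.val (List.mem_range.2 n.val_lt)
  rw [Bool.and_eq_true] at this
  rw [pt, ONA.L0.map h.1 this.1 this.2, pt, ZMod.val_add, ZMod.val_natCast, Nat.add_mod_mod]

structure Co (x : P) (i j : ZMod 7) : Prop where
  p : x • 116667 = 116667
  r : Tr lr x i
  q : Tr lq x j

theorem Co.mul {x y : P} {i j k l : ZMod 7} (h : Co x i j) (h' : Co y k l) : Co (x * y) (i + k) (j + l) :=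
  ⟨by rw [mul_smul, h'.p, h.p], h.r.mul h'.r, h.q.mul h'.q⟩

theorem Co.zpow {x : P} {i j : ZMod 7} (h : Co x i j) (m : ℤ) : Co (x ^ m) (m * i) (m * j) :=
  ⟨(stabilizer P 116667).zpow_mem h.p m, h.r.zpow m, h.q.zpow m⟩

theorem coA : Co A 1 0 := ⟨ONA.L0.map rfl rfl (by decide +kernel), tr_of 1 (by decide +kernel), tr_of 0 (by decide +kernel)⟩
theorem coB : Co B 0 1 := ⟨ONA.L0.map rfl rfl (by decide +kernel), tr_of 0 (by decide +kernel), tr_of 1 (by decide +kernel)⟩
theorem coZ : Co Z 0 0 := ⟨ONA.L0.map rfl rfl (by decide +kernel), tr_of 0 (by decide +kernel), tr_of 0 (by decide +kernel)⟩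
theorem coA1 : Tr lr (evw ONB.el (subst al wA)) 5 := tr_of 5 (by decide +kernel)
theorem coA2 : Tr lq (evw ONB.el (subst al wA)) 5 := tr_of 5 (by decide +kernel)
theorem coB1 : Tr lr (evw ONB.el (subst al wB)) 2 := tr_of 2 (by decide +kernel)
theorem coB2 : Tr lq (evw ONB.el (subst al wB)) 5 := tr_of 5 (by decide +kernel)

theorem exAl' : ∃ α : P ≃* P, Co (α A) 5 5 ∧ Co (α B) 2 5 ∧ α Z = Z := by
  obtain ⟨α, h⟩ := exAl
  refine ⟨α, ?_, ?_, (h _ rfl).trans (eq3 (by decide +kernel))⟩
  · rw [A, h _ rfl]; exact ⟨ONA.L0.map (by decide) rfl (by decide +kernel), coA1, coA2⟩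
  · rw [B, h _ (by decide)]; exact ⟨ONA.L0.map (by decide) rfl (by decide +kernel), coB1, coB2⟩

theorem Co.only {x : P} {i j : ZMod 7} (h : Co x i j) (hi : i ≠ 0) (hj : j ≠ 0) {p : ℕ} (hp : p ∈ orbit P 0)
    (hz : Z • p = p) (hx : x • p = p) : p = 116667 := by
  have k : ∀ l, (∀ n j, pt l (n + j) = pt l n → j = 0) → (∀ p ∈ l, ∃ n, pt l n = p) → ∀ j, j ≠ 0 → Tr l x j → p ∉ l :=
    fun l h1 h2 j hj ht hp => by
      obtain ⟨n, rfl⟩ := h2 p hp
      exact hj (h1 n j ((ht n).symm.trans hx))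
  rcases List.mem_cons.1 (fixZ hp hz) with e | e
  · exact e
  · exact ((List.mem_append.1 e).elim (k lq (by decide) (by decide) j hj h.q) (k lr (by decide) (by decide) i hi h.r)).elim

theorem mem_orb : ∀ b ∈ [0, 80, 116667], b ∈ orbit P 0 := base_mem ONA.subU _ (by decide +kernel)

end CfH8.ONS
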