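import Cfsg.Agent.OD.Pre
import Cfsg.Agent.H8.ON9
import Cfsg.Agent.OD.Helper8x7d6f5a4be8
/-! The O'Nan group: subgroups isomorphic to `L₃(7)`. -/
set_option autoImplicit false
set_option maxRecDepth 100000
set_option Elab.async false
namespace CfH8.ONS
open CfH6 MulAction Subgroup CfH9
attribute [local instance] ONA.act

@[ext] structure Hs where
  i : ℤ
  j : ℤ
  k : ℤ

instance : Mul Hs := ⟨fun a b => ⟨a.i + b.i, a.j + b.j, a.k + b.k + a.j * b.i⟩⟩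
instance : One Hs := ⟨⟨0, 0, 0⟩⟩
instance : Inv Hs := ⟨fun a => ⟨-a.i, -a.j, a.i * a.j - a.k⟩⟩
theorem Hs.mul_def (a b : Hs) : a * b = ⟨a.i + b.i, a.j + b.j, a.k + b.k + a.j * b.i⟩ := rfl
instance : Group Hs := Group.ofLeftAxioms (fun a b c => by ext <;> simp only [Hs.mul_def] <;> ring)
  (fun a => by ext <;> simp only [Hs.mul_def] <;> simp [show (1 : Hs) = ⟨0, 0, 0⟩ from rfl])
  fun a => by
    change Hs.mk (-a.i + a.i) (-a.j + a.j) (a.i * a.j - a.k + a.k + -a.j * a.i) = ⟨0, 0, 0⟩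
    ext <;> simp only <;> ring

section
variable {G : Type*} [Group G] {a b z : G}

def heis (h1 : a * z = z * a) (h2 : b * z = z * b) (h3 : b * a = a * b * z) : Hs →* G :=
  MonoidHom.mk' (fun h => a ^ h.i * b ^ h.j * z ^ h.k) fun u v => by
    have c1 : Commute a z := h1
    have c2 : Commute b z := h2
    have e1 : ∀ i : ℤ, (a ^ i)⁻¹ * b * a ^ i = b * z ^ i := fun i => by
      have : b * a * b⁻¹ = a * z := by rw [h3, mul_assoc a, h2, ← mul_assoc, mul_inv_cancel_right]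
      have e : b * a ^ i * b⁻¹ = a ^ i * z ^ i := by rw [← conj_zpow, this, c1.mul_zpow]
      rw [mul_assoc, mul_inv_eq_iff_eq_mul.1 e, mul_assoc, inv_mul_cancel_left, (c2.zpow_right i).eq]
    have e2 : b ^ u.j * a ^ v.i = a ^ v.i * b ^ u.j * z ^ (u.j * v.i) := by
      have := conj_zpow (i := u.j) (a := (a ^ v.i)⁻¹) (b := b)
      rw [inv_inv, e1, (c2.zpow_right _).mul_zpow, ← zpow_mul, mul_comm v.i] at this
      rw [mul_assoc, this]; group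
    simp only [Hs.mul_def, zpow_add]
    have d1 := (c1.zpow_zpow v.i u.k).eq
    have d2 := (c2.zpow_zpow v.j u.k).eq
    have d3 := (c2.zpow_zpow v.j (u.j * v.i)).eq
    calc _ = a ^ u.i * (a ^ v.i * b ^ u.j) * (b ^ v.j * z ^ (u.j * v.i)) * z ^ u.k * z ^ v.k := by group
      _ = a ^ u.i * (a ^ v.i * b ^ u.j * z ^ (u.j * v.i)) * (b ^ v.j * z ^ u.k) * z ^ v.k := by
        rw [d3]; simp only [mul_assoc]
      _ = a ^ u.i * b ^ u.j * (a ^ v.i * z ^ u.k) * b ^ v.j * z ^ v.k := by rw [← e2, d2]; simp only [mul_assoc]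
      _ = _ := by rw [d1]; simp only [mul_assoc]

theorem heis_p (h1 : a * z = z * a) (h2 : b * z = z * b) (h3 : b * a = a * b * z) (a7 : a ^ 7 = 1) (b7 : b ^ 7 = 1)
    (z7 : z ^ 7 = 1) : IsPGroup 7 (heis h1 h2 h3).range := by
  rintro ⟨_, u, rfl⟩
  refine ⟨1, Subtype.ext ?_⟩
  have : u ^ 7 = ⟨7 * u.i, 7 * u.j, 7 * (u.k + 3 * u.i * u.j)⟩ := by
    simp only [pow_succ, pow_zero, one_mul, Hs.mul_def]
    ext <;> simp only <;> ring
  change heis h1 h2 h3 u ^ 7 ^ 1 = 1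
  rw [pow_one, ← map_pow, this]
  change a ^ (7 * _ : ℤ) * b ^ (7 * _ : ℤ) * z ^ (7 * _ : ℤ) = 1
  simp only [zpow_mul, zpow_ofNat, a7, b7, z7, one_zpow, mul_one]

theorem mem_of_zpow {K : Subgroup G} (z7 : z ^ 7 = 1) {m : ℤ} (hm : (m : ZMod 7) ≠ 0) (h : z ^ m ∈ K) : z ∈ K := by
  obtain ⟨u, hu⟩ : ∃ u : ℤ, (7 : ℤ) ∣ m * u - 1 := by
    have : ∀ x : ZMod 7, x ≠ 0 → ∃ y, x * y = 1 := by decide
    obtain ⟨y, hy⟩ := this _ hm
    exact ⟨y.cast, (ZMod.intCast_zmod_eq_zero_iff_dvd _ 7).1 (by simp [hy])⟩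
  obtain ⟨v, hv⟩ := hu
  have := K.zpow_mem h u
  rwa [← zpow_mul, show m * u = 7 * v + 1 by omega, zpow_add_one, zpow_mul, zpow_ofNat, z7, one_zpow, one_mul] at this

theorem orb_map {G' : Type*} [Group G'] (e : G ≃* G') (H : Subgroup G) {H' : Subgroup G'} (h : H.map e.toMonoidHom = H')
    (g : G') : (orbit H ((e.symm g : G) : G ⧸ H)).ncard = (orbit H' (g : G' ⧸ H')).ncard := by
  subst h
  let f : G ⧸ H → G' ⧸ H.map e.toMonoidHom := Quotient.map' e fun a b h => by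
    rw [QuotientGroup.leftRel_apply] at h ⊢
    exact ⟨_, h, by simp⟩
  have hf : Function.Injective f := by
    rintro ⟨a⟩ ⟨b⟩ h
    obtain ⟨c, hc, e'⟩ := QuotientGroup.eq.1 (show (e a : G' ⧸ H.map e.toMonoidHom) = e b from h)
    exact QuotientGroup.eq.2 (by rwa [show a⁻¹ * b = c from e.injective (by simpa using e'.symm)])
  rw [← Set.ncard_image_of_injective _ hf]
  congr 1
  ext q
  constructor
  · rintro ⟨_, ⟨k, rfl⟩, rfl⟩
    exact ⟨⟨e k, k, k.2, rfl⟩, congrArg QuotientGroup.mk (show e k * g = e (k * e.symm g) by simp)⟩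
  · rintro ⟨⟨_, k, hk, rfl⟩, rfl⟩
    exact ⟨_, ⟨⟨k, hk⟩, rfl⟩, congrArg QuotientGroup.mk (show e (k * e.symm g) = e k * g by simp)⟩
end

noncomputable abbrev f7 : Hs →* P := heis AZ BZ BA

theorem co7 (u : Hs) : Co (f7 u) u.i u.j := by
  simpa [heis] using ((coA.zpow u.i).mul (coB.zpow u.j)).mul (coZ.zpow u.k)

theorem ptInj : ∀ l ∈ [lq, lr], ∀ i i' : Fin 7, pt l (0 + ((i' : ℕ) : ℤ)) = pt l (0 + ((i : ℕ) : ℤ)) → i = i' := by
  decide

set_option synthInstance.maxSize 2000 in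
theorem dc : ∀ a b c d : ZMod 7, b * c - d * a ≠ 0 → (-c * a + -a * c = 0 ∨ -c * b + -a * d = 0) →
    (-d * a + -b * c = 0 ∨ -d * b + -b * d = 0) → (a ≠ 0 ∧ b ≠ 0 ∧ c ≠ 0 ∧ d ≠ 0) ∨
    (a * 5 + b * 2 ≠ 0 ∧ a * 5 + b * 5 ≠ 0 ∧ c * 5 + d * 2 ≠ 0 ∧ c * 5 + d * 5 ≠ 0) := by decide +kernel

theorem syl7 : SylIn 7 f7.range ⊤ := by
  have := ONO.finG.1
  haveI : Fact (Nat.Prime 7) := ⟨by norm_num⟩
  obtain ⟨S, hS⟩ := exists_sylIn 7 (⊤ : Subgroup P)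
  refine hS.of_card_le (heis_p AZ BZ BA A7 B7 Z7) le_top ?_
  have c : Nat.card S = 343 := by
    rw [hS.card_eq_multiplicity, card_top, ONG.card, show 460815505920 = 7 ^ 3 * 1343485440 from rfl,
      Nat.factorization_mul (by decide) (by decide), Nat.Prime.factorization_pow (by norm_num)]
    simp [Nat.factorization_eq_zero_of_not_dvd (show ¬ 7 ∣ 1343485440 by decide)]
  rw [c, show 343 = Nat.card (Fin 7 × Fin 7 × Fin 7) by simp]
  refine Nat.card_le_card_of_injective (fun p => ⟨f7 ⟨p.1, p.2.1, p.2.2⟩, _, rfl⟩) ?_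
  rintro ⟨i, j, k⟩ ⟨i', j', k'⟩ e
  replace e : f7 ⟨i, j, k⟩ = f7 ⟨i', j', k'⟩ := congrArg Subtype.val e
  have h1 := ((co7 _).r 0).symm.trans (e ▸ (co7 _).r 0)
  have h2 := ((co7 _).q 0).symm.trans (e ▸ (co7 _).q 0)
  obtain rfl : i = i' := ptInj lr (by decide) _ _ h1
  obtain rfl : j = j' := ptInj lq (by decide) _ _ h2
  have h3 : Z ^ (k : ℕ) = Z ^ (k' : ℕ) := by simpa using mul_left_cancel e
  rw [pow_eq_pow_iff_modEq, orderOf_eq_prime Z7 Z1] at h3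
  rw [Fin.ext (Nat.ModEq.eq_of_lt_of_lt h3 k.2 k'.2)]

def Concl (μ : L7B.G →* P) : Prop := ∃ e : P ≃* P, ∀ g, (∀ x, g * μ x * g⁻¹ ∈ μ.range) → e g ∈ ONA.H

theorem Concl.of_aut {μ : L7B.G →* P} (β : P ≃* P) (h : Concl (β.toMonoidHom.comp μ)) : Concl μ := by
  obtain ⟨e, he⟩ := h
  refine ⟨β.trans e, fun g hg => he _ fun x => ?_⟩
  obtain ⟨y, hy⟩ := hg x
  exact ⟨y, by simp [hy]⟩

theorem r7 : ∀ r ∈ [[7, 0, 6, 1], [7, 2, 6, 1, 3], [9, 4, 8, 5], [9, 2, 8, 4, 3], [6, 8, 7, 9, 11], [0, 4, 3, 1, 5],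
    [4, 7, 4, 4, 7, 4, 0, 5, 6, 5, 5, 6, 5, 0], [4, 7, 4, 4, 7, 4, 4, 5, 6, 5, 5, 6, 5, 5],
    [4, 7, 4, 4, 7, 4, 2, 5, 6, 5, 5, 6, 5, 2]], evw L7B.el r = 1 := by
  letI := L7A.act
  exact L7A.L0.rels_one' L7G.base _ (by decide +kernel)

theorem fixA {μ : L7B.G →* P} {i j k l : ZMod 7} {m : ℤ} (ha : Co (μ (L7B.el 0)) i j) (hb : Co (μ (L7B.el 4)) k l)
    (hz : μ (L7B.el 2) = Z ^ m) (hm : (m : ZMod 7) ≠ 0) (h : i ≠ 0 ∧ j ≠ 0 ∧ k ≠ 0 ∧ l ≠ 0) : Concl μ := by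
  have o0 := mem_orb 116667 (by decide)
  have zz : ∀ p : ℕ, μ (L7B.el 2) • p = p → Z • p = p := fun p hp => mem_of_zpow (K := stabilizer P p) Z7 hm (hz ▸ hp)
  have pz : μ (L7B.el 2) • 116667 = 116667 := hz ▸ (coZ.zpow m).p
  have iv := L7B.hinv
  have i1 : L7B.el 1 = (L7B.el 0)⁻¹ := iv 0 (by decide)
  have i3 : L7B.el 3 = (L7B.el 2)⁻¹ := iv 2 (by decide)
  have i5 : L7B.el 5 = (L7B.el 4)⁻¹ := iv 4 (by decide)
  have i7 : L7B.el 7 = (L7B.el 6)⁻¹ := iv 6 (by decide)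
  have i9 : L7B.el 9 = (L7B.el 8)⁻¹ := iv 8 (by decide)
  have i11 : L7B.el 11 = (L7B.el 10)⁻¹ := iv 10 (by decide)
  have r := r7
  simp only [List.forall_mem_cons, evw_cons, evw_nil, mul_one, i1, i3, i5, i7, i9, i11] at r
  obtain ⟨r1, r2, r3, r4, r5, -⟩ := r
  let K := (stabilizer P 116667).comap μ
  have k0 : L7B.el 0 ∈ K := ha.p
  have k2 : L7B.el 2 ∈ K := pz
  have k4 : L7B.el 4 ∈ K := hb.p
  have fx : ∀ (x y : L7B.G), y⁻¹ * x * y ∈ K → μ x • μ y • 116667 = μ y • 116667 := fun x y hk => by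
    have : μ (y⁻¹ * x * y) • 116667 = 116667 := hk
    rwa [map_mul, map_mul, map_inv, mul_smul, mul_smul, inv_smul_eq_iff] at this
  have k6 : L7B.el 6 ∈ K := ha.only h.1 h.2.1 (mapsTo_smul_orbit _ _ o0) (zz _ (fx _ _ (by
    rw [show (L7B.el 6)⁻¹ * L7B.el 2 * L7B.el 6 = L7B.el 2 * L7B.el 0 by
      rw [← mul_inv_eq_one, ← r2]; group]
    exact mul_mem k2 k0))) (fx _ _ (by
    rw [show (L7B.el 6)⁻¹ * L7B.el 0 * L7B.el 6 = L7B.el 0 by
      rw [← mul_inv_eq_one, ← r1]; group]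
    exact k0))
  have k8 : L7B.el 8 ∈ K := hb.only h.2.2.1 h.2.2.2 (mapsTo_smul_orbit _ _ o0) (zz _ (fx _ _ (by
    rw [show (L7B.el 8)⁻¹ * L7B.el 2 * L7B.el 8 = L7B.el 2 * (L7B.el 4)⁻¹ by
      rw [← mul_inv_eq_one, ← r4]; group]
    exact mul_mem k2 (inv_mem k4)))) (fx _ _ (by
    rw [show (L7B.el 8)⁻¹ * L7B.el 4 * L7B.el 8 = L7B.el 4 by
      rw [← mul_inv_eq_one, ← r3]; group]
    exact k4))
  have k10 : L7B.el 10 ∈ K := by
    rw [← one_mul (L7B.el 10), ← r5]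
    simp only [mul_assoc, inv_mul_cancel, mul_one]
    exact mul_mem k6 (mul_mem k8 (mul_mem (inv_mem k6) (inv_mem k8)))
  have hK : ∀ x, μ x • 116667 = 116667 := fun x => (L7B.htop.ge.trans (gensub_le (K := K) fun x hx => by
    interval_cases x
    exacts [k0, i1 ▸ inv_mem k0, k2, i3 ▸ inv_mem k2, k4, i5 ▸ inv_mem k4, k6, i7 ▸ inv_mem k6, k8, i9 ▸ inv_mem k8,
      k10, i11 ▸ inv_mem k10])) (mem_top x)
  obtain ⟨c, hc⟩ := o0
  refine ⟨MulAut.conj c⁻¹, fun g hg => ?_⟩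
  have fy : ∀ x, μ x • g⁻¹ • 116667 = g⁻¹ • 116667 := fun x => by
    obtain ⟨y, hy⟩ := hg x
    rw [eq_inv_smul_iff, ← mul_smul, ← mul_smul, ← hy, hK]
  have := ha.only h.1 h.2.1 (mapsTo_smul_orbit _ _ ⟨c, hc⟩) (zz _ (fy _)) (fy _)
  rw [ONG.stab.1, mem_stabilizer_iff, MulAut.conj_apply, inv_inv, mul_smul, mul_smul, inv_smul_eq_iff]
  change c • 0 = _ at hc
  rw [hc, ← inv_smul_eq_iff.1 this]

theorem key (μ : L7B.G →* P) (hμ : μ (L7B.el 2) ≠ 1) : Concl μ := by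
  have := ONO.finG.1
  haveI : Fact (Nat.Prime 7) := ⟨by norm_num⟩
  have iv := L7B.hinv
  have i1 : L7B.el 1 = (L7B.el 0)⁻¹ := iv 0 (by decide)
  have i3 : L7B.el 3 = (L7B.el 2)⁻¹ := iv 2 (by decide)
  have i5 : L7B.el 5 = (L7B.el 4)⁻¹ := iv 4 (by decide)
  have i6 : L7B.el 6 = (L7B.el 7)⁻¹ := iv 7 (by decide)
  have r := r7
  have r' := L7B.hrel
  simp only [L7B.rels, List.forall_mem_cons, evw_cons, evw_nil, mul_one, i1, i3, i5, i6] at r r'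
  obtain ⟨-, -, -, -, -, r6, r7, r8, r9, -⟩ := r
  obtain ⟨p0, p2, p4, -, -, -, -, -, -, -, c1, c2, -⟩ := r'
  generalize L7B.el 7 = y at r7 r8 r9
  have s7 : (L7B.el 4 * y * L7B.el 4) ^ 2 * L7B.el 0 * ((L7B.el 4 * y * L7B.el 4) ^ 2)⁻¹ = (L7B.el 0)⁻¹ := by
    rw [← mul_inv_eq_one, ← r7, pow_two]; group
  have s8 : (L7B.el 4 * y * L7B.el 4) ^ 2 * L7B.el 4 * ((L7B.el 4 * y * L7B.el 4) ^ 2)⁻¹ = L7B.el 4 := by
    rw [← mul_inv_eq_one, ← r8, pow_two]; group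
  have s9 : (L7B.el 4 * y * L7B.el 4) ^ 2 * L7B.el 2 * ((L7B.el 4 * y * L7B.el 4) ^ 2)⁻¹ = (L7B.el 2)⁻¹ := by
    rw [← mul_inv_eq_one, ← r9, pow_two]; group
  generalize (L7B.el 4 * y * L7B.el 4) ^ 2 = s at s7 s8 s9
  have h1 : L7B.el 4 * L7B.el 2 = L7B.el 2 * L7B.el 4 := by rw [eq_comm, ← mul_inv_eq_one, ← c1]; group
  have h2 : L7B.el 0 * L7B.el 2 = L7B.el 2 * L7B.el 0 := by rw [← mul_inv_eq_one, ← c2]; group
  have h3 : L7B.el 0 * L7B.el 4 = L7B.el 4 * L7B.el 0 * L7B.el 2 := by rw [← mul_inv_eq_one, ← r6]; group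
  obtain ⟨c, -, hc⟩ := syl7.exists_cj_le ((heis_p h1 h2 h3 (by simpa [pow_succ, mul_assoc] using p4)
    (by simpa [pow_succ, mul_assoc] using p0) (by simpa [pow_succ, mul_assoc] using p2)).map μ) le_top
  refine Concl.of_aut (MulAut.conj c) ?_
  have hc' : ∀ u, ∃ v, f7 v = (MulAut.conj c).toMonoidHom.comp μ (heis h1 h2 h3 u) := fun u =>
    hc (mem_cj'.2 ⟨_, ⟨_, ⟨u, rfl⟩, rfl⟩, rfl⟩)
  have hν : (MulAut.conj c).toMonoidHom.comp μ (L7B.el 2) ≠ 1 := by simpa using hμ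
  generalize (MulAut.conj c).toMonoidHom.comp μ = ν at hc' hν
  obtain ⟨u, hu⟩ := hc' ⟨0, 1, 0⟩
  obtain ⟨v, hv⟩ := hc' ⟨1, 0, 0⟩
  replace hu : f7 u = ν (L7B.el 0) := hu.trans (by simp [heis])
  replace hv : f7 v = ν (L7B.el 4) := hv.trans (by simp [heis])
  have hz : ν (L7B.el 2) = Z ^ (u.j * v.i - v.j * u.i) := by
    have : u * v = v * u * ⟨0, 0, u.j * v.i - v.j * u.i⟩ := by
      simp only [Hs.mul_def]; ext <;> simp only <;> ring
    have e := congrArg f7 this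
    rw [map_mul, map_mul, map_mul, hu, hv, ← map_mul, h3, map_mul, map_mul, mul_right_inj] at e
    simpa [heis] using e
  have hm : ((u.j * v.i - v.j * u.i : ℤ) : ZMod 7) ≠ 0 := fun e => hν (by
    obtain ⟨n, hn⟩ := (ZMod.intCast_zmod_eq_zero_iff_dvd _ 7).1 e
    rw [hz, hn, zpow_mul, zpow_natCast, Z7, one_zpow])
  have ca := hu ▸ co7 u
  have cb := hv ▸ co7 v
  have mix : ∀ (m n : ℤ) (p : ℕ), p ∈ [0, 80] → Z • p = p → (ν (L7B.el 0) ^ m * ν (L7B.el 4) ^ n) • p = p →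
      (-m : ℤ) * (u.i : ZMod 7) + n * (v.i : ZMod 7) = 0 ∨ (-m : ℤ) * (u.j : ZMod 7) + n * (v.j : ZMod 7) = 0 := by
    intro m n p hp pz px
    by_contra hn
    rw [not_or] at hn
    have k : ∀ p ∈ orbit P 0, Z • p = p → (ν (L7B.el 0) ^ m * ν (L7B.el 4) ^ n) • p = p → ν s • p = 116667 :=
      fun p o pz px => ((ca.zpow (-m)).mul (cb.zpow n)).only hn.1 hn.2 (mapsTo_smul_orbit _ _ o)
        (mem_of_zpow (K := stabilizer P _) Z7 hm (by
          rw [← hz, ← inv_mem_iff, ← map_inv, ← s9, map_mul, map_mul, map_inv, mem_stabilizer_iff, mul_smul,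
            inv_smul_smul, mul_smul, hz, (stabilizer P p).zpow_mem pz _])) (by
          rw [zpow_neg, ← inv_zpow, ← map_inv, ← s7, ← s8]
          simp only [map_mul, map_inv, conj_zpow, conj_mul]
          rw [mul_smul, inv_smul_smul, mul_smul, px])
    have e := (k p (mem_orb p (by revert hp; simp only [List.mem_cons]; tauto)) pz px).trans
      (k _ (mem_orb _ (by decide)) coZ.p ((ca.zpow m).mul (cb.zpow n)).p).symm
    rw [smul_left_cancel_iff] at e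
    rw [e] at hp
    exact absurd hp (by decide)
  have m1 := mix v.i (-u.i) 80 (by decide) (coZ.r 0) (by
    have := ((ca.zpow v.i).mul (cb.zpow (-u.i))).r 0
    rwa [show (0 : ZMod 7) + _ = 0 by push_cast; ring] at this)
  have m2 := mix v.j (-u.j) 0 (by decide) (coZ.q 0) (by
    have := ((ca.zpow v.j).mul (cb.zpow (-u.j))).q 0
    rwa [show (0 : ZMod 7) + _ = 0 by push_cast; ring] at this)
  push_cast at m1 m2
  rcases dc _ _ _ _ (by simpa using hm) m1 m2 with h | h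
  · exact fixA ca cb hz hm h
  · obtain ⟨α, a1, a2, a3⟩ := exAl'
    have co : ∀ u : Hs, Co (α (f7 u)) (u.i * 5 + u.j * 2) (u.i * 5 + u.j * 5) := fun u => by
      have := ((a1.zpow u.i).mul (a2.zpow u.j)).mul (coZ.zpow u.k)
      rw [← a3] at this
      simpa [heis] using this
    exact Concl.of_aut α (fixA (m := u.j * v.i - v.j * u.i) (show Co (α (ν _)) _ _ from hu ▸ co u)
      (show Co (α (ν _)) _ _ from hv ▸ co v)
      (by change α (ν _) = _; rw [hz, map_zpow, a3]) hm h)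

theorem main {G : Type*} [Group G] (ρ : P ≃* G) (H : Subgroup G) (N : Subgroup H) [hn : N.Normal] (hN : N.index = 2)
    (eN : N ≃* Matrix.ProjectiveSpecialLinearGroup (Fin 3) (ZMod 7)) : H.index = 122760 ∧ ∃ q₁ q₂ q₃ q₄ : G ⧸ H,
      (orbit H q₁).ncard = 6384 ∧ (orbit H q₂).ncard = 5586 ∧ (orbit H q₃).ncard = 58653 ∧
      (orbit H q₄).ncard = 52136 := by
  have := ONO.finG.1
  obtain ⟨φ, hφ⟩ := L7M.iso
  let j : L7B.G ≃* N := (MulEquiv.ofBijective φ hφ).trans eN.symm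
  obtain ⟨e, he⟩ := key (ρ.symm.toMonoidHom.comp (H.subtype.comp (N.subtype.comp j.toMonoidHom))) (by
    letI := L7A.act
    simpa using L7A.L0.ne_one [2] 2 (by decide +kernel))
  have le : H.map (ρ.symm.trans e).toMonoidHom ≤ ONA.H := by
    rintro _ ⟨g, hg, rfl⟩
    exact he _ fun x => ⟨j.symm ⟨_, hn.conj_mem _ (j x).2 ⟨g, hg⟩⟩, by simp⟩
  have e1 : H.map (ρ.symm.trans e).toMonoidHom = ONA.H := eq_of_le_of_card_ge le (by
    rw [card_of_index ONG.card ONG.stab.2 (c := 3753792) (by decide), card_map_of_injective (ρ.symm.trans e).injective,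
      ← N.card_mul_index, hN, ← Nat.card_congr j.toEquiv, L7G.card])
  have s := ONG.stab.1
  exact ⟨by rw [← ONG.stab.2, ← e1]; exact (index_map_of_bijective (ρ.symm.trans e).bijective H).symm, _, _, _, _,
    (orb_map _ H e1 _).trans (ONA.q4 s), (orb_map _ H e1 _).trans (ONA.q3 s), (orb_map _ H e1 _).trans (ONA.q1 s),
    (orb_map _ H e1 _).trans (ONA.q2 s)⟩

end CfH8.ONS
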