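import Cfsg.Agent.OD.Pre
import Cfsg.Agent.H8.ON1
import Cfsg.Agent.H8.ONLF
import Cfsg.Agent.H6.MatG
import Cfsg.Agent.H2.Sp64
import Cfsg.Agent.OD.Helper8xe063b242a4
/-! A concrete model of `L₃(4)`. -/
set_option autoImplicit false
set_option maxRecDepth 100000
open CfH6 CfL Subgroup
namespace CfH8.ON

def SW : List (List ℕ) := [[0, 2, 0, 3, 3, 0, 2, 2], [1, 3, 1, 3, 3, 1, 2, 2], [1, 2, 1, 3, 3, 3, 1, 3, 3],
  [0, 3, 1, 2, 1, 2, 2, 0, 2, 2]]
def sigL : List (List ℕ) := [[0], [1], [2], [3]] ++ SW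
def Yw : List (List ℕ) := [[2], [0, 2, 2, 0, 3, 3, 1, 2, 1], [2, 2, 1, 3, 3, 0, 3, 3], [1, 3, 0, 2, 1, 2, 1, 3, 0, 3, 0],
  [3, 0, 3, 3, 1, 2, 0, 3, 1, 3, 0], [2, 2, 1, 3, 0, 3, 3, 1, 3, 1, 2], [0, 2, 1, 2, 1, 2, 2, 2, 1, 2, 1, 2],
  [3, 0, 2, 2, 2, 1, 2, 0, 2, 0, 3, 0, 3], [3, 3, 1, 2, 1, 3, 1, 2, 0, 3, 0, 3], [3, 3, 0, 2, 2, 2, 0, 3, 3, 0, 2, 2],
  [2, 1, 3, 0, 2, 0, 2, 1, 2, 0, 2, 1, 3], [3, 3, 0, 2, 0, 2, 1, 2, 0, 2, 0, 2]]

theorem L_fin : Finite (WP 8 Lil Lrels) ∧ Nat.card (WP 8 Lil Lrels) ≤ 20160 := by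
  have h7 : wel 8 Lil Lrels 2 ^ 7 = 1 := by
    have := wp_rel 8 Lil Lrels [2, 2, 2, 2, 2, 2, 2] (by decide)
    simpa [pow_succ, mul_assoc] using this
  have h1 : Finite (zpowers (wel 8 Lil Lrels 2)) ∧ Nat.card (zpowers (wel 8 Lil Lrels 2)) ≤ 7 :=
    ⟨finite_zpowers.2 (isOfFinOrder_iff_pow_eq_one.2 ⟨7, by decide, h7⟩),
      by rw [Nat.card_zpowers]; exact orderOf_le_of_pow_eq_one (by decide) h7⟩
  have h2 := (UC_cov (byW (wel 8 Lil Lrels) [[0], [1], [2], [3]]) _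
    (byW_inv _ (n := 4) (wp_inv _ _ _) (wp_rel _ _ _) (by decide +kernel))
    (byW_rels _ (n := 4) (wp_inv _ _ _) (wp_rel _ _ _) (by decide +kernel)) (by
      simp only [UC_subs, List.forall_mem_cons]
      exact ⟨by simp [byW], by simp [byW], by simp [byW], forall_nil⟩)).card_le h1
  have h3 : ∀ l < 4, wel 8 Lil Lrels l ∈ gensub (byW (wel 8 Lil Lrels) [[0], [1], [2], [3]]) 10 := by
    intro l hl
    have := mem_gensub (el := byW (wel 8 Lil Lrels) [[0], [1], [2], [3]]) (k := 10) (x := l) (by omega)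
    interval_cases l <;> simpa [byW] using this
  have h4 : ∀ (l : ℕ) (v : List ℕ), l :: v ∈ Lrels → allLt 4 v = true →
      wel 8 Lil Lrels l ∈ gensub (byW (wel 8 Lil Lrels) [[0], [1], [2], [3]]) 10 := fun l v h hv => by
    have := wp_rel 8 Lil Lrels _ h
    rw [evw_cons] at this
    rw [eq_inv_of_mul_eq_one_left this]
    exact inv_mem (evw_mem h3 (allLt_sound hv))
  have h5 : gensub (byW (wel 8 Lil Lrels) [[0], [1], [2], [3]]) 10 = ⊤ := by
    rw [eq_top_iff, ← wp_top]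
    refine gensub_le fun l hl => ?_
    by_cases h : l < 4
    · exact h3 l h
    · have : 4 ≤ l := by omega
      interval_cases l
      · exact h4 4 (invw il4 (SW.getD 0 [])) (by decide) (by decide)
      · exact h4 5 (invw il4 (SW.getD 1 [])) (by decide) (by decide)
      · exact h4 6 (invw il4 (SW.getD 2 [])) (by decide) (by decide)
      · exact h4 7 (invw il4 (SW.getD 3 [])) (by decide) (by decide)
  rw [h5] at h2
  exact fin_top h2

theorem gL : LT.Good Lil Lrels := ⟨by decide +kernel, LT_1, LT_2, LT_3, L_fin⟩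

abbrev L : Type := TB gL

theorem card_L : Nat.card L = 20160 := TB.card
noncomputable def x0 : L := TB.mk gL 1
noncomputable def y0 : L := TB.mk gL 3
noncomputable def uL : L := TB.mk gL 7050

theorem val_eq {a b : L} (h : Nat.beq a.1 b.1 = true) : a = b := Subtype.ext (Nat.eq_of_beq_eq_true h)
theorem beq_val {a b : L} (h : a = b) : Nat.beq a.1 b.1 = true := by rw [h, Nat.beq_refl]

theorem tel4 : ∀ l < 4, tel gL l = ev5 x0 y0 1 l := by decide +kernel

theorem L_facts (a : L) : (a * a = 1 → a ≠ 1 → ∃ c, c * uL * c⁻¹ = a) ∧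
    (a * a * a = 1 → a ≠ 1 → ∃ c, c * x0 * c⁻¹ = a) ∧ (a * uL = uL * a → ∀ l ∈ LT.wl a.1, 4 ≤ l) ∧
    (a ^ 7 = 1 → evw (ev5 x0 a 1) wp = 1 → evw (ev5 x0 a 1) wq = 1 → evw (ev5 x0 a 1) wr = 1 →
      ∃ c, ∃ k < 12, c * x0 = x0 * c ∧ c * a * c⁻¹ = evw (ev5 x0 y0 1) (Yw.getD k [])) := by
  have h := chkL_all a.1 a.2
  simp only [chkL, frc_eq, bnd_iff, imp_iff, bor_iff] at h
  obtain ⟨h1, h2, h3, h4⟩ := h
  refine ⟨fun e n => ?_, fun e n => ?_, fun e l hl => ?_, fun e7 ep eq er => ?_⟩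
  · obtain ⟨c1, c2⟩ := (h1 (beq_val e)).resolve_left fun e => n (val_eq e)
    exact ⟨⟨_, blt1 c1⟩, mul_inv_eq_iff_eq_mul.2 (val_eq c2)⟩
  · obtain ⟨c1, c2⟩ := (h2 (beq_val e)).resolve_left fun e => n (val_eq e)
    exact ⟨⟨_, blt1 c1⟩, mul_inv_eq_iff_eq_mul.2 (val_eq c2)⟩
  · exact Nat.le_of_ble_eq_true (List.all_eq_true.1 (h3 (beq_val e)) l hl)
  · have i2 : x0⁻¹ = TB.mk gL 2 := by decide +kernel
    have a1 : a * a * x0 * (a * a * x0) * (a * a * x0) = 1 := by simpa [wq, ev5, mul_assoc] using eq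
    have a2 : a * x0 * (a * x0) * (a * x0 * (a * x0)) * (a * x0) = 1 := by simpa [wp, ev5, mul_assoc] using ep
    have a3 : a * a * a * (a * a * a) * a = 1 := by simpa [pow_succ, mul_assoc] using e7
    have a4 : (a * a * a)⁻¹ * TB.mk gL 2 * a * x0 * ((a * a * a)⁻¹ * TB.mk gL 2 * a * x0) = 1 := by
      rw [← i2]; simpa [wr, ev5, mul_assoc] using er
    obtain ⟨c, hc, h5⟩ := List.any_eq_true.1 (h4 (beq_val a1) (beq_val a2) (beq_val a3) (beq_val a4))
    obtain ⟨b, hb, h6⟩ := List.any_eq_true.1 h5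
    have k1 : ∀ c ∈ LC, Nat.blt c 20160 = true ∧ Nat.beq (LT.mul c 1) (LT.mul 1 c) = true := by decide +kernel
    have k2 : ∀ b ∈ LY, ∃ k < 12, Nat.beq (evw (ev5 x0 y0 1) (Yw.getD k [])).1 b = true := by decide +kernel
    obtain ⟨k, hk, rfl⟩ : ∃ k < 12, (evw (ev5 x0 y0 1) (Yw.getD k [])).1 = b := by
      obtain ⟨k, hk, e⟩ := k2 b hb
      exact ⟨k, hk, Nat.eq_of_beq_eq_true e⟩
    exact ⟨⟨c, blt1 (k1 c hc).1⟩, k, hk, val_eq (k1 c hc).2, mul_inv_eq_iff_eq_mul.2 (val_eq h6)⟩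

theorem mem_of_coprime {K : Type*} [Group K] (N : Subgroup K) [N.Normal] {g : K} {p : ℕ} (h : g ^ p = 1)
    (hc : p.Coprime N.index) : g ∈ N := by
  rw [← QuotientGroup.eq_one_iff, ← pow_one (g : K ⧸ N), ← hc]
  refine pow_gcd_eq_one.2 ⟨by rw [← QuotientGroup.mk_pow, h]; rfl, ?_⟩
  rw [← QuotientGroup.mk_pow, QuotientGroup.eq_one_iff]
  exact N.pow_index_mem g

theorem x0_3 : x0 * x0 * x0 = 1 := by decide +kernel
theorem y0_7 : y0 ^ 7 = 1 := by
  have : y0 * y0 * y0 * y0 * y0 * y0 * y0 = 1 := by decide +kernel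
  simpa [pow_succ] using this
theorem xy0_5 : (x0 * y0) ^ 5 = 1 := by
  have : x0 * y0 * (x0 * y0) * (x0 * y0) * (x0 * y0) * (x0 * y0) = 1 := by decide +kernel
  simpa [pow_succ] using this

theorem L_normal (N : Subgroup L) [hN : N.Normal] (h : N ≠ ⊥) : x0 ∈ N := by
  have x3 : (x0 : L ⧸ N) ^ 3 = 1 := by
    rw [← QuotientGroup.mk_pow, pow_succ, pow_two, x0_3]; rfl
  have k5 : x0 * y0 ∈ N → x0 ∈ N := fun e => by
    rw [← QuotientGroup.eq_one_iff] at e ⊢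
    have y7 : (y0 : L ⧸ N) ^ 7 = 1 := by rw [← QuotientGroup.mk_pow, y0_7]; rfl
    rw [QuotientGroup.mk_mul] at e
    rw [eq_inv_of_mul_eq_one_right e, inv_pow, inv_eq_one] at y7
    simpa using pow_gcd_eq_one.2 ⟨x3, y7⟩
  have hc := N.card_mul_index
  rw [card_L] at hc
  obtain ⟨p, hp, hd⟩ := Nat.exists_prime_and_dvd (n := Nat.card N) fun e => h (card_eq_one.1 e)
  haveI := Fact.mk hp
  obtain ⟨a, ha⟩ := exists_prime_orderOf_dvd_card' p hd
  rw [← Subgroup.orderOf_coe] at ha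
  have a1 : (a : L) ≠ 1 := fun e => by rw [e, orderOf_one] at ha; exact hp.one_lt.ne ha
  have ap : (a : L) ^ p = 1 := by rw [← ha, pow_orderOf_eq_one]
  have cp : p = 5 ∨ p = 7 → p.Coprime N.index := fun e => (Nat.Prime.coprime_iff_not_dvd hp).2 fun e' => by
    have := Nat.mul_dvd_mul hd e'
    rw [hc] at this
    rcases e with rfl | rfl <;> norm_num at this
  have : p ∣ 2 ^ 6 * 3 ^ 2 * 5 * 7 := hd.trans (Dvd.intro _ hc)
  rcases (Nat.Prime.dvd_mul hp).1 this with e | e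
  · rcases (Nat.Prime.dvd_mul hp).1 e with e | e
    · rcases (Nat.Prime.dvd_mul hp).1 e with e | e
      · obtain rfl := (Nat.prime_dvd_prime_iff_eq hp Nat.prime_two).1 (hp.dvd_of_dvd_pow e)
        obtain ⟨c, hc⟩ := (L_facts a).1 (by rw [← pow_two, ap]) a1
        have hu : uL ∈ N := by have := hN.conj_mem' _ a.2 c; rw [← hc] at this; simpa [mul_assoc] using this
        have e : TB.mk gL 21 * uL * (TB.mk gL 21)⁻¹ * (TB.mk gL 408 * uL * (TB.mk gL 408)⁻¹) = x0 * y0 := by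
          decide +kernel
        exact k5 (e ▸ mul_mem (hN.conj_mem _ hu _) (hN.conj_mem _ hu _))
      · obtain rfl := (Nat.prime_dvd_prime_iff_eq hp Nat.prime_three).1 (hp.dvd_of_dvd_pow e)
        obtain ⟨c, hc⟩ := (L_facts a).2.1 (by rw [← ap, pow_succ, pow_two]) a1
        have := hN.conj_mem' _ a.2 c
        rw [← hc] at this
        simpa [mul_assoc] using this
    · obtain rfl := (Nat.prime_dvd_prime_iff_eq hp Nat.prime_five).1 e
      exact k5 (mem_of_coprime N xy0_5 (cp (Or.inl rfl)))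
  · obtain rfl := (Nat.prime_dvd_prime_iff_eq hp Nat.prime_seven).1 e
    have hy := mem_of_coprime N y0_7 (cp (Or.inr rfl))
    rw [← QuotientGroup.eq_one_iff] at hy ⊢
    have x5 : ((x0 * y0 : L) : L ⧸ N) ^ 5 = 1 := by rw [← QuotientGroup.mk_pow, xy0_5]; rfl
    rw [QuotientGroup.mk_mul, hy, mul_one] at x5
    simpa using pow_gcd_eq_one.2 ⟨x3, x5⟩

theorem L_center (a : L) (h : ∀ b, a * b = b * a) : a = 1 := by
  by_contra n
  have := L_normal (center L) fun e => n (mem_bot.1 (e ▸ mem_center_iff.2 fun b => (h b).symm))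
  exact absurd (mem_center_iff.1 this y0) (by decide +kernel)

theorem L_gen (K : Subgroup L) (hx : x0 ∈ K) (hy : y0 ∈ K) (a : L) : a ∈ K := by
  have : ∀ l < 8, tel gL l = evw (ev5 x0 y0 1) (sigL.getD l []) := by decide +kernel
  rw [← evw_tel_wl gL a]
  exact evw_mem (k := 8) (fun l hl => this l hl ▸ ev5_mem hx hy K.one_mem _) (gL.w_spec a.2).1

variable {G : Type*} [Group G]

theorem UR.of_one {x y : G} (x3 : x * x * x = 1) (y7 : y ^ 7 = 1) (hp : evw (ev5 x y 1) wp = 1)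
    (hq : evw (ev5 x y 1) wq = 1) (hr : evw (ev5 x y 1) wr = 1) : UR x y :=
  ⟨x3, y7, ⊥, by simp, by simp, hp, hq, hr⟩

theorem L_hom {x y : G} (x3 : x * x * x = 1) (y7 : y ^ 7 = 1) (hp : evw (ev5 x y 1) wp = 1)
    (hq : evw (ev5 x y 1) wq = 1) (hr : evw (ev5 x y 1) wr = 1) :
    ∃ φ : L →* G, ∀ v : List ℕ, (∀ l ∈ v, l < 8) → φ (evw (tel gL) v) = evw (byW (ev5 x y 1) sigL) v := by
  have h := UR.of_one x3 y7 hp hq hr
  have hk : ∀ k ∈ [[], invw il4 wp, invw il4 wq, invw il4 wr], evw (ev5 x y 1) k = 1 := by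
    simp only [List.forall_mem_cons, evw_iv x y 1 wp rfl, evw_iv x y 1 wq rfl, evw_iv x y 1 wr rfl, hp, hq, hr, inv_one]
    simp
  obtain ⟨φ, -, h2⟩ := TB.exists_hom gL (byW (ev5 x y 1) sigL)
    (inv_of_rels (h.rels 1 hk sigL _ (by decide +kernel))) (h.rels 1 hk sigL _ (by decide +kernel))
  exact ⟨φ, fun v hv => hom_evw (fun l hl => hom_tel h2 hl) v hv⟩

theorem tel_x : evw (tel gL) [0] = x0 := by decide +kernel
theorem tel_y : evw (tel gL) [2] = y0 := by decide +kernel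

section
open Matrix CfH3
abbrev PM : MP := ⟨3, 7, 2, 1, 4, 1, 1, 1, 1⟩
def ms : List ℕ := [664614317280989252743692800193724416, 664613997911800758789109633792360576,
  5192299353910024927631687922237569, 669847176502194127479521108295696384]
def sc : List ℕ := [72057594306363393, 664614000368338024246036116793196544, 664614000368338024318093711099559937]
def ω : F4 := ⟨0, 1⟩
noncomputable abbrev sem : ℕ → Matrix (Fin 3) (Fin 3) F4 := PM.toM2 F4 (Equiv.refl (Fin 3)) ω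
abbrev τ : SpecialLinearGroup (Fin 3) F4 →* Matrix (Fin 3) (Fin 3) F4 := SpecialLinearGroup.coeMonoidHom

theorem D : Mdl PM.mm2 (fun _ => true) PM.one sem :=
  MP.mdl2 (P := PM) F4 (Equiv.refl (Fin 3)) (by decide) (by decide) (by decide +kernel)

theorem hs : ∀ x < 4, ∃ g, τ g = sem (lget ms 0 x) := by
  have : ∀ x < 4, (sem (lget ms 0 x)).det = 1 := by
    simp only [det_fin_three]
    decide +kernel
  exact fun x hx => ⟨⟨_, this x hx⟩, rfl⟩

theorem hz : ∀ Y ∈ sc, ∀ g, τ g = sem Y → g ∈ Subgroup.center (SpecialLinearGroup (Fin 3) F4) := by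
  have h1 : ∀ Y ∈ sc, sem Y = sem Y 0 0 • (1 : Matrix (Fin 3) (Fin 3) F4) := by decide +kernel
  intro Y hY g hg
  have h2 : g.1 = sem Y 0 0 • 1 := hg.trans (h1 Y hY)
  refine Subgroup.mem_center_iff.mpr fun x => Subtype.ext ?_
  change x.1 * g.1 = g.1 * x.1
  rw [h2]
  simp

noncomputable def ev : ℕ → ProjectiveSpecialLinearGroup (Fin 3) F4 :=
  fun x => QuotientGroup.mk' (center (SpecialLinearGroup (Fin 3) F4)) (liftS τ sem ms x)

theorem L_iso4 : Nonempty (L ≃* ProjectiveSpecialLinearGroup (Fin 3) F4) := by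
  have h1 : ∀ l < 4, ev (il4.getD l 0) = (ev l)⁻¹ :=
    inv_of_rels (D.proj (fun _ _ => rfl) hs _ sc hz _ (by decide +kernel))
  have h2 : ∀ r ∈ [[0, 0, 0], [2, 2, 2, 2, 2, 2, 2], wp, wq, wr], evw ev r = 1 :=
    D.proj (fun _ _ => rfl) hs _ sc hz _ (by decide +kernel)
  have h0 : ev 0 ≠ 1 := D.not_center (fun _ _ => rfl) hs 0 2 664654565206889312141591700953890945
    669846859589544070350671726346502273 (by decide +kernel) (by decide +kernel)
  have e : ∀ v, allLt 4 v = true → evw (ev5 (ev 0) (ev 2) 1) v = evw ev v := fun v hv =>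
    evw_congr (k := 4) (fun l hl => by
      interval_cases l
      exacts [rfl, (h1 0 (by decide)).symm, rfl, (h1 2 (by decide)).symm]) (allLt_sound hv)
  simp only [List.forall_mem_cons] at h2
  obtain ⟨φ, hφ⟩ := L_hom (x := ev 0) (y := ev 2) (by simpa [mul_assoc] using h2.1)
    (by simpa [pow_succ, mul_assoc] using h2.2.1) ((e _ rfl).trans h2.2.2.1) ((e _ rfl).trans h2.2.2.2.1)
    ((e _ rfl).trans h2.2.2.2.2.1)
  have hi : Function.Injective φ := (MonoidHom.ker_eq_bot_iff φ).1 (by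
    by_contra n
    have : φ x0 = 1 := L_normal φ.ker n
    rw [← tel_x, hφ _ (by decide)] at this
    exact h0 (by simpa [byW, sigL, ev5] using this))
  exact ⟨MulEquiv.ofBijective φ (bij_of_inj φ hi ⟨Nat.finite_of_card_ne_zero (by rw [CfH2.Sp64.card_L34]; decide),
    by rw [CfH2.Sp64.card_L34, card_L]⟩)⟩

theorem L_iso (F : Type) [Field F] [Fintype F] (hF : Fintype.card F = 4) :
    Nonempty (L ≃* ProjectiveSpecialLinearGroup (Fin 3) F) := by
  obtain ⟨e⟩ := L_iso4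
  obtain ⟨f⟩ := nonempty_equiv_F4 hF
  exact ⟨e.trans (centerQuotEquiv (slEquiv f (Fin 3))).symm⟩
end

end CfH8.ON
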