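import Cfsg.Agent.OD.Pre
import Cfsg.Agent.H8.ON2
import Cfsg.Agent.H9.SylIn
/-! The involution centraliser in a group of O'Nan type: generators. -/
set_option autoImplicit false
set_option maxRecDepth 100000
open CfH6 CfL Subgroup CfH9
namespace CfH8.ON

variable {G : Type*} [Group G]

structure Base (t : G) (M : Subgroup G) (i : G) : Prop where
  le : M ≤ Cx(t)
  idx : ∀ a ∈ Cx(t), ∀ b ∈ Cx(t), a ∉ M → b ∉ M → a * b ∈ M
  nrm : ∀ a ∈ Cx(t), ∀ m ∈ M, a * m * a⁻¹ ∈ M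
  ex : ∃ w ∈ Cx(t), w ∉ M
  card : Nat.card M = 80640
  cardC : Nat.card Cx(t) = 161280
  out : ∀ w ∈ Cx(t), (∀ m ∈ M, w * m = m * w) → w ∈ M
  iM : i ∈ M
  i2 : i * i = t
  t2 : t * t = 1
  t1 : t ≠ 1
  cen : ∀ m ∈ M, i * m = m * i

structure Gen (M : Subgroup G) (i x y : G) : Prop where
  x3 : x * x * x = 1
  y7 : y ^ 7 = 1
  hp : evw (ev5 x y 1) wp ∈ zpowers i
  hq : evw (ev5 x y 1) wq ∈ zpowers i
  hr : evw (ev5 x y 1) wr ∈ zpowers i
  xM : x ∈ M
  yM : y ∈ M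
  gen : ∀ K : Subgroup G, x ∈ K → y ∈ K → M ≤ K

theorem ord4_pow {K : Type*} [Group K] {g s : K} (hg : orderOf g = 4) (hs : s ∈ zpowers g) : ∃ a < 4, s = g ^ a := by
  have h : IsOfFinOrder g := orderOf_pos_iff.1 (by omega)
  obtain ⟨k, rfl⟩ := (h.mem_powers_iff_mem_zpowers.2 hs)
  exact ⟨k % 4, Nat.mod_lt _ (by decide), by rw [← hg, pow_mod_orderOf]⟩

theorem ord4_sq {K : Type*} [Group K] {g s : K} (hg : orderOf g = 4) (hs : s ∈ zpowers g) (s2 : s * s = 1) (s1 : s ≠ 1) :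
    g * g = s := by
  obtain ⟨a, ha, rfl⟩ := ord4_pow hg hs
  rw [← pow_add, ← orderOf_dvd_iff_pow_eq_one, hg] at s2
  obtain rfl : a = 2 := by
    have : a ≠ 0 := fun e => s1 (by rw [e, pow_zero])
    omega
  rw [pow_two]

theorem exists_base [Finite G] (t : G) (ht : orderOf t = 2) (M : Subgroup (centralizer ({t} : Set G))) [hN : M.Normal]
    (hM : M.index = 2) (hout : centralizer (M : Set (centralizer ({t} : Set G))) ≤ M) (hZc : IsCyclic (center M))
    (hZ4 : Nat.card (center M) = 4) (hperf : commutator M = ⊤) (F : Type) [Field F] [Fintype F]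
    (hF : Fintype.card F = 4) (e : M ⧸ center M ≃* Matrix.ProjectiveSpecialLinearGroup (Fin 3) F) :
    ∃ (M' : Subgroup G) (i x y : G), Base t M' i ∧ Gen M' i x y := by
  obtain ⟨e0⟩ := L_iso F hF
  let μ : L ≃* M ⧸ center M := e0.trans e.symm
  obtain ⟨g, hg⟩ := IsCyclic.exists_generator (α := center M)
  have g4 : orderOf g = 4 := (orderOf_eq_card_of_forall_mem_zpowers hg).trans hZ4
  have z4 : ∀ z ∈ center M, z ^ 4 = 1 := fun z hz => by
    have := pow_card_eq_one' (x := (⟨z, hz⟩ : center M))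
    rw [hZ4] at this
    exact congrArg Subtype.val this
  let j : M →* G := (centralizer ({t} : Set G)).subtype.comp M.subtype
  have ji : Function.Injective j := Subtype.val_injective.comp Subtype.val_injective
  have zi : ∀ z ∈ center M, j z ∈ zpowers (j g) := fun z hz => by
    obtain ⟨k, hk⟩ := mem_zpowers_iff.1 (hg ⟨z, hz⟩)
    exact mem_zpowers_iff.2 ⟨k, by rw [← map_zpow]; exact congrArg j (congrArg Subtype.val hk)⟩
  have cM : Nat.card M = 80640 := by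
    rw [card_eq_card_quotient_mul_card_subgroup (center M), hZ4, ← Nat.card_congr μ.toEquiv, card_L]
  have t2 : t * t = 1 := by rw [← pow_two, ← ht, pow_orderOf_eq_one]
  have t1 : t ≠ 1 := fun h => by rw [h, orderOf_one] at ht; omega
  have mem : ∀ (a : G) (h : a ∈ Cx(t)), a ∈ j.range ↔ (⟨a, h⟩ : Cx(t)) ∈ M := fun a h =>
    ⟨by rintro ⟨m, rfl⟩; exact m.2, fun h' => ⟨⟨_, h'⟩, rfl⟩⟩
  have out : ∀ w ∈ Cx(t), (∀ m ∈ j.range, w * m = m * w) → w ∈ j.range := fun w hw h =>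
    (mem w hw).2 (hout (mem_centralizer_iff.2 fun m hm => Subtype.ext (h _ ⟨⟨m, hm⟩, rfl⟩).symm))
  have le : j.range ≤ Cx(t) := by rintro _ ⟨m, rfl⟩; exact m.1.2
  have lift : ∀ (a : L) (n : ℕ), a ^ n = 1 → ∀ k, a ^ (4 * k) = a → ∃ x : M, (x : M ⧸ center M) = μ a ∧ x ^ n = 1 := by
    intro a n h k hk
    obtain ⟨x, hx⟩ := QuotientGroup.mk_surjective (μ a)
    refine ⟨x ^ (4 * k), by rw [QuotientGroup.mk_pow, hx, ← map_pow, hk], ?_⟩
    have : x ^ n ∈ center M := by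
      rw [← QuotientGroup.eq_one_iff, QuotientGroup.mk_pow, hx, ← map_pow, h, map_one]
    rw [← pow_mul, show 4 * k * n = n * 4 * k by ring, pow_mul, pow_mul, z4 _ this, one_pow]
  have x03 : x0 ^ 3 = 1 := by rw [pow_succ, pow_two, x0_3]
  obtain ⟨x, hx, x3⟩ := lift x0 3 x03 1 (by rw [mul_one, pow_succ, x03, one_mul])
  obtain ⟨y, hy, y7⟩ := lift y0 7 y0_7 2 (by rw [show 4 * 2 = 7 + 1 from rfl, pow_succ, y0_7, one_mul])
  have rel : ∀ v, evw (ev5 x0 y0 1) v = 1 → evw (ev5 (j x) (j y) 1) v ∈ zpowers (j g) := fun v hv => by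
    rw [← map_one j, ← map_ev5]
    refine zi _ ((QuotientGroup.eq_one_iff _).1 ?_)
    have h1 := map_ev5 (QuotientGroup.mk' (center M)) x y 1 v
    have h2 := map_ev5 μ.toMonoidHom x0 y0 1 v
    rw [hv, map_one] at h2
    rw [map_one, QuotientGroup.mk'_apply, QuotientGroup.mk'_apply, QuotientGroup.mk'_apply, hx, hy] at h1
    exact h1.trans h2.symm
  refine ⟨j.range, j g, j x, j y, ⟨le, fun a ha b hb h1 h2 => ?_, ?_, ?_, ?_, ?_, out, ⟨_, rfl⟩, ?_, t2, t1, ?_⟩,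
    by rw [← map_mul, ← map_mul, ← pow_two, ← pow_succ, x3, map_one], by rw [← map_pow, y7, map_one],
    rel _ (by decide +kernel), rel _ (by decide +kernel), rel _ (by decide +kernel), ⟨_, rfl⟩, ⟨_, rfl⟩, ?_⟩
  · rw [mem a ha] at h1
    rw [mem b hb] at h2
    rw [mem _ (mul_mem ha hb)]
    exact (mul_mem_iff_of_index_two hM (a := ⟨a, ha⟩) (b := ⟨b, hb⟩)).2 (by simp [h1, h2])
  · rintro a ha _ ⟨m, rfl⟩
    exact ⟨⟨_, hN.conj_mem _ m.2 ⟨a, ha⟩⟩, rfl⟩
  · by_contra h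
    have : M = ⊤ := eq_top_iff.2 fun a _ => (mem a.1 a.2).1 (by by_contra h'; exact h ⟨a.1, a.2, h'⟩)
    rw [this, index_top] at hM
    omega
  · rw [← cM, Nat.card_congr (MonoidHom.ofInjective ji).toEquiv]
  · rw [← M.card_mul_index, cM, hM]
  · obtain ⟨s, hs⟩ := out t (mem_Cx.2 rfl) fun m hm => (mem_Cx.1 (le hm)).symm
    have sc : s ∈ center M := mem_center_iff.2 fun m => ji (by
      rw [map_mul, map_mul, hs]; exact mem_Cx.1 (le ⟨m, rfl⟩))
    refine ord4_sq ?_ ((congrArg (· ∈ zpowers (j g)) hs).mp (zi s sc)) t2 t1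
    rw [orderOf_injective j ji, Subgroup.orderOf_coe, g4]
  · rintro _ ⟨m, rfl⟩
    rw [← map_mul, ← map_mul, mem_center_iff.1 g.2 m]
  · intro K hxK hyK
    have h1 : ∀ m : M, ∃ k : M, j k ∈ K ∧ k⁻¹ * m ∈ center M := fun m => by
      obtain ⟨k, hk, e⟩ := L_gen (((K.comap j).map (QuotientGroup.mk' (center M))).comap μ.toMonoidHom)
        ⟨x, hxK, hx⟩ ⟨y, hyK, hy⟩ (μ.symm m)
      exact ⟨k, hk, QuotientGroup.eq.1 (e.trans (μ.apply_symm_apply _))⟩
    have h2 : commutator M ≤ K.comap j := by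
      rw [_root_.commutator_def, commutator_le]
      intro a _ b _
      obtain ⟨k, hk, ha⟩ := h1 a
      obtain ⟨l, hl, hb⟩ := h1 b
      have e1 : a = k * (k⁻¹ * a) := by group
      have e2 : b = l * (l⁻¹ * b) := by group
      generalize k⁻¹ * a = c at *
      generalize l⁻¹ * b = d at *
      have c1 := mem_center_iff.1 ha
      have d1 := mem_center_iff.1 hb
      have : a * b * a⁻¹ * b⁻¹ = k * l * k⁻¹ * l⁻¹ := by
        rw [e1, e2]
        calc k * c * (l * d) * (k * c)⁻¹ * (l * d)⁻¹ = k * (c * (l * d)) * c⁻¹ * (k⁻¹ * d⁻¹) * l⁻¹ := by group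
          _ = k * l * (d * (k⁻¹ * d⁻¹)) * l⁻¹ := by rw [← c1]; group
          _ = _ := by rw [← d1]; group
      rw [commutatorElement_def, this]
      exact mul_mem (mul_mem (mul_mem hk hl) (inv_mem (show k ∈ K.comap j from hk))) (inv_mem (show l ∈ K.comap j from hl))
    rintro _ ⟨m, rfl⟩
    exact h2 (hperf.ge trivial)

namespace Base
variable {t i : G} {M : Subgroup G} (B : Base t M i)
include B

theorem i4 : i ^ 4 = 1 := by rw [show i ^ 4 = i * i * (i * i) by simp [pow_succ, mul_assoc], B.i2, B.t2]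

theorem ord : orderOf i = 4 :=
  orderOf_eq_prime_pow (p := 2) (n := 1) (by rw [pow_one, pow_two, B.i2]; exact B.t1) B.i4

theorem zle : zpowers i ≤ M := zpowers_le.2 B.iM

theorem zcen {z : G} (hz : z ∈ zpowers i) {m : G} (hm : m ∈ M) : z * m = m * z :=
  mem_Cx.1 ((zpowers_le.2 (mem_Cx.2 (B.cen m hm)) : _ ≤ Cx(m)) hz)

theorem z4 {z : G} (hz : z ∈ zpowers i) : z ^ 4 = 1 := by
  obtain ⟨k, rfl⟩ := mem_zpowers_iff.1 hz
  rw [← zpow_natCast, ← zpow_mul, mul_comm, zpow_mul, zpow_natCast, B.i4, one_zpow]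

theorem zpow {z : G} (hz : z ∈ zpowers i) : ∃ a < 4, z = i ^ a := ord4_pow B.ord hz

theorem tM : t ∈ M := B.i2 ▸ mul_mem B.iM B.iM

theorem inv : Base t M i⁻¹ :=
  { B with
    iM := inv_mem B.iM
    i2 := by rw [← mul_inv_rev, B.i2]; exact inv_eq_of_mul_eq_one_right B.t2
    cen := fun m hm => B.zcen (inv_mem (mem_zpowers i)) hm }

theorem ur {x y : G} (g : Gen M i x y) : UR x y :=
  ⟨g.x3, g.y7, zpowers i, fun z hz => ⟨B.zcen hz g.xM, B.zcen hz g.yM, B.z4 hz⟩,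
    fun _ ha _ hb => B.zcen ha (B.zle hb), g.hp, g.hq, g.hr⟩
end Base

theorem Gen.inv {M : Subgroup G} {i x y : G} (g : Gen M i x y) : Gen M i⁻¹ x y :=
  { g with hp := zpowers_inv (g := i) ▸ g.hp, hq := zpowers_inv (g := i) ▸ g.hq, hr := zpowers_inv (g := i) ▸ g.hr }

/-- the letters of the table of `L₃(4)` -/
def sv (x y : G) : ℕ → G := byW (ev5 x y 1) sigL

theorem sv_mem {K : Subgroup G} {x y : G} (hx : x ∈ K) (hy : y ∈ K) (v : List ℕ) : evw (sv x y) v ∈ K := by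
  rw [sv, ← evw_subst]; exact ev5_mem hx hy K.one_mem _

theorem sv4 (x y : G) (v : List ℕ) (hv : allLt 4 v = true) : evw (sv x y) v = evw (ev5 x y 1) v :=
  evw_congr (k := 4) (fun l hl => by interval_cases l <;> simp [sv, byW, sigL, ev5]) (allLt_sound hv)

/-- the projection to `L₃(4)` -/
structure Pi (M : Subgroup G) (i x y : G) (π : G → L) : Prop where
  mul : ∀ a ∈ M, ∀ b ∈ M, π (a * b) = π a * π b
  ker : ∀ a ∈ M, π a = 1 ↔ a ∈ zpowers i
  word : ∀ v : List ℕ, (∀ l ∈ v, l < 8) → π (evw (sv x y) v) = evw (tel gL) v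

theorem normal_of_cen {M Z : Subgroup G} (h : ∀ z ∈ Z, ∀ m ∈ M, z * m = m * z) : (Z.subgroupOf M).Normal :=
  ⟨fun z hz m => by
    change ((m * z * m⁻¹ : M) : G) ∈ Z
    rw [coe_mul, coe_mul, coe_inv, ← h z.1 hz _ m.2, mul_inv_cancel_right]
    exact hz⟩

theorem Gen.quot {i x y : G} {M : Subgroup G} (g : Gen M i x y) (Z : Subgroup G) [(Z.subgroupOf M).Normal]
    (hp : evw (ev5 x y 1) wp ∈ Z) (hq : evw (ev5 x y 1) wq ∈ Z) (hr : evw (ev5 x y 1) wr ∈ Z) :
    ∃ φ : L →* M ⧸ Z.subgroupOf M, Function.Surjective φ ∧ ∀ v : List ℕ, (∀ l ∈ v, l < 8) →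
      φ (evw (tel gL) v) = QuotientGroup.mk' _ ⟨evw (sv x y) v, sv_mem g.xM g.yM v⟩ := by
  let x' : M := ⟨x, g.xM⟩
  let y' : M := ⟨y, g.yM⟩
  have e1 : ∀ v, ((evw (ev5 x' y' 1) v : M) : G) = evw (ev5 x y 1) v := fun v => map_ev5 M.subtype x' y' 1 v
  have e2 : ∀ v, QuotientGroup.mk' (Z.subgroupOf M) (evw (ev5 x' y' 1) v) =
      evw (ev5 (QuotientGroup.mk' _ x') (QuotientGroup.mk' _ y') 1) v := fun v => map_ev5 _ x' y' 1 v
  have rel : ∀ v, evw (ev5 x y 1) v ∈ Z →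
      evw (ev5 (QuotientGroup.mk' (Z.subgroupOf M) x') (QuotientGroup.mk' _ y') 1) v = 1 := fun v hv => by
    rw [← e2, QuotientGroup.mk'_apply, QuotientGroup.eq_one_iff, mem_subgroupOf, e1]
    exact hv
  obtain ⟨φ, hφ⟩ := L_hom (x := QuotientGroup.mk' (Z.subgroupOf M) x') (y := QuotientGroup.mk' _ y')
    (by rw [← map_mul, ← map_mul, show x' * x' * x' = 1 from Subtype.ext g.x3, map_one])
    (by rw [← map_pow, show y' ^ 7 = 1 from Subtype.ext g.y7, map_one]) (rel _ hp) (rel _ hq) (rel _ hr)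
  refine ⟨φ, fun q => ?_, fun v hv => ?_⟩
  · obtain ⟨m, rfl⟩ := QuotientGroup.mk'_surjective _ q
    obtain ⟨k, hk, e⟩ := g.gen ((φ.range.comap (QuotientGroup.mk' _)).map M.subtype)
      ⟨x', ⟨_, (hφ [0] (by decide)).trans (by simp [byW, sigL, ev5])⟩, rfl⟩
      ⟨y', ⟨_, (hφ [2] (by decide)).trans (by simp [byW, sigL, ev5])⟩, rfl⟩ m.2
    exact (Subtype.ext e : k = m) ▸ hk
  · rw [hφ v hv, ← evw_subst, ← e2]
    congr 1
    exact Subtype.ext (by rw [e1, evw_subst]; rfl)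

theorem Base.pi [Finite G] {t i x y : G} {M : Subgroup G} (B : Base t M i) (g : Gen M i x y) : ∃ π, Pi M i x y π := by
  classical
  haveI := normal_of_cen (M := M) (Z := zpowers i) fun z hz m hm => B.zcen hz hm
  obtain ⟨φ, hs, hφ⟩ := g.quot (zpowers i) g.hp g.hq g.hr
  have hc : Nat.card (M ⧸ (zpowers i).subgroupOf M) = 20160 := by
    have := card_eq_card_quotient_mul_card_subgroup ((zpowers i).subgroupOf M)
    rw [B.card, Nat.card_congr (subgroupOfEquivOfLe B.zle).toEquiv, Nat.card_zpowers, B.ord] at this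
    omega
  let ψ := MulEquiv.ofBijective φ (hs.bijective_of_nat_card_le (by rw [hc, card_L]))
  refine ⟨fun a => if h : a ∈ M then ψ.symm (QuotientGroup.mk' _ ⟨a, h⟩) else 1, fun a ha b hb => ?_, fun a ha => ?_,
    fun v hv => ?_⟩
  · rw [dif_pos ha, dif_pos hb, dif_pos (mul_mem ha hb), ← map_mul, ← map_mul]; rfl
  · rw [dif_pos ha, map_eq_one_iff _ ψ.symm.injective, QuotientGroup.mk'_apply, QuotientGroup.eq_one_iff]; rfl
  · rw [dif_pos (sv_mem g.xM g.yM v), MulEquiv.symm_apply_eq]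
    exact (hφ v hv).symm

theorem Base.not_even [Finite G] {t i x y : G} {M : Subgroup G} (B : Base t M i) (g : Gen M i x y)
    (hp : evw (ev5 x y 1) wp ∈ zpowers t) (hq : evw (ev5 x y 1) wq ∈ zpowers t) : False := by
  have le : zpowers t ≤ zpowers i := zpowers_le.2 (B.i2 ▸ mul_mem (mem_zpowers i) (mem_zpowers i))
  haveI := normal_of_cen (M := M) (Z := zpowers t) fun z hz m hm => B.zcen (le hz) hm
  obtain ⟨φ, hs, -⟩ := g.quot (zpowers t) hp hq (by
    rw [(B.ur g).eq 1 (nil_one x y 1) wr (wq ++ wq) (by decide +kernel), evw_append]; exact mul_mem hq hq)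
  have h1 := Nat.card_le_card_of_surjective φ hs
  have := card_eq_card_quotient_mul_card_subgroup ((zpowers t).subgroupOf M)
  rw [B.card, Nat.card_congr (subgroupOfEquivOfLe (le.trans B.zle)).toEquiv, Nat.card_zpowers,
    orderOf_eq_prime (p := 2) (by rw [pow_two, B.t2]) B.t1] at this
  rw [card_L] at h1
  omega

namespace Pi
variable {i x y : G} {M : Subgroup G} {π : G → L} (P : Pi M i x y π)
include P

theorem one : π 1 = 1 := (P.ker 1 M.one_mem).2 (one_mem _)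

theorem inv {a : G} (ha : a ∈ M) : π a⁻¹ = (π a)⁻¹ :=
  eq_inv_of_mul_eq_one_left (by rw [← P.mul _ (inv_mem ha) _ ha, inv_mul_cancel, P.one])

theorem pow {a : G} (ha : a ∈ M) (n : ℕ) : π (a ^ n) = π a ^ n := by
  induction n with
  | zero => simpa using P.one
  | succ n ih => rw [pow_succ, pow_succ, P.mul _ (pow_mem ha n) _ ha, ih]

theorem cj {a b : G} (ha : a ∈ M) (hb : b ∈ M) : π (a * b * a⁻¹) = π a * π b * (π a)⁻¹ := by
  rw [P.mul _ (mul_mem ha hb) _ (inv_mem ha), P.mul _ ha _ hb, P.inv ha]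

theorem eq {a b : G} (ha : a ∈ M) (hb : b ∈ M) (h : π a = π b) : a⁻¹ * b ∈ zpowers i :=
  (P.ker _ (mul_mem (inv_mem ha) hb)).1 (by rw [P.mul _ (inv_mem ha) _ hb, P.inv ha, h, inv_mul_cancel])

theorem wl (a : L) : π (evw (sv x y) (LT.wl a.1)) = a := by rw [P.word _ (gL.w_spec a.2).1, evw_tel_wl]

theorem w4 (v : List ℕ) (hv : allLt 4 v = true) : π (evw (ev5 x y 1) v) = evw (ev5 x0 y0 1) v := by
  rw [← sv4 x y v hv, P.word v fun l hl => (allLt_sound hv l hl).trans (by decide)]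
  exact evw_congr tel4 (allLt_sound hv)

theorem px : π x = x0 := by simpa [ev5] using P.w4 [0] rfl
theorem py : π y = y0 := by simpa [ev5] using P.w4 [2] rfl

theorem ev {a b : G} (ha : a ∈ M) (hb : b ∈ M) (v : List ℕ) : π (evw (ev5 a b 1) v) = evw (ev5 (π a) (π b) 1) v := by
  induction v with
  | nil => exact P.one
  | cons l v ih =>
    have h1 : ev5 a b 1 l ∈ M := by simpa using ev5_mem ha hb M.one_mem [l]
    rw [evw_cons, evw_cons, P.mul _ h1 _ (ev5_mem ha hb M.one_mem v), ih]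
    congr 1
    rcases l with _ | _ | _ | _ | _ | l
    exacts [rfl, P.inv ha, rfl, P.inv hb, P.one, P.one]

theorem surj (g : Gen M i x y) (a : L) : ∃ m ∈ M, π m = a := ⟨_, sv_mem g.xM g.yM _, P.wl a⟩

theorem cen (g : Gen M i x y) {z : G} (hz : z ∈ M) (h : ∀ m ∈ M, z * m = m * z) : z ∈ zpowers i :=
  (P.ker z hz).1 (L_center _ fun b => by
    obtain ⟨m, hm, rfl⟩ := P.surj g b
    rw [← P.mul _ hz _ hm, ← P.mul _ hm _ hz, h m hm])

theorem lift {t : G} (B : Base t M i) {a b : G} (ha : a ∈ M) (hb : b ∈ M) (h : π a = π b) {n : ℕ} (hn : n.Coprime 4)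
    (h1 : a ^ n = 1) (h2 : b ^ n = 1) : a = b := by
  have hz := P.eq ha hb h
  have e : b = a * (a⁻¹ * b) := by group
  generalize a⁻¹ * b = z at hz e
  rw [e, (Commute.symm (B.zcen hz ha)).mul_pow, h1, one_mul] at h2
  have := pow_gcd_eq_one.2 ⟨h2, B.z4 hz⟩
  rw [hn, pow_one] at this
  rw [e, this, mul_one]
end Pi

end CfH8.ON
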