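import Cfsg.Agent.OD.Pre
import Cfsg.Agent.H8.ON3
import Cfsg.Agent.OD.Helper3x2a47a6fbf7
import Cfsg.Agent.OD.Helper8xf17f623358
/-! The involution centraliser in a group of O'Nan type: twelve candidates. -/
set_option autoImplicit false
set_option maxRecDepth 100000
open CfH6 CfL Subgroup CfH9
namespace CfH8.ON

variable {G : Type*} [Group G]

def Ty (t : G) (M : Subgroup G) (a b : ℕ) : Prop :=
  ∃ i x y, Base t M i ∧ Gen M i x y ∧ evw (ev5 x y 1) wp = i ^ a ∧ evw (ev5 x y 1) wq = i ^ b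

variable {t : G} {M : Subgroup G}

theorem Ty.neg {a b : ℕ} (h : Ty t M a b) : Ty t M (3 * a % 4) (3 * b % 4) := by
  obtain ⟨i, x, y, B, g, hp, hq⟩ := h
  have k : ∀ n, i ^ n = i⁻¹ ^ (3 * n % 4) := fun n => by
    rw [← B.inv.ord, pow_mod_orderOf, pow_mul, inv_pow, show (i ^ 3)⁻¹ = i from
      inv_eq_of_mul_eq_one_right (by rw [← pow_succ, B.i4])]
  exact ⟨i⁻¹, x, y, B.inv, g.inv, hp.trans (k a), hq.trans (k b)⟩

theorem Ty.delta {a b : ℕ} (h : Ty t M a b) : Ty t M ((a + b) % 4) ((a + b + b) % 4) := by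
  obtain ⟨i, x, y, B, g, hp, hq⟩ := h
  have U := B.ur g
  have e : ∀ u v, allLt 4 u = true → (allLt 4 v && cK [[]] (subst (sg (Yw.getD 5 [])) u ++ invw il4 v)) = true →
      evw (ev5 x (evw (ev5 x y 1) (Yw.getD 5 [])) 1) u = evw (ev5 x y 1) v := fun u v hu h => by
    rw [← evw_sg x y 1 1 rfl u hu, U.eq 1 (nil_one x y 1) _ v h]
  have e1 := e wp (wp ++ wq) rfl (by decide +kernel)
  have e2 := e wq (wp ++ wq ++ wq) rfl (by decide +kernel)
  have e3 := e wr (wp ++ wp) rfl (by decide +kernel)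
  have e4 := e [0, 2, 2, 0, 3, 1, 2, 2, 2, 1, 2, 2, 2] [2] rfl (by decide +kernel)
  simp only [evw_append, hp, hq, ← pow_add] at e1 e2 e3
  refine ⟨i, x, _, B, ⟨g.x3, ?_, e1 ▸ pow_mem (mem_zpowers i) _, e2 ▸ pow_mem (mem_zpowers i) _,
    e3 ▸ pow_mem (mem_zpowers i) _, g.xM, ev5_mem g.xM g.yM M.one_mem _, fun K hx hy => g.gen K hx ?_⟩,
    by rw [e1, ← B.ord, pow_mod_orderOf], by rw [e2, ← B.ord, pow_mod_orderOf]⟩
  · rw [← evw_wpow]; exact U.one 1 (nil_one x y 1) _ (by decide +kernel)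
  · have := ev5_mem hx hy K.one_mem [0, 2, 2, 0, 3, 1, 2, 2, 2, 1, 2, 2, 2]
    rw [e4] at this
    simpa [ev5] using this

theorem ty_cases [Finite G] {i x y : G} (B : Base t M i) (g : Gen M i x y) : Ty t M 0 1 ∨ Ty t M 1 0 := by
  obtain ⟨a, ha, hp⟩ := B.zpow g.hp
  obtain ⟨b, hb, hq⟩ := B.zpow g.hq
  have h : Ty t M a b := ⟨i, x, y, B, g, hp, hq⟩
  have n := B.not_even g
  have h0 : i ^ 0 ∈ zpowers t := by rw [pow_zero]; exact one_mem _
  have h2 : i ^ 2 ∈ zpowers t := by rw [pow_two, B.i2]; exact mem_zpowers t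
  rw [hp, hq] at n
  interval_cases a <;> interval_cases b <;>
    first | exact (n h0 h0).elim | exact (n h0 h2).elim | exact (n h2 h0).elim | exact (n h2 h2).elim
          | exact Or.inl h | exact Or.inr h | exact Or.inl h.neg | exact Or.inr h.neg
          | exact Or.inl h.delta | exact Or.inr h.delta | exact Or.inl h.delta.neg | exact Or.inr h.delta.neg
          | exact Or.inl h.delta.delta | exact Or.inr h.delta.delta
          | exact Or.inl h.delta.delta.neg | exact Or.inr h.delta.delta.neg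

theorem exists_alpha {i x y : G} {π : G → L} (B : Base t M i) (g : Gen M i x y) (P : Pi M i x y π) :
    ∃ w ∈ Cx(t), w ∉ M ∧ ∃ k < 12, w * x = x * w ∧ w * y = evw (ev5 x y 1) (Yw.getD k []) * w := by
  obtain ⟨w0, c0, n0⟩ := B.ex
  have x3 : x ^ 3 = 1 := by rw [pow_succ, pow_two, g.x3]
  have cp : ∀ (w a : G) (n : ℕ), a ^ n = 1 → (w * a * w⁻¹) ^ n = 1 := fun w a n h => by rw [conj_pow, h]; group
  have m1 := B.nrm w0 c0 x g.xM
  obtain ⟨c, hc⟩ := (L_facts (π (w0 * x * w0⁻¹))).2.1 (by rw [← pow_two, ← pow_succ, ← P.pow m1, cp _ _ _ x3, P.one])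
    fun e => by
      have := P.lift B m1 M.one_mem (e.trans P.one.symm) (n := 3) (by decide) (cp _ _ _ x3) (one_pow 3)
      have h := P.px
      rw [conj_eq_one_iff.1 this, P.one] at h
      exact absurd h (by decide +kernel)
  obtain ⟨m, hm, rfl⟩ := P.surj g c
  have h1 : m⁻¹ * w0 * x * (m⁻¹ * w0)⁻¹ = x := by
    have := P.lift B (mul_mem (mul_mem hm g.xM) (inv_mem hm)) m1 (by rw [P.cj hm g.xM, P.px, hc]) (n := 3) (by decide)
      (cp _ _ _ x3) (cp _ _ _ x3)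
    calc _ = m⁻¹ * (w0 * x * w0⁻¹) * m := by group
      _ = x := by rw [← this]; group
  have c1 : m⁻¹ * w0 ∈ Cx(t) := mul_mem (inv_mem (B.le hm)) c0
  have n1 : m⁻¹ * w0 ∉ M := fun h => n0 ((mul_mem_cancel_left (inv_mem hm)).1 h)
  generalize m⁻¹ * w0 = w1 at h1 c1 n1
  have m2 := B.nrm w1 c1 y g.yM
  have rel : ∀ v, allLt 4 v = true → evw (ev5 x y 1) v ∈ zpowers i → evw (ev5 x0 (π (w1 * y * w1⁻¹)) 1) v = 1 := by
    intro v hv h
    have h2 := B.nrm w1 c1 _ (B.zle h)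
    rw [← P.px, ← P.ev g.xM m2, ← h1, ← conj_ev5 x y w1 v hv, P.ker _ h2]
    refine P.cen g h2 fun a ha => ?_
    have := B.zcen h (B.nrm w1⁻¹ (inv_mem c1) a ha)
    calc _ = w1 * (evw (ev5 x y 1) v * (w1⁻¹ * a * w1⁻¹⁻¹)) * w1⁻¹ := by group
      _ = _ := by rw [this]; group
  obtain ⟨c, k, hk, e1, e2⟩ := (L_facts (π (w1 * y * w1⁻¹))).2.2.2 (by rw [← P.pow m2, cp _ _ _ g.y7, P.one])
    (rel _ rfl g.hp) (rel _ rfl g.hq) (rel _ rfl g.hr)
  obtain ⟨m, hm, rfl⟩ := P.surj g c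
  have hY : ∀ k < 12, allLt 4 (Yw.getD k []) = true ∧ cK [[]] (wpow (Yw.getD k []) 7) = true := by decide +kernel
  refine ⟨m * w1, mul_mem (B.le hm) c1, fun h => n1 ((mul_mem_cancel_left hm).1 h), k, hk, ?_, ?_⟩
  · have := P.lift B (mul_mem (mul_mem hm g.xM) (inv_mem hm)) g.xM
      (by rw [P.cj hm g.xM, P.px, e1, mul_inv_cancel_right]) (n := 3) (by decide) (cp _ _ _ x3) x3
    rw [← mul_inv_eq_iff_eq_mul]
    calc _ = m * (w1 * x * w1⁻¹) * m⁻¹ := by group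
      _ = x := by rw [h1, this]
  · have := P.lift B (mul_mem (mul_mem hm m2) (inv_mem hm)) (ev5_mem g.xM g.yM M.one_mem (Yw.getD k []))
      (by rw [P.cj hm m2, e2, P.w4 _ (hY k hk).1]) (n := 7) (by decide) (cp _ _ _ (cp _ _ _ g.y7))
      (by rw [← evw_wpow]; exact (B.ur g).one 1 (nil_one x y 1) _ (hY k hk).2)
    rw [← mul_inv_eq_iff_eq_mul, ← this]
    group

def kss (k : List ℕ) : List (List ℕ) := [[], k, k ++ k, k ++ k ++ k]

/-- one candidate: kernel word, central word, automorphism, square -/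
def Cs (t : G) (M : Subgroup G) (kw iw : List ℕ) (k l : ℕ) : Prop :=
  ∃ i x y w, Base t M i ∧ Gen M i x y ∧ w ∈ Cx(t) ∧ w ∉ M ∧ evw (ev5 x y w) iw = i ∧
    Sit x y w (Yw.getD k []) (wpow iw l) (kss kw)

noncomputable def altChk (kw iw : List ℕ) (k : ℕ) : ℕ :=
  bif cK (kss kw) (subst (sg (Yw.getD k [])) (kw ++ kw) ++ invw il4 (iw ++ iw)) then 0
  else bif cK [[]] (subst (sg (Yw.getD k [])) (Yw.getD k []) ++ [3]) then
    (bif cK (kss kw) (subst (sg (Yw.getD k [])) iw ++ iw) then 1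
    else bif cK (kss kw) (subst (sg (Yw.getD k [])) iw ++ invw il4 iw) then 2 else 3) else 3

theorem cs_of [Finite G] {i x y : G} (B : Base t M i) (g : Gen M i x y) {kw iw : List ℕ}
    (l1 : allLt 4 kw = true) (l2 : allLt 4 iw = true) (hk : evw (ev5 x y 1) kw = 1) (hi : evw (ev5 x y 1) iw = i) :
    ∃ k < 12, k ≠ 0 ∧ altChk kw iw k ≠ 0 ∧ (altChk kw iw k = 1 → Cs t M kw iw k 0 ∨ Cs t M kw iw k 2) ∧
      (altChk kw iw k = 2 → Cs t M kw iw k 0 ∨ Cs t M kw iw k 1) := by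
  obtain ⟨π, P⟩ := B.pi g
  obtain ⟨w, cw, nw, k, hk12, e1, e2⟩ := exists_alpha B g P
  have U := B.ur g
  have hY : ∀ k < 12, allLt 4 (Yw.getD k []) = true := by decide
  have lY := hY k hk12
  have hks : ∀ w' : G, ∀ v ∈ kss kw, evw (ev5 x y w') v = 1 := fun w' => by
    simp [kss, evw_ev5 x y w' 1 kw l1, hk]
  have cj : ∀ v, allLt 4 v = true →
      evw (ev5 x y 1) (subst (sg (Yw.getD k [])) v) = w * evw (ev5 x y 1) v * w⁻¹ := fun v hv => by
    rw [evw_sg x y 1 1 lY v hv, conj_ev5 x y w v hv, e1, e2, mul_inv_cancel_right, mul_inv_cancel_right]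
  have app : ∀ u v : List ℕ, allLt 4 u = true → allLt 4 v = true → allLt 4 (u ++ v) = true := fun u v hu hv => by
    rw [allLt, List.all_append, Bool.and_eq_true]; exact ⟨hu, hv⟩
  have sit : ∀ z ∈ zpowers i, ∀ l, w * z * (w * z) = i ^ l → Cs t M kw iw k l := fun z hz l h => by
    refine ⟨i, x, y, w * z, B, g, mul_mem cw (B.le (B.zle hz)), fun h => nw ((mul_mem_cancel_right (B.zle hz)).1 h),
      (evw_ev5 x y _ 1 iw l2).trans hi, U, lY, ?_, ?_, ?_, hks _⟩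
    · rw [mul_assoc, B.zcen hz g.xM, ← mul_assoc, e1, mul_assoc]
    · rw [mul_assoc, B.zcen hz g.yM, ← mul_assoc, e2, mul_assoc, evw_ev5 x y (w * z) 1 _ lY]
    · rw [evw_wpow, evw_ev5 x y _ 1 iw l2, hi, h]
  have sq : cK [[]] (subst (sg (Yw.getD k [])) (Yw.getD k []) ++ [3]) = true → ∃ l < 4, w * w = i ^ l := fun h => by
    have h1 := U.one 1 (nil_one x y 1) _ h
    rw [evw_append, cj _ lY, ← mul_inv_eq_iff_eq_mul.2 e2] at h1
    have h2 : w * w * y = y * (w * w) := by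
      have : w * (w * y * w⁻¹) * w⁻¹ * y⁻¹ = 1 := by simpa [ev5] using h1
      calc _ = w * (w * y * w⁻¹) * w⁻¹ * y⁻¹ * (y * (w * w)) := by group
        _ = _ := by rw [this, one_mul]
    refine B.zpow (P.cen g (B.idx w cw w cw nw nw) fun m hm => (mem_Cx.1 (g.gen Cx(w * w) (mem_Cx.2 ?_)
      (mem_Cx.2 h2.symm) hm)).symm)
    rw [mul_assoc, e1, ← mul_assoc, ← mul_assoc, e1]
  refine ⟨k, hk12, ?_, ?_, ?_, ?_⟩
  · rintro rfl
    refine nw (B.out w cw fun m hm => (mem_Cx.1 (g.gen Cx(w) (mem_Cx.2 e1.symm) (mem_Cx.2 ?_) hm)).symm)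
    simpa [Yw, ev5] using e2.symm
  · intro h
    unfold altChk at h
    cases h1 : cK (kss kw) (subst (sg (Yw.getD k [])) (kw ++ kw) ++ invw il4 (iw ++ iw))
    · rw [h1] at h
      revert h
      cases cK [[]] (subst (sg (Yw.getD k [])) (Yw.getD k []) ++ [3]) <;>
        cases cK (kss kw) (subst (sg (Yw.getD k [])) iw ++ iw) <;>
        cases cK (kss kw) (subst (sg (Yw.getD k [])) iw ++ invw il4 iw) <;> simp
    · have := U.one 1 (hks 1) _ h1
      rw [evw_append, cj _ (app _ _ l1 l1), evw_iv _ _ _ _ (app _ _ l2 l2), evw_append, evw_append, hk, hi, B.i2] at this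
      exact B.t1 (by simpa using this)
  · intro h
    unfold altChk at h
    have h12 : cK [[]] (subst (sg (Yw.getD k [])) (Yw.getD k []) ++ [3]) = true ∧
        cK (kss kw) (subst (sg (Yw.getD k [])) iw ++ iw) = true := by
      revert h
      cases cK (kss kw) (subst (sg (Yw.getD k [])) (kw ++ kw) ++ invw il4 (iw ++ iw)) <;>
        cases cK [[]] (subst (sg (Yw.getD k [])) (Yw.getD k []) ++ [3]) <;>
        cases cK (kss kw) (subst (sg (Yw.getD k [])) iw ++ iw) <;>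
        cases cK (kss kw) (subst (sg (Yw.getD k [])) iw ++ invw il4 iw) <;> simp
    obtain ⟨l, hl, e⟩ := sq h12.1
    have h3 := U.one 1 (hks 1) _ h12.2
    rw [evw_append, cj _ l2, hi] at h3
    have h4 : ¬ w * i = i * w := fun c => B.t1 (by rw [c, mul_inv_cancel_right, B.i2] at h3; exact h3)
    have h5 : w * i ^ l = i ^ l * w := by rw [← e, mul_assoc]
    interval_cases l
    · exact Or.inl (sit 1 (one_mem _) 0 (by simpa using e))
    · exact absurd (by simpa using h5) h4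
    · exact Or.inr (sit 1 (one_mem _) 2 (by simpa using e))
    · refine absurd ?_ h4
      rw [show i ^ 3 = i⁻¹ from eq_inv_of_mul_eq_one_left (by rw [← pow_succ, B.i4])] at h5
      exact (Commute.inv_right_iff.1 h5).eq
  · intro h
    unfold altChk at h
    have h12 : cK [[]] (subst (sg (Yw.getD k [])) (Yw.getD k []) ++ [3]) = true ∧
        cK (kss kw) (subst (sg (Yw.getD k [])) iw ++ invw il4 iw) = true := by
      revert h
      cases cK (kss kw) (subst (sg (Yw.getD k [])) (kw ++ kw) ++ invw il4 (iw ++ iw)) <;>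
        cases cK [[]] (subst (sg (Yw.getD k [])) (Yw.getD k []) ++ [3]) <;>
        cases cK (kss kw) (subst (sg (Yw.getD k [])) iw ++ iw) <;>
        cases cK (kss kw) (subst (sg (Yw.getD k [])) iw ++ invw il4 iw) <;> simp
    obtain ⟨l, hl, e⟩ := sq h12.1
    have h3 := U.one 1 (hks 1) _ h12.2
    rw [evw_append, cj _ l2, evw_iv _ _ _ _ l2, hi, mul_inv_eq_one, mul_inv_eq_iff_eq_mul] at h3
    have h4 : w * i * (w * i) = i ^ (l + 2) := by
      rw [pow_add, ← e, pow_two, mul_assoc w i, ← mul_assoc i, ← h3]; simp only [mul_assoc]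
    interval_cases l
    · exact Or.inl (sit 1 (one_mem _) 0 (by simpa using e))
    · exact Or.inr (sit 1 (one_mem _) 1 (by simpa using e))
    · exact Or.inl (sit i (mem_zpowers i) 0 (by rw [h4, B.i4, pow_zero]))
    · exact Or.inr (sit i (mem_zpowers i) 1 (by rw [h4, pow_succ' i 4, B.i4, mul_one, pow_one]))

theorem cases12 [Finite G] {i x y : G} (B : Base t M i) (g : Gen M i x y) :
    (Cs t M wp wq 7 0 ∨ Cs t M wp wq 7 2) ∨ (Cs t M wp wq 8 0 ∨ Cs t M wp wq 8 1) ∨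
    (Cs t M wp wq 9 0 ∨ Cs t M wp wq 9 2) ∨ (Cs t M wq wp 3 0 ∨ Cs t M wq wp 3 1) ∨
    (Cs t M wq wp 7 0 ∨ Cs t M wq wp 7 2) ∨ (Cs t M wq wp 10 0 ∨ Cs t M wq wp 10 2) := by
  rcases ty_cases B g with ⟨i, x, y, B, g, hp, hq⟩ | ⟨i, x, y, B, g, hp, hq⟩
  · obtain ⟨k, h1, h2, h3, h4, h5⟩ := cs_of B g (kw := wp) (iw := wq) rfl rfl (by simpa using hp) (by simpa using hq)
    have : ∀ k < 12, k ≠ 0 → altChk wp wq k ≠ 0 → (k = 7 ∧ altChk wp wq k = 1) ∨ (k = 8 ∧ altChk wp wq k = 2) ∨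
      (k = 9 ∧ altChk wp wq k = 1) := by decide +kernel
    rcases this k h1 h2 h3 with ⟨rfl, h⟩ | ⟨rfl, h⟩ | ⟨rfl, h⟩
    exacts [.inl (h4 h), .inr (.inl (h5 h)), .inr (.inr (.inl (h4 h)))]
  · obtain ⟨k, h1, h2, h3, h4, h5⟩ := cs_of B g (kw := wq) (iw := wp) rfl rfl (by simpa using hq) (by simpa using hp)
    have : ∀ k < 12, k ≠ 0 → altChk wq wp k ≠ 0 → (k = 3 ∧ altChk wq wp k = 2) ∨ (k = 7 ∧ altChk wq wp k = 1) ∨
      (k = 10 ∧ altChk wq wp k = 1) := by decide +kernel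
    rcases this k h1 h2 h3 with ⟨rfl, h⟩ | ⟨rfl, h⟩ | ⟨rfl, h⟩
    exacts [.inr (.inr (.inr (.inl (h5 h)))), .inr (.inr (.inr (.inr (.inl (h4 h))))),
      .inr (.inr (.inr (.inr (.inr (h4 h)))))]

end CfH8.ON
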