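import Cfsg.Agent.OD.Pre
import Cfsg.Agent.H8.ON4
import Cfsg.Agent.L.J2g
import Cfsg.Agent.L.Cnt
/-! Groups of O'Nan type: fusion of the central involution. -/
set_option autoImplicit false
set_option maxRecDepth 100000
open CfH6 CfL Subgroup CfH9
namespace CfH8.ON

variable {G : Type*} [Group G]

/-- the fusion alternative for the outer involutions of the Sylow subgroup -/
def FA {K : Type*} [Group K] (t0 : K) (inner : K → Prop) : Prop :=
  ∀ a : K, a * a = 1 → inner a ∨ (∃ c, c * c = t0 ∧ c * a = a * c) ∨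
    ((∃ c, c * a = a * t0 * c) ∧ ∃ c, c * a * c⁻¹ * a * (c * a * c⁻¹ * a) = 1 ∧ c * a * c⁻¹ * a ≠ 1 ∧ c * a * c⁻¹ * a ≠ t0)

/-- a model of the Sylow 2-subgroup of the involution centraliser -/
structure Loc (t : G) (M : Subgroup G) (i x y : G) (π : G → L) {K : Type*} [Group K] (φ : K →* G)
    (t0 u0 i0 w0 τ0 : K) (inner : K → Prop) : Prop where
  B : Base t M i
  g : Gen M i x y
  P : Pi M i x y π
  cardK : Nat.card K = 512
  hC : ∀ a, φ a ∈ Cx(t)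
  hi : φ i0 = i
  ht : i0 * i0 = t0
  uM : φ u0 ∈ M
  hu : π (φ u0) = uL
  hs : ∀ l, 4 ≤ l → l < 8 → sv x y l ∈ φ.range
  wM : φ w0 ∉ M
  wu : w0 * u0 = u0 * w0
  hin : Function.Injective φ → ∀ a, inner a → φ a ∈ M
  f0 : ∀ z : K, (∀ a, z * a = a * z) → z * z = 1 → z = 1 ∨ z = t0
  u2 : u0 * u0 = 1
  τu : τ0 * u0 = u0 * t0 * τ0
  fa : FA t0 inner

namespace Loc
variable {t i x y : G} {M : Subgroup G} {π : G → L} {K : Type*} [Group K] {φ : K →* G} {t0 u0 i0 w0 τ0 : K}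
  {inner : K → Prop} (h : Loc t M i x y π φ t0 u0 i0 w0 τ0 inner)
include h

theorem ft : φ t0 = t := by rw [← h.ht, map_mul, h.hi, h.B.i2]

theorem inj : Function.Injective φ := by
  have : Finite K := Nat.finite_of_card_ne_zero (by rw [h.cardK]; decide)
  haveI : Fact (Nat.Prime 2) := ⟨Nat.prime_two⟩
  rw [← MonoidHom.ker_eq_bot_iff]
  by_contra n
  have hp : IsPGroup 2 K := IsPGroup.of_card (n := 9) h.cardK
  obtain ⟨z, hz, z1, zc⟩ := exists_mem_center_of_normal (Q := φ.ker) (T := ⊤) (hp.to_subgroup _) (hp.to_subgroup _)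
    (normalizer_eq_top φ.ker).ge n
  obtain ⟨k, hk⟩ := IsPGroup.iff_orderOf.1 hp z
  obtain ⟨w, hw, w2, w1⟩ := exists_invol_of_even (g := z) (by
    rw [hk]; exact (Nat.even_pow.2 ⟨even_two, fun e => z1 (by rw [e, pow_zero, orderOf_eq_one_iff] at hk; exact hk)⟩))
  have e := (h.f0 w (fun a => mem_Cx.1 ((zpowers_le.2 (mem_Cx.2 (zc a trivial).symm) : _ ≤ Cx(a)) hw)) w2).resolve_left w1
  have : φ w = 1 := (zpowers_le.2 hz : _ ≤ φ.ker) hw
  rw [e, h.ft] at this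
  exact h.B.t1 this

theorem sylow [Finite G] : SylIn 2 φ.range Cx(t) := by
  haveI : Fact (Nat.Prime 2) := ⟨Nat.prime_two⟩
  have c : Nat.card φ.range = 512 := by rw [← Nat.card_congr (MonoidHom.ofInjective h.inj).toEquiv, h.cardK]
  have le : φ.range ≤ Cx(t) := by rintro _ ⟨a, rfl⟩; exact h.hC a
  refine sylIn_of_not_dvd le (IsPGroup.of_card (n := 9) c) ?_
  have := relIndex_mul_relIndex ⊥ φ.range Cx(t) bot_le le
  rw [relIndex_bot_left, relIndex_bot_left, c, h.B.cardC] at this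
  omega

theorem memM {g : G} (hg : g ∈ M) (e : π g * uL = uL * π g) : g ∈ φ.range := by
  have h1 : evw (sv x y) (LT.wl (π g).1) ∈ φ.range := by
    have h2 := (L_facts (π g)).2.2.1 e
    have h3 := (gL.w_spec (π g).2).1
    generalize LT.wl (π g).1 = v at h2 h3
    induction v with
    | nil => exact one_mem _
    | cons l v ih =>
      rw [evw_cons]
      exact mul_mem (h.hs l (h2 l List.mem_cons_self) (h3 l List.mem_cons_self))
        (ih (fun l hl => h2 l (List.mem_cons_of_mem _ hl)) fun l hl => h3 l (List.mem_cons_of_mem _ hl))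
  have h2 := h.P.eq (sv_mem h.g.xM h.g.yM _) hg (h.P.wl (π g))
  exact (mul_mem_cancel_left (inv_mem h1)).1 ((zpowers_le.2 ⟨i0, h.hi⟩ : _ ≤ φ.range) h2)

theorem memQ {g : G} (hg : g ∈ Cx(t)) (e : g * φ u0 = φ u0 * g) : ∃ a, φ a = g ∧ a * u0 = u0 * a := by
  have k : ∀ g ∈ M, g * φ u0 = φ u0 * g → g ∈ φ.range := fun g hg e =>
    h.memM hg (by rw [← h.hu, ← h.P.mul _ hg _ h.uM, ← h.P.mul _ h.uM _ hg, e])
  obtain ⟨a, rfl⟩ : g ∈ φ.range := by
    by_cases c : g ∈ M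
    · exact k g c e
    · refine (mul_mem_cancel_right (show φ w0 ∈ φ.range from ⟨w0, rfl⟩)).1 (k _ (h.B.idx g hg _ (h.hC w0) c h.wM) ?_)
      rw [mul_assoc, ← map_mul, h.wu, map_mul, ← mul_assoc, e, mul_assoc]
  exact ⟨a, rfl, h.inj (by rw [map_mul, map_mul, e])⟩

theorem u_2 : φ u0 * φ u0 = 1 := by rw [← map_mul, h.u2, map_one]

theorem conj_u {s : G} (hs : s ∈ M) (s2 : s * s = 1) (s1 : s ≠ 1) (st : s ≠ t) : ∃ c ∈ Cx(t), c * φ u0 * c⁻¹ = s := by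
  have B := h.B
  have k : ∀ z ∈ zpowers i, z * z = 1 → z = 1 ∨ z = t := fun z hz z2 => by
    by_cases c : z = 1
    · exact Or.inl c
    · exact Or.inr ((ord4_sq B.ord hz z2 c).symm.trans B.i2)
  obtain ⟨c, hc⟩ := (L_facts (π s)).1 (by rw [← h.P.mul _ hs _ hs, s2, h.P.one]) fun e =>
    (k s ((h.P.ker s hs).1 e) s2).elim s1 st
  obtain ⟨m, hm, rfl⟩ := h.P.surj h.g c
  have m1 := mul_mem (mul_mem hm h.uM) (inv_mem hm)
  have hz := h.P.eq m1 hs (by rw [h.P.cj hm h.uM, h.hu, hc])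
  have v2 : m * φ u0 * m⁻¹ * (m * φ u0 * m⁻¹) = 1 := by
    calc _ = m * (φ u0 * φ u0) * m⁻¹ := by group
      _ = 1 := by rw [h.u_2]; group
  have e : s = m * φ u0 * m⁻¹ * ((m * φ u0 * m⁻¹)⁻¹ * s) := by group
  generalize (m * φ u0 * m⁻¹)⁻¹ * s = z at hz e
  have z2 : z * z = 1 := by
    rw [e, mul_assoc, ← mul_assoc z, B.zcen hz m1, ← mul_assoc, ← mul_assoc, v2, one_mul] at s2
    exact s2
  rcases k z hz z2 with rfl | rfl
  · exact ⟨m, B.le hm, by rw [e, mul_one]⟩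
  · refine ⟨m * φ τ0, mul_mem (B.le hm) (h.hC _), ?_⟩
    have := congrArg φ h.τu
    rw [map_mul, map_mul, map_mul, h.ft] at this
    rw [e, mul_assoc m, this, mul_assoc _ m⁻¹, mem_Cx.1 (inv_mem (B.le hm))]
    group

theorem ut : φ u0 ≠ t := fun e => by
  have := h.hu
  rw [e, (h.P.ker t h.B.tM).2 (h.B.i2 ▸ mul_mem (mem_zpowers i) (mem_zpowers i))] at this
  exact absurd this (by decide +kernel)

theorem u_1 : φ u0 ≠ 1 := fun e => by
  have := h.hu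
  rw [e, h.P.one] at this
  exact absurd this (by decide +kernel)

theorem sqM {c : G} (hc : c ∈ Cx(t)) : c * c ∈ M := by
  by_cases e : c ∈ M
  · exact mul_mem e e
  · exact h.B.idx c hc c hc e e

theorem fus [Finite G] [IsSimpleGroup G] : IsConj t (φ u0) := by
  have B := h.B
  have fin : ∀ s ∈ M, IsConj t s → s ≠ t → IsConj t (φ u0) := fun s hs c st => by
    obtain ⟨k, -, e⟩ := h.conj_u hs (sq_of_isConj c B.t2) (ne_one_of_isConj c B.t1) st
    exact c.trans (isConj_iff.2 ⟨k, e⟩).symm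
  obtain ⟨s, c1, c2, c3⟩ := not_isolated (z := t) (orderOf_eq_prime (by rw [pow_two, B.t2]) B.t1) (by rw [B.cardC]; decide)
  haveI : Fact (Nat.Prime 2) := ⟨Nat.prime_two⟩
  obtain ⟨k, hk, a, ha⟩ := h.sylow.exists_conj_mem (mem_Cx.2 c2) (k := 1) (by simpa [pow_two] using sq_of_isConj c1 B.t2)
  have ca : IsConj t (φ a) := c1.trans (isConj_iff.2 ⟨k, ha.symm⟩)
  have at' : φ a ≠ t := fun e => c3 (by
    rw [e, eq_comm, mul_inv_eq_iff_eq_mul, ← mem_Cx.1 hk] at ha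
    exact mul_left_cancel ha)
  by_cases aM : φ a ∈ M
  · exact fin _ aM ca at'
  obtain ⟨g, hg⟩ := isConj_iff.1 ca
  have back : ∀ s, s * φ a = φ a * s → g⁻¹ * s * g ∈ Cx(t) := fun s e => mem_Cx.2 (by
    rw [← hg] at e
    calc _ = g⁻¹ * (s * (g * t * g⁻¹)) * g := by group
      _ = _ := by rw [e]; group)
  have fin2 : ∀ s, IsConj t s → s ≠ φ a → g⁻¹ * s * g ∈ M → IsConj t (φ u0) := fun s c n m =>
    fin _ m (c.trans (isConj_iff.2 ⟨g⁻¹, by rw [inv_inv]⟩)) fun e => n (by rw [← hg, ← e]; group)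
  have a2 : a * a = 1 := h.inj (by rw [map_mul, sq_of_isConj ca B.t2, map_one])
  rcases h.fa a a2 with e | ⟨c, e1, e2⟩ | ⟨⟨c, e1⟩, d, e2, e3, e4⟩
  · exact absurd (h.hin h.inj a e) aM
  · refine fin2 t (IsConj.refl t) at'.symm ?_
    have := h.sqM (back (φ c) (by rw [← map_mul, e2, map_mul]))
    rwa [show g⁻¹ * φ c * g * (g⁻¹ * φ c * g) = g⁻¹ * (φ c * φ c) * g by group, ← map_mul, e1, h.ft] at this
  · by_cases tM : g⁻¹ * t * g ∈ M
    · exact fin2 t (IsConj.refl t) at'.symm tM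
    have tc : ∀ b, t0 * b = b * t0 := fun b => h.inj (by rw [map_mul, map_mul, h.ft, mem_Cx.1 (h.hC b)])
    have b2 : d * a * d⁻¹ * (d * a * d⁻¹) = 1 := by
      calc _ = d * (a * a) * d⁻¹ := by group
        _ = 1 := by rw [a2]; group
    have cb : IsConj t (φ (d * a * d⁻¹)) := ca.trans (isConj_iff.2 ⟨φ d, by simp⟩)
    have cb' : IsConj t (φ (d * a * d⁻¹ * t0)) := ca.trans (isConj_iff.2 ⟨φ (d * c), by
      rw [← map_inv, ← map_mul, ← map_mul, mul_assoc d, e1, mul_assoc _ d⁻¹, ← tc d⁻¹]; congr 1; group⟩)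
    generalize d * a * d⁻¹ = b at e2 e3 e4 b2 cb cb'
    have ab : b * a = a * b := by
      calc b * a = (b * a)⁻¹ := eq_inv_of_mul_eq_one_left e2
        _ = a * b := by rw [mul_inv_rev, inv_eq_of_mul_eq_one_left a2, inv_eq_of_mul_eq_one_left b2]
    by_cases bM : g⁻¹ * φ b * g ∈ M
    · exact fin2 _ cb (fun e => e3 (by rw [h.inj e, a2])) bM
    · refine fin2 _ cb' (fun e => e4 ?_) ?_
      · rw [← h.inj e, ← mul_assoc, b2, one_mul]
      · have := B.idx _ (back _ (by rw [← map_mul, ab, map_mul])) _ (back _ (mem_Cx.1 (h.hC a)).symm) bM tM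
        rwa [show g⁻¹ * φ b * g * (g⁻¹ * t * g) = g⁻¹ * (φ b * t) * g by group, ← h.ft, ← map_mul] at this

theorem swap [Finite G] [IsSimpleGroup G] : ∃ γ : G, γ * t * γ⁻¹ = φ u0 ∧ γ * φ u0 * γ⁻¹ = t := by
  have B := h.B
  obtain ⟨g, hg⟩ := isConj_iff.1 h.fus
  have h1 : g⁻¹ * i * g ∈ Cx(t) := mem_Cx.2 (by
    have e := B.cen _ h.uM
    rw [← hg] at e
    calc _ = g⁻¹ * (i * (g * t * g⁻¹)) * g := by group
      _ = _ := by rw [e]; group)
  have h2 := h.sqM h1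
  rw [show g⁻¹ * i * g * (g⁻¹ * i * g) = g⁻¹ * (i * i) * g by group, B.i2] at h2
  have c : IsConj t (g⁻¹ * t * g) := isConj_iff.2 ⟨g⁻¹, by rw [inv_inv]⟩
  obtain ⟨k, hk, e⟩ := h.conj_u h2 (sq_of_isConj c B.t2) (ne_one_of_isConj c B.t1) fun e => h.ut (by
    rw [← hg]; nth_rewrite 1 [← e]; group)
  refine ⟨g * k, ?_, ?_⟩
  · rw [← hg, show g * k * t * (g * k)⁻¹ = g * (k * t * k⁻¹) * g⁻¹ by group, mem_Cx'.1 hk]
  · rw [show g * k * φ u0 * (g * k)⁻¹ = g * (k * φ u0 * k⁻¹) * g⁻¹ by group, e]; group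

theorem theta {γ : G} (h1 : γ * t * γ⁻¹ = φ u0) (h2 : γ * φ u0 * γ⁻¹ = t) :
    ∃ θ : K → K, ∀ a, a * u0 = u0 * a → θ a * u0 = u0 * θ a ∧ φ (θ a) = γ * φ a * γ⁻¹ := by
  have : ∀ a, ∃ b, a * u0 = u0 * a → b * u0 = u0 * b ∧ φ b = γ * φ a * γ⁻¹ := fun a => by
    by_cases e : a * u0 = u0 * a
    · obtain ⟨b, hb, hb'⟩ := h.memQ (g := γ * φ a * γ⁻¹) (mem_Cx.2 (by
        rw [← h2]; exact comm_cj γ (by rw [← map_mul, e, map_mul]))) (by
        rw [← h1]; exact comm_cj γ (mem_Cx.1 (h.hC a)))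
      exact ⟨b, fun _ => ⟨hb', hb⟩⟩
    · exact ⟨1, fun e' => absurd e' e⟩
  choose θ hθ using this
  exact ⟨θ, hθ⟩

/-- the two obstructions -/
theorem kill [Finite G] [IsSimpleGroup G]
    (hk : {a | a * u0 = u0 * a ∧ a * a = u0}.ncard < {a | a * u0 = u0 * a ∧ a * a = t0}.ncard ∨
      ∀ j, j * j = u0 → j * u0 = u0 * j →
        {a | a * u0 = u0 * a ∧ a * j = j * a}.ncard < {a | a * u0 = u0 * a ∧ a * i0 = i0 * a}.ncard) : False := by
  have : Finite K := Nat.finite_of_card_ne_zero (by rw [h.cardK]; decide)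
  obtain ⟨γ, h1, h2⟩ := h.swap
  obtain ⟨θ, hθ⟩ := h.theta h1 h2
  have ij : ∀ S : Set K, (∀ a ∈ S, a * u0 = u0 * a) → Set.InjOn θ S := fun S hS a ha b hb e => h.inj (by
    have := congrArg φ e
    rw [(hθ a (hS a ha)).2, (hθ b (hS b hb)).2] at this
    simpa using this)
  have sq : ∀ a, a * u0 = u0 * a → a * a = t0 → θ a * θ a = u0 := fun a e1 e2 => h.inj (by
    rw [map_mul, (hθ a e1).2, ← h1, ← h.ft, ← e2, map_mul]; group)
  rcases hk with hk | hk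
  · exact hk.not_ge (Set.ncard_le_ncard_of_injOn θ (fun a ha => ⟨(hθ a ha.1).1, sq a ha.1 ha.2⟩) (ij _ fun a ha => ha.1))
  · have iu : i0 * u0 = u0 * i0 := h.inj (by rw [map_mul, map_mul, h.hi, h.B.cen _ h.uM])
    refine (hk _ (sq i0 iu h.ht) (hθ i0 iu).1).not_ge (Set.ncard_le_ncard_of_injOn θ
      (fun a ha => ⟨(hθ a ha.1).1, h.inj ?_⟩) (ij _ fun a ha => ha.1))
    rw [map_mul, map_mul, (hθ a ha.1).2, (hθ i0 iu).2]
    exact comm_cj γ (by rw [← map_mul, ha.2, map_mul])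
end Loc

end CfH8.ON
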