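import Cfsg.Agent.OD.Pre
import Cfsg.Agent.H8.ON5
import Cfsg.Agent.H8.ONT0
import Cfsg.Agent.H8.ONT1
import Cfsg.Agent.H8.ONT2
import Cfsg.Agent.H8.ONT3
import Cfsg.Agent.H8.ONT4
import Cfsg.Agent.H8.ONT5
import Cfsg.Agent.H8.ONT6
import Cfsg.Agent.H8.ONT7
import Cfsg.Agent.H8.ONT8
import Cfsg.Agent.H8.ONT9
import Cfsg.Agent.H8.ONT10
/-! Groups of O'Nan type: eleven of the twelve candidates do not occur. -/
set_option autoImplicit false
set_option maxRecDepth 100000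
set_option Elab.async false
open CfH6 CfL Subgroup CfH9
namespace CfH8.ON

variable {G : Type*} [Group G]

theorem byW_SW (x y w : G) (r : List (List ℕ)) : ∀ l < 4, byW (ev5 x y w) (SW ++ r) l = sv x y (l + 4) := by
  intro l hl
  interval_cases l <;> exact evw_ev5 x y w 1 _ rfl

theorem evw_SW (x y w : G) (r : List (List ℕ)) (v : List ℕ) (hv : allLt 4 v = true) :
    evw (byW (ev5 x y w) (SW ++ r)) v = evw (sv x y) (v.map (· + 4)) := by
  rw [evw_congr (byW_SW x y w r) (allLt_sound hv)]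
  simp [evw, Function.comp_def]

theorem kill_case [Finite G] [IsSimpleGroup G] {t : G} {M : Subgroup G} {kw iw : List ℕ} {k l : ℕ}
    (h : Cs t M kw iw k l) {T : Tb} {il : List ℕ} {rels : List (List ℕ)} (g : T.Good il rels) (hN : T.N = 512)
    (hnc : T.nc = 6) (wa wb : List ℕ) (t0 u0 i0 τ0 : TB g)
    (c1 : ((((List.range T.nc).map fun x => [x, il.getD x 0]).all fun r =>
        cC (Yw.getD k []) (wpow iw l) (kss kw) (subst (SW ++ [wa ++ [4], wb]) r)) &&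
      (rels.all fun r => cC (Yw.getD k []) (wpow iw l) (kss kw) (subst (SW ++ [wa ++ [4], wb]) r)) && allLt 4 wa &&
      (allLt 4 iw && cC (Yw.getD k []) (wpow iw l) (kss kw) (subst (SW ++ [wa ++ [4], wb]) (T.wl i0.1) ++ invw il4 iw)) &&
      allLt 4 (T.wl u0.1) && Nat.beq (LT.trL ((T.wl u0.1).map (· + 4)) 0) 7050) = true)
    (c2 : i0 * i0 = t0 ∧ tel g 4 * u0 = u0 * tel g 4 ∧ u0 * u0 = 1 ∧ τ0 * u0 = u0 * t0 * τ0 ∧
      ∀ z : TB g, z * z = 1 → (∀ l < 5, z * tel g l = tel g l * z) → z = 1 ∨ z = t0)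
    (c3 : FA t0 fun a => allLt 4 (T.wl a.1) = true)
    (c4 : TB.cnt (fun a => a * u0 = u0 * a ∧ a * a = u0) < TB.cnt (fun a => a * u0 = u0 * a ∧ a * a = t0) ∨
      ∀ j, j * j = u0 → j * u0 = u0 * j → TB.cnt (fun a => a * u0 = u0 * a ∧ a * j = j * a) <
        TB.cnt (fun a => a * u0 = u0 * a ∧ a * i0 = i0 * a)) : False := by
  obtain ⟨i, x, y, w, B, gn, cw, nw, hi, S⟩ := h
  obtain ⟨π, P⟩ := B.pi gn
  simp only [Bool.and_eq_true] at c1
  obtain ⟨⟨⟨⟨⟨a1, a2⟩, a3⟩, a4⟩, a5⟩, a6⟩ := c1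
  obtain ⟨φ, h1, h2⟩ := TB.exists_hom g _ (inv_of_rels (S.rels _ _ a1)) (S.rels _ _ a2)
  have hM : ∀ a : TB g, allLt 4 (T.wl a.1) = true → φ a ∈ M := fun a ha => by
    rw [h1, evw_SW _ _ _ _ _ ha]; exact sv_mem gn.xM gn.yM _
  refine Loc.kill (φ := φ) (w0 := tel g 4) ⟨B, gn, P, TB.card.trans hN, fun a => ?_, ?_, c2.1, hM _ a5, ?_,
    fun l l1 l2 => ⟨tel g (l - 4), ?_⟩, ?_, c2.2.1, fun _ => hM, fun z hz z2 => c2.2.2.2.2 z z2 fun l _ => hz _,
    c2.2.2.1, c2.2.2.2.1, c3⟩ (by simpa only [TB.cnt_eq] using c4)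
  · rw [h1, ← evw_subst]; exact ev5_mem (B.le gn.xM) (B.le gn.yM) cw _
  · rw [h1, ← evw_subst, S.eq _ _ (by rw [Bool.and_eq_true]; exact a4), hi]
  · have h3 : ∀ l ∈ (T.wl u0.1).map (· + 4), l < 8 := fun l hl => by
      obtain ⟨l', hl', rfl⟩ := List.mem_map.1 hl
      have := allLt_sound a5 l' hl'
      omega
    rw [h1, evw_SW _ _ _ _ _ a5, P.word _ h3]
    exact Subtype.ext ((evw_tel gL _ h3).trans (Nat.eq_of_beq_eq_true a6))
  · rw [hom_tel h2 (by omega), byW_SW _ _ _ _ _ (by omega), Nat.sub_add_cancel l1]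
  · rw [hom_tel h2 (by omega)]
    change evw (ev5 x y w) (wa ++ [4]) ∉ M
    rw [evw_append, mul_mem_cancel_left (ev5_mem4 gn.xM gn.yM w wa a3)]
    simpa [ev5] using nw

theorem fa0 : FA (TB.mk T0_g 201) fun a => allLt 4 (T0.wl a.1) = true := by unfold FA; decide +kernel
theorem kill0 [Finite G] [IsSimpleGroup G] {t : G} {M : Subgroup G} (h : Cs t M wp wq 7 2) : False :=
  kill_case h T0_g rfl rfl [1, 2, 0, 3, 3] [3, 1, 3, 0, 2, 1, 3, 0, 2, 0, 2, 4] (TB.mk T0_g 201) (TB.mk T0_g 374) (TB.mk T0_g 509) (TB.mk T0_g 2)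
    (by decide +kernel) (by decide +kernel) fa0 (Or.inl (by decide +kernel))

theorem fa1 : FA (TB.mk T1_g 29) fun a => allLt 4 (T1.wl a.1) = true := by unfold FA; decide +kernel
theorem kill1 [Finite G] [IsSimpleGroup G] {t : G} {M : Subgroup G} (h : Cs t M wp wq 8 0) : False :=
  kill_case h T1_g rfl rfl [0, 3, 0, 3, 1, 3, 0] [0, 2, 2, 1, 3, 0, 3, 3, 3, 0, 2, 1, 4] (TB.mk T1_g 29) (TB.mk T1_g 178) (TB.mk T1_g 510) (TB.mk T1_g 2)
    (by decide +kernel) (by decide +kernel) fa1 (Or.inl (by decide +kernel))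

theorem fa2 : FA (TB.mk T2_g 375) fun a => allLt 4 (T2.wl a.1) = true := by unfold FA; decide +kernel
theorem kill2 [Finite G] [IsSimpleGroup G] {t : G} {M : Subgroup G} (h : Cs t M wp wq 8 1) : False :=
  kill_case h T2_g rfl rfl [0, 3, 0, 3, 1, 3, 0] [0, 3, 0, 2, 0, 2, 2, 0, 2, 0, 4] (TB.mk T2_g 375) (TB.mk T2_g 200) (TB.mk T2_g 34) (TB.mk T2_g 2)
    (by decide +kernel) (by decide +kernel) fa2 (Or.inl (by decide +kernel))

theorem fa3 : FA (TB.mk T3_g 496) fun a => allLt 4 (T3.wl a.1) = true := by unfold FA; decide +kernel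
theorem kill3 [Finite G] [IsSimpleGroup G] {t : G} {M : Subgroup G} (h : Cs t M wp wq 9 0) : False :=
  kill_case h T3_g rfl rfl [3, 0, 3, 3, 0] [3, 0, 3, 3, 0, 4] (TB.mk T3_g 496) (TB.mk T3_g 330) (TB.mk T3_g 504) (TB.mk T3_g 2)
    (by decide +kernel) (by decide +kernel) fa3 (Or.inl (by decide +kernel))

theorem fa4 : FA (TB.mk T4_g 27) fun a => allLt 4 (T4.wl a.1) = true := by unfold FA; decide +kernel
theorem kill4 [Finite G] [IsSimpleGroup G] {t : G} {M : Subgroup G} (h : Cs t M wp wq 9 2) : False :=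
  kill_case h T4_g rfl rfl [3, 0, 3, 3, 0] [0, 3, 0, 2, 2, 0, 2, 1, 3, 3, 4] (TB.mk T4_g 27) (TB.mk T4_g 452) (TB.mk T4_g 510) (TB.mk T4_g 2)
    (by decide +kernel) (by decide +kernel) fa4 (Or.inl (by decide +kernel))

theorem fa5 : FA (TB.mk T5_g 233) fun a => allLt 4 (T5.wl a.1) = true := by unfold FA; decide +kernel
theorem kill5 [Finite G] [IsSimpleGroup G] {t : G} {M : Subgroup G} (h : Cs t M wq wp 3 0) : False :=
  kill_case h T5_g rfl rfl [1, 2, 1, 3, 3] [0, 3, 1, 3, 1, 3, 0, 2, 1, 3, 1, 4] (TB.mk T5_g 233) (TB.mk T5_g 426) (TB.mk T5_g 510) (TB.mk T5_g 1)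
    (by decide +kernel) (by decide +kernel) fa5 (Or.inl (by decide +kernel))

theorem fa6 : FA (TB.mk T6_g 511) fun a => allLt 4 (T6.wl a.1) = true := by unfold FA; decide +kernel
theorem kill6 [Finite G] [IsSimpleGroup G] {t : G} {M : Subgroup G} (h : Cs t M wq wp 3 1) : False :=
  kill_case h T6_g rfl rfl [1, 2, 1, 3, 3] [0, 3, 1, 2, 0, 2, 1, 3, 1, 3, 0, 3, 1, 4] (TB.mk T6_g 511) (TB.mk T6_g 410) (TB.mk T6_g 292) (TB.mk T6_g 1)
    (by decide +kernel) (by decide +kernel) fa6 (Or.inl (by decide +kernel))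

theorem fa7 : FA (TB.mk T7_g 511) fun a => allLt 4 (T7.wl a.1) = true := by unfold FA; decide +kernel
theorem kill7 [Finite G] [IsSimpleGroup G] {t : G} {M : Subgroup G} (h : Cs t M wq wp 7 0) : False :=
  kill_case h T7_g rfl rfl [1, 2, 1, 3, 3, 3, 1, 3] [0, 2, 2, 1, 3, 3, 0, 3, 3, 3, 0, 3, 0, 4] (TB.mk T7_g 511) (TB.mk T7_g 201) (TB.mk T7_g 292) (TB.mk T7_g 1)
    (by decide +kernel) (by decide +kernel) fa7 (Or.inr (by decide +kernel))

theorem fa8 : FA (TB.mk T8_g 448) fun a => allLt 4 (T8.wl a.1) = true := by unfold FA; decide +kernel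
theorem kill8 [Finite G] [IsSimpleGroup G] {t : G} {M : Subgroup G} (h : Cs t M wq wp 7 2) : False :=
  kill_case h T8_g rfl rfl [1, 3, 3, 1, 2, 1, 3, 3] [3, 3, 3, 0, 3, 3, 1, 3, 0, 4] (TB.mk T8_g 448) (TB.mk T8_g 266) (TB.mk T8_g 481) (TB.mk T8_g 1)
    (by decide +kernel) (by decide +kernel) fa8 (Or.inl (by decide +kernel))

theorem fa9 : FA (TB.mk T9_g 168) fun a => allLt 4 (T9.wl a.1) = true := by unfold FA; decide +kernel
theorem kill9 [Finite G] [IsSimpleGroup G] {t : G} {M : Subgroup G} (h : Cs t M wq wp 10 0) : False :=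
  kill_case h T9_g rfl rfl [1, 3, 3, 0, 3, 3, 1, 3] [2, 0, 2, 1, 2, 0, 3, 1, 3, 1, 2, 4] (TB.mk T9_g 168) (TB.mk T9_g 28) (TB.mk T9_g 510) (TB.mk T9_g 1)
    (by decide +kernel) (by decide +kernel) fa9 (Or.inr (by decide +kernel))

theorem fa10 : FA (TB.mk T10_g 168) fun a => allLt 4 (T10.wl a.1) = true := by unfold FA; decide +kernel
theorem kill10 [Finite G] [IsSimpleGroup G] {t : G} {M : Subgroup G} (h : Cs t M wq wp 10 2) : False :=
  kill_case h T10_g rfl rfl [1, 3, 3, 0, 3, 3, 1, 3] [1, 2, 1, 2, 2, 2, 0, 3, 0, 2, 0, 4] (TB.mk T10_g 168) (TB.mk T10_g 167) (TB.mk T10_g 507) (TB.mk T10_g 1)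
    (by decide +kernel) (by decide +kernel) fa10 (Or.inl (by decide +kernel))

theorem survivor [Finite G] [IsSimpleGroup G] {t i x y : G} {M : Subgroup G} (B : Base t M i) (g : Gen M i x y) :
    Cs t M wp wq 7 0 := by
  rcases cases12 B g with (h | h) | (h | h) | (h | h) | (h | h) | (h | h) | (h | h)
  exacts [h, (kill0 h).elim, (kill1 h).elim, (kill2 h).elim, (kill3 h).elim, (kill4 h).elim, (kill5 h).elim,
    (kill6 h).elim, (kill7 h).elim, (kill8 h).elim, (kill9 h).elim, (kill10 h).elim]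

end CfH8.ON
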