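import Cfsg.Agent.OD.Pre
import Cfsg.Agent.H8.ON6
import Cfsg.Agent.H8.ONTF
import Cfsg.Agent.OD.Helper8xa0a56f37a6
/-! Groups of O'Nan type: the element interchanging two commuting involutions. -/
set_option autoImplicit false
set_option maxRecDepth 100000
set_option Elab.async false
open CfH6 CfL Subgroup CfH9
namespace CfH8.ON

variable {G : Type*} [Group G]

abbrev K : Type := TB TS_g
noncomputable abbrev kk (n : ℕ) (h : Nat.blt n 512 = true := by rfl) : K := TB.mk TS_g n h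
noncomputable def t0 : K := kk 500
noncomputable def u0 : K := kk 234
noncomputable def v0 : K := kk 175
noncomputable def i0 : K := kk 156
noncomputable def τ0 : K := kk 5
noncomputable def c0 : K := kk 1
noncomputable def d0 : K := kk 2
noncomputable def g0 : K := kk 3
noncomputable def d1 : K := kk 326
noncomputable def g1 : K := kk 45

theorem kval {a b : K} (h : Nat.beq a.1 b.1 = true) : a = b := Subtype.ext (Nat.eq_of_beq_eq_true h)
theorem kbeq {a b : K} (h : a = b) : Nat.beq a.1 b.1 = true := by rw [h, Nat.beq_refl]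

noncomputable abbrev cS : List ℕ → Bool := cC (Yw.getD 7 []) (wpow wq 0) (kss wp)

structure Sv (t : G) (M : Subgroup G) (i x y w : G) (π : G → L) (φ : K →* G) : Prop where
  S : Sit x y w (Yw.getD 7 []) (wpow wq 0) (kss wp)
  cw : w ∈ Cx(t)
  nw : w ∉ M
  hi : evw (ev5 x y w) wq = i
  h1 : ∀ a, φ a = evw (ev5 x y w) (subst sigT (TS.wl a.1))
  L : Loc t M i x y π φ t0 u0 i0 d0 τ0 fun a => a * i0 = i0 * a

theorem faS : FA t0 fun a => a * i0 = i0 * a := by unfold FA; decide +kernel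

theorem exists_sv [Finite G] {t : G} {M : Subgroup G} (h : Cs t M wp wq 7 0) : ∃ i x y w π φ, Sv t M i x y w π φ := by
  obtain ⟨i, x, y, w, B, gn, cw, nw, hi, S⟩ := h
  obtain ⟨π, P⟩ := B.pi gn
  obtain ⟨φ, h1, h2⟩ := TB.exists_hom TS_g _ (inv_of_rels (S.rels sigT _ (by decide +kernel)))
    (S.rels sigT _ (by decide +kernel))
  have h3 : ∀ a, φ a = evw (ev5 x y w) (subst sigT (TS.wl a.1)) := fun a => by rw [h1, evw_subst]
  have h4 : ∀ (a : K) (v : List ℕ), (allLt 4 (subst sigL v) && cS (subst sigT (TS.wl a.1) ++ invw il4 (subst sigL v))) = true →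
      φ a = evw (sv x y) v := fun a v h => by
    rw [h3, S.eq _ _ h, sv, ← evw_subst]
    rw [Bool.and_eq_true] at h
    exact evw_ev5 _ _ _ _ _ h.1
  have hu := h4 u0 [5, 4, 5, 6, 4, 6] (by decide +kernel)
  have hC : ∀ a, φ a ∈ Cx(t) := fun a => by rw [h3]; exact ev5_mem (B.le gn.xM) (B.le gn.yM) cw _
  have hi' : φ i0 = i := by rw [h3, S.eq _ wq (by decide +kernel), hi]
  have dM : φ d0 ∉ M := by
    rw [h3]
    change evw (ev5 x y w) ([1, 3, 1, 3, 0, 2, 0, 2, 2, 2, 0, 3] ++ [4]) ∉ M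
    rw [evw_append, mul_mem_cancel_left (ev5_mem4 gn.xM gn.yM w _ rfl)]
    simpa [ev5] using nw
  have f0 : ∀ z : K, z * z = 1 → (∀ l < 5, z * tel TS_g l = tel TS_g l * z) → z = 1 ∨ z = t0 := by decide +kernel
  refine ⟨i, x, y, w, π, φ, S, cw, nw, hi, h3, B, gn, P, TB.card, hC, hi', by decide +kernel,
    hu ▸ sv_mem gn.xM gn.yM _, ?_, fun l l1 l2 => ?_, dM, by decide +kernel, fun hj a ha => ?_,
    fun z hz z2 => f0 z z2 fun l _ => hz _, by decide +kernel, by decide +kernel, faS⟩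
  · rw [hu, P.word _ (by decide)]
    decide +kernel
  · interval_cases l
    · exact ⟨kk 1, (h4 _ [4] (by decide +kernel)).trans (by simp)⟩
    · exact ⟨kk 5, (h4 _ [5] (by decide +kernel)).trans (by simp)⟩
    · exact ⟨kk 418, (h4 _ [6] (by decide +kernel)).trans (by simp)⟩
    · exact ⟨kk 118, (h4 _ [7] (by decide +kernel)).trans (by simp)⟩
  · by_contra n
    have h5 := B.cen _ (B.idx _ (hC a) _ (hC d0) n dM)
    rw [← hi', ← map_mul, ← map_mul, ← map_mul, ← mul_assoc, ← ha, mul_assoc, mul_assoc] at h5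
    exact absurd (mul_left_cancel (hj h5)) (by decide +kernel)

noncomputable def ev4 (c d g : K) : ℕ → K := fun l => [c, d, g, g⁻¹].getD l 1

theorem ev4_val (c d g : K) (v : List ℕ) : (evw (ev4 c d g) v).1 = evN [c.1, d.1, g.1, TS.inv g.1] v := by
  induction v with
  | nil => rfl
  | cons l v ih =>
    rw [evw_cons]
    change TS.mul (ev4 c d g l).1 (evw (ev4 c d g) v).1 = TS.mul _ (evN _ v)
    rw [ih]
    congr 1
    rcases l with _ | _ | _ | _ | l <;> rfl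

theorem fQ : ∀ q : K, q * u0 = u0 * q → evw (ev4 c0 d0 g0) (TS.wl q.1) = q ∧ τ0 * q * τ0 * u0 = u0 * (τ0 * q * τ0) ∧
    (q * v0 = v0 * q → q.1 ∈ LA) ∧ (q * q = t0 * u0 → q.1 ∈ LG) ∧
    (q * q = 1 → q ≠ 1 → q.1 ∈ LI ∧ ∃ a ∈ LA, ∃ r ∈ LR, TS.mul a q.1 = TS.mul r a) ∧
    (q * q * (q * q) = 1 → q * q = 1 ∨ q * q = t0 ∨ q * q = u0 ∨ q * q = t0 * u0 ∨
      ∃ a ∈ [kk 0, kk 1, kk 2, kk 3], a * u0 = u0 * a ∧ a * (q * q) = v0 * a) := by decide +kernel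

theorem fA : ∀ a ∈ LA, ∃ h : Nat.blt a 512 = true, kk a h * u0 = u0 * kk a h ∧ kk a h * v0 = v0 * kk a h ∧
    kk a h * kk 155 = kk 155 * kk a h ∧ kk a h * kk 104 = kk 104 * kk a h ∧ kk a h * kk 242 = kk 242 * kk a h := by
  decide +kernel

theorem fW : ∀ a ∈ LW, ∃ h : Nat.blt a 512 = true, kk a h * u0 = u0 * kk a h := by decide +kernel

def Sw (t : G) (φ : K →* G) (γ : G) : Prop := γ * t * γ⁻¹ = φ u0 ∧ γ * φ u0 * γ⁻¹ = t

namespace Sv
variable {t i x y w : G} {M : Subgroup G} {π : G → ON.L} {φ : K →* G} (h : Sv t M i x y w π φ)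
include h

theorem sw_mul {γ : G} (s : Sw t φ γ) {q : K} (hq : q * u0 = u0 * q) : Sw t φ (φ q * γ) := by
  constructor
  · rw [show φ q * γ * t * (φ q * γ)⁻¹ = φ q * (γ * t * γ⁻¹) * (φ q)⁻¹ by group, s.1, ← map_mul, hq, map_mul,
      mul_inv_cancel_right]
  · rw [show φ q * γ * φ u0 * (φ q * γ)⁻¹ = φ q * (γ * φ u0 * γ⁻¹) * (φ q)⁻¹ by group, s.2, mem_Cx'.1 (h.L.hC q)]

theorem sw_v [Finite G] [IsSimpleGroup G] : ∃ γ, Sw t φ γ ∧ γ * φ v0 * γ⁻¹ = φ v0 := by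
  obtain ⟨γ, s⟩ := h.L.swap
  obtain ⟨θ, hθ⟩ := h.L.theta s.1 s.2
  obtain ⟨h1, h2⟩ := hθ (kk 242) (by decide +kernel)
  have e : φ (θ (kk 242) * θ (kk 242)) = γ * φ v0 * γ⁻¹ := by
    rw [map_mul, h2, show v0 = kk 242 * kk 242 by decide +kernel, map_mul]; group
  have k : ∀ a b : K, φ b = γ * φ a * γ⁻¹ → θ (kk 242) * θ (kk 242) = b → v0 = a := fun a b e1 e2 => h.L.inj (by
    rw [e2, e1] at e; simpa using e.symm)
  rcases (fQ _ h1).2.2.2.2.2 (h.L.inj (by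
    rw [map_mul, e, map_one, conj_mul, ← map_mul, show v0 * v0 = 1 by decide +kernel, map_one]; group))
    with c | c | c | c | ⟨a, -, c1, c2⟩
  · exact absurd (k 1 1 (by simp) c) (by decide +kernel)
  · exact absurd (k u0 t0 (by rw [h.L.ft, s.2]) c) (by decide +kernel)
  · exact absurd (k t0 u0 (by rw [h.L.ft, s.1]) c) (by decide +kernel)
  · exact absurd (k (u0 * t0) (t0 * u0) (by rw [map_mul, map_mul, h.L.ft, ← conj_mul, s.1, s.2]) c) (by decide +kernel)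
  · refine ⟨φ a * γ, h.sw_mul s c1, ?_⟩
    rw [show φ a * γ * φ v0 * (φ a * γ)⁻¹ = φ a * (γ * φ v0 * γ⁻¹) * (φ a)⁻¹ by group, ← e, ← map_mul, c2, map_mul,
      mul_inv_cancel_right]

theorem sw_c [Finite G] [IsSimpleGroup G] :
    ∃ γ, Sw t φ γ ∧ γ * φ v0 * γ⁻¹ = φ v0 ∧ ∃ c : K, c.1 ∈ LR ∧ φ c = γ * φ c0 * γ⁻¹ := by
  obtain ⟨γ, s, hv⟩ := h.sw_v
  obtain ⟨θ, hθ⟩ := h.L.theta s.1 s.2
  obtain ⟨h1, h2⟩ := hθ c0 (by decide +kernel)
  obtain ⟨-, a, ha, r, hr, e⟩ := (fQ _ h1).2.2.2.2.1 (h.L.inj (by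
    rw [map_mul, h2, map_one, conj_mul, ← map_mul, show c0 * c0 = 1 by decide +kernel, map_one]; group)) fun e => by
      rw [e, map_one, eq_comm, conj_eq_one_iff, ← map_one φ] at h2
      exact absurd (h.L.inj h2) (by decide +kernel)
  obtain ⟨la, a1, a2, -⟩ := fA a ha
  have lr : ∀ r ∈ LR, Nat.blt r 512 = true := by decide
  have e' : kk a la * θ c0 = kk r (lr r hr) * kk a la := Subtype.ext e
  refine ⟨φ (kk a la) * γ, h.sw_mul s a1, ?_, kk r (lr r hr), hr, ?_⟩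
  · rw [show φ (kk a la) * γ * φ v0 * (φ (kk a la) * γ)⁻¹ = φ (kk a la) * (γ * φ v0 * γ⁻¹) * (φ (kk a la))⁻¹ by group,
      hv, ← map_mul, a2, map_mul, mul_inv_cancel_right]
  · rw [show φ (kk a la) * γ * φ c0 * (φ (kk a la) * γ)⁻¹ = φ (kk a la) * (γ * φ c0 * γ⁻¹) * (φ (kk a la))⁻¹ by group,
      ← h2, ← map_mul, e', map_mul, mul_inv_cancel_right]

theorem inA_of {ω : G} (h1 : ω * t * ω⁻¹ = t) (h2 : ω * φ u0 * ω⁻¹ = φ u0) (h3 : ω * φ v0 * ω⁻¹ = φ v0) :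
    ∃ q : K, φ q = ω ∧ q.1 ∈ LA := by
  obtain ⟨q, rfl, hq⟩ := h.L.memQ (mem_Cx'.2 h1) (mul_inv_eq_iff_eq_mul.1 h2)
  exact ⟨q, rfl, (fQ q hq).2.2.1 (h.L.inj (by rw [map_mul, map_mul, mul_inv_eq_iff_eq_mul.1 h3]))⟩

theorem cj3_of {ω : G} (h1 : ω * t * ω⁻¹ = t) (h2 : ω * φ u0 * ω⁻¹ = φ u0) (h3 : ω * φ v0 * ω⁻¹ = φ v0) {a b c : K}
    (ha : φ a = ω * φ c0 * ω⁻¹) (hb : φ b = ω * φ d0 * ω⁻¹) (hc : φ c = ω * φ g0 * ω⁻¹) :
    LA.any (cj3 a.1 b.1 c.1 1 2 3) = true := by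
  obtain ⟨q, rfl, hq⟩ := h.inA_of h1 h2 h3
  have k : ∀ a s : K, φ a = φ q * φ s * (φ q)⁻¹ → a * q = q * s := fun a s e => h.L.inj (by
    rw [map_mul, map_mul, e, inv_mul_cancel_right])
  refine List.any_eq_true.2 ⟨q.1, hq, ?_⟩
  simp only [cj3, bnd_iff]
  exact ⟨kbeq (k a c0 ha), kbeq (k b d0 hb), kbeq (k c g0 hc)⟩

theorem theta_main [Finite G] [IsSimpleGroup G] : ∃ γ, Sw t φ γ ∧
    ((γ * φ c0 * γ⁻¹ = φ d0 ∧ γ * φ d0 * γ⁻¹ = φ c0 ∧ γ * φ g0 * γ⁻¹ = φ g0) ∨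
     (γ * φ c0 * γ⁻¹ = φ d1 ∧ γ * φ d1 * γ⁻¹ = φ c0 ∧ γ * φ g1 * γ⁻¹ = φ g1)) := by
  obtain ⟨γ, s, hv, c, cR, hc⟩ := h.sw_c
  have ij := h.L.inj
  have ft := h.L.ft
  obtain ⟨θ, hθ⟩ := h.L.theta s.1 s.2
  obtain ⟨d1', hd⟩ := hθ d0 (by decide +kernel)
  obtain ⟨g1', hg⟩ := hθ g0 (by decide +kernel)
  generalize θ d0 = d at d1' hd
  generalize θ g0 = g at g1' hg
  have tu : γ * φ (t0 * u0) * γ⁻¹ = φ (t0 * u0) := by
    rw [map_mul, ft, ← conj_mul, s.1, s.2, mem_Cx.1 (h.L.hC u0)]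
  have dI := ((fQ d d1').2.2.2.2.1 (ij (by
    rw [map_mul, hd, map_one, conj_mul, ← map_mul, show d0 * d0 = 1 by decide +kernel, map_one]; group)) fun e => by
      rw [e, map_one, eq_comm, conj_eq_one_iff, ← map_one φ] at hd
      exact absurd (ij hd) (by decide +kernel)).1
  have gG := (fQ g g1').2.2.2.1 (ij (by
    rw [map_mul, hg, conj_mul, ← map_mul, show g0 * g0 = t0 * u0 by decide +kernel, tu]))
  have k1 := List.all_eq_true.1 (List.all_eq_true.1 chk_theta _ cR) _ dI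
  simp only [chkD, frc_eq, imp_iff] at k1
  have k2 := List.all_eq_true.1 (k1 (kbeq (a := c * d * (c * d) * (c * d * (c * d))) (b := t0 * u0) (ij (by
    rw [← tu, show t0 * u0 = c0 * d0 * (c0 * d0) * (c0 * d0 * (c0 * d0)) by decide +kernel]
    simp only [map_mul, hc, hd, conj_mul])))) _ gG
  simp only [chkG, frc_eq, imp_iff] at k2
  have W : ∀ v, φ (evw (ev4 c d g) v) = γ * φ (evw (ev4 c0 d0 g0) v) * γ⁻¹ := fun v => by
    induction v with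
    | nil => simp
    | cons l v ih =>
      rw [evw_cons, evw_cons, map_mul, map_mul, ih, ← conj_mul]
      congr 1
      rcases l with _ | _ | _ | _ | l
      exacts [hc, hd, hg, by simp [ev4, hg, mul_assoc], by simp [ev4]]
  have T : ∀ q : K, q * u0 = u0 * q → ∃ b : K, b.1 = thN [c.1, d.1, g.1, TS.inv g.1] q.1 ∧ φ b = γ * φ q * γ⁻¹ ∧
      b * u0 = u0 * b := fun q hq => by
    have e : φ (evw (ev4 c d g) (TS.wl q.1)) = γ * φ q * γ⁻¹ := by rw [W, (fQ q hq).1]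
    exact ⟨_, ev4_val _ _ _ _, e, ij (by
      rw [map_mul, map_mul, e, ← s.1]; exact comm_cj γ (mem_Cx.1 (h.L.hC q)))⟩
  have T1 : ∀ q b : K, q * u0 = u0 * q → φ b = γ * φ q * γ⁻¹ →
      Nat.beq (thN [c.1, d.1, g.1, TS.inv g.1] q.1) b.1 = true := fun q b hq e => by
    obtain ⟨b', e1, e2, -⟩ := T q hq
    rw [← e1]; exact kbeq (ij (e2.trans e.symm))
  have cQ : c * u0 = u0 * c := ij (by
    rw [map_mul, map_mul, hc, ← s.1]; exact comm_cj γ (mem_Cx.1 (h.L.hC c0)))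
  have k3 := k2 (T1 v0 v0 (by decide +kernel) hv.symm) (T1 t0 u0 (by decide +kernel) (by rw [ft, s.1]))
    (T1 u0 t0 rfl (by rw [ft, s.2])) (List.all_eq_true.2 fun r hr => by
      have : ∀ r ∈ RQ, evw (ev4 c0 d0 g0) r = 1 := by decide +kernel
      rw [← ev4_val]
      exact kbeq (b := 1) (ij (by rw [W, this r hr]; simp))) ?_ ?_ ?_
  · simp only [Cn, bor_iff] at k3
    have fin : ∀ (q : ℕ) (hq : Nat.blt q 512 = true) (a b s : K), φ a = γ * φ s * γ⁻¹ →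
        Nat.beq (TS.mul a.1 q) (TS.mul q b.1) = true → φ (kk q hq)⁻¹ * γ * φ s * (φ (kk q hq)⁻¹ * γ)⁻¹ = φ b := by
      intro q hq a b s e1 e2
      have e3 : a * kk q hq = kk q hq * b := kval e2
      rw [show φ (kk q hq)⁻¹ * γ * φ s * (φ (kk q hq)⁻¹ * γ)⁻¹ = φ (kk q hq)⁻¹ * (γ * φ s * γ⁻¹) * (φ (kk q hq)⁻¹)⁻¹ by
        group, ← e1, map_inv, inv_inv, mul_assoc, ← map_mul, e3, map_mul, inv_mul_cancel_left]
    rcases k3 with k3 | k3 <;> obtain ⟨q, hq, k4⟩ := List.any_eq_true.1 k3 <;> obtain ⟨lq, cq⟩ := fW q hq <;>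
      simp only [cj3, bnd_iff] at k4 <;> refine ⟨φ (kk q lq)⁻¹ * γ, h.sw_mul s (Commute.inv_left cq).eq, ?_⟩
    · exact Or.inl ⟨fin q lq c d0 c0 hc k4.1, fin q lq d c0 d0 hd k4.2.1, fin q lq g g0 g0 hg k4.2.2⟩
    · obtain ⟨b1, e1, f1, -⟩ := T c0 (by decide +kernel)
      obtain ⟨b2, e2, f2, -⟩ := T d1 (by decide +kernel)
      obtain ⟨b3, e3, f3, -⟩ := T g1 (by decide +kernel)
      exact Or.inr ⟨fin q lq b1 d1 c0 f1 (e1 ▸ k4.1), fin q lq b2 c0 d1 f2 (e2 ▸ k4.2.1),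
        fin q lq b3 g1 g1 f3 (e3 ▸ k4.2.2)⟩
  · have ρi : evw (ev5 x y w) [1, 2, 1, 3, 0] = (evw (ev5 x y w) [1, 2, 0, 3, 0])⁻¹ := evw_iv x y w [1, 2, 0, 3, 0] rfl
    have step : ∀ (a : K) (ω : G) (n : ℕ), (n = 512 ∨ ∃ b : K, b.1 = n ∧ φ b = ω * φ a * ω⁻¹) →
        stN [c.1, d.1, g.1, TS.inv g.1] n = 512 ∨ ∃ b : K, b.1 = stN [c.1, d.1, g.1, TS.inv g.1] n ∧
          φ b = γ * evw (ev5 x y w) [1, 2, 0, 3, 0] * ω * φ a * (γ * evw (ev5 x y w) [1, 2, 0, 3, 0] * ω)⁻¹ := by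
      rintro a ω n (rfl | ⟨b, rfl, e⟩)
      · left; rw [stN, frc_eq, show inA 512 = false by decide +kernel]
      · rw [stN, frc_eq]
        cases hb : inA b.1
        · exact Or.inl rfl
        · have := (allN_iff _ _).1 chk_rho b.1 b.2
          simp only [imp_iff, bnd_iff] at this
          obtain ⟨r1, r2, r3⟩ := this hb
          have r4 := h.S.one _ r3
          have r5 := h.h1 (kk _ r1)⁻¹
          change _ = evw _ (subst sigT (TS.wl (TS.inv (rf b.1)))) at r5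
          rw [evw_append, evw_append, evw_append, ← h.h1, ← r5, ρi, map_inv, mul_inv_eq_one] at r4
          obtain ⟨b', e1, e2, -⟩ := T (kk _ r1) (kval r2)
          exact Or.inr ⟨b', e1, by rw [e2, ← r4, e]; group⟩
    have four := fun a : K => step a _ _ (step a _ _ (step a _ _ (step a 1 _ (Or.inr ⟨a, rfl, by simp⟩))))
    generalize γ * evw (ev5 x y w) [1, 2, 0, 3, 0] * (γ * evw (ev5 x y w) [1, 2, 0, 3, 0] *
      (γ * evw (ev5 x y w) [1, 2, 0, 3, 0] * (γ * evw (ev5 x y w) [1, 2, 0, 3, 0] * 1))) = ω at four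
    simp only [H1, frc_eq, imp_iff, bnd_iff]
    rintro ⟨l1, l2, l3, s1, s2, s3⟩
    obtain ⟨b1, e1, f1⟩ := (four (kk 155)).resolve_left (blt1 l1).ne
    obtain ⟨b2, e2, f2⟩ := (four (kk 104)).resolve_left (blt1 l2).ne
    obtain ⟨b3, e3, f3⟩ := (four (kk 242)).resolve_left (blt1 l3).ne
    change b1.1 = stN _ (stN _ (stN _ (stN _ 155))) at e1
    change b2.1 = stN _ (stN _ (stN _ (stN _ 104))) at e2
    change b3.1 = stN _ (stN _ (stN _ (stN _ 242))) at e3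
    rw [← e1] at s1 ⊢
    rw [← e2] at s2 ⊢
    rw [← e3] at s3 ⊢
    have sq : ∀ a b z : K, φ b = ω * φ a * ω⁻¹ → a * a = z → b * b = z → ω * φ z * ω⁻¹ = φ z := fun a b z p1 p2 p3 => by
      nth_rewrite 2 [← p3]
      rw [← p2, map_mul, map_mul, p1, conj_mul]
    obtain ⟨q, rfl, hq⟩ := h.inA_of (ft ▸ sq _ b1 t0 f1 (by decide +kernel) (kval s1))
      (sq _ b2 u0 f2 (by decide +kernel) (kval s2)) (sq _ b3 v0 f3 (by decide +kernel) (kval s3))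
    obtain ⟨lq, -, -, q1, q2, q3⟩ := fA _ hq
    have fx : ∀ a b : K, φ b = φ q * φ a * (φ q)⁻¹ → q * a = a * q → b = a := fun a b p1 p2 => ij (by
      rw [p1, ← map_mul, p2, map_mul, mul_inv_cancel_right])
    exact ⟨kbeq (fx _ _ f1 q1), kbeq (fx _ _ f2 q2), kbeq (fx _ _ f3 q3)⟩
  · obtain ⟨b1, e1, f1, -⟩ := T c cQ
    obtain ⟨b2, e2, f2, -⟩ := T d d1'
    obtain ⟨b3, e3, f3, -⟩ := T g g1'
    simp only [H2, frc_eq]
    rw [← e1, ← e2, ← e3]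
    have two : ∀ a : G, γ * γ * a * (γ * γ)⁻¹ = γ * (γ * a * γ⁻¹) * γ⁻¹ := fun a => by group
    exact h.cj3_of (ω := γ * γ) (by rw [two, s.1, s.2]) (by rw [two, s.2, s.1]) (by rw [two, hv, hv])
      (by rw [two, f1, hc]) (by rw [two, f2, hd]) (by rw [two, f3, hg])
  · have τi : (φ τ0)⁻¹ = φ τ0 := by rw [← map_inv, show τ0⁻¹ = τ0 by decide +kernel]
    have step : ∀ q : K, q * u0 = u0 * q → ∃ b : K, b.1 = hN [c.1, d.1, g.1, TS.inv g.1] q.1 ∧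
        φ b = γ * φ τ0 * φ q * (γ * φ τ0)⁻¹ ∧ b * u0 = u0 * b := fun q hq => by
      obtain ⟨b, e1, e2, e3⟩ := T _ (fQ q hq).2.1
      exact ⟨b, e1, by rw [e2, map_mul, map_mul, mul_inv_rev, τi]; group, e3⟩
    have three : ∀ q : K, q * u0 = u0 * q → ∃ b : K, b.1 = hN [c.1, d.1, g.1, TS.inv g.1]
        (hN [c.1, d.1, g.1, TS.inv g.1] (hN [c.1, d.1, g.1, TS.inv g.1] q.1)) ∧
        φ b = γ * φ τ0 * (γ * φ τ0) * (γ * φ τ0) * φ q * (γ * φ τ0 * (γ * φ τ0) * (γ * φ τ0))⁻¹ := fun q hq => by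
      obtain ⟨b1, e1, f1, p1⟩ := step q hq
      obtain ⟨b2, e2, f2, p2⟩ := step b1 p1
      obtain ⟨b3, e3, f3, -⟩ := step b2 p2
      exact ⟨b3, by rw [e3, e2, e1], by rw [f3, f2, f1]; group⟩
    have m1 : γ * φ τ0 * t * (γ * φ τ0)⁻¹ = φ u0 := by
      rw [← s.1, mul_assoc γ, mem_Cx.1 (h.L.hC τ0)]; group
    have m2 : γ * φ τ0 * φ u0 * (γ * φ τ0)⁻¹ = t * φ u0 := by
      rw [mul_assoc γ, ← map_mul, h.L.τu, map_mul, map_mul, ft]
      nth_rewrite 2 [← s.2]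
      nth_rewrite 3 [← s.1]
      group
    have m3 : γ * φ τ0 * (t * φ u0) * (γ * φ τ0)⁻¹ = t := by
      rw [← conj_mul, m1, m2, ← mul_assoc, mem_Cx.1 (h.L.hC u0), mul_assoc, h.L.u_2, mul_one]
    generalize γ * φ τ0 = ω at three m1 m2 m3
    have thr : ∀ a : G, ω * ω * ω * a * (ω * ω * ω)⁻¹ = ω * (ω * (ω * a * ω⁻¹) * ω⁻¹) * ω⁻¹ := fun a => by group
    simp only [H3, frc_eq, imp_iff]
    intro e
    obtain ⟨b0, e0, f0⟩ := three v0 (by decide +kernel)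
    obtain ⟨b1, e1, f1⟩ := three c0 (by decide +kernel)
    obtain ⟨b2, e2, f2⟩ := three d0 (by decide +kernel)
    obtain ⟨b3, e3, f3⟩ := three g0 (by decide +kernel)
    have e4 : b0 = v0 := kval (e0 ▸ e)
    have := h.cj3_of (ω := ω * ω * ω) (by rw [thr, m1, m2, m3]) (by rw [thr, m2, m3, m1]) (by rw [← f0, e4]) f1 f2 f3
    rw [e1, e2, e3] at this
    exact this
end Sv

end CfH8.ON
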