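import Cfsg.Agent.OD.Pre
import Cfsg.Agent.H8.ON7
import Cfsg.Agent.H6.ONG
import Cfsg.Agent.BS.Final
/-! Groups of O'Nan type: the presentation. -/
set_option autoImplicit false
set_option maxRecDepth 100000
set_option Elab.async false
open CfH6 CfL Subgroup CfH9
namespace CfH8.ON

variable {G : Type*} [Group G]

theorem hom_univ {P : Type} [Group P] {el : ℕ → P} {n : ℕ} {il : List ℕ} {rels : List (List ℕ)}
    (hh : ∀ {Γ : Type} [Group Γ] (ev : ℕ → Γ), (∀ x < n, ev (il.getD x 0) = (ev x)⁻¹) →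
      (∀ r ∈ rels, evw ev r = 1) → ∃ ρ : P →* Γ, ∀ x < n, ρ (el x) = ev x) [Finite G] (ev : ℕ → G)
    (h1 : ∀ x < n, ev (il.getD x 0) = (ev x)⁻¹) (h2 : ∀ r ∈ rels, evw ev r = 1) :
    ∃ ρ : P →* G, ∀ x < n, ρ (el x) = ev x := by
  let e : Shrink.{0} G ≃* G := Shrink.mulEquiv
  obtain ⟨ρ, hρ⟩ := hh (fun x => e.symm (ev x)) (fun x hx => by rw [h1 x hx, map_inv])
    fun r hr => (map_evw e.symm.toMonoidHom ev r).symm.trans (by rw [h2 r hr, map_one])
  exact ⟨e.toMonoidHom.comp ρ, fun x hx => by simp [hρ x hx]⟩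

theorem comm_back {g a b : G} (h : g * a * g⁻¹ * b = b * (g * a * g⁻¹)) : g⁻¹ * b * g * a = a * (g⁻¹ * b * g) := by
  have := comm_cj g⁻¹ h
  simpa [mul_assoc] using this.symm

theorem Cx_cj {H : Subgroup G} {k z : G} (hk : k ∈ H) (hz : Cx(z) ≤ H) : Cx(k * z * k⁻¹) ≤ H := fun g hg => by
  have := hz (mem_Cx.2 (comm_back (mem_Cx.1 hg).symm))
  rwa [mul_mem_cancel_right hk, mul_mem_cancel_left (inv_mem hk)] at this

def kap : List ℕ := [0, 1, 7, 6, 5, 4, 6, 2]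
def kap' : List ℕ := [0, 1, 7, 6, 5, 4, 3, 2]
def no6 (v : List ℕ) : Bool := v.all fun l => Nat.blt l 8 && !Nat.beq l 6
def wI : List ℕ := [0, 5, 1, 5]
def wIa : List ℕ := [0, 4, 1, 4]
def wh : List ℕ := [3, 2, 4, 3]
def wh2 : List ℕ := [4, 0, 3, 2, 4, 3]
def cjw (h v : List ℕ) : List ℕ := h ++ v ++ invw ONB.il h
def wx : List ℕ := [4, 3, 5, 4, 5, 4, 3, 0, 4, 5, 4, 3, 2]
def wy : List ℕ := [0, 3, 0, 3, 4, 0, 5, 4, 3, 2]
def ww0 : List ℕ := [0, 4, 0, 3, 4, 5, 4, 0, 3, 5, 0, 4, 0]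
def ww1 : List ℕ := [0, 4, 0, 3, 0, 4, 5, 4, 3, 5, 0, 4, 0]

/-- the checks on a system of generators -/
noncomputable def sysOk (sig : List (List ℕ)) (ww : List ℕ) (c d g : ℕ) : Bool :=
  ((List.range 8).map fun x => [x, ONB.il.getD x 0]).all (fun r => cS (subst sig r)) &&
  ONB.rels.all (fun r => (no6 r && cS (subst sig r)) || leqb r [3, 6, 3, 6] ||
    (no6 (r.map fun l => kap'.getD l 0) && leqb ((r.map fun l => kap'.getD l 0).map fun l => kap.getD l 0) r &&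
      cS (subst sig (r.map fun l => kap'.getD l 0)))) &&
  [(g, 1), (234, 2), (c, 4), (d, 5), (500, 7)].all (fun p => cS (subst sigT (TS.wl p.1) ++ subst sig [p.2])) &&
  [[3, 3], cjw wh [2] ++ [4], cjw wh2 [2] ++ invw ONB.il (4 :: wIa),
    cjw wh wIa ++ cjw wh2 wIa ++ wIa ++ cjw wh wIa ++ [3], cjw [2, 3] [5] ++ [5],
    cjw [2, 3] (5 :: wI) ++ invw ONB.il (5 :: wI), cjw [2, 3] [7] ++ [7], [2, 3, 2, 3, 2, 3], [7, 3, 7, 3]].all
    (fun r => cS (subst sig r)) &&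
  cS (subst sig wI ++ wq) && cS (subst sig wx ++ [1]) && cS (subst sig wy ++ [3]) && cS (subst sig ww ++ [4]) && no6 ww

theorem sys0 : sysOk sig0 ww0 1 2 3 = true := by decide +kernel
theorem sys1 : sysOk sig1 ww1 1 326 45 = true := by decide +kernel

theorem outer : ∀ a : K, a * a = 1 → a * i0 = i0 * a ∨ ((∃ c, c * d0 = a * c) ∧ ∃ c, c * d1 = a * c) := by
  decide +kernel

namespace Sv
variable {t i x y w : G} {M : Subgroup G} {π : G → ON.L} {φ : K →* G} (h : Sv t M i x y w π φ)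
include h

theorem top [Finite G] [IsSimpleGroup G] {γ : G} (s : Sw t φ γ) {H : Subgroup G} (h1 : Cx(t) ≤ H)
    (h2 : ∀ g ∈ Cx(t), γ * g * γ⁻¹ ∈ H) {d : K} (hd : ∀ a : K, a * a = 1 → a * i0 = i0 * a ∨ ∃ c, c * d = a * c)
    {k : G} (hk : k ∈ Cx(t)) (e : γ * (k * φ u0 * k⁻¹) * γ⁻¹ = φ d) : H = ⊤ := by
  by_contra hne
  haveI : Fact (Nat.Prime 2) := ⟨Nat.prime_two⟩
  have ij := h.L.inj
  have Pu : Cx(φ u0) ≤ H := fun g hg => by
    have := h2 _ (mem_Cx.2 (comm_back (s.1 ▸ (mem_Cx.1 hg).symm)))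
    rwa [show γ * (γ⁻¹ * g * γ) * γ⁻¹ = g by group] at this
  have Pd : Cx(φ d) ≤ H := by
    rw [← e, show γ * (k * φ u0 * k⁻¹) * γ⁻¹ = γ * k * γ⁻¹ * (γ * φ u0 * γ⁻¹) * (γ * k * γ⁻¹)⁻¹ by group, s.2]
    exact Cx_cj (h2 k hk) h1
  have hN : Nm(φ.range) ≤ Cx(t) := fun g hg => by
    obtain ⟨z, hz⟩ := (mem_normalizer_iff.1 hg t).1 ⟨t0, h.L.ft⟩
    rcases h.L.f0 z (fun a => ij (by
      obtain ⟨b, hb⟩ := (mem_normalizer_iff.1 (inv_mem hg) (φ a)).1 ⟨a, rfl⟩
      rw [map_mul, map_mul, hz, show φ a = g * φ b * g⁻¹ by rw [hb]; group]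
      exact comm_cj g (mem_Cx.1 (h.L.hC b)).symm)) (ij (by
        rw [map_mul, hz, conj_mul, h.L.B.t2, map_one]; group)) with rfl | rfl
    · rw [map_one, eq_comm, conj_eq_one_iff] at hz
      exact absurd hz h.L.B.t1
    · exact mem_Cx'.2 (hz.symm.trans h.L.ft)
  have hS : SylIn 2 φ.range H := h.L.sylow.of_Nm_le h1 (inf_le_right.trans hN)
  have spe : SPE 2 H ⊤ := spe_of_centralizers hS le_top hne (inf_le_right.trans (hN.trans h1)) (by
    rintro _ ⟨a, rfl⟩ ho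
    refine inf_le_right.trans ?_
    have a2 : φ a * φ a = 1 := by rw [← pow_two, ← ho, pow_orderOf_eq_one]
    rcases hd a (ij (by rw [map_mul, a2, map_one])) with c | ⟨c, hc⟩
    · by_cases e : φ a = t
      · exact e ▸ h1
      obtain ⟨c, hc, e⟩ := h.L.conj_u (h.L.hin ij a c) a2 (fun e => by rw [e, orderOf_one] at ho; omega) e
      exact e ▸ Cx_cj (h1 hc) Pu
    · rw [show φ a = φ c * φ d * (φ c)⁻¹ by rw [← map_mul, hc, map_mul, mul_inv_cancel_right]]
      exact Cx_cj (h1 (h.L.hC c)) Pd)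
  have := (CfH5.BS.benderSuzuki G H φ.range spe hS (by_contra fun n => h.L.ut (CfH5.BS.eq_of_rank_one n
    ⟨h.L.B.t2, h.L.B.t1⟩ ⟨h.L.u_2, h.L.u_1⟩ (mem_Cx.1 (h.L.hC u0))))).central _ ⟨u0, rfl⟩
    (by rw [pow_two, h.L.u_2]) _ ⟨τ0, rfl⟩
  rw [← map_mul, ← map_mul] at this
  exact absurd (ij this) (by decide +kernel)

theorem cube {k z : G} (z3 : z * (z * z) = 1) (e : z * (k * t * k⁻¹) = k * t * k⁻¹ * z) :
    z * (k * i⁻¹ * k⁻¹) = k * i⁻¹ * k⁻¹ * z := by
  have h1 : k⁻¹ * z * k ∈ Cx(t) := mem_Cx.2 (comm_back e.symm)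
  have h2 := h.L.sqM (mul_mem h1 h1)
  rw [show k⁻¹ * z * k * (k⁻¹ * z * k) * (k⁻¹ * z * k * (k⁻¹ * z * k)) = k⁻¹ * (z * (z * (z * z))) * k by group, z3,
    mul_one] at h2
  have := comm_cj k (h.L.B.inv.cen _ h2)
  rw [show k * (k⁻¹ * z * k) * k⁻¹ = z by group] at this
  exact this.symm

theorem iso [Finite G] [IsSimpleGroup G] {γ : G} (s : Sw t φ γ) {sig : List (List ℕ)} {ww : List ℕ} {c d g : K}
    (ok : sysOk sig ww c.1 d.1 g.1 = true) (hc : γ * φ c * γ⁻¹ = φ d) (hd : γ * φ d * γ⁻¹ = φ c)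
    (hg : γ * φ g * γ⁻¹ = φ g) (ho : ∀ a : K, a * a = 1 → a * i0 = i0 * a ∨ ∃ c, c * d = a * c) :
    Nonempty (ONB.G ≃* G) := by
  simp only [sysOk, Bool.and_eq_true] at ok
  obtain ⟨⟨⟨⟨⟨⟨⟨⟨o1, o2⟩, o3⟩, o4⟩, o5⟩, o6⟩, o7⟩, o8⟩, o9⟩ := ok
  have binv := inv_of_rels (h.S.rels sig _ o1)
  have o4 := h.S.rels sig _ o4
  have one : ∀ u v, cS (subst sig u ++ v) = true → evw (byW (ev5 x y w) sig) u = (evw (ev5 x y w) v)⁻¹ := fun u v e => by
    have := h.S.one _ e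
    rwa [evw_append, evw_subst, mul_eq_one_iff_eq_inv] at this
  have lk : ∀ (a : K) l, cS (subst sigT (TS.wl a.1) ++ subst sig [l]) = true → φ a = (byW (ev5 x y w) sig l)⁻¹ :=
    fun a l e => by
      have := h.S.one _ e
      rwa [evw_append, ← h.h1, evw_subst, evw_cons, evw_nil, mul_one, mul_eq_one_iff_eq_inv] at this
  have r0 : ∀ r, cS (subst sig r) = true → evw (byW (ev5 x y w) sig) r = 1 := fun r e => by
    rw [← evw_subst]; exact h.S.one _ e
  have bC : ∀ v, evw (byW (ev5 x y w) sig) v ∈ Cx(t) := fun v => by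
    rw [← evw_subst]; exact ev5_mem (h.L.B.le h.L.g.xM) (h.L.B.le h.L.g.yM) h.cw _
  simp only [List.all_cons, List.all_nil, Bool.and_eq_true] at o3
  have b1 := lk g 1 o3.1
  have b2 := lk u0 2 o3.2.1
  have b4 := lk c 4 o3.2.2.1
  have b5 := lk d 5 o3.2.2.2.1
  have b7 := lk t0 7 o3.2.2.2.2.1
  have bI := one _ _ o5
  have bx := one _ _ o6
  have by' := one _ _ o7
  have bw := one _ _ o8
  rw [h.hi] at bI
  rw [h.L.ft] at b7
  generalize byW (ev5 x y w) sig = B at *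
  rw [← binv 1 (by decide)] at b1
  rw [← binv 2 (by decide)] at b2
  rw [← binv 4 (by decide)] at b4
  rw [← binv 5 (by decide)] at b5
  rw [← binv 7 (by decide)] at b7
  change _ = B 0 at b1
  change _ = B 2 at b2
  change _ = B 4 at b4
  change _ = B 5 at b5
  change _ = B 7 at b7
  have b0 : B 1 = (B 0)⁻¹ := binv 0 (by decide)
  let ev : ℕ → G := fun l => if l = 6 then γ * B 3 * γ⁻¹ else B l
  have n6 : ∀ v, no6 v = true → ∀ l ∈ v, l < 8 ∧ l ≠ 6 := fun v hv l hl => by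
    have := List.all_eq_true.1 hv l hl
    rw [Bool.and_eq_true, Nat.blt_eq] at this
    exact ⟨this.1, fun e => by simp [e] at this⟩
  have e1 : ∀ v, no6 v = true → evw ev v = evw B v := fun v hv => by
    have := n6 v hv
    induction v with
    | nil => rfl
    | cons l v ih =>
      rw [evw_cons, evw_cons, ih (by simp only [no6, List.all_cons, Bool.and_eq_true] at hv; exact hv.2)
        fun l hl => this l (List.mem_cons_of_mem _ hl)]
      simp [ev, (this l List.mem_cons_self).2]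
  have e2 : ∀ v, no6 v = true → γ * evw B v * γ⁻¹ = evw ev (v.map fun l => kap.getD l 0) := fun v hv => by
    have := n6 v hv
    induction v with
    | nil => simp
    | cons l v ih =>
      rw [List.map_cons, evw_cons, evw_cons, ← ih (by simp only [no6, List.all_cons, Bool.and_eq_true] at hv; exact hv.2)
        (fun l hl => this l (List.mem_cons_of_mem _ hl)), ← conj_mul]
      congr 1
      obtain ⟨l8, l6⟩ := this l List.mem_cons_self
      interval_cases l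
      · change _ = B 0
        rw [← b1, hg]
      · change _ = B 1
        rw [b0, ← b1, ← conj_inv, hg]
      · change _ = B 7
        rw [← b2, ← b7, s.2]
      · rfl
      · change _ = B 5
        rw [← b4, ← b5, hc]
      · change _ = B 4
        rw [← b4, ← b5, hd]
      · exact absurd rfl l6
      · change _ = B 2
        rw [← b2, ← b7, s.1]
  have iw : ∀ v, allLt 8 v = true → evw B (invw ONB.il v) = (evw B v)⁻¹ := fun v hv =>
    evw_invw _ _ 8 binv v (allLt_sound hv)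
  have cw : ∀ k v, allLt 8 k = true → evw B (cjw k v) = evw B k * evw B v * (evw B k)⁻¹ := fun k v hk => by
    rw [cjw, evw_append, evw_append, iw k hk]
  have inv1 : ∀ l, 2 ≤ l → l < 8 → (evw B [l])⁻¹ = B l := fun l l1 l2 => by
    rw [evw_cons, evw_nil, mul_one, ← binv l l2]
    interval_cases l <;> rfl
  simp only [List.forall_mem_cons, evw_append, mul_eq_one_iff_eq_inv] at o4
  obtain ⟨q0, q1, q2, q3, q4, q5, q6, q7, q8, -⟩ := o4
  rw [cw _ _ rfl, inv1 _ (by decide) (by decide)] at q1 q4 q6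
  rw [cw _ _ rfl, iw _ rfl, inv_inv] at q2 q5
  rw [cw _ _ rfl, cw _ _ rfl, inv1 _ (by decide) (by decide)] at q3
  simp only [evw_cons (w := []), evw_nil, mul_one] at q1 q2 q4 q6
  have gI : γ * evw B wIa * γ⁻¹ = i⁻¹ := by rw [e2 _ rfl, ← bI, ← e1 _ rfl]; rfl
  have z3 : evw B [2, 3] * (evw B [2, 3] * evw B [2, 3]) = 1 := by rw [← evw_append, ← evw_append]; exact q7
  have cj : ∀ k a, k * B 2 * k⁻¹ = a → evw B [2, 3] * (γ * a * γ⁻¹) * (evw B [2, 3])⁻¹ = γ * a * γ⁻¹ →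
      Commute (evw B [2, 3]) (γ * (k * evw B wIa * k⁻¹) * γ⁻¹) := fun k a p1 p2 => by
    have := h.cube (k := γ * k * γ⁻¹) z3 (by
      rw [← s.2, b2, show γ * k * γ⁻¹ * (γ * B 2 * γ⁻¹) * (γ * k * γ⁻¹)⁻¹ = γ * (k * B 2 * k⁻¹) * γ⁻¹ by group, p1]
      exact mul_inv_eq_iff_eq_mul.1 p2)
    rwa [← gI, show γ * k * γ⁻¹ * (γ * evw B wIa * γ⁻¹) * (γ * k * γ⁻¹)⁻¹ = γ * (k * evw B wIa * k⁻¹) * γ⁻¹ by group] at this
  have j1 := cj _ _ q1 (by rw [← b4, hc, b5, q4])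
  have j2 := cj _ _ q2 (by rw [e2 _ rfl, show List.map _ _ = 5 :: wI from rfl, e1 _ rfl, q5])
  have j3 := cj 1 _ rfl (by rw [one_mul, inv_one, mul_one, ← b2, s.2, b7, q6])
  rw [one_mul, inv_one, mul_one] at j3
  have be : Commute (B 3) (γ * B 3 * γ⁻¹) := by
    have p1 : Commute (evw B [2, 3]) (γ * B 3 * γ⁻¹) := by
      rw [← q3, ← conj_mul, ← conj_mul, ← conj_mul]
      exact ((j1.mul_right j2).mul_right j3).mul_right j1
    have p2 : Commute (B 2) (γ * B 3 * γ⁻¹) := by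
      rw [← b2, ← s.1]
      exact comm_cj γ (by simpa using (mem_Cx.1 (bC [3])).symm)
    simpa using p2.inv_left.mul_left p1
  have b3 : B 3 * B 3 = 1 := by simpa using q0
  obtain ⟨ρ, hρ⟩ := hom_univ ONB.hhom ev (fun l hl => by
      by_cases l6 : l = 6
      · subst l6
        change γ * B 3 * γ⁻¹ = (γ * B 3 * γ⁻¹)⁻¹
        rw [conj_inv, sinv b3]
      · have : ONB.il.getD l 0 ≠ 6 := by interval_cases l <;> first | decide | exact absurd rfl l6
        simp only [ev, if_neg l6, if_neg this, binv l hl]) fun r hr => by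
    have := List.all_eq_true.1 o2 r hr
    simp only [Bool.or_eq_true, Bool.and_eq_true] at this
    rcases this with (p | p) | p
    · rw [e1 r p.1, r0 r p.2]
    · rw [leqb_sound _ _ p]
      change B 3 * (γ * B 3 * γ⁻¹ * (B 3 * (γ * B 3 * γ⁻¹ * 1))) = 1
      rw [← mul_assoc, be.eq, mul_assoc, ← mul_assoc (B 3), b3, one_mul, mul_one, conj_mul, b3]
      group
    · rw [← leqb_sound _ _ p.1.2, ← e2 _ p.1.1, r0 _ p.2]
      group
  have gen : ∀ H : Subgroup G, (∀ v, no6 v = true → evw B v ∈ H) → Cx(t) ≤ H := fun H hH a ha => by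
    have hM : M ≤ H := h.L.g.gen H (by simpa [bx, ev5] using hH wx rfl) (by simpa [by', ev5] using hH wy rfl)
    by_cases aM : a ∈ M
    · exact hM aM
    · exact (mul_mem_cancel_right (by simpa [bw, ev5] using hH ww o9)).1 (hM (h.L.B.idx a ha w h.cw aM h.nw))
  have rg : ∀ v, (∀ l ∈ v, l < 8) → evw ev v ∈ ρ.range := fun v hv => ⟨_, hom_evw hρ v hv⟩
  have tp := h.top s (H := ρ.range) (gen _ fun v hv => e1 v hv ▸ rg v fun l hl => (n6 v hv l hl).1)
    (gen (ρ.range.comap (MulAut.conj γ).toMonoidHom) fun v hv => by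
      change γ * evw B v * γ⁻¹ ∈ ρ.range
      rw [e2 v hv]
      refine rg _ fun l hl => ?_
      obtain ⟨m, hm, rfl⟩ := List.mem_map.1 hl
      have := (n6 v hv m hm).1
      interval_cases m <;> decide) ho (bC wh) (by rw [b2, q1, ← b4, hc])
  haveI := ONG.simple
  exact ⟨MulEquiv.ofBijective ρ ⟨inj_of_simple ρ (g := ONB.el 7) (by
    rw [hρ 7 (by decide)]; exact fun e => h.L.B.t1 (b7.trans e)), MonoidHom.range_eq_top.1 tp⟩⟩
end Sv

theorem main [Finite G] [IsSimpleGroup G] (t : G) (ht : orderOf t = 2) (M : Subgroup (centralizer ({t} : Set G)))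
    [hN : M.Normal] (hM : M.index = 2) (hout : centralizer (M : Set (centralizer ({t} : Set G))) ≤ M)
    (hZc : IsCyclic (center M)) (hZ4 : Nat.card (center M) = 4) (hperf : commutator M = ⊤) (F : Type) [Field F]
    [Fintype F] (hF : Fintype.card F = 4) (e : M ⧸ center M ≃* Matrix.ProjectiveSpecialLinearGroup (Fin 3) F) :
    Nonempty (ONB.G ≃* G) := by
  obtain ⟨M', i, x, y, B, g⟩ := exists_base t ht M hM hout hZc hZ4 hperf F hF e
  obtain ⟨i, x, y, w, π, φ, h⟩ := exists_sv (survivor B g)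
  obtain ⟨γ, s, p | p⟩ := h.theta_main
  · exact h.iso s sys0 p.1 p.2.1 p.2.2 fun a ha => (outer a ha).imp_right And.left
  · exact h.iso s sys1 p.1 p.2.1 p.2.2 fun a ha => (outer a ha).imp_right And.right

end CfH8.ON
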