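import Cfsg.Agent.OD.Pre
import Cfsg.Agent.L.RM
/-! Concrete finite groups from regular coset tables given by lookup functions. -/
set_option autoImplicit false
open CfH6 CfL
namespace CfH8.ON

/-- a regular coset table with a transversal of words and an inverse table -/
structure Tb where
  N : ℕ
  nc : ℕ
  D : ℕ
  R : ℕ → ℕ → ℕ
  word : ℕ → ℕ
  inv : ℕ → ℕ

/-- entry `i` of a packed list -/
noncomputable def pk1 (c W m i : ℕ) : ℕ := Nat.land (Nat.shiftRight c (Nat.mul W i)) m

/-- search tree of chunks -/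
inductive St | l (o c : ℕ) | n (p : ℕ) (a b : St)

/-- entry `i` of a packed list cut into chunks -/
noncomputable def pk2 (c : St) (W m i : ℕ) : ℕ :=
  frc i fun i => St.rec (fun o c => Nat.land (Nat.shiftRight c (Nat.mul W (Nat.sub i o))) m)
    (fun p _ _ iha ihb => Bool.rec iha ihb (Nat.ble p i)) c

namespace Tb
variable (T : Tb)

noncomputable def tr : ℕ → ℕ → ℕ → ℕ := fun f =>
  Nat.rec (fun _ i => i) (fun _ ih w i => Nat.rec i (fun w' _ =>
    ih (Nat.shiftRight w' 4) (T.R (Nat.land w' 15) i)) w) f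

noncomputable def trL (l : List ℕ) : ℕ → ℕ := List.rec (fun i => i) (fun x _ ih i => ih (T.R x i)) l

theorem tr_eq (f : ℕ) : ∀ w i, T.tr f w i = T.trL (Tab.dec f w) i := by
  induction f with
  | zero => intro w i; rfl
  | succ f ih =>
    intro w i
    cases w with
    | zero => rfl
    | succ w => exact ih _ _

noncomputable def mul (i j : ℕ) : ℕ := T.tr T.D (T.word j) i
noncomputable def wl (j : ℕ) : List ℕ := Tab.dec T.D (T.word j)

noncomputable def ok1 (il : List ℕ) : Bool :=
  Nat.blt 0 T.N && all1 (fun x => frc (il.getD x 0) fun y => allN (fun i => frc (T.R x i) fun j =>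
    Nat.blt j T.N && Nat.beq (T.R y j) i) T.N) T.nc

noncomputable def ok2 (rels : List (List ℕ)) : Bool :=
  rels.all fun r => allN (fun i => Nat.beq (T.trL r i) i) T.N

noncomputable def ok3 : Bool :=
  allN (fun j => allLt T.nc (T.wl j) && Nat.beq (T.mul 0 j) j && Nat.blt (T.inv j) T.N &&
    Nat.beq (T.mul (T.inv j) j) 0) T.N

structure Good (il : List ℕ) (rels : List (List ℕ)) : Prop where
  side : (rels.all (allLt T.nc) && allLt T.nc ((List.range T.nc).map fun x => il.getD x 0)) = true
  ok1 : T.ok1 il = true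
  ok2 : T.ok2 rels = true
  ok3 : T.ok3 = true
  fin : Finite (WP T.nc il rels) ∧ Nat.card (WP T.nc il rels) ≤ T.N

variable {T} {il : List ℕ} {rels : List (List ℕ)}

namespace Good
variable (g : T.Good il rels)
include g

theorem pos : 0 < T.N := by
  have := g.ok1
  rw [Tb.ok1, Bool.and_eq_true] at this
  exact blt1 this.1

theorem R_spec {x i : ℕ} (hx : x < T.nc) (hi : i < T.N) : T.R x i < T.N ∧ T.R (il.getD x 0) (T.R x i) = i := by
  have := g.ok1
  rw [Tb.ok1, Bool.and_eq_true, all1_iff] at this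
  have := this.2 x hx
  rw [frc_eq, allN_iff] at this
  have := this i hi
  rw [frc_eq, Bool.and_eq_true] at this
  exact ⟨blt1 this.1, Nat.eq_of_beq_eq_true this.2⟩

theorem il_lt {x : ℕ} (hx : x < T.nc) : il.getD x 0 < T.nc := by
  have := g.side
  rw [Bool.and_eq_true] at this
  exact allLt_sound this.2 _ (List.mem_map.mpr ⟨x, List.mem_range.mpr hx, rfl⟩)

theorem w_spec {j : ℕ} (hj : j < T.N) : (∀ x ∈ T.wl j, x < T.nc) ∧ T.mul 0 j = j ∧ T.inv j < T.N ∧
    T.mul (T.inv j) j = 0 := by
  have := (allN_iff _ _).1 g.ok3 j hj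
  simp only [Bool.and_eq_true] at this
  exact ⟨allLt_sound this.1.1.1, Nat.eq_of_beq_eq_true this.1.1.2, blt1 this.1.2,
    Nat.eq_of_beq_eq_true this.2⟩

noncomputable def perm (x : ℕ) : Equiv.Perm {i // i < T.N} :=
  if hx : x < T.nc then Equiv.ofBijective (fun i => ⟨T.R x i.1, (g.R_spec hx i.2).1⟩)
    (Finite.injective_iff_bijective.1 fun i j e => Subtype.ext (by
      rw [← (g.R_spec hx i.2).2, ← (g.R_spec hx j.2).2]
      exact congrArg (fun k : {i // i < T.N} => T.R (il.getD x 0) k.1) e))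
  else 1

theorem perm_val {x : ℕ} (hx : x < T.nc) (i : {i // i < T.N}) : (g.perm x i).1 = T.R x i.1 := by
  rw [perm, dif_pos hx]; rfl

theorem evw_perm (w : List ℕ) (hw : ∀ x ∈ w, x < T.nc) (i : {i // i < T.N}) :
    ((evw (fun x => MulOpposite.op (g.perm x)) w).unop i).1 = T.trL w i.1 := by
  induction w generalizing i with
  | nil => rfl
  | cons x w ih =>
    rw [evw_cons, MulOpposite.unop_mul, Equiv.Perm.mul_apply, ih (fun y hy => hw y (List.mem_cons_of_mem _ hy)),
      MulOpposite.unop_op, g.perm_val (hw x List.mem_cons_self)]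
    rfl

theorem trL_lt (w : List ℕ) (hw : ∀ x ∈ w, x < T.nc) {i : ℕ} (hi : i < T.N) : T.trL w i < T.N := by
  rw [← g.evw_perm w hw ⟨i, hi⟩]; exact Subtype.property (p := fun i => i < T.N) _

theorem exists_pt : ∃ π : WP T.nc il rels → ℕ, Function.Injective π ∧ (∀ p, π p < T.N) ∧
    ∀ w : List ℕ, (∀ x ∈ w, x < T.nc) → π (evw (wel T.nc il rels) w) = T.trL w 0 := by
  obtain ⟨ρ, hρ⟩ := wp_hom T.nc il rels g.side (fun x => MulOpposite.op (g.perm x)) (fun x hx => by
      rw [eq_inv_iff_mul_eq_one, ← MulOpposite.op_mul, ← MulOpposite.op_one]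
      congr 1
      have : g.perm (il.getD x 0) * g.perm x = 1 := by
        ext i
        rw [Equiv.Perm.mul_apply, g.perm_val (g.il_lt hx), g.perm_val hx, (g.R_spec hx i.2).2]
        rfl
      exact mul_eq_one_comm.1 this) (fun r hr => by
      have h1 := g.side
      rw [Bool.and_eq_true] at h1
      apply MulOpposite.unop_injective
      ext i
      rw [g.evw_perm r (allLt_all h1.1 r hr)]
      exact Nat.eq_of_beq_eq_true ((allN_iff _ _).1 (List.all_eq_true.1 g.ok2 r hr) i.1 i.2))
  let π : WP T.nc il rels → {i // i < T.N} := fun p => (ρ p).unop ⟨0, g.pos⟩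
  have hπ : ∀ w : List ℕ, (∀ x ∈ w, x < T.nc) → (π (evw (wel T.nc il rels) w)).1 = T.trL w 0 := by
    intro w hw
    simp only [π]
    rw [hom_evw hρ w hw, g.evw_perm w hw]
  have hs : Function.Surjective π := fun j => ⟨evw (wel T.nc il rels) (T.wl j.1), Subtype.ext (by
    rw [hπ _ (g.w_spec j.2).1, wl, ← tr_eq]
    exact (g.w_spec j.2).2.1)⟩
  have := g.fin.1
  have hb := hs.bijective_of_nat_card_le (g.fin.2.trans (by
    rw [Nat.card_congr (Fin.equivSubtype (n := T.N)).symm, Nat.card_eq_fintype_card, Fintype.card_fin]))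
  exact ⟨fun p => (π p).1, fun a b e => hb.1 (Subtype.ext e), fun p => (π p).2, hπ⟩

omit g in
theorem trL_append (u w : List ℕ) (i : ℕ) : T.trL (u ++ w) i = T.trL w (T.trL u i) := by
  induction u generalizing i with
  | nil => rfl
  | cons x u ih => exact ih _

/-- the element of the presented group with index `j` -/
noncomputable def pel (_ : T.Good il rels) (j : ℕ) : WP T.nc il rels := evw (wel T.nc il rels) (T.wl j)

theorem trL_wl {j : ℕ} (hj : j < T.N) : T.trL (T.wl j) 0 = j := by
  rw [wl, ← tr_eq]; exact (g.w_spec hj).2.1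

theorem pel_trL {i : ℕ} (hi : i < T.N) (w : List ℕ) (hw : ∀ x ∈ w, x < T.nc) :
    g.pel (T.trL w i) = g.pel i * evw (wel T.nc il rels) w := by
  obtain ⟨π, h1, _, h3⟩ := g.exists_pt
  apply h1
  have a := g.trL_lt w hw hi
  rw [pel, pel, ← evw_append, h3 _ (g.w_spec a).1, h3, trL_append, g.trL_wl a, g.trL_wl hi]
  intro x hx
  rcases List.mem_append.1 hx with h | h
  · exact (g.w_spec hi).1 x h
  · exact hw x h

theorem mul_lt {i j : ℕ} (hi : i < T.N) (hj : j < T.N) : T.mul i j < T.N := by
  rw [mul, tr_eq]; exact g.trL_lt _ (g.w_spec hj).1 hi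

theorem pel_mul {i j : ℕ} (hi : i < T.N) (hj : j < T.N) : g.pel (T.mul i j) = g.pel i * g.pel j := by
  rw [mul, tr_eq]; exact g.pel_trL hi _ (g.w_spec hj).1

theorem pel_inj {i j : ℕ} (hi : i < T.N) (hj : j < T.N) (e : g.pel i = g.pel j) : i = j := by
  obtain ⟨π, _, _, h3⟩ := g.exists_pt
  have := congrArg π e
  rwa [pel, pel, h3 _ (g.w_spec hi).1, h3 _ (g.w_spec hj).1, g.trL_wl hi, g.trL_wl hj] at this

theorem pel_zero : g.pel 0 = 1 := by
  have := g.pel_mul g.pos g.pos
  rw [(g.w_spec g.pos).2.1] at this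
  exact left_eq_mul.1 this

end Good
end Tb

/-- the group of a good table -/
def TB {T : Tb} {il : List ℕ} {rels : List (List ℕ)} (_ : T.Good il rels) : Type := {i // i < T.N}

namespace TB
variable {T : Tb} {il : List ℕ} {rels : List (List ℕ)} {g : T.Good il rels}

noncomputable instance : Mul (TB g) := ⟨fun a b => ⟨T.mul a.1 b.1, g.mul_lt a.2 b.2⟩⟩
instance : One (TB g) := ⟨⟨0, g.pos⟩⟩
noncomputable instance : Inv (TB g) := ⟨fun a => ⟨T.inv a.1, (g.w_spec a.2).2.2.1⟩⟩

theorem ext' {a b : TB g} (h : g.pel a.1 = g.pel b.1) : a = b := Subtype.ext (g.pel_inj a.2 b.2 h)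
theorem pel_mul (a b : TB g) : g.pel (a * b).1 = g.pel a.1 * g.pel b.1 := g.pel_mul a.2 b.2

noncomputable instance : Group (TB g) := Group.ofLeftAxioms
  (fun a b c => ext' (by simp only [pel_mul, mul_assoc]))
  (fun a => Subtype.ext (g.w_spec a.2).2.1)
  (fun a => Subtype.ext (g.w_spec a.2).2.2.2)

instance : DecidableEq (TB g) := fun a b =>
  decidable_of_iff (Nat.beq a.1 b.1 = true) (by rw [Nat.beq_eq]; exact Subtype.ext_iff.symm)

instance : Finite (TB g) := Finite.of_equiv _ (Fin.equivSubtype (n := T.N))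

theorem card : Nat.card (TB g) = T.N :=
  (Nat.card_congr (Fin.equivSubtype (n := T.N)).symm).trans (by simp)

noncomputable def liftB (p : TB g → Bool) (d : Bool) (k : ℕ) : Bool := if h : k < T.N then p ⟨k, h⟩ else d

noncomputable instance (priority := 50) decAll (p : TB g → Prop) [DecidablePred p] : Decidable (∀ a, p a) :=
  decidable_of_iff (allB (liftB (fun a => decide (p a)) true) (Nat.succ (Nat.div T.N 64)) = true) (by
    rw [allB_iff]
    constructor
    · intro h a
      have := h a.1 (by have := a.2; change _ < (T.N / 64 + 1) * 64; omega)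
      rw [liftB, dif_pos a.2] at this
      exact of_decide_eq_true this
    · intro h k _
      unfold liftB
      split_ifs with hk
      · exact @decide_eq_true _ (‹DecidablePred p› _) (h _)
      · rfl)

noncomputable instance (priority := 50) decEx (p : TB g → Prop) [DecidablePred p] : Decidable (∃ a, p a) :=
  decidable_of_iff (¬ ∀ a, ¬ p a) (by simp)

noncomputable def cnt (p : TB g → Prop) [DecidablePred p] : ℕ := cntN (liftB (fun a => decide (p a)) false) T.N

theorem cnt_eq (p : TB g → Prop) [DecidablePred p] : {a | p a}.ncard = cnt p := by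
  rw [cnt, cntN_eq, ← Set.ncard_image_of_injective {a | p a} (f := fun a : TB g => a.1) Subtype.val_injective]
  congr 1
  ext k
  constructor
  · rintro ⟨a, ha, rfl⟩
    refine ⟨a.2, ?_⟩
    rw [liftB, dif_pos a.2]
    exact @decide_eq_true (p a) _ ha
  · rintro ⟨h1, h2⟩
    rw [liftB, dif_pos h1] at h2
    have h3 := @of_decide_eq_true _ (‹DecidablePred p› _) h2
    exact ⟨⟨k, h1⟩, h3, rfl⟩

/-- the element with a given index -/
def mk (g : T.Good il rels) (k : ℕ) (h : Nat.blt k T.N = true := by rfl) : TB g := ⟨k, blt1 h⟩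

/-- universal property -/
theorem exists_hom (g : T.Good il rels) {G : Type*} [Group G] (ev : ℕ → G)
    (h1 : ∀ x < T.nc, ev (il.getD x 0) = (ev x)⁻¹) (h2 : ∀ r ∈ rels, evw ev r = 1) :
    ∃ φ : TB g →* G, (∀ a : TB g, φ a = evw ev (T.wl a.1)) ∧ ∀ (x : ℕ) (a : TB g), x < T.nc → T.R x 0 = a.1 → φ a = ev x := by
  obtain ⟨ψ, hψ⟩ := wp_hom T.nc il rels g.side ev h1 h2
  refine ⟨MonoidHom.mk' (fun a => ψ (g.pel a.1)) (fun a b => by rw [pel_mul, map_mul]), fun a => ?_, fun x a hx e => ?_⟩
  · exact hom_evw hψ _ (g.w_spec a.2).1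
  · have := g.pel_trL g.pos [x] (by simpa using hx)
    rw [g.pel_zero, one_mul, evw_cons, evw_nil, mul_one] at this
    change ψ (g.pel a.1) = _
    rw [← e, ← hψ x hx, ← this]
    rfl

theorem hom_mem {G : Type*} [Group G] {ev : ℕ → G} {φ : TB g →* G} (h : ∀ a : TB g, φ a = evw ev (T.wl a.1))
    {K : Subgroup G} (hK : ∀ x < T.nc, ev x ∈ K) (a : TB g) : φ a ∈ K := by
  rw [h]; exact evw_mem hK (g.w_spec a.2).1

end TB

section
variable {T : Tb} {il : List ℕ} {rels : List (List ℕ)}

/-- the letters of a regular table -/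
noncomputable def tel (g : T.Good il rels) (k : ℕ) : TB g :=
  if h : k < T.nc then ⟨T.R k 0, (g.R_spec h g.pos).1⟩ else 1

theorem tel_val (g : T.Good il rels) {k : ℕ} (h : k < T.nc) : (tel g k).1 = T.R k 0 :=
  congrArg Subtype.val (dif_pos h)

theorem pel_tel (g : T.Good il rels) {k : ℕ} (h : k < T.nc) : g.pel (tel g k).1 = wel T.nc il rels k := by
  have := g.pel_trL g.pos [k] (by simpa using h)
  rw [g.pel_zero, one_mul, evw_cons, evw_nil, mul_one] at this
  rw [tel_val g h]
  exact this

theorem evw_tel (g : T.Good il rels) (w : List ℕ) (hw : ∀ x ∈ w, x < T.nc) : (evw (tel g) w).1 = T.trL w 0 := by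
  have key : g.pel (evw (tel g) w).1 = evw (wel T.nc il rels) w := by
    induction w with
    | nil => exact g.pel_zero
    | cons a w ih =>
      rw [evw_cons, TB.pel_mul, ih fun x hx => hw x (List.mem_cons_of_mem _ hx), pel_tel g (hw a List.mem_cons_self),
        evw_cons]
  refine g.pel_inj (evw (tel g) w).2 (g.trL_lt w hw g.pos) ?_
  rw [key, g.pel_trL g.pos w hw, g.pel_zero, one_mul]

theorem evw_tel_wl (g : T.Good il rels) (a : TB g) : evw (tel g) (T.wl a.1) = a :=
  Subtype.ext (by rw [evw_tel g _ (g.w_spec a.2).1, g.trL_wl a.2])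

theorem hom_tel {g : T.Good il rels} {G : Type*} [Group G] {ev : ℕ → G} {φ : TB g →* G}
    (h : ∀ (x : ℕ) (a : TB g), x < T.nc → T.R x 0 = a.1 → φ a = ev x) {k : ℕ} (hk : k < T.nc) : φ (tel g k) = ev k :=
  h k _ hk (tel_val g hk).symm

theorem hom_word {g : T.Good il rels} {G : Type*} [Group G] {ev : ℕ → G} {φ : TB g →* G}
    (h : ∀ (x : ℕ) (a : TB g), x < T.nc → T.R x 0 = a.1 → φ a = ev x) (w : List ℕ) (a : TB g)
    (hw : (allLt T.nc w && Nat.beq (T.trL w 0) a.1) = true) : φ a = evw ev w := by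
  rw [Bool.and_eq_true] at hw
  have h1 := allLt_sound hw.1
  rw [← hom_evw (fun x hx => hom_tel h hx) w h1]
  congr 1
  exact Subtype.ext (by rw [evw_tel g w h1, Nat.eq_of_beq_eq_true hw.2])
end


/-- all `k` in `[a, a + 64 nb)` -/
noncomputable def allR (p : ℕ → Bool) (a nb : ℕ) : Bool := allB (fun k => frc (Nat.add a k) p) nb

theorem allR_spec {p : ℕ → Bool} {a nb : ℕ} (h : allR p a nb = true) {k : ℕ} (h1 : a ≤ k) (h2 : k < a + nb * 64) :
    p k = true := by
  have := (allB_iff _ _).1 h (k - a) (by omega)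
  rwa [frc_eq, show Nat.add a (k - a) = k from Nat.add_sub_cancel' h1] at this

theorem all5 {p : ℕ → Bool} (h0 : allR p 0 63 = true) (h1 : allR p 4032 63 = true) (h2 : allR p 8064 63 = true)
    (h3 : allR p 12096 63 = true) (h4 : allR p 16128 63 = true) : ∀ k < 20160, p k = true := by
  intro k hk
  by_cases a : k < 4032
  · exact allR_spec h0 (by omega) (by omega)
  by_cases b : k < 8064
  · exact allR_spec h1 (by omega) (by omega)
  by_cases c : k < 12096
  · exact allR_spec h2 (by omega) (by omega)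
  by_cases d : k < 16128
  · exact allR_spec h3 (by omega) (by omega)
  · exact allR_spec h4 (by omega) (by omega)

noncomputable def imp (b c : Bool) : Bool := Bool.rec true c b
noncomputable def bnd (b c : Bool) : Bool := Bool.rec false c b
noncomputable def bor (b c : Bool) : Bool := Bool.rec c true b

theorem imp_iff {b c : Bool} : imp b c = true ↔ (b = true → c = true) := by cases b <;> simp [imp]
theorem bnd_iff {b c : Bool} : bnd b c = true ↔ (b = true ∧ c = true) := by cases b <;> simp [bnd]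
theorem bor_iff {b c : Bool} : bor b c = true ↔ (b = true ∨ c = true) := by cases b <;> simp [bor]

end CfH8.ON
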