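import Cfsg.Agent.H8.MG2
import Cfsg.Agent.H1.MG1
import Cfsg.Agent.H8.FF2a
import Cfsg.Agent.H4.Ident
/-! Sylow counts around an element of order `23` in a simple group of order `10200960`. -/
set_option autoImplicit false
open Subgroup CfH9 Cfsg CfH7 CfH8.MG CfH1.MG
namespace CfH8.QA
variable {G : Type*} [Group G] [Finite G]

theorem ar {D a b i m : ℕ} (hm : m = 126 ∨ m = 770) (h1 : D * a = 23 * m) (h2 : 161 ∣ D) (h3 : D * b * i = 10200960)
    (a7 : a % 7 = 1) (b23 : b % 23 = 1) (i7 : i % 7 = 1) : i < 23 := by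
  obtain ⟨k, rfl⟩ := h2
  have k1 : k * a = 18 ∨ k * a = 110 := by rw [mul_assoc] at h1; omega
  have k2 : k = 18 ∨ k = 110 ∨ k = 5 := by
    have := (by decide : ∀ n ∈ [18, 110], ∀ a ∈ Nat.divisors n, a % 7 = 1 → a = 1 ∨ (a = 22 ∧ n = 110)) (k * a)
      (by simpa using k1) a (Nat.mem_divisors.2 ⟨Dvd.intro_left _ rfl, by omega⟩) a7
    rcases this with rfl | ⟨rfl, _⟩ <;> omega
  have k3 : b * i = 3520 ∨ b * i = 576 ∨ b * i = 12672 := by
    rw [mul_assoc] at h3; rcases k2 with rfl | rfl | rfl <;> omega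
  exact (by decide +kernel : ∀ n ∈ [3520, 576, 12672], ∀ i ∈ Nat.divisors n, i % 7 = 1 → n / i % 23 = 1 → i < 23) (b * i)
    (by simpa using k3) i (Nat.mem_divisors.2 ⟨Dvd.intro_left _ rfl, by omega⟩) i7
    (by rwa [Nat.mul_div_cancel _ (by omega)])

theorem dbl [IsSimpleGroup G] (hG : Nat.card G = 10200960) {z : G} (hz : orderOf z = 23) {m : ℕ} (hm : m = 126 ∨ m = 770)
    (hN : Nat.card Nm(zpowers z) = 23 * m) : ¬ 7 ∣ Nat.card Cx(z) := fun d => by
  have : Fact (Nat.Prime 23) := ⟨by norm_num⟩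
  have : Fact (Nat.Prime 7) := ⟨by norm_num⟩
  obtain ⟨⟨y, hy⟩, yo⟩ := exists_prime_orderOf_dvd_card' (G := Cx(z)) 7 d
  replace yo : orderOf y = 7 := (orderOf_coe _).trans yo
  have y1 : y ∈ Nm(zpowers z) := (Cz_zpowers z ▸ centralizer_le_normalizer _ : Cx(z) ≤ _) hy
  have z1 : z ∈ Nm(zpowers y) := (Cz_zpowers y ▸ centralizer_le_normalizer _ : Cx(y) ≤ _) (mem_Cx.2 (mem_Cx.1 hy).symm)
  have a := syl_mod (sylz yo (by rw [hG]; norm_num) y1)
  have b := syl_mod (sylz hz (by rw [hG]; norm_num) z1)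
  have i := syl_mod (sylz yo (by rw [hG]; norm_num) (mem_top y))
  rw [relIndex_top_right] at i
  have n := nn (x := y) (fun e => by simp [e] at yo) (by rw [yo, hG]; norm_num)
  obtain ⟨f, hf⟩ := CfH3.exists_inj_perm _ (CfH4.normalCore_eq_bot_of_simple n) rfl
  have k := (hG ▸ (by norm_num : 23 ∣ 10200960)).trans (card_dvd_of_injective f hf)
  rw [Nat.card_perm, Nat.card_eq_fintype_card, Fintype.card_fin, (by norm_num : Nat.Prime 23).dvd_factorial] at k
  refine (ar hm ((ri _ _).trans hN) ((by norm_num : Nat.Coprime 23 7).mul_dvd_of_dvd_of_dvd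
    (hz ▸ orderOf_dvd_natCard _ ⟨le_normalizer (mem_zpowers z), z1⟩)
    (yo ▸ orderOf_dvd_natCard _ ⟨y1, le_normalizer (mem_zpowers y)⟩)) ?_ a b i).not_ge k
  rw [inf_comm, ri, card_mul_index, hG]

theorem w11 {z : G} {K : ℕ} (hK : K = 24 ∨ K = 12) (hC : Nat.card Cx(z) = 23 * K)
    (hN : 11 ∣ Nat.card Nm(zpowers z)) : ∃ s ∈ Cx(z), orderOf s = 2 ∧ 11 ∣ Nat.card Cx(s) := by
  have : Fact (Nat.Prime 11) := ⟨by norm_num⟩
  obtain ⟨S, hS⟩ := exists_sylIn 2 Cx(z)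
  have c : Nat.card S = 8 ∨ Nat.card S = 4 := by
    rw [hS.card_eq_multiplicity, hC]; rcases hK with rfl | rfl <;> decide +kernel
  have n : Nm(zpowers z) ≤ Nm(Cx(z)) := Cz_zpowers z ▸ normalizer_le_normalizer_centralizer _
  have f := CfH1.card_sup_mul_card_inf (N := Cx(z)) (H := Nm(zpowers z) ⊓ Nm(S)) (inf_le_left.trans n)
  rw [hS.frattini_sup n (Cz_zpowers z ▸ centralizer_le_normalizer _), hC] at f
  obtain ⟨⟨w, hw⟩, wo⟩ := exists_prime_orderOf_dvd_card' (G := (Nm(zpowers z) ⊓ Nm(S) : Subgroup G)) 11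
    (Nat.Coprime.dvd_of_dvd_mul_left (by rcases hK with rfl | rfl <;> norm_num) (f ▸ hN.mul_right _))
  replace wo : orderOf w = 11 := (orderOf_coe _).trans wo
  have k := le_Cz_of_coprime_factorial (zpowers_le.2 hw.2) (by
    rw [Nat.card_zpowers, wo]; rcases c with c | c <;> rw [c] <;> decide +kernel)
  obtain ⟨⟨s, hs⟩, so⟩ := exists_prime_orderOf_dvd_card' (G := S) 2 (by rcases c with c | c <;> rw [c] <;> norm_num)
  exact ⟨s, hS.le hs, (orderOf_coe _).trans so,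
    wo ▸ orderOf_dvd_natCard _ (mem_Cx.2 ((k (mem_zpowers w) s hs).symm))⟩
end CfH8.QA
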