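import Cfsg.Agent.OD.Pre
import Cfsg.Agent.H8.W0
import Cfsg.Agent.L.PU10
import Cfsg.Agent.L.PUB

/-!
# A component with a normalizing 2-group is a rank one pushing-up situation
-/

set_option autoImplicit false
set_option linter.unusedSectionVars false

namespace CfH8.W

open Subgroup MulAction CfH9 Cfsg CfLp
open scoped commutatorElement
open CfH7 (OZ ChP SubnIn nclo RedOn)

variable {G : Type*} [Group G] [Finite G] {J K S : Subgroup G}

/-- `O₂(K S)` -/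
abbrev QK (K S : Subgroup G) : Subgroup G := (K ⊔ S) ⊓ Cz(wOf K)

theorem idx_le_two (h : JC J K) (hS : IsPGroup 2 S) (hN : S ≤ Nm(wOf K)) :
    (Cz(wOf K)).relIndex S ≤ 2 := by
  have hd := relIndex_Cz_dvd hN
  rw [h.cardW] at hd
  obtain ⟨n, hn⟩ := (IsPGroup.iff_card (p := 2)).1 hS
  have hd2 : (Cz(wOf K)).relIndex S ∣ 2 ^ n := hn ▸ relIndex_dvd_card _ _
  obtain ⟨k, -, hk⟩ := (Nat.dvd_prime_pow Nat.prime_two).1 hd2
  rw [hk] at hd ⊢
  have : k ≤ 1 := by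
    by_contra hc
    have : 2 ^ 2 ∣ (4 - 1).factorial := (pow_dvd_pow 2 (by omega)).trans hd
    revert this; decide
  calc 2 ^ k ≤ 2 ^ 1 := Nat.pow_le_pow_right (by omega) this
    _ = 2 := rfl

theorem idx_eq_two (h : JC J K) (hS : IsPGroup 2 S) (hN : S ≤ Nm(wOf K))
    (hW : ¬ S ≤ Cz(wOf K)) : (Cz(wOf K)).relIndex S = 2 := by
  have h1 := idx_le_two h hS hN
  have h2 : (Cz(wOf K)).relIndex S ≠ 1 := fun e => hW (relIndex_eq_one.1 e)
  have h3 : (Cz(wOf K)).relIndex S ≠ 0 := index_ne_zero_of_finite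
  omega

theorem W_inf_Cz (h : JC J K) : wOf K ⊓ Cz(K) = ⊥ :=
  (h.irred inf_le_left (CfH7.le_normalizer_inf (CfH8.le_Nm_wOf K)
    (le_normalizer.trans (Nm_le_Nm_Cz _)))).resolve_right
    fun e => h.not_le_Cz_wOf (CfH7.le_Cz_comm (e.ge.trans inf_le_right))

theorem comm_O (h : JC J K) : ⁅pCoreOf 2 K, K⁆ = pCoreOf 2 K := by
  haveI : Fact (Nat.Prime 3) := ⟨Nat.prime_three⟩
  have hn := CfH7.le_normalizer_pCoreOf (p := 2) K
  have hO := CfH7.pCoreOf_le (p := 2) K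
  have h1 : ⁅pCoreOf 2 K, K⁆ ≤ pCoreOf 2 K := CfH7.comm_le_left hn
  obtain ⟨D, hD⟩ := exists_sylIn 3 K
  have hDO : ¬ D ≤ pCoreOf 2 K := fun e => by
    have := hD.not_dvd_relIndex_of_le e
    rw [h.idx] at this
    exact this dvd_rfl
  have hDn : D ≤ Nm(⁅pCoreOf 2 K, K⁆) := hD.le.trans (CfH7.right_le_Nm_comm _ _)
  have e : ⁅pCoreOf 2 K, K⁆ ⊔ D = K := by
    refine h.eq_of_not_le (sup_le (h1.trans hO) hD.le) ?_ fun e => hDO (le_sup_right.trans e)
    refine CfH7.le_Nm_of_comm_le_right (le_trans ?_ le_sup_left)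
    exact commutator_mono le_rfl (sup_le (h1.trans hO) hD.le)
  refine le_antisymm h1 ?_
  have e2 := CfH8.inf_sup_dedekind hDn h1
  rw [e, inf_eq_right.2 hO] at e2
  have e3 : D ⊓ pCoreOf 2 K = ⊥ :=
    eq_bot_of_not_dvd ((CfH7.isPGroup_pCoreOf (p := 2) K).to_le inf_le_right) inf_le_left
      (by rw [← even_iff_two_dvd, Nat.not_even_iff_odd]; exact odd_card_of_isPGroup_three hD.pgrp)
  rw [e3, sup_bot_eq] at e2
  exact e2.le

section

variable (h : JC J K) (hS : IsPGroup 2 S) (hN : S ≤ Nm(K)) (hO : pCoreOf 2 K ≤ S)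
include h hS hN hO

theorem idx3 : S.relIndex (K ⊔ S) = 3 := by
  have e : K ⊓ S = pCoreOf 2 K := h.inf_eq hO (h.not_le hS)
  have h1 := card_sup_mul_card_inf (A := S) (B := K) hN
  have h2 := card_mul_relIndex (CfH7.pCoreOf_le (p := 2) K)
  have h3 := card_mul_relIndex (le_sup_right : S ≤ K ⊔ S)
  rw [inf_comm, e, sup_comm, ← h3, ← h2, h.idx] at h1
  have p1 : 0 < Nat.card S := Nat.card_pos
  have p2 : 0 < Nat.card (pCoreOf 2 K) := Nat.card_pos
  have : Nat.card S * Nat.card (pCoreOf 2 K) * S.relIndex (K ⊔ S) =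
      Nat.card S * Nat.card (pCoreOf 2 K) * 3 := by linarith
  exact Nat.eq_of_mul_eq_mul_left (Nat.mul_pos p1 p2) this

theorem sylK : SylIn 2 S (K ⊔ S) :=
  sylIn_of_not_dvd le_sup_right hS (by rw [idx3 h hS hN hO]; decide)

theorem nW : K ⊔ S ≤ Nm(wOf K) := sup_le (le_Nm_wOf K) (hN.trans (Nm_le_Nm_wOf K))

theorem nQ : K ⊔ S ≤ Nm(QK K S) :=
  CfH7.le_normalizer_inf le_normalizer ((nW h hS hN hO).trans (Nm_le_Nm_Cz _))

theorem QK_le : QK K S ≤ S := by
  refine (sylK h hS hN hO).le_of_le_Nm ?_ inf_le_left (le_sup_right.trans (nQ h hS hN hO))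
  refine CfH7.isPGroup_of_forall_coprime fun x hx ho => ?_
  have h1 := CfH7.mem_pResidualOf hx.1 ho
  rw [h.pResidualOf_sup hS hN] at h1
  refine CfH7.eq_one_of_mem_of_coprime (CfH7.isPGroup_pCoreOf K) ?_ ho
  rw [← h.inf_Cz_wOf]
  exact ⟨h1, hx.2⟩

theorem W_le_QK : wOf K ≤ QK K S :=
  le_inf ((wOf_le K).trans le_sup_left) (CfH7.elemAb_le_Cz (elemAb_wOf K))

theorem O_le_QK : pCoreOf 2 K ≤ QK K S :=
  le_inf ((CfH7.pCoreOf_le K).trans le_sup_left) (pCoreOf_le_Cz_wOf K)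

theorem mkPU (hW : ¬ S ≤ Cz(wOf K)) : PU 2 2 (K ⊔ S) S (QK K S) S := by
  haveI : Fact (Nat.Prime 3) := ⟨Nat.prime_three⟩
  have i3 := idx3 h hS hN hO
  have hQS := QK_le h hS hN hO
  have hNW := hN.trans (Nm_le_Nm_wOf K)
  have eQ : QK K S = S ⊓ Cz(wOf K) :=
    le_antisymm (le_inf hQS inf_le_right) (inf_le_inf_right _ le_sup_right)
  have i2 : (QK K S).relIndex S = 2 := by rw [eQ, inf_relIndex_left, idx_eq_two h hS hNW hW]
  have mx : ∀ X : Subgroup G, S ≤ X → X ≤ K ⊔ S → X ≤ S ∨ X = K ⊔ S := fun X a b =>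
    (eq_or_eq_of_relIndex_prime i3 a b).imp_left le_of_eq
  have irr : ∀ X : Subgroup G, QK K S ≤ X → X ≤ S → X = QK K S ∨ X = S := fun X a b =>
    eq_or_eq_of_relIndex_prime i2 a b
  have m2 : ∀ x ∈ S, ∀ y ∈ S, x ∉ QK K S → y ∉ QK K S → x * y ∈ QK K S := fun x hx y hy a b => by
    have : (⟨x, hx⟩ * ⟨y, hy⟩ : S) ∈ (QK K S).subgroupOf S := by
      rw [mul_mem_iff_of_index_two i2]
      exact iff_of_false a b
    exact this
  have ti : ∀ g ∈ K ⊔ S, g ∉ S → ∀ x ∈ S, g * x * g⁻¹ ∈ S → x ∈ QK K S := by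
    intro g hg hgS x hx hgx
    by_contra hxQ
    have e1 : QK K S ⊔ zpowers x = S := (irr _ le_sup_left (sup_le hQS (zpowers_le.2 hx))).resolve_left
      fun e => hxQ (e ▸ (le_sup_right : zpowers x ≤ _) (mem_zpowers x))
    have e2 : g ∈ Nm(S) := by
      apply mem_normalizer_of_cj_le
      conv_lhs => rw [← e1, cj_sup, cj_eq_of_mem_normalizer (nQ h hS hN hO hg), cj_zpowers]
      exact sup_le hQS (zpowers_le.2 hgx)
    have e3 : (K ⊔ S) ⊓ Nm(S) = K ⊔ S := (mx _ (le_inf le_sup_right le_normalizer) inf_le_left).resolve_left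
      fun e => hgS (e ⟨hg, e2⟩)
    have e4 : K ≤ Nm(S) := le_sup_left.trans (e3.ge.trans inf_le_right)
    rcases h.irred (U := wOf K ⊓ Cz(S)) inf_le_left
      (CfH7.le_normalizer_inf (le_Nm_wOf K) (e4.trans (Nm_le_Nm_Cz _))) with e | e
    · exact CfH9.inf_Cz_ne_bot hS (isPGroup_wOf K) hNW h.wOf_ne_bot e
    · exact hW (CfH7.le_Cz_comm (e.ge.trans inf_le_right))
  have ne : ¬ S ≤ QK K S := fun e => hW (e.trans inf_le_right)
  refine ⟨sylK h hS hN hO, hQS, le_rfl, le_sup_right, nQ h hS hN hO,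
    inf_le_inf_left _ (Cz_anti (W_le_QK h hS hN hO)), ?_, mx, ?_, ?_, ti, ?_,
    fun X a b _ => irr X a b, ?_, ne, ⟨⊥, 1, one_mem _, bot_le, ?_, fun m hm =>
      ⟨0, m, hm, 1, one_mem _, by simp⟩⟩⟩
  · obtain ⟨g, a, b⟩ := SetLike.not_le_iff_exists.1 (h.not_le hS)
    exact ⟨g, mem_sup_left a, b⟩
  · rw [commutator_le]
    intro x hx y hy
    have hn := le_sup_right.trans (nQ h hS hN hO)
    by_cases a : x ∈ QK K S
    · exact commutator_mem_left a (hn hy)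
    by_cases b : y ∈ QK K S
    · exact commutator_mem_right b (hn hx)
    rw [commutatorElement_def, mul_assoc (x * y)]
    exact mul_mem (m2 x hx y hy a b) (m2 _ (inv_mem hx) _ (inv_mem hy) (by rwa [inv_mem_iff])
      (by rwa [inv_mem_iff]))
  · intro x hx
    rw [sq]
    by_cases a : x ∈ QK K S
    · exact mul_mem a a
    · exact m2 x hx x hx a a
  · intro g hg hgS g' hg' hgS'
    by_cases c : g⁻¹ * g' ∈ S
    · exact ⟨1, one_mem _, by rwa [mul_one]⟩
    obtain ⟨s, hs, hsQ⟩ := SetLike.not_le_iff_exists.1 ne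
    refine ⟨s, hs, ?_⟩
    by_contra hc
    have c2 : g'⁻¹ * (s * g') ∉ S := fun e => hsQ (ti g'⁻¹ (inv_mem hg') (by rwa [inv_mem_iff]) s hs
      (by rwa [inv_inv, mul_assoc]))
    have c3 : s * g' ∉ S := fun e => hgS' ((mul_mem_cancel_left hs).1 e)
    have hsg : s * g' ∈ K ⊔ S := mul_mem (mem_sup_right hs) hg'
    let f : Fin 4 → (K ⊔ S : Subgroup G) ⧸ S.subgroupOf (K ⊔ S) := fun i =>
      QuotientGroup.mk (![1, ⟨g, hg⟩, ⟨g', hg'⟩, ⟨s * g', hsg⟩] i)
    have hf : Function.Injective f := by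
      have sy : ∀ a b : G, a⁻¹ * b ∉ S → b⁻¹ * a ∉ S := fun a b n e => n (by
        simpa using inv_mem e)
      have n1 : (1 : G)⁻¹ * g ∉ S := by simpa using hgS
      have n2 : (1 : G)⁻¹ * g' ∉ S := by simpa using hgS'
      have n3 : (1 : G)⁻¹ * (s * g') ∉ S := by simpa using c3
      have n4 : g⁻¹ * (s * g') ∉ S := by rwa [← mul_assoc]
      intro i j e
      have e' := mem_subgroupOf.1 (QuotientGroup.eq.1 e)
      fin_cases i <;> fin_cases j <;> first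
        | rfl
        | exact absurd e' n1 | exact absurd e' n2 | exact absurd e' n3 | exact absurd e' c
        | exact absurd e' n4 | exact absurd e' c2
        | exact absurd e' (sy _ _ n1) | exact absurd e' (sy _ _ n2) | exact absurd e' (sy _ _ n3)
        | exact absurd e' (sy _ _ c) | exact absurd e' (sy _ _ n4) | exact absurd e' (sy _ _ c2)
    have := Nat.card_le_card_of_injective f hf
    rw [Nat.card_fin, ← index_eq_card] at this
    change 4 ≤ S.relIndex (K ⊔ S) at this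
    omega
  · rw [← card_mul_relIndex hQS, i2, mul_comm]
  · exact CfH7.le_Nm_of_comm_le_left (by rw [commutator_bot_left])

theorem nc (hW : ¬ S ≤ Cz(wOf K)) : ¬ Zc(S) ≤ Cz(K ⊔ S) := fun e => by
  apply CfH9.inf_Cz_ne_bot hS (isPGroup_wOf K) (hN.trans (Nm_le_Nm_wOf K)) h.wOf_ne_bot
  rw [← le_bot_iff, ← W_inf_Cz h]
  exact le_inf inf_le_left ((inf_le_inf_right _ ((wOf_le_pCoreOf K).trans hO)).trans
    (e.trans (Cz_anti le_sup_left)))

theorem of_good (hc : CS 2 2 (K ⊔ S) S (QK K S) S) (hg : Good 2 (K ⊔ S) S (QK K S)) :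
    pCoreOf 2 K = wOf K := by
  have eO := h.pResidualOf_sup hS hN
  rcases hg with hI | ⟨A, h2⟩
  · have h1 : pCoreOf 2 K ≤ Zc(QK K S) := by
      refine le_trans ?_ hI
      rw [Lc, eO]
      exact (comm_O h).ge.trans (commutator_mono (O_le_QK h hS hN hO) le_rfl)
    have h2 : pCoreOf 2 K ≤ ⁅Zc(QK K S), pResidualOf 2 (K ⊔ S)⁆ := by
      rw [eO]
      exact (comm_O h).ge.trans (commutator_mono h1 le_rfl)
    have h3 := CfH7.elemAb_of_le h2 hc.toFF.elemAb_comm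
    refine le_antisymm ?_ (wOf_le_pCoreOf K)
    rw [wOf_def]
    exact (comm_O h).ge.trans (commutator_mono
      (CfH7.le_OZ h3 le_rfl (CfH7.elemAb_le_Cz h3)) le_rfl)
  · obtain ⟨d, e1, e2, e3⟩ := hc.exists_pd h2.hA h2.hT
    exact absurd rfl (d.II_ne_two (by rw [e1, e3]; exact h2))

end

end CfH8.W
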