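import Cfsg.Agent.OD.Pre
import Cfsg.Agent.H8.W3a

/-!
# One of the components is a block
-/

set_option autoImplicit false
set_option linter.unusedSectionVars false

namespace CfH8.W

open Subgroup MulAction CfH9 Cfsg CfLp
open scoped commutatorElement
open CfH7 (OZ ChP SubnIn nclo RedOn)

universe u

variable {G : Type*} [Group G] [Finite G] {T K K₂ L L₂ : Subgroup G}

/-- `C_T(Z(J(T)))` for the abelian Thompson subgroup -/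
abbrev SS (T : Subgroup G) : Subgroup G := T ⊓ Cz(Zc(TJ 0 T))

theorem T_le_Nm_SS (T : Subgroup G) : T ≤ Nm(SS T) :=
  CfH7.le_normalizer_inf le_normalizer
    (((le_normalizer.trans (Nm_le_Nm_TJ T)).trans (Nm_le_Nm_Zc _)).trans (Nm_le_Nm_Cz _))

theorem TJ_le_SS (T : Subgroup G) : TJ 0 T ≤ SS T :=
  le_inf (TJ_le T) (CfH7.le_Cz_comm inf_le_right)

theorem card_le_two_mul {A B : Subgroup G} (hBA : B ≤ A)
    (h : ∀ x ∈ A, ∀ y ∈ A, x ∉ B → y ∉ B → x⁻¹ * y ∈ B) : Nat.card A ≤ 2 * Nat.card B := by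
  classical
  have := card_le_mul_of_fibers (A := A) (X := Bool) (B.subgroupOf A)
    (fun a => decide ((a : G) ∈ B)) fun a b e => by
      rw [decide_eq_decide] at e
      by_cases ha : (a : G) ∈ B
      · exact mul_mem (inv_mem ha) (e.1 ha)
      · exact h a a.2 b b.2 ha fun hb => ha (e.2 hb)
  rwa [card_subgroupOf hBA, Nat.card_eq_fintype_card (α := Bool), Fintype.card_bool,
    mul_comm] at this

namespace Orb

variable (h : Orb T K K₂) (g : GH T)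
include h g

theorem O_le_T : pCoreOf 2 K ≤ T :=
  (comp_pCoreOf_le (h.ll g) h.jc h.le₁).trans (h.ll g).Q_le

theorem W_le_T : wOf K ≤ T := (wOf_le_pCoreOf K).trans (h.O_le_T g)

theorem maxEA_le_Nm {A : Subgroup G} (hA : MaxEA 0 T A) : A ≤ Nm(K) := by
  intro a ha
  by_contra haK
  have ea : cj a K = K₂ := (h.orb a (hA.le ha)).resolve_left fun e =>
    haK (mem_normalizer_iff_cj.2 e)
  have hne : K ≠ K₂ := fun e => haK (mem_normalizer_iff_cj.2 (ea.trans e.symm))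
  have eW : cj a (wOf K) = wOf K₂ := by rw [cj_wOf, ea]
  have hi := comp_wOf_inf (h.ll g) h.jc h.le₁ h.jc₂ h.le₂ hne
  have hc : wOf K₂ ≤ Cz(wOf K) :=
    (wOf_le K₂).trans (comp_le_Cz_wOf (h.ll g) h.jc h.le₁ h.jc₂ h.le₂ hne)
  have fix : ∀ x ∈ A, a * x * a⁻¹ = x := fun x hx =>
    conj_eq_self (cz_comm (le_Cz_of_comm hA.comm ha) hx)
  have cz2 : ∀ x ∈ A, x ∈ Cz(wOf K) ↔ x ∈ Cz(wOf K₂) := fun x hx => by
    rw [← eW, ← cj_centralizer, ← conj_mem_cj_iff (g := a), fix x hx]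
  have hpA := g.pgrp.to_le hA.le
  have c1 : Nat.card A ≤ 2 * Nat.card (A ⊓ Nm(K) : Subgroup G) :=
    card_le_two_mul inf_le_left fun x hx y hy nx ny => by
      have ex := (h.orb x (hA.le hx)).resolve_left fun e => nx ⟨hx, mem_normalizer_iff_cj.2 e⟩
      have ey := (h.orb y (hA.le hy)).resolve_left fun e => ny ⟨hy, mem_normalizer_iff_cj.2 e⟩
      refine ⟨A.mul_mem (A.inv_mem hx) hy, mem_normalizer_iff_cj.2 ?_⟩
      rw [cj_mul, ey, ← ex, cj_inv_cj]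
  have c2 : Nat.card (A ⊓ Nm(K) : Subgroup G) ≤ 2 * Nat.card (A ⊓ Cz(wOf K) : Subgroup G) := by
    have h1 := idx_le_two h.jc (hpA.to_le (inf_le_left : A ⊓ Nm(K) ≤ A))
      (inf_le_right.trans (Nm_le_Nm_wOf K))
    have h2 := card_mul_relIndex (inf_le_left : (A ⊓ Nm(K)) ⊓ Cz(wOf K) ≤ A ⊓ Nm(K))
    rw [inf_relIndex_left] at h2
    have h3 : Nat.card ((A ⊓ Nm(K)) ⊓ Cz(wOf K) : Subgroup G) ≤
        Nat.card (A ⊓ Cz(wOf K) : Subgroup G) := card_le_of_le (inf_le_inf_right _ inf_le_left)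
    nlinarith
  have i0 : (A ⊓ Cz(wOf K)) ⊓ wOf K = ⊥ := by
    rw [← le_bot_iff, ← hi]
    intro x hx
    refine ⟨hx.2, ?_⟩
    rw [← eW, ← fix x hx.1.1]
    exact conj_mem_cj a hx.2
  have c3 := card_sup_mul_card_inf (A := A ⊓ Cz(wOf K)) (B := wOf K)
    (inf_le_right.trans (Cz_le_Nm _))
  rw [i0, card_bot, mul_one, h.jc.cardW] at c3
  have hB : MaxEA 0 T ((A ⊓ Cz(wOf K)) ⊔ wOf K) :=
    hA.of_card_le (sup_le (inf_le_left.trans hA.le) (h.W_le_T g))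
      (elemAb_zero_iff.2 (comm_sup (CfH9.comm_of_le inf_le_left hA.comm) (elemAb_wOf K).1
        inf_le_right)) (by omega)
  have c4 := hA.card_eq hB
  have p0 : 0 < Nat.card (A ⊓ Cz(wOf K) : Subgroup G) := Nat.card_pos
  obtain ⟨x, hx, hxW⟩ : ∃ x ∈ A ⊓ Nm(K), x ∉ Cz(wOf K) := by
    by_contra hh
    push Not at hh
    have : Nat.card (A ⊓ Nm(K) : Subgroup G) ≤ Nat.card (A ⊓ Cz(wOf K) : Subgroup G) :=
      card_le_of_le fun x hx => ⟨hx.1, hh x hx⟩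
    omega
  have h2 : wOf K₂ ≤ (A ⊓ Cz(wOf K)) ⊔ wOf K := by
    refine hB.le_of_le_Cz (h.swap.W_le_T g) (elemAb_zero_iff.2 (elemAb_wOf K₂).1) ?_
    rw [Cz_sup]
    exact le_inf (CfH7.le_Cz_comm fun y hy => (cz2 y hy.1).1 hy.2) hc
  apply hxW
  rw [cz2 x hx.1]
  refine mem_Cz_of_comm fun v hv => ?_
  have hx2 : x ∈ Nm(wOf K₂) := by
    rw [← eW, ← cj_normalizer, ← fix x hx.1]
    exact conj_mem_cj a (Nm_le_Nm_wOf K hx.2)
  obtain ⟨b, hb, w, hw, rfl⟩ :=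
    (mem_sup_iff_of_le_normalizer_right (inf_le_right.trans (Cz_le_Nm _))).1 (h2 hv)
  rw [← mem_bot, ← hi]
  refine ⟨?_, commutator_mem_right hv hx2⟩
  rw [comm_mul_right, comm_eq_one (le_Cz_of_comm hA.comm hx.1) hb.1, one_mul]
  exact conj_mem_of_mem_normalizer (Cz_le_Nm _ hb.2)
    (commutator_mem_right hw (Nm_le_Nm_wOf K hx.2))

theorem TJ_le_Nm : TJ 0 T ≤ T ⊓ Nm(K) :=
  le_inf (TJ_le T) (TJ_le_iff.2 fun _ hA => h.maxEA_le_Nm g hA)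

theorem TJ_T0 : TJ 0 (T ⊓ Nm(K)) = TJ 0 T := TJ_eq_of_le (h.TJ_le_Nm g) inf_le_left

theorem O_le_T0 : pCoreOf 2 K ≤ T ⊓ Nm(K) :=
  le_inf (h.O_le_T g) ((CfH7.pCoreOf_le K).trans le_normalizer)

theorem W_inf_ne : wOf K ⊓ Cz(SS T) ≠ ⊥ := by
  refine ne_bot_of_le ?_ (CfH9.inf_Cz_ne_bot (g.pgrp.to_le (inf_le_left : T ⊓ Nm(K) ≤ T))
    (isPGroup_wOf K) (inf_le_right.trans (Nm_le_Nm_wOf K)) h.jc.wOf_ne_bot)
  refine le_inf inf_le_left (CfH7.le_Cz_comm (inf_le_right.trans (Cz_anti ?_)))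
  rw [← h.TJ_T0 g]
  exact (inf_le_inf_right _ ((wOf_le_pCoreOf K).trans (h.O_le_T0 g))).trans (Zc_le_ZJ _)

theorem SS_le_Nm : SS T ≤ Nm(K) :=
  comp_le_Nm_of_Cz (h.ll g) h.jc h.le₁ (inf_le_left.trans le_sup_right) (h.W_inf_ne g)

theorem SS_eq : (T ⊓ Nm(K)) ⊓ Cz(Zc(TJ 0 (T ⊓ Nm(K)))) = SS T := by
  rw [h.TJ_T0 g]
  exact le_antisymm (inf_le_inf_right _ inf_le_left)
    (le_inf (le_inf inf_le_left (h.SS_le_Nm g)) inf_le_right)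

theorem nW0 : ¬ T ⊓ Nm(K) ≤ Cz(wOf K) := fun e =>
  h.jc.not_le_Cz_J ((le_inf (J_le T) h.jc.le_Nm).trans e)

theorem pu0 : PU 2 2 (K ⊔ (T ⊓ Nm(K))) (T ⊓ Nm(K)) (QK K (T ⊓ Nm(K))) (T ⊓ Nm(K)) :=
  mkPU h.jc (g.pgrp.to_le inf_le_left) inf_le_right (h.O_le_T0 g) (h.nW0 g)

theorem nc0 : ¬ Zc(T ⊓ Nm(K)) ≤ Cz(K ⊔ (T ⊓ Nm(K))) :=
  nc h.jc (g.pgrp.to_le inf_le_left) inf_le_right (h.O_le_T0 g) (h.nW0 g)

theorem alpha (e : SS T ≤ Cz(wOf K)) : K ≤ Nm(SS T) := by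
  have h1 : TJ 0 (T ⊓ Nm(K)) ≤ QK K (T ⊓ Nm(K)) :=
    le_inf ((TJ_le _).trans le_sup_right) (by rw [h.TJ_T0 g]; exact (TJ_le_SS T).trans e)
  rw [← h.SS_eq g, (h.pu0 g).Jt_eq (h.nc0 g) h1]
  exact le_sup_left.trans (CfH7.le_normalizer_inf (h.pu0 g).nT ((h.pu0 g).nCz (h.pu0 g).nZJ))

theorem beta (e : ¬ SS T ≤ Cz(wOf K)) : pCoreOf 2 K ≤ SS T := by
  obtain ⟨N, hN, eN⟩ := (h.pu0 g).baumann (h.nc0 g)
  rw [h.SS_eq g] at eN
  obtain ⟨x, hx, hxW⟩ := SetLike.not_le_iff_exists.1 e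
  rw [← eN] at hx
  have := (h.pu0 g).O_le hN hx.1 (fun c => hxW c.2) hx.2
  rw [h.jc.pResidualOf_sup (g.pgrp.to_le inf_le_left) inf_le_right] at this
  rw [← eN]
  exact le_inf (h.O_le_T0 g) ((CfH7.pCoreOf_le K).trans this)

theorem beta₂ (e : ¬ SS T ≤ Cz(wOf K)) : ¬ SS T ≤ Cz(wOf K₂) := fun c => by
  obtain ⟨t, ht, rfl⟩ := h.ex
  rw [← cj_wOf, ← cj_centralizer, ← cj_eq_of_mem_normalizer (T_le_Nm_SS T ht),
    cj_le_cj_iff] at c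
  exact e c

theorem le_O (e : SS T ≤ Cz(wOf K)) : SS T ≤ pCoreOf 2 (K ⊔ K₂ ⊔ T) :=
  CfH7.le_pCoreOf (inf_le_left.trans le_sup_right)
    (sup_le (sup_le (h.alpha g e) (h.Nm₂ (T_le_Nm_SS T) (h.alpha g e))) (T_le_Nm_SS T))
    (g.pgrp.to_le inf_le_left)

theorem pu (e : ¬ SS T ≤ Cz(wOf K)) : PU 2 2 (K ⊔ SS T) (SS T) (QK K (SS T)) (SS T) :=
  mkPU h.jc (g.pgrp.to_le inf_le_left) (h.SS_le_Nm g) (h.beta g e) e

theorem ncS (e : ¬ SS T ≤ Cz(wOf K)) : ¬ Zc(SS T) ≤ Cz(K ⊔ SS T) :=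
  nc h.jc (g.pgrp.to_le inf_le_left) (h.SS_le_Nm g) (h.beta g e) e

theorem nPhi (e : ¬ SS T ≤ Cz(wOf K)) : K ≤ Nm(phiJoin 2 (SS T)) := by
  have hJ : SS T ≤ Cz(Zc(TJ 0 (SS T))) := by
    rw [TJ_eq_of_le (TJ_le_SS T) inf_le_left]; exact inf_le_right
  refine le_sup_left.trans (((h.pu g e).thmD hJ).resolve_left fun c => h.ncS g e ?_)
  exact CfH7.le_Cz_comm ((h.pu g e).le_Cz_of_normal c (CfH7.le_Cz_comm inf_le_right))

omit g in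
theorem blk (e : pCoreOf 2 K₂ = wOf K₂) : pCoreOf 2 K = wOf K := by
  obtain ⟨t, -, rfl⟩ := h.swap.ex
  rw [← CfH7.cj_pCoreOf, ← cj_wOf, e]

theorem nZ : T ≤ Nm(Zc(QK K (SS T)) ⊔ Zc(QK K₂ (SS T))) := fun t ht => by
  apply mem_normalizer_of_cj_le
  have k : ∀ X : Subgroup G, cj t Zc(QK X (SS T)) = Zc(QK (cj t X) (SS T)) := fun X => by
    rw [cj_Zc, cj_inf, cj_sup, cj_centralizer, cj_wOf,
      cj_eq_of_mem_normalizer (T_le_Nm_SS T ht)]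
  rw [cj_sup, k, k]
  refine sup_le ?_ ?_
  · rcases h.orb t ht with e | e <;> rw [e]
    exacts [le_sup_left, le_sup_right]
  · rcases h.swap.orb t ht with e | e <;> rw [e]
    exacts [le_sup_right, le_sup_left]

end Orb

namespace Cf

variable (h : Cf T K K₂ L L₂)
include h

theorem beta : ¬ SS T ≤ Cz(wOf K) := fun e => by
  by_cases e' : SS T ≤ Cz(wOf L)
  · have e0 := h.core _ inf_le_left (T_le_Nm_SS T) (h.oK.alpha h.gh e) (h.oL.alpha h.gh e')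
    obtain ⟨A, hA⟩ := exists_maxEA 0 T
    have h1 := hA.max _ (h.oK.W_le_T h.gh) (elemAb_zero_iff.2 (elemAb_wOf K).1)
    rw [le_bot_iff.1 ((hA.le_TJ.trans (TJ_le_SS T)).trans e0.le), card_bot, h.oK.jc.cardW] at h1
    omega
  · exact h.pL ((sup_le (h.oL.beta h.gh e') (h.oL.swap.beta h.gh (h.oL.beta₂ h.gh e'))).trans
      (h.oK.le_O h.gh e))

theorem cds : CDS 2 (SS T) := by
  have hp : IsPGroup 2 (SS T) := h.gh.pgrp.to_le inf_le_left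
  have h0 : phiJoin 2 (SS T) = ⊥ := by
    refine h.core _ (sSup_le ?_) (fun t ht => ?_) (h.oK.nPhi h.gh h.beta)
      (h.oL.nPhi h.gh h.symm.beta)
    · rintro _ ⟨Q, hQ, rfl⟩
      exact (Phi_le Q).trans (hQ.1.cl.cd.le.trans inf_le_left)
    · rw [mem_normalizer_iff_cj]
      exact (map_phiJoin (MulAut.conj t).injective _).trans
        (congrArg (phiJoin 2) (cj_eq_of_mem_normalizer (T_le_Nm_SS T ht)))
  obtain ⟨Q, hQ, hQe⟩ := elemAb_of_phiJoin hp h0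
  have k : ∀ A, MaxEA 0 (SS T) A → CD (SS T) A := fun A hA => ((hQ.iff_maxEA hQe.1).2 hA).cl.cd
  refine ⟨k, ?_, fun z hz => hQe.2 z (hQ.cl.cz ⟨hz.1, Cz_anti hQ.cl.cd.le hz.2⟩)⟩
  have c1 : CD (SS T) (TJ 0 (SS T)) := by
    have e : sSup {A | MaxEA 0 (SS T) A} = TJ 0 (SS T) :=
      le_antisymm (sSup_le fun A hA => hA.le_TJ) (TJ_le_iff.2 fun A hA => le_sSup hA)
    rw [← e]
    exact cd_sSup (exists_maxEA 0 _) k
  rw [← c1.cz_cz, inf_Cz_TJ_zero, ZJ_zero, TJ_eq_of_le (TJ_le_SS T) inf_le_left]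
  exact inf_eq_left.2 inf_le_right

theorem cs : CS 2 2 (K ⊔ SS T) (SS T) (QK K (SS T)) (SS T) :=
  (h.oK.pu h.gh h.beta).cs (h.oK.ncS h.gh h.beta) h.cds

theorem not_good (n : pCoreOf 2 K ≠ wOf K) : ¬ Good 2 (K ⊔ SS T) (SS T) (QK K (SS T)) := fun c =>
  n (of_good h.oK.jc (h.gh.pgrp.to_le inf_le_left) (h.oK.SS_le_Nm h.gh)
    (h.oK.beta h.gh h.beta) h.cs c)

end Cf

theorem p3 : P3.{u} := by
  intro G _ _ T K K₂ L L₂ h
  by_contra hc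
  push Not at hc
  obtain ⟨n1, n2⟩ := hc
  have g1 := h.not_good n1
  have g2 := h.swap.not_good fun e => n1 (h.oK.blk e)
  have g3 := h.symm.not_good n2
  have g4 := h.symm.swap.not_good fun e => n2 (h.oL.blk e)
  have c1 := h.cs
  have c2 := h.swap.cs
  have c3 := h.symm.cs
  have c4 := h.symm.swap.cs
  have pr : ∀ {X Y : Subgroup G}, CS 2 2 (X ⊔ SS T) (SS T) (QK X (SS T)) (SS T) →
      CS 2 2 (Y ⊔ SS T) (SS T) (QK Y (SS T)) (SS T) →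
      ¬ Good 2 (X ⊔ SS T) (SS T) (QK X (SS T)) → ¬ Good 2 (Y ⊔ SS T) (SS T) (QK Y (SS T)) →
      Y ≤ Nm(Zc(QK X (SS T)) ⊔ Zc(QK Y (SS T))) := fun a b c d =>
    le_sup_left.trans ((pair a b).resolve_right (not_or.2 ⟨c, d⟩)).2
  set Z1 := Zc(QK K (SS T))
  set Z2 := Zc(QK K₂ (SS T))
  set Z3 := Zc(QK L (SS T))
  set Z4 := Zc(QK L₂ (SS T))
  have e := h.core ((Z1 ⊔ Z2) ⊔ (Z3 ⊔ Z4))
    (sup_le (sup_le (c1.Z_le_S.trans inf_le_left) (c2.Z_le_S.trans inf_le_left))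
      (sup_le (c3.Z_le_S.trans inf_le_left) (c4.Z_le_S.trans inf_le_left)))
    (CfH7.le_normalizer_sup (h.oK.nZ h.gh) (h.oL.nZ h.gh))
    (by
      rw [show (Z1 ⊔ Z2) ⊔ (Z3 ⊔ Z4) = (Z2 ⊔ Z1) ⊔ ((Z3 ⊔ Z1) ⊔ (Z4 ⊔ Z1)) by ac_rfl]
      exact CfH7.le_normalizer_sup (pr c2 c1 g2 g1)
        (CfH7.le_normalizer_sup (pr c3 c1 g3 g1) (pr c4 c1 g4 g1)))
    (by
      rw [show (Z1 ⊔ Z2) ⊔ (Z3 ⊔ Z4) = (Z1 ⊔ Z3) ⊔ ((Z2 ⊔ Z3) ⊔ (Z4 ⊔ Z3)) by ac_rfl]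
      exact CfH7.le_normalizer_sup (pr c1 c3 g1 g3)
        (CfH7.le_normalizer_sup (pr c2 c3 g2 g3) (pr c4 c3 g4 g3)))
  exact c1.nc (c1.ZS_le_Z.trans (((le_sup_left.trans le_sup_left).trans e.le).trans bot_le))

end CfH8.W
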